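import Cfsg.Agent.GeomClasses.SubspaceDerange
import Cfsg.Agent.Forms.SympBasis

/-!
# Isometries of prime order of alternating forms: nondegenerate invariant subspaces
-/

set_option autoImplicit false
set_option linter.unusedSectionVars false

namespace Cfsg.Agent.GeomClasses.SympStructure

open Module Polynomial

variable {F V : Type*} [Field F] [Fintype F] [AddCommGroup V] [Module F V] [FiniteDimensional F V]
  {B : LinearMap.BilinForm F V}

/-- The restriction of `B` to `W` is nondegenerate. -/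
def Nd (B : LinearMap.BilinForm F V) (W : Submodule F V) : Prop :=
  ∀ w ∈ W, (∀ x ∈ W, B w x = 0) → w = 0

theorem nd_disjoint (hA : B.IsAlt) {W : Submodule F V} (h : Nd B W) : Disjoint W (B.orthogonal W) := by
  rw [Submodule.disjoint_def]
  exact fun x hx hx' => h x hx fun y hy => hA.isRefl _ _ (hx' y hy)

theorem nd_top (hB : B.Nondegenerate) : Nd B ⊤ := fun w _ h => hB.1 w fun x => h x trivial

theorem nd_isCompl (hA : B.IsAlt) {W : Submodule F V} (h : Nd B W) : IsCompl W (B.orthogonal W) :=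
  (LinearMap.BilinForm.isCompl_orthogonal_iff_disjoint hA.isRefl).2 (nd_disjoint hA h)

theorem nd_even (hA : B.IsAlt) {W : Submodule F V} (h : Nd B W) : Even (finrank F W) := by
  have hI : Cfsg.Agent.Forms.IsForm (RingHom.id F) (B.restrict W) (fun _ => (0 : F)) := by
    refine Cfsg.Agent.Forms.isForm_alt _ ⟨fun u hu => Subtype.ext (h u u.2 fun x hx => hu ⟨x, hx⟩),
      fun u hu => Subtype.ext (h u u.2 fun x hx => hA.isRefl _ _ (hu ⟨x, hx⟩))⟩ fun x => hA (x : V)
  obtain ⟨m, v, hm, -⟩ := Cfsg.Agent.Forms.exists_symp_family hI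
  exact ⟨m, by omega⟩

/-- The orthogonal complement of a nondegenerate subspace inside another one. -/
theorem nd_split (hA : B.IsAlt) {U W : Submodule F V} (hU : Nd B U) (hW : Nd B W) (hUW : U ≤ W) :
    Nd B (W ⊓ B.orthogonal U) ∧ finrank F U + finrank F ↥(W ⊓ B.orthogonal U) = finrank F W ∧
      U ⊔ (W ⊓ B.orthogonal U) = W := by
  have hc := nd_isCompl hA hU
  have hsup : U ⊔ (W ⊓ B.orthogonal U) = W := by
    rw [inf_comm W, ← sup_inf_assoc_of_le _ hUW, hc.sup_eq_top, top_inf_eq]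
  refine ⟨fun w hw h => hW w hw.1 fun x hx => ?_, ?_, hsup⟩
  · rw [← hsup] at hx
    obtain ⟨u, hu, y, hy, rfl⟩ := Submodule.mem_sup.1 hx
    rw [map_add, h y hy, add_zero]
    exact hA.isRefl _ _ (hw.2 u hu)
  · have h := Submodule.finrank_sup_add_finrank_inf_eq U (W ⊓ B.orthogonal U)
    rw [hsup, show U ⊓ (W ⊓ B.orthogonal U) = ⊥ from le_bot_iff.1 (hc.inf_eq_bot ▸ inf_le_inf_left _ inf_le_right),
      finrank_bot, add_zero] at h
    exact h.symm

/-- Orthogonal sums of nondegenerate subspaces are nondegenerate. -/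
theorem nd_sup (hA : B.IsAlt) {U U' : Submodule F V} (hU : Nd B U) (hU' : Nd B U') (h : U' ≤ B.orthogonal U) :
    Nd B (U ⊔ U') := by
  intro w hw hz
  obtain ⟨a, ha, b, hb, rfl⟩ := Submodule.mem_sup.1 hw
  have ha0 : a = 0 := hU a ha fun x hx => by
    have := hz x (Submodule.mem_sup_left hx)
    rwa [map_add, LinearMap.add_apply, hA.isRefl _ _ (h hb x hx), add_zero] at this
  have hb0 : b = 0 := hU' b hb fun x hx => by
    have := hz x (Submodule.mem_sup_right hx)
    rwa [ha0, zero_add] at this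
  rw [ha0, hb0, add_zero]

/-- Nondegenerate subspaces of every even dimension. -/
theorem exists_nd_sub (hA : B.IsAlt) {Z : Submodule F V} (hZ : Nd B Z) :
    ∀ e, 2 * e ≤ finrank F Z → ∃ U ≤ Z, Nd B U ∧ finrank F U = 2 * e := by
  intro e
  induction e with
  | zero =>
    exact fun _ => ⟨⊥, bot_le, fun w hw _ => (Submodule.mem_bot F).1 hw, by rw [finrank_bot]⟩
  | succ e ih =>
    intro he
    obtain ⟨U, hUZ, hU, hUd⟩ := ih (by omega)
    obtain ⟨hY, hYd, -⟩ := nd_split hA hU hZ hUZ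
    set Y := Z ⊓ B.orthogonal U
    obtain ⟨u, hu, hu0⟩ : ∃ u ∈ Y, u ≠ 0 := (Submodule.ne_bot_iff _).1 fun h => by
      rw [h, finrank_bot] at hYd; omega
    obtain ⟨v, hv, huv⟩ : ∃ v ∈ Y, B u v ≠ 0 := by
      by_contra hc
      push_neg at hc
      exact hu0 (hY u hu hc)
    set P := Submodule.span F (Set.range ![u, v])
    have hP : ∀ w ∈ P, ∃ a b : F, a • u + b • v = w := fun w hw => by
      obtain ⟨c, rfl⟩ := (Submodule.mem_span_range_iff_exists_fun F).1 hw
      exact ⟨c 0, c 1, by simp⟩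
    have hPmem : u ∈ P ∧ v ∈ P := ⟨Submodule.subset_span ⟨0, rfl⟩, Submodule.subset_span ⟨1, rfl⟩⟩
    have hPY : P ≤ Y := Submodule.span_le.2 (by rintro _ ⟨i, rfl⟩; fin_cases i <;> assumption)
    have hPn : Nd B P := by
      intro w hw h
      obtain ⟨a, b, rfl⟩ := hP w hw
      have h1 := h v hPmem.2
      have h2 := h u hPmem.1
      simp only [map_add, map_smul, LinearMap.add_apply, LinearMap.smul_apply, hA u, hA v, smul_eq_mul, mul_zero,
        add_zero, zero_add] at h1 h2
      rw [← LinearMap.IsAlt.neg hA u v] at h2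
      rw [(mul_eq_zero.1 h1).resolve_right huv, (mul_eq_zero.1 h2).resolve_right (neg_ne_zero.2 huv), zero_smul,
        zero_smul, add_zero]
    have hPd : finrank F P = 2 := by
      obtain ⟨m, hm⟩ := nd_even hA hPn
      have h1 : finrank F P ≤ 2 := (finrank_range_le_card _).trans_eq (Fintype.card_fin 2)
      have h0 : finrank F P ≠ 0 := fun h => hu0 (by
        have := hPmem.1
        rwa [Submodule.finrank_eq_zero.1 h, Submodule.mem_bot] at this)
      omega
    refine ⟨U ⊔ P, sup_le hUZ (hPY.trans inf_le_left), nd_sup hA hU hPn (hPY.trans inf_le_right), ?_⟩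
    rw [SubspaceDerange.finrank_sup_of_disjoint (le_bot_iff.1 ((nd_isCompl hA hU).inf_eq_bot ▸
      inf_le_inf_left _ (hPY.trans inf_le_right))), hUd, hPd]
    ring

variable {q r i : ℕ} [Fact r.Prime] {T : Module.End F V}

/-- The orthogonal complement of an invariant subspace is invariant. -/
theorem orth_invariant (hTB : ∀ x y, B (T x) (T y) = B x y) (hinj : Function.Injective T) {W : Submodule F V}
    (hW : ∀ w ∈ W, T w ∈ W) : ∀ v ∈ B.orthogonal W, T v ∈ B.orthogonal W := by
  intro v hv w hw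
  obtain ⟨w', hw'⟩ := (LinearMap.injective_iff_surjective (f := T.restrict hW)).1
    (fun a b h => Subtype.ext (hinj (congrArg Subtype.val h))) ⟨w, hw⟩
  rw [show w = T (w' : V) from (congrArg Subtype.val hw').symm]
  exact (hTB _ _).trans (hv _ w'.2)

/-- The fixed part of a nondegenerate invariant subspace is nondegenerate. -/
theorem nd_fixed (hA : B.IsAlt) (hTB : ∀ x y, B (T x) (T y) = B x y) (hT : T ^ r = 1) (hrF : (r : F) ≠ 0)
    {W : Submodule F V} (hW : ∀ w ∈ W, T w ∈ W) (hWn : Nd B W) : Nd B (W ⊓ LinearMap.ker (T - 1)) := by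
  intro v hv h
  refine hWn v hv.1 fun w hw => ?_
  have hTv : T v = v := sub_eq_zero.1 hv.2
  have hpow : ∀ l : ℕ, (T ^ l) w ∈ W ∧ B v ((T ^ l) w) = B v w := by
    intro l
    induction l with
    | zero => exact ⟨by simpa using hw, by simp⟩
    | succ l ih =>
      rw [pow_succ', Module.End.mul_apply]
      refine ⟨hW _ ih.1, ?_⟩
      conv_lhs => rw [← hTv]
      rw [hTB, ih.2]
  have hs : ∑ l ∈ Finset.range r, (T ^ l) w ∈ W ⊓ LinearMap.ker (T - 1) := by
    refine ⟨Submodule.sum_mem _ fun l _ => (hpow l).1, ?_⟩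
    show (T - 1) _ = 0
    rw [← LinearMap.sum_apply, ← Module.End.mul_apply, mul_geom_sum, hT, sub_self, LinearMap.zero_apply]
  have := h _ hs
  rw [map_sum, Finset.sum_congr rfl (fun l _ => (hpow l).2), Finset.sum_const, Finset.card_range, nsmul_eq_mul] at this
  exact (mul_eq_zero.1 this).resolve_left hrF

/-- A nondegenerate invariant subspace of minimal dimension without fixed points. -/
theorem exists_atom (hA : B.IsAlt) (hTB : ∀ x y, B (T x) (T y) = B x y) (hT : T ^ r = 1) (hrF : (r : F) ≠ 0)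
    (hr2 : r ≠ 2) (hq : Fintype.card F = q) (hrq : ¬ r ∣ q) (hi : i = orderOf (q : ZMod r)) {c : ℕ}
    (hc : c = if Even i then i else 2 * i) {W : Submodule F V} (hW : ∀ w ∈ W, T w ∈ W) (hWn : Nd B W)
    (hfree : W ⊓ LinearMap.ker (T - 1) = ⊥) (hne : W ≠ ⊥) :
    ∃ U ≤ W, (∀ u ∈ U, T u ∈ U) ∧ Nd B U ∧ finrank F U = c := by
  classical
  obtain ⟨hi0, hidvd⟩ := SubspaceDerange.dvd_pow_sub_one hrq hi
  have hr : r.Prime := Fact.out
  have hinj : Function.Injective T := fun a b h => by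
    have := congrArg (T ^ (r - 1)) h
    rwa [← Module.End.mul_apply, ← Module.End.mul_apply, ← pow_succ, Nat.sub_add_cancel hr.one_lt.le, hT,
      Module.End.one_apply, Module.End.one_apply] at this
  have hmult : ∀ U : Submodule F V, U ≤ W → (∀ u ∈ U, T u ∈ U) → i ∣ finrank F U := by
    intro U hUW hU
    have h := SubspaceDerange.dim_mod hq hrq hi hT hU
    rw [show U ⊓ LinearMap.ker (T - 1) = ⊥ from le_bot_iff.1 (hfree ▸ inf_le_inf_right _ hUW), finrank_bot] at h
    exact Nat.modEq_zero_iff_dvd.1 h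
  have hatom : ∀ U : Submodule F V, U ≤ W → (∀ u ∈ U, T u ∈ U) → finrank F U = i →
      Nd B U ∨ ∀ a ∈ U, ∀ b ∈ U, B a b = 0 := by
    intro U hUW hU hd
    by_cases h : U ⊓ B.orthogonal U = ⊥
    · refine Or.inl fun w hw h' => ?_
      have : w ∈ U ⊓ B.orthogonal U := ⟨hw, fun x hx => hA.isRefl _ _ (h' x hx)⟩
      rwa [h, Submodule.mem_bot] at this
    · refine Or.inr fun a ha b hb => ?_
      have hinv : ∀ v ∈ U ⊓ B.orthogonal U, T v ∈ U ⊓ B.orthogonal U :=
        fun v hv => ⟨hU v hv.1, orth_invariant hTB hinj hU v hv.2⟩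
      have h1 := hmult _ (inf_le_left.trans hUW) hinv
      have h0 : finrank F ↥(U ⊓ B.orthogonal U) ≠ 0 := fun e => h (Submodule.finrank_eq_zero.1 e)
      have h2 := Nat.le_of_dvd (Nat.pos_of_ne_zero h0) h1
      have h3 : U ⊓ B.orthogonal U = U := Submodule.eq_of_le_of_finrank_le inf_le_left (hd ▸ h2)
      rw [← h3] at hb
      exact hb.2 a ha
  have hdone : ∀ U : Submodule F V, U ≤ W → (∀ u ∈ U, T u ∈ U) → finrank F U = i → Nd B U →
      ∃ U ≤ W, (∀ u ∈ U, T u ∈ U) ∧ Nd B U ∧ finrank F U = c :=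
    fun U hUW hU hd hn => ⟨U, hUW, hU, hn, by rw [hc, if_pos (hd ▸ nd_even hA hn), hd]⟩
  obtain ⟨U, -, hUW, hU, hUd⟩ := SubspaceDerange.step hq hrq hi hT hW hfree (U := ⊥)
    (fun v hv => by rw [Submodule.mem_bot] at hv; simp [hv]) bot_le (by
      rw [finrank_bot]; exact Nat.pos_of_ne_zero fun e => hne (Submodule.finrank_eq_zero.1 e))
  rw [finrank_bot, zero_add] at hUd
  rcases hatom U hUW hU hUd with hUn | hUiso
  · exact hdone U hUW hU hUd hUn
  -- an invariant subspace paired with `U`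
  set TW := T.restrict hW
  have hTW : TW ^ r = 1 := LinearMap.ext fun w => Subtype.ext (by
    rw [Module.End.pow_restrict r, LinearMap.restrict_apply]; simp [hT])
  set P := W ⊓ B.orthogonal U
  have hP : ∀ v ∈ P, T v ∈ P := fun v hv => ⟨hW v hv.1, orth_invariant hTB hinj hU v hv.2⟩
  obtain ⟨C₀, hC₀, hC₀i⟩ := SubspaceDerange.exists_compl (T := TW) hr.pos hrF (one_ne_zero (α := F))
    (by rw [hTW, one_smul]) (U := P.comap W.subtype) (fun w hw => hP _ hw)
  set C := C₀.map W.subtype with hC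
  have hCW : C ≤ W := Submodule.map_subtype_le _ _
  have hCi : ∀ v ∈ C, T v ∈ C := by rintro _ ⟨w, hw, rfl⟩; exact ⟨TW w, hC₀i w hw, rfl⟩
  have hCU : ∀ v ∈ C, (∀ u ∈ U, B u v = 0) → v = 0 := by
    rintro _ ⟨w, hw, rfl⟩ h
    have : w ∈ P.comap W.subtype ⊓ C₀ := ⟨⟨w.2, h⟩, hw⟩
    rw [hC₀.inf_eq_bot, Submodule.mem_bot] at this
    rw [this]; rfl
  have hCle : finrank F C ≤ i := by
    let ψ : C →ₗ[F] Module.Dual F U :=
      (B.compl₁₂ U.subtype C.subtype).flip
    have hψ : ∀ (x : C) (u : U), ψ x u = B u x := fun x u => rfl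
    have hψi : Function.Injective ψ := (injective_iff_map_eq_zero _).2 fun x hx => Subtype.ext
      (hCU x x.2 fun u hu => by rw [← hψ x ⟨u, hu⟩, hx]; rfl)
    have := LinearMap.finrank_le_finrank_of_injective hψi
    rwa [Subspace.dual_finrank_eq, hUd] at this
  have hCne : C ≠ ⊥ := by
    intro h
    obtain ⟨u, hu, hu0⟩ := (Submodule.ne_bot_iff U).1 (fun e => by rw [e, finrank_bot] at hUd; omega)
    refine hu0 (hWn u (hUW hu) fun x hx => ?_)
    have hC₀0 : C₀ = ⊥ := Submodule.map_injective_of_injective W.injective_subtype (by rw [← hC, h, Submodule.map_bot])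
    have htop : P.comap W.subtype = ⊤ := by
      have := hC₀.sup_eq_top
      rwa [hC₀0, sup_bot_eq] at this
    have hxP : (⟨x, hx⟩ : W) ∈ P.comap W.subtype := htop ▸ Submodule.mem_top
    exact hxP.2 u hu
  have hCd : finrank F C = i := by
    refine le_antisymm hCle (Nat.le_of_dvd ?_ (hmult C hCW hCi))
    exact Nat.pos_of_ne_zero fun e => hCne (Submodule.finrank_eq_zero.1 e)
  rcases hatom C hCW hCi hCd with hCn | hCiso
  · exact hdone C hCW hCi hCd hCn
  have hUC : ∀ u ∈ U, (∀ x ∈ C, B u x = 0) → u = 0 := by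
    intro u hu h
    by_contra hu0
    set S := U ⊓ B.orthogonal C
    have hS : ∀ v ∈ S, T v ∈ S := fun v hv => ⟨hU v hv.1, orth_invariant hTB hinj hCi v hv.2⟩
    have hS0 : finrank F S ≠ 0 := fun e => hu0 (by
      have : u ∈ S := ⟨hu, fun x hx => hA.isRefl _ _ (h x hx)⟩
      rwa [Submodule.finrank_eq_zero.1 e, Submodule.mem_bot] at this)
    have hSU : S = U := Submodule.eq_of_le_of_finrank_le inf_le_left
      (hUd ▸ Nat.le_of_dvd (Nat.pos_of_ne_zero hS0) (hmult S (inf_le_left.trans hUW) hS))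
    obtain ⟨x, hx, hx0⟩ := (Submodule.ne_bot_iff C).1 hCne
    exact hx0 (hCU x hx fun a ha => hA.isRefl _ _ ((hSU ▸ ha : a ∈ S).2 x hx))
  have hdisj : U ⊓ C = ⊥ := eq_bot_iff.2 fun v hv => (Submodule.mem_bot F).2
    (hCU v hv.2 fun u hu => hUiso u hu v hv.1)
  set W₁ := U ⊔ C with hW₁
  have hW₁W : W₁ ≤ W := sup_le hUW hCW
  have hW₁d : finrank F W₁ = 2 * i := by
    rw [SubspaceDerange.finrank_sup_of_disjoint hdisj, hUd, hCd, two_mul]
  have hW₁i : ∀ v ∈ W₁, T v ∈ W₁ := fun v hv => by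
    obtain ⟨a, ha, b, hb, rfl⟩ := Submodule.mem_sup.1 hv
    rw [map_add]
    exact add_mem (Submodule.mem_sup_left (hU a ha)) (Submodule.mem_sup_right (hCi b hb))
  have hW₁n : Nd B W₁ := by
    intro w hw h
    obtain ⟨a, ha, b, hb, rfl⟩ := Submodule.mem_sup.1 hw
    have hb0 : b = 0 := hCU b hb fun u hu => hA.isRefl _ _ (by
      have := h u (Submodule.mem_sup_left hu)
      rwa [map_add, LinearMap.add_apply, hUiso a ha u hu, zero_add] at this)
    have ha0 : a = 0 := hUC a ha fun x hx => by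
      have := h x (Submodule.mem_sup_right hx)
      rwa [hb0, add_zero] at this
    rw [ha0, hb0, add_zero]
  by_cases hie : Even i
  swap
  · exact ⟨W₁, hW₁W, hW₁i, hW₁n, by rw [hc, if_neg hie, hW₁d]⟩
  -- the case of a self dual orbit
  obtain ⟨h, hh⟩ := hie
  have hh0 : 0 < h := by omega
  have hq1 : 1 < q := hq ▸ Fintype.one_lt_card
  have hqh : r ∣ q ^ h + 1 := by
    have h1 : ((q : ZMod r) ^ h) * (q : ZMod r) ^ h = 1 := by
      rw [← pow_add, ← hh, hi, pow_orderOf_eq_one]
    rcases mul_self_eq_one_iff.1 h1 with e | e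
    · have := Nat.le_of_dvd hh0 (hi ▸ orderOf_dvd_of_pow_eq_one e)
      omega
    · exact (ZMod.natCast_eq_zero_iff _ _).1 (by push_cast; rw [e, neg_add_cancel])
  set S := T ^ (q ^ h) with hS
  have hTS : T * S = 1 := by
    obtain ⟨l, hl⟩ := hqh
    rw [hS, ← pow_succ', hl, pow_mul, hT, one_pow]
  have hadj : ∀ (P : F[X]) (x y : V), B (aeval T P x) y = B x (aeval S P y) := by
    intro P
    induction P using Polynomial.induction_on with
    | C a => intro x y; simp [Module.algebraMap_end_apply]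
    | add P Q hP hQ => intro x y; simp [hP, hQ]
    | monomial k a ih =>
      intro x y
      rw [pow_succ, ← mul_assoc]
      generalize Polynomial.C a * X ^ k = P at ih ⊢
      have hcs : S (aeval S P y) = aeval S P (S y) := by
        have := LinearMap.congr_fun ((Commute.all X P).map (aeval S)).eq y
        simpa using this
      simp only [map_mul, aeval_X, Module.End.mul_apply]
      rw [ih, ← hcs, ← hTB x (S _), ← Module.End.mul_apply T S, hTS, Module.End.one_apply]
  set TU := T.restrict hU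
  set Pol := TU.charpoly
  have hPU : ∀ u ∈ U, aeval T Pol u = 0 := by
    intro u hu
    have hrestr : ∀ (P : F[X]) (w : U), ((aeval TU P) w : V) = aeval T P (w : V) := by
      intro P
      induction P using Polynomial.induction_on with
      | C a => intro w; simp [Module.algebraMap_end_apply]
      | add P Q hP hQ => intro w; simp [hP, hQ]
      | monomial k a ih =>
        intro w
        rw [pow_succ, ← mul_assoc]
        generalize Polynomial.C a * X ^ k = P at ih ⊢
        simp only [map_mul, aeval_X, Module.End.mul_apply]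
        rw [ih]
        rfl
    rw [← hrestr Pol ⟨u, hu⟩, LinearMap.aeval_self_charpoly]; rfl
  have hfrob : ∀ l : ℕ, aeval (T ^ (q ^ l)) Pol = (aeval T Pol) ^ (q ^ l) := by
    intro l
    induction l with
    | zero => simp
    | succ l ih =>
      rw [pow_succ, pow_mul, ← expand_aeval, ← hq, FiniteField.expand_card, map_pow, hq, ih, ← pow_mul]
  have hPSU : ∀ u ∈ U, aeval S Pol u = 0 := by
    intro u hu
    rw [hS, hfrob, ← Nat.sub_add_cancel (Nat.one_le_pow h q (by omega)), pow_succ, Module.End.mul_apply, hPU u hu,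
      map_zero]
  have hPC : ∀ x ∈ C, aeval T Pol x = 0 := fun x hx => hCU _ (SubspaceDerange.aeval_mem hCi Pol hx)
    fun u hu => hA.isRefl _ _ (by rw [hadj, hPSU u hu, map_zero])
  have hPW : ∀ v ∈ W₁, aeval T Pol v = 0 := fun v hv => by
    obtain ⟨a, ha, b, hb, rfl⟩ := Submodule.mem_sup.1 hv
    rw [map_add, hPU a ha, hPC b hb, add_zero]
  -- a vector with non isotropic cyclic span
  obtain ⟨v, hv, hv1⟩ : ∃ v ∈ W₁, B v (T v) ≠ 0 := by
    by_contra hcon
    push_neg at hcon
    have hpol : ∀ a ∈ W₁, ∀ b ∈ W₁, B a (T b) = B (T (T a)) (T b) := by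
      intro a ha b hb
      have h1 := hcon (a + b) (add_mem ha hb)
      simp only [map_add, LinearMap.add_apply, hcon a ha, hcon b hb, add_zero, zero_add] at h1
      rw [hTB (T a) b]
      linear_combination h1 + LinearMap.IsAlt.neg hA b (T a)
    have hTT : ∀ a ∈ W₁, T (T a) = a := by
      intro a ha
      refine sub_eq_zero.1 (hW₁n _ (sub_mem (hW₁i _ (hW₁i a ha)) ha) fun x hx => ?_)
      obtain ⟨b, hb⟩ := (LinearMap.injective_iff_surjective (f := T.restrict hW₁i)).1
        (fun a b h => Subtype.ext (hinj (congrArg Subtype.val h))) ⟨x, hx⟩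
      rw [show x = T (b : V) from (congrArg Subtype.val hb).symm, map_sub, LinearMap.sub_apply, sub_eq_zero]
      exact (hpol a ha _ b.2).symm
    obtain ⟨x, hx, hx0⟩ := (Submodule.ne_bot_iff W₁).1 (fun e => by rw [e, finrank_bot] at hW₁d; omega)
    have hfix : ∀ l : ℕ, (T ^ (2 * l)) x = x := by
      intro l
      induction l with
      | zero => simp
      | succ l ih =>
        rw [show 2 * (l + 1) = 2 + 2 * l by ring, pow_add, Module.End.mul_apply, ih, pow_two, Module.End.mul_apply,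
          hTT x hx]
    obtain ⟨l, hl⟩ := hr.odd_of_ne_two hr2
    have hTx : T x = x := by
      have := congrArg (fun f : Module.End F V => f x) hT
      simp only [hl, pow_succ', Module.End.mul_apply, hfix, Module.End.one_apply] at this
      exact this
    have : x ∈ W ⊓ LinearMap.ker (T - 1) := ⟨hW₁W hx, by simp [hTx]⟩
    rw [hfree, Submodule.mem_bot] at this
    exact hx0 this
  set Z := (degreeLT F i).map ((LinearMap.applyₗ v).comp (aeval T).toLinearMap) with hZ
  have hmon : Pol.Monic := TU.charpoly_monic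
  have hdeg : Pol.degree = (i : ℕ) := by
    rw [degree_eq_natDegree hmon.ne_zero, LinearMap.charpoly_natDegree, hUd]
  have hall : ∀ Q : F[X], aeval T Q v ∈ Z := by
    intro Q
    refine ⟨Q %ₘ Pol, ?_, ?_⟩
    · rw [SetLike.mem_coe, mem_degreeLT, ← hdeg]
      exact degree_modByMonic_lt Q hmon
    · show aeval T (Q %ₘ Pol) v = aeval T Q v
      conv_rhs => rw [← modByMonic_add_div Q Pol, map_add, LinearMap.add_apply, mul_comm Pol, map_mul,
        Module.End.mul_apply, hPW v hv, map_zero, add_zero]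
  have hZmem : ∀ z ∈ Z, ∃ Q : F[X], aeval T Q v = z := by
    rintro _ ⟨Q, -, rfl⟩; exact ⟨Q, rfl⟩
  have hZW : Z ≤ W := fun z hz => by
    obtain ⟨Q, rfl⟩ := hZmem z hz
    exact SubspaceDerange.aeval_mem hW Q (hW₁W hv)
  have hZi : ∀ z ∈ Z, T z ∈ Z := fun z hz => by
    obtain ⟨Q, rfl⟩ := hZmem z hz
    have := hall (X * Q)
    rwa [map_mul, aeval_X, Module.End.mul_apply] at this
  have hv0 : v ≠ 0 := fun e => hv1 (by rw [e, map_zero, LinearMap.zero_apply])
  have hvZ : v ∈ Z := by simpa using hall 1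
  have hZd : finrank F Z = i := by
    refine le_antisymm ((Submodule.finrank_map_le _ _).trans_eq (by
      rw [LinearEquiv.finrank_eq (degreeLTEquiv F i), Module.finrank_fin_fun])) (Nat.le_of_dvd ?_ (hmult Z hZW hZi))
    exact Nat.pos_of_ne_zero fun e => hv0 (by
      have := hvZ
      rwa [Submodule.finrank_eq_zero.1 e, Submodule.mem_bot] at this)
  rcases hatom Z hZW hZi hZd with hZn | hZiso
  · exact hdone Z hZW hZi hZd hZn
  · exact absurd (hZiso v hvZ (T v) (hZi v hvZ)) hv1

/-- Nondegenerate invariant subspaces of every admissible dimension. -/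
theorem exists_sub (hA : B.IsAlt) (hTB : ∀ x y, B (T x) (T y) = B x y) (hT : T ^ r = 1) (hrF : (r : F) ≠ 0)
    (hr2 : r ≠ 2) (hq : Fintype.card F = q) (hrq : ¬ r ∣ q) (hi : i = orderOf (q : ZMod r)) {c : ℕ}
    (hc : c = if Even i then i else 2 * i) {W : Submodule F V} (hW : ∀ w ∈ W, T w ∈ W) (hWn : Nd B W) {j e : ℕ}
    (hj : j * c + finrank F ↥(W ⊓ LinearMap.ker (T - 1)) ≤ finrank F W)
    (he : 2 * e ≤ finrank F ↥(W ⊓ LinearMap.ker (T - 1))) :
    ∃ U ≤ W, (∀ u ∈ U, T u ∈ U) ∧ Nd B U ∧ finrank F U = j * c + 2 * e := by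
  classical
  have hinj : Function.Injective T := fun a b h => by
    have := congrArg (T ^ (r - 1)) h
    rwa [← Module.End.mul_apply, ← Module.End.mul_apply, ← pow_succ, Nat.sub_add_cancel (Fact.out : r.Prime).one_lt.le,
      hT, Module.End.one_apply, Module.End.one_apply] at this
  set Kf := W ⊓ LinearMap.ker (T - 1)
  have hKn : Nd B Kf := nd_fixed hA hTB hT hrF hW hWn
  have hKi : ∀ v ∈ Kf, T v ∈ Kf := fun v hv => by rwa [show T v = v from sub_eq_zero.1 hv.2]
  obtain ⟨hRn, hRd, -⟩ := nd_split hA hKn hWn inf_le_left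
  set R := W ⊓ B.orthogonal Kf
  have hRi : ∀ v ∈ R, T v ∈ R := fun v hv => ⟨hW v hv.1, orth_invariant hTB hinj hKi v hv.2⟩
  have hRfree : R ⊓ LinearMap.ker (T - 1) = ⊥ := eq_bot_iff.2 fun v hv => (Submodule.mem_bot F).2
    (Submodule.disjoint_def.1 (nd_disjoint hA hKn) v ⟨hv.1.1, hv.2⟩ hv.1.2)
  have hgrow : ∀ j, j * c ≤ finrank F R → ∃ U ≤ R, (∀ u ∈ U, T u ∈ U) ∧ Nd B U ∧ finrank F U = j * c := by
    intro j
    induction j with
    | zero =>
      exact fun _ => ⟨⊥, bot_le, fun u hu => by rw [Submodule.mem_bot] at hu; simp [hu],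
        fun w hw _ => (Submodule.mem_bot F).1 hw, by rw [finrank_bot, zero_mul]⟩
    | succ j ih =>
      intro hd
      rw [Nat.succ_mul] at hd ⊢
      obtain ⟨U, hUR, hUi, hUn, hUd⟩ := ih (by omega)
      obtain ⟨hYn, hYd, -⟩ := nd_split hA hUn hRn hUR
      have hc0 : 0 < c := by
        have := (SubspaceDerange.dvd_pow_sub_one hrq hi).1
        rw [hc]; split_ifs <;> omega
      obtain ⟨A, hAY, hAi, hAn, hAd⟩ := exists_atom hA hTB hT hrF hr2 hq hrq hi hc (W := R ⊓ B.orthogonal U)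
        (fun v hv => ⟨hRi v hv.1, orth_invariant hTB hinj hUi v hv.2⟩) hYn
        (le_bot_iff.1 (hRfree ▸ inf_le_inf_right _ inf_le_left)) (fun e => by rw [e, finrank_bot] at hYd; omega)
      refine ⟨U ⊔ A, sup_le hUR (hAY.trans inf_le_left), fun v hv => ?_, nd_sup hA hUn hAn (hAY.trans inf_le_right), ?_⟩
      · obtain ⟨a, ha, b, hb, rfl⟩ := Submodule.mem_sup.1 hv
        rw [map_add]
        exact add_mem (Submodule.mem_sup_left (hUi a ha)) (Submodule.mem_sup_right (hAi b hb))
      · rw [SubspaceDerange.finrank_sup_of_disjoint (le_bot_iff.1 ((nd_isCompl hA hUn).inf_eq_bot ▸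
          inf_le_inf_left _ (hAY.trans inf_le_right))), hUd, hAd]
  obtain ⟨U, hUR, hUi, hUn, hUd⟩ := hgrow j (by omega)
  obtain ⟨E, hEK, hEn, hEd⟩ := exists_nd_sub hA hKn e he
  have hEU : E ≤ B.orthogonal U := fun x hx u hu => hA.isRefl _ _ ((hUR hu).2 x (hEK hx))
  refine ⟨U ⊔ E, sup_le (hUR.trans inf_le_left) (hEK.trans inf_le_left), fun v hv => ?_, nd_sup hA hUn hEn hEU, ?_⟩
  · obtain ⟨a, ha, b, hb, rfl⟩ := Submodule.mem_sup.1 hv
    rw [map_add, show T b = b from sub_eq_zero.1 (hEK hb).2]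
    exact add_mem (Submodule.mem_sup_left (hUi a ha)) (Submodule.mem_sup_right hb)
  · rw [SubspaceDerange.finrank_sup_of_disjoint (le_bot_iff.1 ((nd_isCompl hA hUn).inf_eq_bot ▸ inf_le_inf_left _ hEU)),
      hUd, hEd]

/-- A nondegenerate invariant subspace has dimension congruent to that of its fixed part. -/
theorem dim_mod (hA : B.IsAlt) (hTB : ∀ x y, B (T x) (T y) = B x y) (hT : T ^ r = 1) (hrF : (r : F) ≠ 0)
    (hq : Fintype.card F = q) (hrq : ¬ r ∣ q) (hi : i = orderOf (q : ZMod r)) {c : ℕ}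
    (hc : c = if Even i then i else 2 * i) {W : Submodule F V} (hW : ∀ w ∈ W, T w ∈ W) (hWn : Nd B W) :
    finrank F W ≡ finrank F ↥(W ⊓ LinearMap.ker (T - 1)) [MOD c] := by
  have h := SubspaceDerange.dim_mod hq hrq hi hT hW
  obtain ⟨a, ha⟩ := nd_even hA hWn
  obtain ⟨b, hb⟩ := nd_even hA (nd_fixed hA hTB hT hrF hW hWn)
  rw [hc]
  split_ifs with he
  · exact h
  · have h2 : finrank F W ≡ finrank F ↥(W ⊓ LinearMap.ker (T - 1)) [MOD 2] := by
      rw [Nat.ModEq, ha, hb]; omega
    exact (Nat.modEq_and_modEq_iff_modEq_mul ((Nat.prime_two.coprime_iff_not_dvd).2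
      (fun hd => he (even_iff_two_dvd.2 hd)))).1 ⟨h2, h⟩

end Cfsg.Agent.GeomClasses.SympStructure
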