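import Cfsg.Agent.GeomClasses.Basic

/-! # Decompositions into subspaces -/

set_option autoImplicit false

namespace Cfsg.Agent.GeomClasses

open Matrix

variable {ι : Type} [Fintype ι] [DecidableEq ι] {F : Type*} [Field F] {t k : ℕ}

theorem exists_components {D : Fin t → Submodule F (ι → F)} (hD : Cfsg.Geo.IsMDecomposition k D) (z : ι → F) :
    ∃ c : Fin t → (ι → F), (∀ l, c l ∈ D l) ∧ ∑ l, c l = z := by
  obtain ⟨f, hf, hfz⟩ := (Submodule.mem_iSup_iff_exists_finsupp D z).mp (hD.iSup_eq_top ▸ Submodule.mem_top)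
  refine ⟨f, hf, ?_⟩
  rw [← hfz, Finsupp.sum_fintype]
  simp

theorem mem_decomp_of_forall {D : Fin t → Submodule F (ι → F)} (hD : Cfsg.Geo.IsMDecomposition k D) {g : GL ι F}
    (h : ∀ i, ∃ j, ∀ x ∈ D i, (g : Matrix ι ι F) *ᵥ x ∈ D j) : g ∈ Cfsg.Geo.decompositionStabilizer D := by
  choose j hj using h
  have hinj : Function.Injective (Matrix.toLin' (g : Matrix ι ι F)) := fun x y hxy => by
    have h' := congrArg ((g⁻¹ : GL ι F) : Matrix ι ι F).mulVec hxy
    simpa [Matrix.mulVec_mulVec, ← Units.val_mul] using h'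
  have hmap : ∀ i, (D i).map (Matrix.toLin' (g : Matrix ι ι F)) = D (j i) := fun i => by
    refine Submodule.eq_of_le_of_finrank_eq (Submodule.map_le_iff_le_comap.mpr fun x hx => by simpa using hj i x hx) ?_
    rw [← (Submodule.equivMapOfInjective _ hinj (D i)).finrank_eq, hD.finrank_eq, hD.finrank_eq]
  have hbij : Function.Bijective j := Finite.injective_iff_bijective.mp fun i i' h => by
    by_contra hii
    have h1 : D i = D i' := Submodule.map_injective_of_injective hinj (by rw [hmap, hmap, h])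
    have h2 := hD.indep.pairwiseDisjoint hii
    rw [Function.onFun, h1, disjoint_self] at h2
    have h3 := hD.finrank_eq i'
    rw [h2, finrank_bot] at h3
    exact absurd h3 (by have := hD.pos; omega)
  exact ⟨Equiv.ofBijective j hbij, hmap⟩

theorem image_blocks {D : Fin t → Submodule F (ι → F)} (hD : Cfsg.Geo.IsMDecomposition k D) {W : Submodule F (ι → F)}
    (h : ∀ x ∈ W, ∃ l, x ∈ D l) : ∃ l, W ≤ D l := by
  rcases eq_or_ne W ⊥ with rfl | hW
  · exact ⟨⟨0, by have := hD.two_le; omega⟩, bot_le⟩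
  obtain ⟨x, hx, hx0⟩ := (Submodule.ne_bot_iff W).mp hW
  obtain ⟨l, hl⟩ := h x hx
  refine ⟨l, fun y hy => ?_⟩
  rcases eq_or_ne y 0 with rfl | hy0
  · exact (D l).zero_mem
  obtain ⟨l', hl'⟩ := h y hy
  by_contra hne
  have hll : l ≠ l' := fun e => hne (e ▸ hl')
  obtain ⟨l'', hl''⟩ := h (x + y) (add_mem hx hy)
  by_cases h1 : l'' = l
  · subst h1
    exact hne ((Submodule.add_mem_iff_right _ hl).mp hl'')
  · -- then x lies in the span of the other blocks
    apply hx0
    refine Submodule.disjoint_def.mp (hD.indep l) x hl ?_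
    rw [show x = (x + y) - y by abel]
    exact Submodule.sub_mem _ (Submodule.mem_iSup_of_mem l'' (Submodule.mem_iSup_of_mem h1 hl''))
      (Submodule.mem_iSup_of_mem l' (Submodule.mem_iSup_of_mem (Ne.symm hll) hl'))

end Cfsg.Agent.GeomClasses
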