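import Cfsg.Agent.GeomClasses.Basic

/-! # Coordinates adapted to a direct-sum decomposition and the counting group -/

set_option autoImplicit false

namespace Cfsg.Agent.GeomClasses

open Matrix

variable {ι : Type} [Fintype ι] [DecidableEq ι] {F : Type*} [Field F] {t m : ℕ}

/-- Block coordinates for an `m`-decomposition, with a prescribed basis in each block. -/
theorem exists_blockCoords {D : Fin t → Submodule F (ι → F)} (hD : Cfsg.Geo.IsMDecomposition m D)
    (b : ∀ i, Module.Basis (Fin m) F (D i)) :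
    ∃ e : (ι → F) ≃ₗ[F] (Fin t × Fin m → F),
      (∀ i k, e (b i k : ι → F) = Pi.single (i, k) 1) ∧
      ∀ i x, x ∈ D i ↔ ∀ j k, j ≠ i → e x (j, k) = 0 := by
  classical
  have hint : DirectSum.IsInternal D :=
    DirectSum.isInternal_submodule_of_iSupIndep_of_iSup_eq_top hD.indep hD.iSup_eq_top
  let B := hint.collectedBasis b
  let B' := B.reindex (Equiv.sigmaEquivProd (Fin t) (Fin m))
  have hB : ∀ i k, B' (i, k) = (b i k : ι → F) := by
    intro i k
    simp [B', B, DirectSum.IsInternal.collectedBasis_coe]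
    rfl
  refine ⟨B'.equivFun, fun i k => ?_, fun i x => ⟨fun hx j k hji => ?_, fun h => ?_⟩⟩
  · ext jk
    rw [Module.Basis.equivFun_apply, ← hB, Module.Basis.repr_self, Finsupp.single_eq_pi_single]
  · rw [Module.Basis.equivFun_apply]
    show B'.repr x (j, k) = 0
    simp only [B', Module.Basis.repr_reindex, Finsupp.mapDomain_equiv_apply]
    exact hint.collectedBasis_repr_of_mem_ne b (a := k) (Ne.symm hji) hx
  · rw [← B'.sum_equivFun x]
    refine Submodule.sum_mem _ fun jk _ => ?_
    obtain ⟨j, k⟩ := jk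
    by_cases hji : j = i
    · subst hji; rw [hB]; exact Submodule.smul_mem _ _ (b j k).2
    · rw [h j k hji, zero_smul]; exact Submodule.zero_mem _

/-- Matrices in block coordinates, as elements of the general linear group. -/
noncomputable def conjGL {κ : Type} [Fintype κ] [DecidableEq κ] (e : (ι → F) ≃ₗ[F] (κ → F)) : GL κ F ≃* GL ι F :=
  Units.mapEquiv (((Matrix.toLinAlgEquiv').trans (e.symm.conjAlgEquiv F)).trans LinearMap.toMatrixAlgEquiv').toMulEquiv

theorem conjGL_mulVec {κ : Type} [Fintype κ] [DecidableEq κ] (e : (ι → F) ≃ₗ[F] (κ → F)) (A : GL κ F) (x : ι → F) :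
    (conjGL e A : Matrix ι ι F) *ᵥ x = e.symm ((A : Matrix κ κ F) *ᵥ e x) := by
  show (LinearMap.toMatrixAlgEquiv' (e.symm.conjAlgEquiv F (Matrix.toLinAlgEquiv' (A : Matrix κ κ F)))) *ᵥ x = _
  rw [← Matrix.toLinAlgEquiv'_apply, Matrix.toLinAlgEquiv'_toMatrixAlgEquiv']
  rfl

theorem conjGL_det {κ : Type} [Fintype κ] [DecidableEq κ] (e : (ι → F) ≃ₗ[F] (κ → F)) (A : GL κ F) :
    (conjGL e A : Matrix ι ι F).det = (A : Matrix κ κ F).det := by
  show (LinearMap.toMatrix' (e.symm.conj (Matrix.toLin' (A : Matrix κ κ F)))).det = _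
  rw [LinearMap.det_toMatrix', LinearEquiv.conj_apply, LinearMap.comp_assoc, LinearMap.det_conj,
    LinearMap.det_toLin']

variable [DecidableEq F]

/-- The number of blocks in which a vector has a non-zero component. -/
def blockCount (y : Fin t × Fin m → F) : ℕ := (Finset.univ.filter fun i : Fin t => ∃ k, y (i, k) ≠ 0).card

/-- The group preserving the block count modulo the characteristic. -/
def countGroup (e : (ι → F) ≃ₗ[F] (Fin t × Fin m → F)) : Subgroup (GL ι F) where
  carrier := {g | ∀ x, (blockCount (e ((g : Matrix ι ι F) *ᵥ x)) : F) = blockCount (e x)}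
  one_mem' := fun x => by simp
  mul_mem' := fun {g h} hg hh x => by
    rw [Units.val_mul, ← Matrix.mulVec_mulVec, hg, hh]
  inv_mem' := fun {g} hg x => by
    have := hg (((g⁻¹ : GL ι F) : Matrix ι ι F) *ᵥ x)
    rw [Matrix.mulVec_mulVec, ← Units.val_mul, mul_inv_cancel, Units.val_one, Matrix.one_mulVec] at this
    exact this.symm

theorem decompositionStabilizer_le_countGroup {D : Fin t → Submodule F (ι → F)}
    {e : (ι → F) ≃ₗ[F] (Fin t × Fin m → F)} (he : ∀ i x, x ∈ D i ↔ ∀ j k, j ≠ i → e x (j, k) = 0) :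
    Cfsg.Geo.decompositionStabilizer D ≤ countGroup e := by
  intro g hg x
  obtain ⟨σ, hσ⟩ := hg
  congr 1
  let comp : Fin t → (ι → F) := fun i => e.symm (fun jk => if jk.1 = i then e x jk else 0)
  have hmem : ∀ i, comp i ∈ D i := fun i => (he i _).mpr fun j k hji => by simp [comp, hji]
  have hsum : x = ∑ i, comp i := by
    apply e.injective
    ext jk
    simp [comp, Finset.sum_apply]
  have himg : ∀ i, (g : Matrix ι ι F) *ᵥ comp i ∈ D (σ i) := fun i => by
    rw [← hσ i]; exact ⟨comp i, hmem i, Matrix.toLin'_apply _ _⟩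
  have key : ∀ i k, e ((g : Matrix ι ι F) *ᵥ x) (σ i, k) = e ((g : Matrix ι ι F) *ᵥ comp i) (σ i, k) := by
    intro i k
    conv_lhs => rw [hsum, Matrix.mulVec_sum, map_sum, Finset.sum_apply]
    refine Finset.sum_eq_single i (fun j _ hji => ?_) (fun h => absurd (Finset.mem_univ i) h)
    exact (he (σ j) _).mp (himg j) (σ i) k (fun h => hji (σ.injective h).symm)
  have hiff : ∀ i, (∃ k, e ((g : Matrix ι ι F) *ᵥ x) (σ i, k) ≠ 0) ↔ ∃ k, e x (i, k) ≠ 0 := by
    intro i
    have h1 : (∃ k, e x (i, k) ≠ 0) ↔ comp i ≠ 0 := by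
      rw [← not_iff_not]
      simp only [not_exists, not_not]
      constructor
      · intro h
        apply e.injective
        ext ⟨j, k⟩
        by_cases hji : j = i
        · subst hji; simp [comp, h]
        · simp [comp, hji]
      · intro h k
        have := congrFun (congrArg e h) (i, k)
        simpa [comp] using this
    have h2 : (∃ k, e ((g : Matrix ι ι F) *ᵥ x) (σ i, k) ≠ 0) ↔ (g : Matrix ι ι F) *ᵥ comp i ≠ 0 := by
      simp only [key]
      constructor
      · rintro ⟨k, hk⟩ h
        rw [h, map_zero] at hk; exact hk rfl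
      · intro h
        by_contra hc
        push_neg at hc
        apply h
        apply e.injective
        ext ⟨j, k⟩
        by_cases hji : j = σ i
        · subst hji; simp [hc]
        · simp [(he (σ i) _).mp (himg i) j k hji]
    rw [h1, h2]
    refine not_congr ⟨fun h => ?_, fun h => by rw [h, Matrix.mulVec_zero]⟩
    have := congrArg ((g⁻¹ : GL ι F) : Matrix ι ι F).mulVec h
    rwa [Matrix.mulVec_zero, Matrix.mulVec_mulVec, ← Units.val_mul, inv_mul_cancel, Units.val_one,
      Matrix.one_mulVec] at this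
  refine (Finset.card_bij (fun i _ => σ i) (fun i hi => ?_) (fun i _ j _ h => σ.injective h) fun j hj => ?_).symm
  · simp only [Finset.mem_filter, Finset.mem_univ, true_and] at hi ⊢
    exact (hiff i).mpr hi
  · simp only [Finset.mem_filter, Finset.mem_univ, true_and] at hj
    exact ⟨σ.symm j, by simpa [hiff, ← hiff (σ.symm j)] using hj, σ.apply_symm_apply j⟩

/-- The matrix adding, in each of four blocks, the sum of the four. -/
def mix (s : Fin 4 ↪ Fin t) : Matrix (Fin t × Fin m) (Fin t × Fin m) F :=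
  1 + Matrix.of fun a b => if a.1 ∈ Set.range s ∧ b.1 ∈ Set.range s ∧ a.2 = b.2 then 1 else 0

theorem mix_mulVec (s : Fin 4 ↪ Fin t) (y : Fin t × Fin m → F) (i : Fin t) (k : Fin m) :
    (mix s *ᵥ y) (i, k) = if i ∈ Set.range s then y (i, k) + ∑ j, y (s j, k) else y (i, k) := by
  rw [mix, Matrix.add_mulVec, Matrix.one_mulVec, Pi.add_apply]
  show y (i, k) + ∑ b : Fin t × Fin m, _ * y b = _
  split_ifs with h
  · congr 1
    rw [Fintype.sum_prod_type]
    simp only [Matrix.of_apply, h, true_and, ite_mul, one_mul, zero_mul, ite_and, Finset.sum_ite_irrel,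
      Finset.sum_const_zero, Finset.sum_ite_eq, Finset.mem_univ, if_true]
    rw [← Finset.sum_filter]
    have hf : (Finset.univ.filter fun j : Fin t => j ∈ Set.range s) = Finset.univ.map s := by ext; simp
    rw [hf, Finset.sum_map]
  · rw [Finset.sum_eq_zero fun b _ => by rw [Matrix.of_apply, if_neg (fun hc => h hc.1), zero_mul], add_zero]

theorem mix_mul_self (h6 : (6 : F) = 0) (s : Fin 4 ↪ Fin t) : mix (m := m) (F := F) s * mix s = 1 := by
  refine Matrix.ext_iff_mulVec.mpr fun y => ?_
  rw [← Matrix.mulVec_mulVec, Matrix.one_mulVec]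
  ext ⟨i, k⟩
  rw [mix_mulVec]
  by_cases h : i ∈ Set.range s
  · simp only [mix_mulVec, h, if_true, Set.mem_range_self, Fin.sum_univ_four]
    linear_combination (y (s 0, k) + y (s 1, k) + y (s 2, k) + y (s 3, k)) * h6
  · simp only [h, if_false, mix_mulVec]

/-- The mixing element of the general linear group. -/
def mixGL (h6 : (6 : F) = 0) (s : Fin 4 ↪ Fin t) : GL (Fin t × Fin m) F :=
  ⟨mix s, mix s, mix_mul_self h6 s, mix_mul_self h6 s⟩

theorem blockCount_eq_sum (φ : (Fin m → F) → F) (hφ : ∀ a, φ a = if (∃ k, a k ≠ 0) then 1 else 0)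
    (y : Fin t × Fin m → F) : (blockCount y : F) = ∑ i, φ fun k => y (i, k) := by
  simp only [hφ, blockCount, Finset.sum_boole]

theorem blockCount_mix (φ : (Fin m → F) → F) (hφ : ∀ a, φ a = if (∃ k, a k ≠ 0) then 1 else 0)
    (hid : ∀ a : Fin 4 → Fin m → F, ∑ j, φ (a j + ∑ l, a l) = ∑ j, φ (a j))
    (s : Fin 4 ↪ Fin t) (y : Fin t × Fin m → F) : (blockCount (mix s *ᵥ y) : F) = blockCount y := by
  rw [blockCount_eq_sum φ hφ, blockCount_eq_sum φ hφ,
    ← Finset.sum_add_sum_compl (Finset.univ.map s), ← Finset.sum_add_sum_compl (Finset.univ.map s) (fun i => φ fun k => y (i, k))]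
  congr 1
  · rw [Finset.sum_map, Finset.sum_map]
    refine (Finset.sum_congr rfl fun j _ => ?_).trans (hid fun j k => y (s j, k))
    congr 1
    ext k
    simp [mix_mulVec, Finset.sum_apply]
  · refine Finset.sum_congr rfl fun i hi => ?_
    congr 1
    ext k
    rw [mix_mulVec, if_neg]
    rintro ⟨j, rfl⟩
    simp at hi

/-- The indicator function of non-zero blocks, as a polynomial, in the four small cases. -/
theorem exists_indicator [Fintype F] (h : (m = 1 ∧ Fintype.card F ≤ 4) ∨ (m = 2 ∧ Fintype.card F = 2)) :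
    (6 : F) = 0 ∧ ∃ φ : (Fin m → F) → F, (∀ a, φ a = if (∃ k, a k ≠ 0) then 1 else 0) ∧
      ∀ a : Fin 4 → Fin m → F, ∑ j, φ (a j + ∑ l, a l) = ∑ j, φ (a j) := by
  have hone : 2 ≤ Fintype.card F := Fintype.one_lt_card
  have hc2 : Fintype.card F = 2 ∨ Fintype.card F = 4 → (2 : F) = 0 := by
    intro h
    have h0 : (Fintype.card F : F) = 0 := Nat.cast_card_eq_zero F
    rcases h with h | h <;> rw [h] at h0
    · exact_mod_cast h0
    · have : (2 : F) * 2 = 0 := by norm_num; exact_mod_cast h0
      exact mul_self_eq_zero.mp this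
  rcases h with ⟨rfl, hq⟩ | ⟨rfl, hq⟩
  · have hex : ∀ a : Fin 1 → F, (∃ k, a k ≠ 0) ↔ a 0 ≠ 0 := fun a => by rw [Fin.exists_fin_one]
    refine ⟨?_, fun a => a 0 ^ (Fintype.card F - 1), fun a => ?_, fun a => ?_⟩
    · interval_cases hcF : Fintype.card F
      · linear_combination (3 : F) * hc2 (Or.inl rfl)
      · have h0 : (Fintype.card F : F) = 0 := Nat.cast_card_eq_zero F
        rw [hcF] at h0; push_cast at h0; linear_combination (2 : F) * h0
      · linear_combination (3 : F) * hc2 (Or.inr rfl)
    · simp only [hex]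
      split_ifs with h0
      · exact FiniteField.pow_card_sub_one_eq_one _ h0
      · rw [not_not] at h0; rw [h0, zero_pow (by omega)]
    · simp only [Pi.add_apply, Finset.sum_apply, Fin.sum_univ_four]
      generalize a 0 0 = x, a 1 0 = y, a 2 0 = z, a 3 0 = w
      interval_cases hcF : Fintype.card F
      · linear_combination 2 * (x + y + z + w) * hc2 (Or.inl rfl)
      · have h0 : (Fintype.card F : F) = 0 := Nat.cast_card_eq_zero F
        rw [hcF] at h0; push_cast at h0
        linear_combination 2 * (x + y + z + w) ^ 2 * h0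
      · linear_combination (5 * (x + y + z + w) ^ 3 -
          3 * (x + y + z + w) * (x * y + x * z + x * w + y * z + y * w + z * w)) * hc2 (Or.inr rfl)
  · have h2 := hc2 (Or.inl hq)
    refine ⟨by linear_combination (3 : F) * h2, fun a => a 0 + a 1 + a 0 * a 1, fun a => ?_, fun a => ?_⟩
    · have hF : ∀ x : F, x = 0 ∨ x = 1 := fun x => by
        rcases eq_or_ne x 0 with h | h
        · exact Or.inl h
        · right
          simpa [hq] using FiniteField.pow_card_sub_one_eq_one x h
      simp only [Fin.exists_fin_two]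
      rcases hF (a 0) with h0 | h0 <;> rcases hF (a 1) with h1 | h1 <;> simp [h0, h1]
      linear_combination h2
    · simp only [Pi.add_apply, Finset.sum_apply, Fin.sum_univ_four]
      generalize a 0 0 = x, a 1 0 = y, a 2 0 = z, a 3 0 = w, a 0 1 = x', a 1 1 = y', a 2 1 = z', a 3 1 = w'
      linear_combination (2 * (x + y + z + w) + 2 * (x' + y' + z' + w') + 3 * (x + y + z + w) * (x' + y' + z' + w')) * h2

end Cfsg.Agent.GeomClasses
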