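import Cfsg.Agent.GeomClasses.Basic

/-! # Overgroups of the determinant one block-monomial group, blocks of size at least two -/

set_option autoImplicit false

namespace Cfsg.Agent.GeomClasses.BlockMax

open Matrix Finset

variable {F : Type*} [Field F] {t m : ℕ}

local notation "Pt" => Fin t × Fin m

/-- Blocks go to blocks. -/
def IsBlock (g : GL (Fin t × Fin m) F) : Prop :=
  ∀ a : Fin t, ∃ b : Fin t, ∀ (k : Fin m) (i : Fin t × Fin m), i.1 ≠ b →
    (g : Matrix (Fin t × Fin m) (Fin t × Fin m) F) i (a, k) = 0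

variable (K : Subgroup (GL (Fin t × Fin m) F))

/-- `K` contains all block-monomial matrices of determinant one. -/
def ContainsN : Prop :=
  ∀ g : GL (Fin t × Fin m) F, IsBlock g → (g : Matrix (Fin t × Fin m) (Fin t × Fin m) F).det = 1 → g ∈ K

/-- `K` contains the transvection with centre `u` and axis `ψ`. -/
def T (u ψ : Fin t × Fin m → F) : Prop := ∃ h : ψ ⬝ᵥ u = 0, tv u ψ h ∈ K

variable {K}

theorem t_conj {u ψ : Pt → F} (h : T K u ψ) {g : GL Pt F} (hg : g ∈ K) :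
    T K ((g : Matrix Pt Pt F) *ᵥ u) (ψ ᵥ* (g⁻¹ : GL Pt F).val) := by
  obtain ⟨hd, hm⟩ := h
  refine ⟨?_, ?_⟩
  · rw [← Matrix.dotProduct_mulVec, Matrix.mulVec_mulVec, ← Units.val_mul, inv_mul_cancel, Units.val_one,
      Matrix.one_mulVec, hd]
  · convert K.mul_mem (K.mul_mem hg hm) (K.inv_mem hg) using 1
    refine Units.ext ?_
    show 1 + vecMulVec _ _ = (g : Matrix Pt Pt F) * (1 + vecMulVec u ψ) * (g⁻¹ : GL Pt F).val
    rw [Matrix.mul_add, Matrix.add_mul, Matrix.mul_one,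
      ← Units.val_mul, mul_inv_cancel, Units.val_one, Matrix.mul_vecMulVec, Matrix.vecMulVec_mul]

theorem t_sub {u u' ψ : Pt → F} (h : T K u ψ) (h' : T K u' ψ) : T K (u - u') ψ := by
  obtain ⟨hd, hm⟩ := h
  obtain ⟨hd', hm'⟩ := h'
  refine ⟨by rw [dotProduct_sub, hd, hd', sub_zero], ?_⟩
  convert K.mul_mem hm (K.inv_mem hm') using 1
  refine Units.ext ?_
  show 1 + vecMulVec (u - u') ψ = (1 + vecMulVec u ψ) * (1 + vecMulVec u' (-ψ))
  rw [Matrix.mul_add, Matrix.add_mul, Matrix.add_mul, one_mul, one_mul, mul_one, Matrix.vecMulVec_mul_vecMulVec,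
    hd', zero_smul, Matrix.vecMulVec_zero, add_zero, Matrix.vecMulVec_neg, Matrix.sub_vecMulVec]
  abel

theorem t_sub_axis {u ψ ψ' : Pt → F} (h : T K u ψ) (h' : T K u ψ') : T K u (ψ - ψ') := by
  obtain ⟨hd, hm⟩ := h
  obtain ⟨hd', hm'⟩ := h'
  refine ⟨by rw [sub_dotProduct, hd, hd', sub_zero], ?_⟩
  convert K.mul_mem hm (K.inv_mem hm') using 1
  refine Units.ext ?_
  show 1 + vecMulVec u (ψ - ψ') = (1 + vecMulVec u ψ) * (1 + vecMulVec u (-ψ'))
  rw [tv_mul_tv _ _ _ hd, sub_eq_add_neg]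

/-- The elementary matrix inside a block. -/
theorem t_block (hN : ContainsN K) {p q : Pt} (hpq : p ≠ q) (hb : p.1 = q.1) (c : F) :
    T K (Pi.single p 1) (Pi.single q c) := by
  have hd : (Pi.single q c : Pt → F) ⬝ᵥ Pi.single p 1 = 0 := by
    rw [single_dotProduct, Pi.single_eq_of_ne (Ne.symm hpq)]; simp
  refine ⟨hd, hN _ (fun a => ⟨a, fun k i hi => ?_⟩) (mem_specialLinear_iff.mp (tv_mem_specialLinear _ _ _))⟩
  rw [tv_val, Matrix.add_apply, Matrix.one_apply_ne (fun e => hi (by rw [e])), zero_add, vecMulVec_apply]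
  by_cases hip : i = p
  · subst hip
    rw [Pi.single_eq_of_ne (show (a, k) ≠ q from fun e => hi (by rw [hb, ← e])), mul_zero]
  · rw [Pi.single_eq_of_ne hip, zero_mul]

theorem conj_block (hN : ContainsN K) {u ψ : Pt → F} (h : T K u ψ) {p q : Pt} (hpq : p ≠ q) (hb : p.1 = q.1)
    (c : F) : T K (u + (c * u q) • Pi.single p 1) (ψ - (c * ψ p) • Pi.single q 1) := by
  obtain ⟨hd, hm⟩ := t_block hN hpq hb c
  convert t_conj h hm using 1
  · rw [tv_mulVec, single_dotProduct]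
  · show _ = ψ ᵥ* (1 + vecMulVec (Pi.single p 1) (-Pi.single q c))
    rw [Matrix.vecMul_add, Matrix.vecMul_one, Matrix.vecMul_vecMulVec, dotProduct_single, mul_one,
      sub_eq_add_neg]
    congr 1
    ext i
    simp only [Pi.neg_apply, Pi.smul_apply, smul_eq_mul]
    by_cases hi : i = q
    · subst hi; simp [mul_comm]
    · simp [Pi.single_eq_of_ne hi]

/-- Diagonal elements. -/
def dg (c : Fin t × Fin m → Fˣ) : GL (Fin t × Fin m) F where
  val := Matrix.diagonal fun i => (c i : F)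
  inv := Matrix.diagonal fun i => (((c i)⁻¹ : Fˣ) : F)
  val_inv := by rw [Matrix.diagonal_mul_diagonal, ← Matrix.diagonal_one]; congr 1; funext i; simp
  inv_val := by rw [Matrix.diagonal_mul_diagonal, ← Matrix.diagonal_one]; congr 1; funext i; simp

theorem conj_diag (hN : ContainsN K) {u ψ : Pt → F} (h : T K u ψ) {p o : Pt} (hpo : p ≠ o) (z : Fˣ)
    (hp : ψ p = 0) (ho : ψ o = 0) :
    T K (((z : F) - 1) • (u p • Pi.single p 1) + (((z⁻¹ : Fˣ) : F) - 1) • (u o • Pi.single o 1)) ψ := by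
  let c : Pt → Fˣ := fun i => if i = p then z else if i = o then z⁻¹ else 1
  have hm : dg c ∈ K := by
    refine hN _ (fun a => ⟨a, fun k i hi => Matrix.diagonal_apply_ne _ fun e => hi (by rw [e])⟩) ?_
    show (Matrix.diagonal fun i => (c i : F)).det = 1
    rw [Matrix.det_diagonal, ← Finset.mul_prod_erase _ _ (mem_univ p),
      ← Finset.mul_prod_erase _ _ (Finset.mem_erase.mpr ⟨Ne.symm hpo, mem_univ o⟩), Finset.prod_eq_one]
    · simp [c, Ne.symm hpo]
    · intro l hl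
      simp only [mem_erase, mem_univ, and_true] at hl
      simp [c, hl.1, hl.2]
  have hψ : ψ ᵥ* (dg c)⁻¹.val = ψ := by
    ext i
    show (ψ ᵥ* Matrix.diagonal fun i => (((c i)⁻¹ : Fˣ) : F)) i = ψ i
    rw [Matrix.vecMul_diagonal]
    by_cases h1 : i = p
    · simp [h1, hp]
    · by_cases h2 : i = o
      · simp [h2, ho]
      · simp [c, h1, h2]
  have h2 := t_conj h hm
  rw [hψ] at h2
  convert t_sub h2 h using 1
  ext i
  show _ = ((Matrix.diagonal fun i => (c i : F)) *ᵥ u) i - u i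
  rw [Matrix.mulVec_diagonal]
  simp only [Pi.add_apply, Pi.smul_apply, smul_eq_mul]
  by_cases h1 : i = p
  · subst h1; simp [c, hpo]; ring
  · by_cases h2 : i = o
    · subst h2; simp [c, h1]; ring
    · simp [c, h1, h2]

/-- A root element joining two different blocks. -/
theorem root_of_centre (hN : ContainsN K) (hm : 2 ≤ m) {p : Pt} {ψ : Pt → F} (h : T K (Pi.single p 1) ψ)
    {q : Pt} (hq : q.1 ≠ p.1) (hψ : ψ q ≠ 0) :
    ∃ p q : Pt, p.1 ≠ q.1 ∧ ∃ c : F, c ≠ 0 ∧ T K (Pi.single p 1) (Pi.single q c) := by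
  haveI : Nontrivial (Fin m) := Fin.nontrivial_iff_two_le.mpr hm
  obtain ⟨k, hk⟩ := exists_ne q.2
  let r : Pt := (q.1, k)
  have hrq : r ≠ q := fun e => hk (congrArg Prod.snd e)
  have hpr : r ≠ p := fun e => hq (show r.1 = p.1 from congrArg Prod.fst e)
  have h1 := conj_block hN h (p := q) (q := r) (Ne.symm hrq) rfl 1
  rw [Pi.single_eq_of_ne hpr, mul_zero, zero_smul, add_zero] at h1
  refine ⟨p, r, Ne.symm hq, ψ q, hψ, ?_⟩
  convert t_sub_axis h h1 using 1
  ext i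
  by_cases hi : i = r
  · subst hi; simp
  · simp [Pi.single_eq_of_ne hi]

theorem centre_of_A (hN : ContainsN K) {u ψ : Pt → F} (h : T K u ψ) {p q : Pt} (hpq : p ≠ q) (hb : p.1 = q.1)
    (hp : ψ p = 0) (hq : u q ≠ 0) : T K (Pi.single p 1) ψ := by
  have h1 := conj_block hN h hpq hb (u q)⁻¹
  rw [hp, mul_zero, zero_smul, sub_zero, inv_mul_cancel₀ hq, one_smul] at h1
  simpa using t_sub h1 h

/-- Outcome of working in the block `b`: a centre inside the block, or a normal form when `m = 2`. -/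
theorem block_step (hN : ContainsN K) (hm : 2 ≤ m) {u ψ : Pt → F} (h : T K u ψ) {b : Fin t}
    (hu : ∃ k, u (b, k) ≠ 0) :
    (∃ p : Pt, p.1 = b ∧ ∃ ψ' : Pt → F, T K (Pi.single p 1) ψ' ∧ ∀ i : Pt, i.1 ≠ b → ψ' i = ψ i) ∨
      (m = 2 ∧ ∃ (p : Pt) (u' ψ' : Pt → F), p.1 = b ∧ T K u' ψ' ∧ u' p ≠ 0 ∧ ψ' p = 0 ∧
        (∀ i : Pt, i.1 = b → i ≠ p → u' i = 0) ∧ (∃ l, ψ' (b, l) ≠ 0) ∧
        ∀ i : Pt, i.1 ≠ b → u' i = u i ∧ ψ' i = ψ i) := by
  classical
  haveI : Nontrivial (Fin m) := Fin.nontrivial_iff_two_le.mpr hm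
  obtain ⟨k, hk⟩ := hu
  by_cases hψ : ∀ l, ψ (b, l) = 0
  · obtain ⟨r, hr⟩ := exists_ne k
    exact Or.inl ⟨(b, r), rfl, ψ, centre_of_A hN h (q := (b, k)) (fun e => hr (congrArg Prod.snd e)) rfl
      (hψ r) hk, fun _ _ => rfl⟩
  push_neg at hψ
  obtain ⟨s, hs⟩ := hψ
  obtain ⟨r, hr⟩ := exists_ne s
  have hsr : ((b, s) : Pt) ≠ (b, r) := fun e => hr (congrArg Prod.snd e).symm
  have h1 := conj_block hN h hsr rfl (ψ (b, r) / ψ (b, s))
  set u1 := u + (ψ (b, r) / ψ (b, s) * u (b, r)) • (Pi.single (b, s) 1 : Pt → F) with hu1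
  set ψ1 := ψ - (ψ (b, r) / ψ (b, s) * ψ (b, s)) • (Pi.single (b, r) 1 : Pt → F) with hψ1
  have hψr : ψ1 (b, r) = 0 := by simp [ψ1, div_mul_cancel₀ _ hs]
  have hψout : ∀ i : Pt, i ≠ (b, r) → ψ1 i = ψ i := fun i hi => by simp [ψ1, Pi.single_eq_of_ne hi]
  have huout : ∀ i : Pt, i ≠ (b, s) → u1 i = u i := fun i hi => by simp [u1, Pi.single_eq_of_ne hi]
  by_cases hq : ∃ q : Pt, q.1 = b ∧ q ≠ (b, r) ∧ u1 q ≠ 0
  · obtain ⟨q, hqb, hqr, hq⟩ := hq
    exact Or.inl ⟨(b, r), rfl, ψ1, centre_of_A hN h1 (Ne.symm hqr) hqb.symm hψr hq,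
      fun i hi => hψout i fun e => hi (by rw [e])⟩
  push_neg at hq
  have hur : u1 (b, r) ≠ 0 := by
    intro e
    rw [huout _ (Ne.symm hsr)] at e
    have : u1 (b, k) = u (b, k) := by simp [u1, e]
    exact hk (this ▸ hq (b, k) rfl (fun e' => hk (by rw [e', e])))
  by_cases hm2 : m = 2
  · exact Or.inr ⟨hm2, (b, r), u1, ψ1, rfl, h1, hur, hψr, hq, ⟨s, by rw [hψout _ hsr]; exact hs⟩,
      fun i hi => ⟨huout i fun e => hi (by rw [e]), hψout i fun e => hi (by rw [e])⟩⟩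
  obtain ⟨r2, hr2⟩ : ∃ r2 : Fin m, r2 ∉ ({r, s} : Finset (Fin m)) := by
    obtain ⟨d, hd⟩ := Finset.exists_mem_notMem_of_card_lt_card
      (show ({r, s} : Finset (Fin m)).card < (Finset.univ : Finset (Fin m)).card by
        rw [Finset.card_univ, Fintype.card_fin]
        have := Finset.card_le_two (a := r) (b := s)
        omega)
    exact ⟨d, hd.2⟩
  simp only [Finset.mem_insert, Finset.mem_singleton, not_or] at hr2
  have hsr2 : ((b, s) : Pt) ≠ (b, r2) := fun e => hr2.2 (congrArg Prod.snd e).symm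
  have hr2r : ((b, r2) : Pt) ≠ (b, r) := fun e => hr2.1 (congrArg Prod.snd e)
  have h2 := conj_block hN h1 hsr2 rfl (ψ1 (b, r2) / ψ1 (b, s))
  rw [hq (b, r2) rfl hr2r, mul_zero, zero_smul, add_zero] at h2
  refine Or.inl ⟨(b, r2), rfl, _, centre_of_A hN h2 hr2r rfl ?_ hur, fun i hi => ?_⟩
  · have : ψ1 (b, s) ≠ 0 := by rw [hψout _ hsr]; exact hs
    simp [div_mul_cancel₀ _ this]
  · rw [Pi.sub_apply, Pi.smul_apply, Pi.single_eq_of_ne (fun e => hi (by rw [e])), smul_zero, sub_zero]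
    exact hψout i fun e => hi (by rw [e])

/-- A root element between two blocks, from anything that is not block-monomial. -/
theorem exists_root (hN : ContainsN K) (hm : 2 ≤ m) (h2 : m = 2 → 3 ≤ t ∧ ∃ z : Fˣ, z ≠ 1) {y : GL Pt F}
    (hy : y ∈ K) (hyb : ¬ IsBlock y) :
    ∃ p q : Pt, p.1 ≠ q.1 ∧ ∃ c : F, c ≠ 0 ∧ T K (Pi.single p 1) (Pi.single q c) := by
  classical
  haveI : Nontrivial (Fin m) := Fin.nontrivial_iff_two_le.mpr hm
  unfold IsBlock at hyb
  push_neg at hyb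
  obtain ⟨a, ha⟩ := hyb
  -- a mixed column
  obtain ⟨y', hy', k, i1, i2, hi12, hi1, hi2⟩ : ∃ y' ∈ K, ∃ (k : Fin m) (i1 i2 : Pt), i1.1 ≠ i2.1 ∧
      (y' : Matrix Pt Pt F) i1 (a, k) ≠ 0 ∧ (y' : Matrix Pt Pt F) i2 (a, k) ≠ 0 := by
    obtain ⟨k0, i0, -, hi0⟩ := ha a
    obtain ⟨k, i, hib, hi⟩ := ha i0.1
    by_cases hA : ∃ i', i'.1 ≠ i0.1 ∧ (y : Matrix Pt Pt F) i' (a, k0) ≠ 0
    · obtain ⟨i', h', h''⟩ := hA
      exact ⟨y, hy, k0, i', i0, h', h'', hi0⟩
    by_cases hB : (y : Matrix Pt Pt F) i0 (a, k) ≠ 0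
    · exact ⟨y, hy, k, i, i0, hib, hi, hB⟩
    push_neg at hA hB
    have hk : ((a, k) : Pt) ≠ (a, k0) := fun e => hi0 (by rw [← e]; exact hB)
    obtain ⟨hd, hx⟩ := t_block hN hk rfl (1 : F)
    refine ⟨y * tv _ _ hd, K.mul_mem hy hx, k0, i, i0, hib, ?_, ?_⟩
    all_goals rw [Units.val_mul, tv_val, Matrix.mul_add, mul_one, Matrix.mul_vecMulVec, Matrix.add_apply,
      vecMulVec_apply, Pi.single_eq_same, mul_one, Matrix.mulVec_single_one, Matrix.col_apply]
    · rw [hA i hib, zero_add]; exact hi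
    · rw [hB, add_zero]; exact hi0
  -- a transvection with mixed centre
  obtain ⟨k', hk'⟩ := exists_ne k
  obtain ⟨hd, hx⟩ := t_block hN (show ((a, k) : Pt) ≠ (a, k') from fun e => hk' (congrArg Prod.snd e).symm) rfl (1 : F)
  have hT := t_conj ⟨hd, hx⟩ hy'
  set u := (y' : Matrix Pt Pt F) *ᵥ Pi.single (a, k) 1 with hu
  set ψ := (Pi.single (a, k') (1 : F)) ᵥ* (y'⁻¹ : GL Pt F).val with hψdef
  have hu1 : u i1 ≠ 0 := by rw [hu, Matrix.mulVec_single_one, Matrix.col_apply]; exact hi1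
  have hu2 : u i2 ≠ 0 := by rw [hu, Matrix.mulVec_single_one, Matrix.col_apply]; exact hi2
  have hψ0 : ∃ q, ψ q ≠ 0 := by
    by_contra h0; push_neg at h0
    have : ψ ᵥ* (y' : Matrix Pt Pt F) = Pi.single (a, k') 1 := by
      rw [hψdef, Matrix.vecMul_vecMul, ← Units.val_mul, inv_mul_cancel, Units.val_one, Matrix.vecMul_one]
    rw [show ψ = 0 from funext h0, Matrix.zero_vecMul] at this
    have := congrFun this (a, k')
    simp at this
  by_cases hgood : ∃ i : Pt, u i ≠ 0 ∧ ∀ l, ψ (i.1, l) = 0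
  · obtain ⟨i, hi, hl⟩ := hgood
    obtain ⟨r, hr⟩ := exists_ne i.2
    obtain ⟨q, hq⟩ := hψ0
    exact root_of_centre hN hm (centre_of_A hN hT (q := i) (p := (i.1, r))
      (fun e => hr (congrArg Prod.snd e)) rfl (hl r) hi) (q := q)
      (fun e => hq (by rw [show q = (i.1, q.2) from Prod.ext e rfl]; exact hl q.2)) hq
  push_neg at hgood
  obtain ⟨l2, hl2⟩ := hgood i2 hu2
  obtain ⟨l1, hl1⟩ := hgood i1 hu1
  rcases block_step hN hm hT ⟨i1.2, hu1⟩ with ⟨p, hp, ψ', hT', hout⟩ | ⟨hm2, p1, u', ψ', hp1, hT', hup1, hψp1, -, ⟨la, hla⟩, hout⟩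
  · exact root_of_centre hN hm hT' (q := (i2.1, l2)) (by rw [hp]; exact Ne.symm hi12)
      (by rw [hout (i2.1, l2) (Ne.symm hi12)]; exact hl2)
  have hu2' : u' i2 ≠ 0 := by rw [(hout i2 (Ne.symm hi12)).1]; exact hu2
  have hu'0 := hup1
  rcases block_step hN hm hT' ⟨i2.2, hu2'⟩ with ⟨p, hp, ψ'', hT'', hout'⟩ |
    ⟨-, p2, u'', ψ'', hp2, hT'', hup2, hψp2, -, ⟨lb, hlb⟩, hout'⟩
  · exact root_of_centre hN hm hT'' (q := (i1.1, la)) (by rw [hp]; exact hi12)
      (by rw [hout' (i1.1, la) hi12]; exact hla)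
  obtain ⟨ht, z, hz⟩ := h2 hm2
  have hz0 : (z : F) - 1 ≠ 0 := sub_ne_zero.mpr fun e => hz (Units.ext e)
  have hz0' : ((z⁻¹ : Fˣ) : F) - 1 ≠ 0 := sub_ne_zero.mpr fun e => hz (inv_eq_one.mp (Units.ext e))
  have hp12 : p1.1 ≠ p2.1 := by rw [hp1, hp2]; exact hi12
  have hψ''p1 : ψ'' p1 = 0 := by rw [(hout' p1 (by rw [hp1]; exact hi12)).2]; exact hψp1
  have hu''p1 : u'' p1 ≠ 0 := by rw [(hout' p1 (by rw [hp1]; exact hi12)).1]; exact hup1
  have h3 := conj_diag hN hT'' (p := p1) (o := p2) (fun e => hp12 (congrArg Prod.fst e)) z hψ''p1 hψp2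
  set u3 := ((z : F) - 1) • (u'' p1 • (Pi.single p1 1 : Pt → F)) +
    (((z⁻¹ : Fˣ) : F) - 1) • (u'' p2 • (Pi.single p2 1 : Pt → F)) with hu3
  obtain ⟨bc, hbc1, hbc2⟩ : ∃ bc : Fin t, bc ≠ i1.1 ∧ bc ≠ i2.1 := by
    obtain ⟨d, hd⟩ := Finset.exists_mem_notMem_of_card_lt_card
      (show ({i1.1, i2.1} : Finset (Fin t)).card < (Finset.univ : Finset (Fin t)).card by
        rw [Finset.card_univ, Fintype.card_fin]
        have := Finset.card_le_two (a := i1.1) (b := i2.1)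
        omega)
    simp only [Finset.mem_insert, Finset.mem_singleton, not_or] at hd
    exact ⟨d, hd.2⟩
  have hu3o : ∀ i : Pt, i ≠ p1 → i ≠ p2 → u3 i = 0 := by
    intro i h1 h2
    simp [u3, Pi.single_eq_of_ne h1, Pi.single_eq_of_ne h2]
  have hu3p : u3 p1 ≠ 0 := by
    have : p1 ≠ p2 := fun e => hp12 (congrArg Prod.fst e)
    simp [u3, Pi.single_eq_of_ne this, hz0, hu''p1]
  -- a coordinate in a third block killed by the axis
  obtain ⟨ψ4, o, hT4, hob, ho, hψ4⟩ : ∃ (ψ4 : Pt → F) (o : Pt), T K u3 ψ4 ∧ o.1 = bc ∧ ψ4 o = 0 ∧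
      ∀ i : Pt, i.1 ≠ bc → ψ4 i = ψ'' i := by
    obtain ⟨k1, k2, hk12⟩ := exists_pair_ne (Fin m)
    by_cases h0 : ψ'' (bc, k1) = 0
    · exact ⟨ψ'', (bc, k1), h3, rfl, h0, fun _ _ => rfl⟩
    have h5 := conj_block hN h3 (p := (bc, k1)) (q := (bc, k2)) (fun e => hk12 (congrArg Prod.snd e)) rfl
      (ψ'' (bc, k2) / ψ'' (bc, k1))
    rw [hu3o (bc, k2) (fun e => hbc1 (by rw [← hp1, ← e])) (fun e => hbc2 (by rw [← hp2, ← e])),
      mul_zero, zero_smul, add_zero] at h5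
    refine ⟨_, (bc, k2), h5, rfl, ?_, fun i hi => ?_⟩
    · simp [div_mul_cancel₀ _ h0]
    · rw [Pi.sub_apply, Pi.smul_apply, Pi.single_eq_of_ne (fun e => hi (by rw [e])), smul_zero, sub_zero]
  have hψ4p1 : ψ4 p1 = 0 := by rw [hψ4 p1 (by rw [hp1]; exact Ne.symm hbc1)]; exact hψ''p1
  have hpo : p1 ≠ o := fun e => hbc1 (by rw [← hob, ← e, hp1])
  have h6 := conj_diag hN hT4 hpo z hψ4p1 ho
  rw [hu3o o (Ne.symm hpo) (fun e => hbc2 (by rw [← hob, e, hp2])), zero_smul, smul_zero, add_zero,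
    smul_smul] at h6
  -- normalise the centre
  set μ := ((z : F) - 1) * u3 p1 with hμ
  have hμ0 : μ ≠ 0 := mul_ne_zero hz0 hu3p
  have h7 : T K (Pi.single p1 1) (μ • ψ4) := by
    obtain ⟨hd6, hm6⟩ := h6
    rw [dotProduct_smul] at hd6
    have hd7 : (μ • ψ4) ⬝ᵥ (Pi.single p1 (1 : F)) = 0 := by rw [smul_dotProduct]; exact hd6
    refine ⟨hd7, ?_⟩
    convert hm6 using 1
    exact Units.ext (by rw [tv_val, tv_val, Matrix.smul_vecMulVec, Matrix.vecMulVec_smul])
  refine root_of_centre hN hm h7 (q := (i2.1, lb)) (by rw [hp1]; exact Ne.symm hi12) ?_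
  rw [Pi.smul_apply, hψ4 (i2.1, lb) (Ne.symm hbc2), smul_eq_mul]
  exact mul_ne_zero hμ0 hlb

/-- All coefficients of the elementary transvection at `(p, q)`. -/
def Full (K : Subgroup (GL (Fin t × Fin m) F)) (p q : Fin t × Fin m) : Prop :=
  ∀ c : F, T K (Pi.single p 1) (Pi.single q c)

theorem full_left {p p' q : Pt} {c : F} (hc : c ≠ 0) (hq : p' ≠ q) (hpp : p' ≠ p)
    (hp : Full K p' p) (h : T K (Pi.single p 1) (Pi.single q c)) : Full K p' q := by
  intro e
  obtain ⟨hd, hm⟩ := hp (e / c)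
  have h1 := t_conj h hm
  have e1 : (Pi.single q c : Pt → F) ᵥ* ((tv (Pi.single p' 1) (Pi.single p (e / c)) hd)⁻¹ : GL Pt F).val =
      Pi.single q c := by
    show _ ᵥ* (1 + vecMulVec (Pi.single p' 1) (-Pi.single p (e / c))) = _
    rw [Matrix.vecMul_add, Matrix.vecMul_one, Matrix.vecMul_vecMulVec, single_dotProduct,
      Pi.single_eq_of_ne (Ne.symm hq), mul_zero, zero_smul, add_zero]
  rw [e1, tv_mulVec, single_dotProduct, Pi.single_eq_same, mul_one] at h1
  have h2 := t_sub h1 h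
  rw [add_sub_cancel_left] at h2
  obtain ⟨hd', hm'⟩ := h2
  have hd2 : (Pi.single q e : Pt → F) ⬝ᵥ Pi.single p' 1 = 0 := by
    rw [single_dotProduct, Pi.single_eq_of_ne (Ne.symm hq), mul_zero]
  refine ⟨hd2, ?_⟩
  convert hm' using 1
  refine Units.ext ?_
  rw [tv_val, tv_val, Matrix.smul_vecMulVec]
  congr 1
  ext i j
  simp only [Matrix.smul_apply, vecMulVec_apply, smul_eq_mul]
  by_cases hj : j = q
  · subst hj; simp; field_simp
  · simp [Pi.single_eq_of_ne hj]

theorem full_right {p q q' : Pt} (hq : q' ≠ p) (hqq : q' ≠ q) (hp : Full K q q') (h : Full K p q) :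
    Full K p q' := by
  intro e
  obtain ⟨hd, hm⟩ := hp (-e)
  have h1 := t_conj (h 1) hm
  have e1 : (tv (Pi.single q 1) (Pi.single q' (-e)) hd : Matrix Pt Pt F) *ᵥ Pi.single p 1 = Pi.single p 1 := by
    rw [tv_mulVec, single_dotProduct, Pi.single_eq_of_ne hq, mul_zero, zero_smul, add_zero]
  have e2 : (Pi.single q (1 : F) : Pt → F) ᵥ* ((tv (Pi.single q 1) (Pi.single q' (-e)) hd)⁻¹ : GL Pt F).val =
      Pi.single q 1 + Pi.single q' e := by
    show _ ᵥ* (1 + vecMulVec (Pi.single q 1) (-Pi.single q' (-e))) = _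
    rw [Matrix.vecMul_add, Matrix.vecMul_one, Matrix.vecMul_vecMulVec, single_dotProduct,
      Pi.single_eq_same, one_mul, one_smul, ← Pi.single_neg, neg_neg]
  rw [e1, e2] at h1
  simpa using t_sub_axis h1 (h 1)

theorem full_block (hN : ContainsN K) {p q : Pt} (hpq : p ≠ q) (hb : p.1 = q.1) : Full K p q :=
  fun c => t_block hN hpq hb c

theorem sl_of_root (hN : ContainsN K) (hm : 2 ≤ m) {p q : Pt} (hpq : p.1 ≠ q.1) {c : F} (hc : c ≠ 0)
    (h : T K (Pi.single p 1) (Pi.single q c)) : Cfsg.Geo.specialLinear (Fin t × Fin m) F ≤ K := by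
  classical
  haveI : Nontrivial (Fin m) := Fin.nontrivial_iff_two_le.mpr hm
  obtain ⟨k, hk⟩ := exists_ne p.2
  let p' : Pt := (p.1, k)
  have hp'p : p' ≠ p := fun e => hk (congrArg Prod.snd e)
  have hp'q : p' ≠ q := fun e => hpq (show p'.1 = q.1 from congrArg Prod.fst e)
  have h1 : Full K p' q := full_left hc hp'q hp'p (full_block hN hp'p rfl) h
  have h2 : ∀ i : Pt, i.1 = p.1 → Full K i q := by
    intro i hi
    by_cases hip : i = p'
    · exact hip ▸ h1
    · exact full_left one_ne_zero (fun e => hpq (by rw [← hi, e])) hip (full_block hN hip hi) (h1 1)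
  have h3 : ∀ i j : Pt, i.1 = p.1 → j.1 = q.1 → Full K i j := by
    intro i j hi hj
    by_cases hjq : j = q
    · exact hjq ▸ h2 i hi
    · exact full_right (fun e => hpq (by rw [← hi, ← e, hj])) hjq (full_block hN (Ne.symm hjq) hj.symm) (h2 i hi)
  have h4 : ∀ i j : Pt, i.1 ≠ j.1 → Full K i j := by
    intro i j hij e
    let σ0 : Equiv.Perm (Fin t) := Equiv.swap p.1 i.1
    let σ : Equiv.Perm (Fin t) := Equiv.swap (σ0 q.1) j.1 * σ0
    have hσq : σ q.1 = j.1 := by simp [σ]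
    have hσp : σ p.1 = i.1 := by
      simp only [σ, Equiv.Perm.mul_apply]
      rw [show σ0 p.1 = i.1 from Equiv.swap_apply_left p.1 i.1, Equiv.swap_apply_of_ne_of_ne _ hij]
      intro e'
      exact hpq (σ0.injective ((Equiv.swap_apply_left p.1 i.1).trans e'))
    let π : Equiv.Perm Pt := Equiv.prodCongr σ (Equiv.refl _)
    let sg : Fˣ := Units.map (Int.castRingHom F).toMonoidHom (Equiv.Perm.sign π)
    let o : Pt := (i.1, i.2)
    let cc : Pt → Fˣ := fun l => if l = o then sg else 1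
    let g : GL Pt F := {
      val := Matrix.of fun a b => if π b = a then (cc a : F) else 0
      inv := Matrix.of fun a b => if π a = b then (((cc b)⁻¹ : Fˣ) : F) else 0
      val_inv := by
        ext a b
        rw [mul_apply, Fintype.sum_eq_single (π.symm a)]
        · by_cases hab : a = b
          · subst hab; simp
          · simp [hab]
        · intro l hl
          have : π l ≠ a := fun e => hl (by rw [← e, Equiv.symm_apply_apply])
          simp [this]
      inv_val := by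
        ext a b
        rw [mul_apply, Fintype.sum_eq_single (π a)]
        · by_cases hab : a = b
          · subst hab; simp
          · simp [hab, π.injective.eq_iff, Ne.symm hab]
        · intro l hl
          simp [Ne.symm hl] }
    have hg : g ∈ K := by
      refine hN g (fun a => ⟨σ a, fun k i hi => ?_⟩) ?_
      · show (if π (a, k) = i then _ else _) = _
        rw [if_neg]
        rintro rfl
        exact hi rfl
      · have : (g : Matrix Pt Pt F) = (Matrix.diagonal fun a => (cc a : F)).submatrix id π := by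
          ext a b
          show (if π b = a then _ else _) = _
          by_cases hh : π b = a
          · subst hh; simp
          · simp [hh, Ne.symm hh]
        rw [this, Matrix.det_permute', Matrix.det_diagonal, ← Units.coe_prod, Finset.prod_ite_eq',
          if_pos (mem_univ _)]
        show ((Equiv.Perm.sign π : ℤ) : F) * ((Equiv.Perm.sign π : ℤ) : F) = 1
        rw [← Int.cast_mul, ← Units.val_mul, Int.units_mul_self]; simp
    let i0 : Pt := (p.1, i.2)
    let j0 : Pt := (q.1, j.2)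
    have hi0 : π i0 = i := Prod.ext hσp rfl
    have hj0 : π j0 = j := Prod.ext hσq rfl
    have hT := t_conj (h3 i0 j0 rfl rfl ((cc j : F) * e * (((cc i)⁻¹ : Fˣ) : F))) hg
    have e1 : (g : Matrix Pt Pt F) *ᵥ Pi.single i0 1 = (cc i : F) • (Pi.single i 1 : Pt → F) := by
      rw [Matrix.mulVec_single_one]
      ext a
      show (if π i0 = a then _ else _) = _
      rw [hi0]
      by_cases ha : i = a
      · subst ha; simp
      · simp [ha, Ne.symm ha]
    have e2 : (Pi.single j0 ((cc j : F) * e * (((cc i)⁻¹ : Fˣ) : F)) : Pt → F) ᵥ* (g⁻¹ : GL Pt F).val =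
        Pi.single j (e * (((cc i)⁻¹ : Fˣ) : F)) := by
      ext b
      rw [Matrix.single_vecMul, Pi.smul_apply, smul_eq_mul]
      show _ * (if π j0 = b then _ else _) = _
      rw [hj0]
      by_cases hb : j = b
      · subst hb; simp; field_simp
      · simp [hb, Ne.symm hb]
    rw [e1, e2] at hT
    obtain ⟨hd, hm'⟩ := hT
    have hd' : (Pi.single j e : Pt → F) ⬝ᵥ Pi.single i 1 = 0 := by
      rw [single_dotProduct, Pi.single_eq_of_ne (show j ≠ i from fun e' => hij (by rw [e'])), mul_zero]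
    refine ⟨hd', ?_⟩
    convert hm' using 1
    refine Units.ext ?_
    rw [tv_val, tv_val]
    congr 1
    ext a b
    simp only [vecMulVec_apply, Pi.smul_apply, smul_eq_mul]
    by_cases hb : b = j
    · subst hb; simp; field_simp
    · simp [Pi.single_eq_of_ne hb]
  intro g hg
  let A : Matrix.SpecialLinearGroup Pt F := ⟨(g : Matrix Pt Pt F), mem_specialLinear_iff.mp hg⟩
  have hnt : Nontrivial Pt := ⟨p, q, fun e => hpq (by rw [e])⟩
  suffices ∀ B : Matrix.SpecialLinearGroup Pt F, Matrix.SpecialLinearGroup.toGL B ∈ K by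
    have := this A
    rwa [show Matrix.SpecialLinearGroup.toGL A = g from Units.ext rfl] at this
  intro B
  induction B using Cfsg.Agent.Linear.transvection_induction with
  | ht i j hij b =>
    obtain ⟨hd, hm'⟩ : T K (Pi.single i 1) (Pi.single j b) := by
      by_cases hb : i.1 = j.1
      · exact t_block hN hij hb b
      · exact h4 i j hb b
    convert hm' using 1
    refine Units.ext ?_
    show Matrix.transvection i j b = 1 + _
    rw [Matrix.transvection]
    congr 1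
    ext x y
    rcases eq_or_ne x i with rfl | hx <;> rcases eq_or_ne y j with rfl | hy <;>
      simp [Matrix.vecMulVec_apply, *, Ne.symm]
  | hmul A B hA hB => rw [map_mul]; exact K.mul_mem hA hB

theorem sl_of_not_block (hN : ContainsN K) (hm : 2 ≤ m) (h2 : m = 2 → 3 ≤ t ∧ ∃ z : Fˣ, z ≠ 1) {y : GL Pt F}
    (hy : y ∈ K) (hyb : ¬ IsBlock y) : Cfsg.Geo.specialLinear (Fin t × Fin m) F ≤ K := by
  obtain ⟨p, q, hpq, c, hc, h⟩ := exists_root hN hm h2 hy hyb
  exact sl_of_root hN hm hpq hc h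

end Cfsg.Agent.GeomClasses.BlockMax
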