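import Cfsg.Agent.GeomClasses.SubspaceDerange
import Cfsg.Prelude.Def_GeometricClasses

/-!
# Decompositions stabilised by elements of prime order
-/

set_option autoImplicit false
set_option linter.unusedSectionVars false

namespace Cfsg.Agent.GeomClasses.DecompDerange

open Module

variable {F : Type*} [Field F] {n a t : ℕ}

local notation "Vn" => (Fin n → F)

/-- A spanning family of the right size gives a decomposition. -/
theorem of_iSup (ha : 1 ≤ a) (ht : 2 ≤ t) (hn : n = a * t) {D : Fin t → Submodule F Vn}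
    (hdim : ∀ j, finrank F (D j) = a) (hsup : iSup D = ⊤) :
    Cfsg.Geo.IsMDecomposition a D ∧
      ∀ u : Fin t → Vn, (∀ j, u j ∈ D j) → ∑ j, u j = 0 → ∀ j, u j = 0 := by
  classical
  let Φ : ((j : Fin t) → D j) →ₗ[F] Vn := LinearMap.lsum F (fun j => ↥(D j)) F (fun j => (D j).subtype)
  have hΦ : ∀ u, Φ u = ∑ j, (u j : Vn) := fun u => by simp [Φ]
  have hsurj : LinearMap.range Φ = ⊤ := by
    rw [eq_top_iff, ← hsup, iSup_le_iff]
    intro j v hv
    refine ⟨Pi.single j ⟨v, hv⟩, ?_⟩
    rw [hΦ, Finset.sum_eq_single j]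
    · simp
    · intro b _ hb; simp [hb]
    · simp
  have hinj : LinearMap.ker Φ = ⊥ := by
    have h := LinearMap.finrank_range_add_finrank_ker Φ
    rw [hsurj, finrank_top, Module.finrank_fin_fun, Module.finrank_pi_fintype] at h
    simp only [hdim, Finset.sum_const, Finset.card_univ, Fintype.card_fin, smul_eq_mul] at h
    exact Submodule.finrank_eq_zero.1 (by have h' := hn; rw [mul_comm] at h'; omega)
  have hzero : ∀ u : Fin t → Vn, (∀ j, u j ∈ D j) → ∑ j, u j = 0 → ∀ j, u j = 0 := by
    intro u hu hs j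
    have h : (fun j => (⟨u j, hu j⟩ : D j)) ∈ LinearMap.ker Φ := by rw [LinearMap.mem_ker, hΦ]; exact hs
    rw [hinj, Submodule.mem_bot] at h
    exact congrArg Subtype.val (congrFun h j)
  refine ⟨⟨ht, ha, hdim, ?_, hsup⟩, hzero⟩
  intro j
  rw [Submodule.disjoint_def]
  intro v hv hv'
  obtain ⟨f, hf, hfv⟩ := (Submodule.mem_iSup_iff_exists_finsupp (fun l => ⨆ (_ : l ≠ j), D l) v).1 hv'
  have hfj : f j = 0 := by simpa using hf j
  have hmem : ∀ l, f l ∈ D l := fun l => by
    by_cases h : l = j
    · rw [h, hfj]; exact Submodule.zero_mem _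
    · simpa [h] using hf l
  rw [Finsupp.sum_fintype _ _ (fun _ => rfl)] at hfv
  have h0 := hzero (fun l => f l - if l = j then v else 0)
    (fun l => (D l).sub_mem (hmem l) (by split_ifs with h; exacts [h ▸ hv, Submodule.zero_mem _]))
    (by rw [Finset.sum_sub_distrib, hfv]; simp) j
  simpa [hfj] using h0

theorem zero_of_decomp {D : Fin t → Submodule F Vn} (hn : n = a * t) (hD : Cfsg.Geo.IsMDecomposition a D) :
    ∀ u : Fin t → Vn, (∀ j, u j ∈ D j) → ∑ j, u j = 0 → ∀ j, u j = 0 :=
  (of_iSup hD.pos hD.two_le hn hD.finrank_eq hD.iSup_eq_top).2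

/-- Blocks of a spanning family permuted by `T`. -/
theorem of_blocks (ha : 1 ≤ a) (ht : 2 ≤ t) (hn : n = a * t) {T : Module.End F Vn} (hT : Function.Injective T)
    {J A : Type} [Fintype J] [Fintype A] (hJ : Fintype.card J = t) (hA : Fintype.card A = a) (B : J × A → Vn)
    (hB : Submodule.span F (Set.range B) = ⊤) (σ : Equiv.Perm J)
    (hσ : ∀ j x, T (B (j, x)) ∈ Submodule.span F (Set.range fun y => B (σ j, y))) :
    ∃ D : Fin t → Submodule F Vn, Cfsg.Geo.IsMDecomposition a D ∧ ∃ τ : Equiv.Perm (Fin t), ∀ j, (D j).map T = D (τ j) := by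
  classical
  have hli : LinearIndependent F B := linearIndependent_of_top_le_span_of_card_eq_finrank hB.ge (by
    rw [Module.finrank_fin_fun, Fintype.card_prod, hJ, hA, hn, mul_comm])
  let e : Fin t ≃ J := (Fintype.equivFinOfCardEq hJ).symm
  let D : Fin t → Submodule F Vn := fun j => Submodule.span F (Set.range fun y => B (e j, y))
  have hdim : ∀ j, finrank F (D j) = a := fun j => by
    show finrank F (Submodule.span F _) = a
    exact (finrank_span_eq_card (hli.comp (fun y => (e j, y)) (fun y y' h => (Prod.mk.inj h).2))).trans hA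
  have hsup : iSup D = ⊤ := by
    rw [eq_top_iff, ← hB, Submodule.span_le]
    rintro _ ⟨⟨j, y⟩, rfl⟩
    exact Submodule.mem_iSup_of_mem (e.symm j) (Submodule.subset_span ⟨y, by simp⟩)
  refine ⟨D, (of_iSup ha ht hn hdim hsup).1, e.trans (σ.trans e.symm), fun j => ?_⟩
  refine Submodule.eq_of_le_of_finrank_eq ?_ ?_
  · rw [Submodule.map_span_le]
    rintro _ ⟨y, rfl⟩
    simpa [D] using hσ (e j) y
  · rw [← (Submodule.equivMapOfInjective T hT (D j)).finrank_eq, hdim, hdim]

section Fin

variable [Fintype F] {q r : ℕ} [Fact r.Prime]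

theorem injective_of_pow {T : Module.End F Vn} {z : F} (hT : T ^ r = z • 1) (hz : z ≠ 0) : Function.Injective T := by
  intro u v h
  have := congrArg (T ^ (r - 1)) h
  rw [← Module.End.mul_apply, ← Module.End.mul_apply, ← pow_succ, Nat.sub_add_cancel (Fact.out : r.Prime).one_lt.le, hT] at this
  simpa [hz] using this

/-- Invariant bins. -/
theorem exists_bins (hq : Fintype.card F = q) (hrq : ¬ r ∣ q) (hrF : (r : F) ≠ 0) {i : ℕ}
    (hi : i = orderOf (q : ZMod r)) (ha : 1 ≤ a) (ht : 2 ≤ t) (hn : n = a * t) {T : Module.End F Vn} (hT : T ^ r = 1)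
    (hk : t * (a % i) < i) :
    ∃ D : Fin t → Submodule F Vn, Cfsg.Geo.IsMDecomposition a D ∧ ∀ j, ∀ v ∈ D j, T v ∈ D j := by
  suffices ∀ s, s ≤ t → ∀ W : Submodule F Vn, (∀ v ∈ W, T v ∈ W) → finrank F W = s * a →
      ∃ D : Fin s → Submodule F Vn, (∀ j, finrank F (D j) = a ∧ ∀ v ∈ D j, T v ∈ D j) ∧ iSup D = W by
    obtain ⟨D, hD, hsup⟩ := this t le_rfl ⊤ (fun _ _ => trivial) (by rw [finrank_top, Module.finrank_fin_fun, hn, mul_comm])
    exact ⟨D, (of_iSup ha ht hn (fun j => (hD j).1) hsup).1, fun j => (hD j).2⟩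
  intro s
  induction s with
  | zero =>
    intro _ W _ hW
    refine ⟨Fin.elim0, fun j => j.elim0, ?_⟩
    rw [zero_mul, Submodule.finrank_eq_zero] at hW
    simp [hW]
  | succ s ih =>
    intro hs W hW hWd
    set TW := T.restrict hW
    have hTW : TW ^ r = 1 := LinearMap.ext fun w => Subtype.ext (by
      rw [Module.End.pow_restrict r, LinearMap.restrict_apply]; simp [hT])
    set f := finrank F (LinearMap.ker (TW - 1)) with hf
    have hmod := SubspaceDerange.dim_mod hq hrq hi hTW (W := ⊤) (fun _ _ => trivial)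
    rw [top_inf_eq, finrank_top, hWd, ← hf] at hmod
    have hfn : f ≤ (s + 1) * a := hWd ▸ Submodule.finrank_le (LinearMap.ker (TW - 1))
    obtain ⟨K, hK⟩ := (Nat.modEq_iff_dvd' hfn).1 hmod.symm
    have hlt : (s + 1) * (a % i) < i := (Nat.mul_le_mul_right _ hs).trans_lt hk
    have hf' : a % i ≤ f := by
      have h1 : f % i = (s + 1) * (a % i) := by
        rw [← hmod, Nat.mul_mod, Nat.mod_mul_mod, Nat.mod_eq_of_lt hlt]
      have := Nat.mod_le f i
      have h2 : a % i ≤ (s + 1) * (a % i) := Nat.le_mul_of_pos_left _ (by omega)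
      omega
    obtain ⟨U, -, -, hU, -, hUi, -⟩ := SubspaceDerange.exists_flag hq hrq hi hTW hrF hf.symm
      (j := min K (a / i)) (j' := min K (a / i)) (e := a - min K (a / i) * i) (e' := a - min K (a / i) * i) le_rfl
      (by
        have := Nat.mul_le_mul_right i (min_le_left K (a / i))
        rw [hWd, mul_comm K i, ← hK] at *
        omega) le_rfl (by
        rcases le_total (a / i) K with h | h
        · rw [min_eq_right h]
          have := Nat.div_add_mod' a i
          omega
        · rw [min_eq_left h, mul_comm K i, ← hK]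
          have : a ≤ (s + 1) * a := Nat.le_mul_of_pos_left _ (by omega)
          omega)
    have hUd : finrank F U = a := by
      rw [hU]
      have h1 := Nat.mul_le_mul_right i (min_le_right K (a / i))
      have := Nat.div_add_mod' a i
      omega
    obtain ⟨W', hc, hW'i⟩ := SubspaceDerange.exists_compl (T := TW) (Fact.out : r.Prime).pos hrF (one_ne_zero (α := F))
      (by rw [hTW, one_smul]) hUi
    have hW'd : finrank F W' = s * a := by
      have := Submodule.finrank_add_eq_of_isCompl hc
      rw [hUd, hWd, Nat.succ_mul] at this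
      omega
    obtain ⟨D, hD, hsup⟩ := ih (by omega) (W'.map W.subtype) (by
        rintro _ ⟨w, hw, rfl⟩; exact ⟨TW w, hW'i w hw, rfl⟩)
      (by rw [Submodule.finrank_map_subtype_eq, hW'd])
    refine ⟨Fin.cons (U.map W.subtype) D, ?_, ?_⟩
    · intro j
      refine Fin.cases ?_ (fun j => ?_) j
      · simp only [Fin.cons_zero]
        refine ⟨(Submodule.finrank_map_subtype_eq W U).trans hUd, ?_⟩
        rintro _ ⟨w, hw, rfl⟩; exact ⟨TW w, hUi w hw, rfl⟩
      · simp only [Fin.cons_succ]
        exact hD j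
    · rw [show iSup (Fin.cons (U.map W.subtype) D : Fin (s + 1) → Submodule F Vn) = U.map W.subtype ⊔ iSup D from
        le_antisymm (iSup_le fun j => Fin.cases le_sup_left (fun j => by
            simp only [Fin.cons_succ]; exact le_sup_of_le_right (le_iSup D j)) j)
          (sup_le (le_iSup_of_le 0 (by simp)) (iSup_le fun j => le_iSup_of_le j.succ (by simp))),
        hsup, ← Submodule.map_sup, hc.sup_eq_top, Submodule.map_top, Submodule.range_subtype]

/-- Generators of the cycles of a map with non-power scalar `r`th power. -/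
theorem generators_nonpower {z : F} (hz : ∀ b : F, b ^ r ≠ z) {T : Module.End F Vn} (hT : T ^ r = z • 1) :
    ∃ (k : ℕ) (v : Fin k → Vn), n = r * k ∧
      Submodule.span F (Set.range fun x : Fin k × Fin r => (T ^ (x.2 : ℕ)) (v x.1)) = ⊤ := by
  obtain ⟨k, hk, -, -⟩ := SubspaceDerange.nonpower hz hT
  rw [Module.finrank_fin_fun] at hk
  suffices ∀ j ≤ k, ∃ v : Fin j → Vn,
      finrank F (Submodule.span F (Set.range fun x : Fin j × Fin r => (T ^ (x.2 : ℕ)) (v x.1))) = r * j by
    obtain ⟨v, hv⟩ := this k le_rfl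
    exact ⟨k, v, hk, Submodule.eq_top_of_finrank_eq (by rw [hv, Module.finrank_fin_fun, hk])⟩
  have hinv : ∀ (j : ℕ) (v : Fin j → Vn) u, u ∈ Submodule.span F (Set.range fun x : Fin j × Fin r => (T ^ (x.2 : ℕ)) (v x.1)) →
      T u ∈ Submodule.span F (Set.range fun x : Fin j × Fin r => (T ^ (x.2 : ℕ)) (v x.1)) := by
    intro j v
    set S := Submodule.span F (Set.range fun x : Fin j × Fin r => (T ^ (x.2 : ℕ)) (v x.1)) with hS
    suffices h : S.map T ≤ S from fun u hu => h ⟨u, hu, rfl⟩
    rw [hS, Submodule.map_span_le]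
    rintro _ ⟨⟨m, l⟩, rfl⟩
    simp only
    rw [← Module.End.mul_apply, ← pow_succ']
    rcases (show (l : ℕ) + 1 < r ∨ (l : ℕ) + 1 = r by omega) with h | h
    · exact Submodule.subset_span ⟨(m, ⟨_, h⟩), rfl⟩
    · rw [h, hT, LinearMap.smul_apply]
      exact Submodule.smul_mem _ _ (Submodule.subset_span ⟨(m, ⟨0, (Fact.out : r.Prime).pos⟩), rfl⟩)
  intro j
  induction j with
  | zero => exact fun _ => ⟨Fin.elim0, by rw [Set.range_eq_empty, Submodule.span_empty, finrank_bot, mul_zero]⟩
  | succ j ih =>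
    intro hj
    obtain ⟨v, hv⟩ := ih (by omega)
    set U := Submodule.span F (Set.range fun x : Fin j × Fin r => (T ^ (x.2 : ℕ)) (v x.1)) with hU
    obtain ⟨w, hw⟩ : ∃ w, w ∉ U := by
      by_contra h
      push_neg at h
      rw [show U = ⊤ from eq_top_iff.2 fun u _ => h u, finrank_top, Module.finrank_fin_fun] at hv
      have := Nat.eq_of_mul_eq_mul_left (Fact.out : r.Prime).pos (hk.symm.trans hv)
      omega
    refine ⟨Fin.cons w v, ?_⟩
    set U' := Submodule.span F (Set.range fun x : Fin (j + 1) × Fin r => (T ^ (x.2 : ℕ)) ((Fin.cons w v : Fin (j + 1) → Vn) x.1)) with hU'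
    have hle : U ≤ U' := Submodule.span_le.2 (by
      rintro _ ⟨⟨m, l⟩, rfl⟩; exact Submodule.subset_span ⟨(m.succ, l), by simp⟩)
    have hw' : w ∈ U' := Submodule.subset_span ⟨(0, ⟨0, (Fact.out : r.Prime).pos⟩), by simp⟩
    have hgt : r * j < finrank F U' := hv ▸ Submodule.finrank_lt_finrank_of_lt (lt_of_le_of_ne hle (fun e => hw (e ▸ hw')))
    have hle' : finrank F U' ≤ (j + 1) * r := by
      refine (finrank_range_le_card _).trans ?_
      simp
    obtain ⟨c, hc⟩ := SubspaceDerange.dvd_of_nonpower hz hT (hinv (j + 1) (Fin.cons w v))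
    rw [← hU'] at hc
    rw [hc] at hgt hle' ⊢
    have h1 := Nat.lt_of_mul_lt_mul_left hgt
    have h2 := Nat.le_of_mul_le_mul_left (show r * c ≤ r * (j + 1) from hle'.trans_eq (mul_comm _ _)) (Fact.out : r.Prime).pos
    rw [show c = j + 1 by omega]

/-- The nonpower case. -/
theorem decomp_nonpower (ha : 1 ≤ a) (ht : 2 ≤ t) (hn : n = a * t) {z : F} (hz0 : z ≠ 0) (hz : ∀ b : F, b ^ r ≠ z)
    {T : Module.End F Vn} (hT : T ^ r = z • 1) :
    ∃ D : Fin t → Submodule F Vn, Cfsg.Geo.IsMDecomposition a D ∧ ∃ τ : Equiv.Perm (Fin t), ∀ j, (D j).map T = D (τ j) := by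
  classical
  obtain ⟨k, v, hk, hv⟩ := generators_nonpower hz hT
  have hr : r.Prime := Fact.out
  have : NeZero r := ⟨hr.ne_zero⟩
  have hstep : ∀ (m : Fin k) (l : Fin r), ∃ c : F, T ((T ^ (l : ℕ)) (v m)) = c • (T ^ ((l + 1 : Fin r) : ℕ)) (v m) := by
    intro m l
    rw [← Module.End.mul_apply, ← pow_succ']
    have h1' : ((l + 1 : Fin r) : ℕ) = ((l : ℕ) + 1) % r := by
      rw [Fin.val_add, Fin.val_one', Nat.add_mod_mod]
    rcases (show (l : ℕ) + 1 < r ∨ (l : ℕ) + 1 = r by omega) with h | h
    · exact ⟨1, by rw [h1', Nat.mod_eq_of_lt h, one_smul]⟩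
    · exact ⟨z, by rw [h1', h, Nat.mod_self, hT, pow_zero]; rfl⟩
  by_cases hra : r ∣ a
  · obtain ⟨a', rfl⟩ := hra
    have hka : k = t * a' := Nat.eq_of_mul_eq_mul_left hr.pos (by rw [← hk, hn]; ring)
    subst hka
    let B : Fin t × (Fin a' × Fin r) → Vn := fun x => (T ^ (x.2.2 : ℕ)) (v (finProdFinEquiv (x.1, x.2.1)))
    refine of_blocks ha ht hn (injective_of_pow hT hz0) (Fintype.card_fin t)
      (by simp [mul_comm]) B ?_ 1 ?_
    · rw [eq_top_iff, ← hv, Submodule.span_le]
      rintro _ ⟨⟨m, l⟩, rfl⟩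
      obtain ⟨⟨g, h⟩, rfl⟩ := finProdFinEquiv.surjective m
      exact Submodule.subset_span ⟨(g, h, l), rfl⟩
    · rintro g ⟨h, l⟩
      obtain ⟨c, hc⟩ := hstep (finProdFinEquiv (g, h)) l
      show T ((T ^ (l : ℕ)) _) ∈ _
      rw [hc]
      exact Submodule.smul_mem _ _ (Submodule.subset_span ⟨(h, l + 1), rfl⟩)
  · obtain ⟨t', rfl⟩ : r ∣ t := (hr.dvd_mul.1 (hn ▸ hk ▸ dvd_mul_right r k)).resolve_left hra
    have hka : k = t' * a := Nat.eq_of_mul_eq_mul_left hr.pos (by rw [← hk, hn]; ring)
    subst hka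
    let B : (Fin t' × Fin r) × Fin a → Vn := fun x => (T ^ (x.1.2 : ℕ)) (v (finProdFinEquiv (x.1.1, x.2)))
    refine of_blocks ha ht hn (injective_of_pow hT hz0) (by simp [mul_comm]) (Fintype.card_fin a) B ?_
      ((Equiv.refl _).prodCongr (Equiv.addRight 1)) ?_
    · rw [eq_top_iff, ← hv, Submodule.span_le]
      rintro _ ⟨⟨m, l⟩, rfl⟩
      obtain ⟨⟨g, h⟩, rfl⟩ := finProdFinEquiv.surjective m
      exact Submodule.subset_span ⟨((g, l), h), rfl⟩
    · rintro ⟨g, l⟩ h
      obtain ⟨c, hc⟩ := hstep (finProdFinEquiv (g, h)) l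
      show T ((T ^ (l : ℕ)) _) ∈ _
      rw [hc]
      exact Submodule.smul_mem _ _ (Submodule.subset_span ⟨h, rfl⟩)

/-- Permuted lines when `q` has order `r - 1` modulo `r` and there are enough fixed points. -/
theorem decomp_lines (hq : Fintype.card F = q) (hrq : ¬ r ∣ q) (hrF : (r : F) ≠ 0) {i : ℕ}
    (hi : i = orderOf (q : ZMod r)) (hir : i = r - 1) (ht : 2 ≤ n) (hkr : n ≤ (n % i) * r)
    {T : Module.End F Vn} (hT : T ^ r = 1) :
    ∃ D : Fin n → Submodule F Vn, Cfsg.Geo.IsMDecomposition 1 D ∧ ∃ τ : Equiv.Perm (Fin n), ∀ j, (D j).map T = D (τ j) := by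
  classical
  have hr : r.Prime := Fact.out
  have : NeZero r := ⟨hr.ne_zero⟩
  obtain ⟨hi0, -⟩ := SubspaceDerange.dvd_pow_sub_one hrq hi
  set R := LinearMap.range (T - 1)
  set Kf := LinearMap.ker (T - 1)
  have hRK : R ⊓ Kf = ⊥ := by
    rw [eq_bot_iff]
    rintro _ ⟨⟨u, rfl⟩, hk⟩
    set d := (T - 1) u
    have hd : T d = d := sub_eq_zero.1 hk
    have hTu : T u = u + d := by simp [d]
    have hpow : ∀ k : ℕ, (T ^ k) u = u + k • d := by
      intro k
      induction k with
      | zero => simp
      | succ k ih => rw [pow_succ', Module.End.mul_apply, ih, map_add, map_nsmul, hd, hTu, succ_nsmul]; abel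
    have h := hpow r
    rw [hT, Module.End.one_apply, left_eq_add, ← Nat.cast_smul_eq_nsmul F, smul_eq_zero] at h
    exact (Submodule.mem_bot F).2 (h.resolve_left hrF)
  have hRi : ∀ v ∈ R, T v ∈ R := by rintro _ ⟨u, rfl⟩; exact ⟨T u, by simp⟩
  have hdiv : ∀ U : Submodule F Vn, U ≤ R → (∀ v ∈ U, T v ∈ U) → i ∣ finrank F U := by
    intro U hUR hU
    have h := SubspaceDerange.dim_mod hq hrq hi hT hU
    rw [show U ⊓ Kf = ⊥ from le_bot_iff.1 (hRK ▸ inf_le_inf_right _ hUR), finrank_bot] at h
    exact Nat.modEq_zero_iff_dvd.1 h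
  obtain ⟨K, hK⟩ := hdiv R le_rfl hRi
  set f := finrank F Kf with hf
  have hrank : finrank F R + f = n := by
    have := LinearMap.finrank_range_add_finrank_ker (T - 1)
    rwa [Module.finrank_fin_fun] at this
  have hsumz : ∀ v ∈ R, ∑ l : Fin r, (T ^ (l : ℕ)) v = 0 := by
    intro v hv
    have hS : (T - 1) * (∑ l ∈ Finset.range r, T ^ l) = 0 := by rw [mul_geom_sum, hT, sub_self]
    have h1 : ∑ l ∈ Finset.range r, (T ^ l) v ∈ R ⊓ Kf := by
      have hl : ∀ l : ℕ, (T ^ l) v ∈ R := by
        intro l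
        induction l with
        | zero => simpa using hv
        | succ l ih => rw [pow_succ', Module.End.mul_apply]; exact hRi _ ih
      refine ⟨Submodule.sum_mem _ fun l _ => hl l, ?_⟩
      · show (T - 1) _ = 0
        rw [← LinearMap.sum_apply, ← Module.End.mul_apply, hS, LinearMap.zero_apply]
    rw [hRK, Submodule.mem_bot] at h1
    rw [← h1, Finset.sum_range]
  have hgen : ∀ j ≤ K, ∃ v : Fin j → Vn, (∀ m, v m ∈ R) ∧
      finrank F (Submodule.span F (Set.range fun x : Fin j × Fin r => (T ^ (x.2 : ℕ)) (v x.1))) = i * j := by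
    intro j
    induction j with
    | zero => exact fun _ => ⟨Fin.elim0, fun m => m.elim0, by rw [Set.range_eq_empty, Submodule.span_empty, finrank_bot, mul_zero]⟩
    | succ j ih =>
      intro hj
      obtain ⟨v, hvR, hv⟩ := ih (by omega)
      set U := Submodule.span F (Set.range fun x : Fin j × Fin r => (T ^ (x.2 : ℕ)) (v x.1))
      obtain ⟨w, hwR, hw⟩ : ∃ w ∈ R, w ∉ U := by
        by_contra h
        push_neg at h
        have := Submodule.finrank_mono (show R ≤ U from h)
        rw [hv, hK] at this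
        have := Nat.le_of_mul_le_mul_left this hi0
        omega
      have hpowR : ∀ (l : ℕ) (u : Vn), u ∈ R → (T ^ l) u ∈ R := by
        intro l
        induction l with
        | zero => intro u hu; simpa using hu
        | succ l ih => intro u hu; rw [pow_succ', Module.End.mul_apply]; exact hRi _ (ih u hu)
      refine ⟨Fin.cons w v, fun m => Fin.cases (by simpa using hwR) (fun m => by simpa using hvR m) m, ?_⟩
      set U' := Submodule.span F (Set.range fun x : Fin (j + 1) × Fin r => (T ^ (x.2 : ℕ)) ((Fin.cons w v : Fin (j + 1) → Vn) x.1)) with hU'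
      have hU'R : U' ≤ R := Submodule.span_le.2 (by
        rintro _ ⟨⟨m, l⟩, rfl⟩
        exact hpowR _ _ (Fin.cases (by simpa using hwR) (fun m => by simpa using hvR m) m))
      have hU'i : ∀ u ∈ U', T u ∈ U' := fun u hu => (show U'.map T ≤ U' by
        rw [hU', Submodule.map_span_le]
        rintro _ ⟨⟨m, l⟩, rfl⟩
        simp only
        rw [← Module.End.mul_apply, ← pow_succ']
        rcases (show (l : ℕ) + 1 < r ∨ (l : ℕ) + 1 = r by omega) with h | h
        · exact Submodule.subset_span ⟨(m, ⟨_, h⟩), rfl⟩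
        · rw [h, hT]
          exact Submodule.subset_span ⟨(m, ⟨0, hr.pos⟩), by simp⟩) ⟨u, hu, rfl⟩
      have hle : U ≤ U' := Submodule.span_le.2 (by
        rintro _ ⟨⟨m, l⟩, rfl⟩; exact Submodule.subset_span ⟨(m.succ, l), by simp⟩)
      have hw' : w ∈ U' := Submodule.subset_span ⟨(0, ⟨0, hr.pos⟩), by simp⟩
      have hgt : i * j < finrank F U' := hv ▸ Submodule.finrank_lt_finrank_of_lt (lt_of_le_of_ne hle (fun e => hw (e ▸ hw')))
      have hle' : U' ≤ U ⊔ Submodule.span F (Set.range fun l : Fin i => (T ^ (l : ℕ)) w) := Submodule.span_le.2 (by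
        rintro _ ⟨⟨m, l⟩, rfl⟩
        refine Fin.cases ?_ (fun m => ?_) m
        · simp only [Fin.cons_zero]
          rcases (show (l : ℕ) < i ∨ (l : ℕ) = i by omega) with h | h
          · exact Submodule.mem_sup_right (Submodule.subset_span ⟨⟨l, h⟩, rfl⟩)
          · have h0 := hsumz w hwR
            rw [← Finset.sum_range (fun l => (T ^ l) w), show r = i + 1 by omega, Finset.sum_range_succ,
              add_eq_zero_iff_neg_eq] at h0
            rw [h, ← h0]
            refine Submodule.mem_sup_right (Submodule.neg_mem _ (Submodule.sum_mem _ fun x hx => ?_))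
            exact Submodule.subset_span ⟨⟨x, Finset.mem_range.1 hx⟩, rfl⟩
        · exact Submodule.mem_sup_left (Submodule.subset_span ⟨(m, l), by simp⟩))
      have h2 : finrank F U' ≤ i * j + i := by
        refine (Submodule.finrank_mono hle').trans ((Submodule.finrank_add_le_finrank_add_finrank _ _).trans ?_)
        rw [hv]
        exact Nat.add_le_add_left ((finrank_range_le_card _).trans_eq (Fintype.card_fin i)) _
      obtain ⟨c, hc⟩ := hdiv U' hU'R hU'i
      rw [← hU'] at *
      rw [hc] at h2 hgt ⊢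
      have g1 := Nat.lt_of_mul_lt_mul_left hgt
      have g2 : c ≤ j + 1 := Nat.le_of_mul_le_mul_left (by rw [Nat.mul_add, mul_one]; exact h2) hi0
      rw [show c = j + 1 by omega]
  obtain ⟨v, hvR, hv⟩ := hgen K le_rfl
  have hspanR : R ≤ Submodule.span F (Set.range fun x : Fin K × Fin r => (T ^ (x.2 : ℕ)) (v x.1)) := by
    refine (Submodule.eq_of_le_of_finrank_eq ?_ (by rw [hv, hK])).ge
    refine Submodule.span_le.2 ?_
    rintro _ ⟨⟨m, l⟩, rfl⟩
    have : ∀ l : ℕ, (T ^ l) (v m) ∈ R := by
      intro l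
      induction l with
      | zero => simpa using hvR m
      | succ l ih => rw [pow_succ', Module.End.mul_apply]; exact hRi _ ih
    exact this l
  have hKf : K ≤ f := by
    have hfk : n % i ≤ f := by
      conv_lhs => rw [← hrank, hK, Nat.mul_add_mod]
      exact Nat.mod_le _ _
    have h1 : i * K + f = n := by omega
    have h2 : n ≤ f * r := hkr.trans (Nat.mul_le_mul_right r hfk)
    rw [show r = i + 1 by omega, Nat.mul_add, mul_one, mul_comm f i] at h2
    exact Nat.le_of_mul_le_mul_left (by omega) hi0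
  obtain ⟨d, hd⟩ := Nat.exists_eq_add_of_le hKf
  let u : Fin (K + d) → Vn := fun m => (Module.finBasisOfFinrankEq F Kf (hf.symm.trans hd) m : Vn)
  have hu : ∀ m, T (u m) = u m := fun m => sub_eq_zero.1 (Module.finBasisOfFinrankEq F Kf (hf.symm.trans hd) m).2
  let J := (Fin K × Fin r) ⊕ Fin d
  let e : J → Vn := Sum.elim (fun x => (T ^ (x.2 : ℕ)) (v x.1) + u (Fin.castAdd d x.1)) (fun m => u (Fin.natAdd K m))
  let B : J × Unit → Vn := fun x => e x.1
  have hcard : Fintype.card J = n := by
    have h3 : K * r = i * K + K := by rw [show r = i + 1 by omega]; ring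
    simp only [J, Fintype.card_sum, Fintype.card_prod, Fintype.card_fin]
    omega
  refine of_blocks le_rfl ht (by rw [one_mul]) (injective_of_pow (z := (1 : F)) (by rw [hT, one_smul]) one_ne_zero) hcard
    (Fintype.card_unit) B ?_
    (((Equiv.refl _).prodCongr (Equiv.addRight 1)).sumCongr (Equiv.refl _)) ?_
  · rw [eq_top_iff]
    set S := Submodule.span F (Set.range B)
    have he : ∀ x, e x ∈ S := fun x => Submodule.subset_span ⟨(x, ()), rfl⟩
    have hu1 : ∀ m : Fin K, u (Fin.castAdd d m) ∈ S := by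
      intro m
      have h : ∑ l : Fin r, e (Sum.inl (m, l)) ∈ S := Submodule.sum_mem _ fun l _ => he _
      simp only [e, Sum.elim_inl] at h
      rw [Finset.sum_add_distrib, hsumz (v m) (hvR m), zero_add, Finset.sum_const, Finset.card_univ, Fintype.card_fin,
        ← Nat.cast_smul_eq_nsmul F] at h
      simpa [smul_smul, inv_mul_cancel₀ hrF] using S.smul_mem (r : F)⁻¹ h
    have hR : R ≤ S := hspanR.trans (Submodule.span_le.2 (by
      rintro _ ⟨⟨m, l⟩, rfl⟩
      simpa [e] using S.sub_mem (he (Sum.inl (m, l))) (hu1 m)))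
    have hKS : Kf ≤ S := by
      intro w hw
      have := (Module.finBasisOfFinrankEq F Kf (hf.symm.trans hd)).sum_repr ⟨w, hw⟩
      rw [← show ((⟨w, hw⟩ : Kf) : Vn) = w from rfl, ← this, Submodule.coe_sum]
      refine Submodule.sum_mem _ fun m _ => S.smul_mem _ ?_
      refine Fin.addCases (fun m => hu1 m) (fun m => ?_) m
      exact he (Sum.inr m)
    intro w _
    have htop : R ⊔ Kf = ⊤ := Submodule.eq_top_of_finrank_eq (by
      rw [SubspaceDerange.finrank_sup_of_disjoint hRK, hrank, Module.finrank_fin_fun])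
    exact (sup_le hR hKS) (htop ▸ Submodule.mem_top)
  · rintro (⟨m, l⟩ | m) -
    · refine Submodule.subset_span ⟨(), ?_⟩
      show (T ^ ((l + 1 : Fin r) : ℕ)) (v m) + u _ = T ((T ^ (l : ℕ)) (v m) + u _)
      rw [map_add, hu, ← Module.End.mul_apply, ← pow_succ', Fin.val_add, Fin.val_one', Nat.add_mod_mod]
      congr 1
      rcases (show (l : ℕ) + 1 < r ∨ (l : ℕ) + 1 = r by omega) with h | h
      · rw [Nat.mod_eq_of_lt h]
      · rw [h, Nat.mod_self, hT, pow_zero]
    · exact Submodule.subset_span ⟨(), (hu _).symm⟩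

/-- Sums over the orbit of a subspace give fixed vectors. -/
theorem fixed_bound {T : Module.End F Vn} (hT : T ^ r = 1) (hn : n = a * t) {D : Fin t → Submodule F Vn}
    (hD : Cfsg.Geo.IsMDecomposition a D) {σ : Equiv.Perm (Fin t)} (hσ : ∀ j, (D j).map T = D (σ j))
    (hfix : ∀ j, σ j = j) : ∑ j, finrank F ↥(D j ⊓ LinearMap.ker (T - 1)) ≤ finrank F (LinearMap.ker (T - 1)) := by
  classical
  let Φ : ((j : Fin t) → ↥(D j ⊓ LinearMap.ker (T - 1))) →ₗ[F] ↥(LinearMap.ker (T - 1)) :=
    LinearMap.lsum F (fun j => ↥(D j ⊓ LinearMap.ker (T - 1))) F (fun j => Submodule.inclusion inf_le_right)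
  have hΦ : ∀ u, (Φ u : Vn) = ∑ j, (u j : Vn) := fun u => by simp [Φ]
  have hinj : Function.Injective Φ := by
    rw [← LinearMap.ker_eq_bot, eq_bot_iff]
    intro u hu
    have h0 := zero_of_decomp hn hD (fun j => (u j : Vn)) (fun j => (u j).2.1) (by
      rw [← hΦ, LinearMap.mem_ker.1 hu]; rfl)
    exact (Submodule.mem_bot F).2 (funext fun j => Subtype.ext (h0 j))
  have := LinearMap.finrank_le_finrank_of_injective hinj
  rwa [Module.finrank_pi_fintype] at this

theorem sigma_facts {T : Module.End F Vn} (hT : T ^ r = 1) {D : Fin t → Submodule F Vn}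
    (hD : Cfsg.Geo.IsMDecomposition a D) {σ : Equiv.Perm (Fin t)} (hσ : ∀ j, (D j).map T = D (σ j)) {j : Fin t}
    (hj : σ j ≠ j) : (∀ l (v : Vn), v ∈ D j → (T ^ l) v ∈ D ((σ ^ l) j)) ∧
      Function.Injective fun l : Fin r => (σ ^ (l : ℕ)) j := by
  have hmem : ∀ l (v : Vn), v ∈ D j → (T ^ l) v ∈ D ((σ ^ l) j) := by
    intro l
    induction l with
    | zero => intro v hv; simpa using hv
    | succ l ih =>
      intro v hv
      rw [pow_succ' σ, Equiv.Perm.mul_apply, pow_succ', Module.End.mul_apply, ← hσ]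
      exact ⟨_, ih v hv, rfl⟩
  refine ⟨hmem, ?_⟩
  have hinjT : Function.Injective T := injective_of_pow (z := (1 : F)) (by rw [hT, one_smul]) one_ne_zero
  have hne : ∀ j, D j ≠ ⊥ := fun j h => by
    have := hD.finrank_eq j
    rw [h, finrank_bot] at this
    have := hD.pos
    omega
  have hDinj : Function.Injective D := fun l l' h => by
    by_contra hne'
    have h2 := hD.indep.pairwiseDisjoint hne'
    rw [Function.onFun, h, disjoint_self] at h2
    exact hne l' h2
  have hper : (σ ^ r) j = j := by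
    have hmap : ∀ l, (D j).map (T ^ l) = D ((σ ^ l) j) := by
      intro l
      induction l with
      | zero => simp [Module.End.one_eq_id]
      | succ l ih => rw [pow_succ', Module.End.mul_eq_comp, Submodule.map_comp, ih, hσ, pow_succ', Equiv.Perm.mul_apply]
    exact hDinj (by rw [← hmap, hT, Module.End.one_eq_id, Submodule.map_id])
  have hmin : Function.minimalPeriod σ j = r := by
    have hp : Function.IsPeriodicPt σ r j := by
      show (⇑σ)^[r] j = j
      rw [← Equiv.Perm.coe_pow]; exact hper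
    exact Function.minimalPeriod_eq_prime hp (fun h => hj h)
  intro l l' h
  simp only [Equiv.Perm.coe_pow] at h
  exact Fin.ext (Function.iterate_injOn_Iio_minimalPeriod (by rw [Set.mem_Iio, hmin]; exact l.2)
    (by rw [Set.mem_Iio, hmin]; exact l'.2) h)

/-- A moved summand gives `a` independent fixed vectors and a large image of `T - 1`. -/
theorem moved_bound {T : Module.End F Vn} (hT : T ^ r = 1) (hn : n = a * t) {D : Fin t → Submodule F Vn}
    (hD : Cfsg.Geo.IsMDecomposition a D) {σ : Equiv.Perm (Fin t)} (hσ : ∀ j, (D j).map T = D (σ j)) {j : Fin t}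
    (hj : σ j ≠ j) : a ≤ finrank F (LinearMap.ker (T - 1)) ∧ (r - 1) * a ≤ finrank F (LinearMap.range (T - 1)) := by
  classical
  obtain ⟨hmem, hinj⟩ := sigma_facts hT hD hσ hj
  have hr : r.Prime := Fact.out
  have hinjT : Function.Injective T := injective_of_pow (z := (1 : F)) (by rw [hT, one_smul]) one_ne_zero
  have key : ∀ g : Fin r → Vn, (∀ l, g l ∈ D j) → ∑ l : Fin r, (T ^ (l : ℕ)) (g l) = 0 → ∀ l, g l = 0 := by
    intro g hg h l
    let u : Fin t → Vn := fun x => ∑ m ∈ Finset.univ.filter (fun m : Fin r => (σ ^ (m : ℕ)) j = x), (T ^ (m : ℕ)) (g m)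
    have hu := zero_of_decomp hn hD u (fun x => Submodule.sum_mem _ fun m hm => by
      rw [← (Finset.mem_filter.1 hm).2]; exact hmem m _ (hg m))
      (by rw [Finset.sum_fiberwise]; exact h) ((σ ^ (l : ℕ)) j)
    rw [show u ((σ ^ (l : ℕ)) j) = (T ^ (l : ℕ)) (g l) from Finset.sum_eq_single l
      (fun m hm hml => absurd (hinj (Finset.mem_filter.1 hm).2) hml) (fun h => absurd (by simp) h)] at hu
    exact (map_eq_zero_iff _ (by rw [Module.End.coe_pow]; exact hinjT.iterate l)).1 hu
  have hfixS : ∀ v, (T - 1) (∑ l : Fin r, (T ^ (l : ℕ)) v) = 0 := fun v => by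
    have hS : (T - 1) * (∑ l ∈ Finset.range r, T ^ l) = 0 := by rw [mul_geom_sum, hT, sub_self]
    rw [← Finset.sum_range (fun l => (T ^ l) v), ← LinearMap.sum_apply, ← Module.End.mul_apply, hS, LinearMap.zero_apply]
  constructor
  · let Φ : D j →ₗ[F] LinearMap.ker (T - 1) :=
      ((∑ l : Fin r, T ^ (l : ℕ)).comp (D j).subtype).codRestrict _ (fun v => by
        rw [LinearMap.mem_ker, LinearMap.comp_apply, LinearMap.sum_apply]; exact hfixS _)
    have hΦ : Function.Injective Φ := by
      rw [← LinearMap.ker_eq_bot, eq_bot_iff]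
      intro v hv
      have h0 : ∑ l : Fin r, (T ^ (l : ℕ)) (v : Vn) = 0 := by
        have := congrArg Subtype.val (LinearMap.mem_ker.1 hv)
        simpa [Φ] using this
      exact (Submodule.mem_bot F).2 (Subtype.ext (key (fun _ => v) (fun _ => v.2) h0 ⟨0, hr.pos⟩))
    have := LinearMap.finrank_le_finrank_of_injective hΦ
    rwa [hD.finrank_eq] at this
  · obtain ⟨s, hs⟩ : ∃ s, r = s + 1 := ⟨r - 1, by have := hr.pos; omega⟩
    let Ψ : (Fin s → D j) →ₗ[F] LinearMap.range (T - 1) :=
      LinearMap.lsum F (fun _ => ↥(D j)) F (fun l : Fin s => ((T - 1).rangeRestrict).comp ((T ^ (l : ℕ)).comp (D j).subtype))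
    have hΨ : ∀ g, (Ψ g : Vn) = ∑ l : Fin s, ((T ^ ((l : ℕ) + 1)) (g l : Vn) - (T ^ (l : ℕ)) (g l : Vn)) := fun g => by
      simp [Ψ, pow_succ']
    have hΨi : Function.Injective Ψ := by
      rw [← LinearMap.ker_eq_bot, eq_bot_iff]
      intro g hg
      let G : ℕ → Vn := fun l => if h : l < s then (g ⟨l, h⟩ : Vn) else 0
      let G' : ℕ → Vn := fun l => (if l = 0 then 0 else G (l - 1)) - G l
      have hG : ∀ l, G l ∈ D j := fun l => by
        simp only [G]; split_ifs; exacts [SetLike.coe_mem _, Submodule.zero_mem _]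
      have hG' : ∀ l, G' l ∈ D j := fun l => by
        simp only [G']; split_ifs; exacts [Submodule.sub_mem _ (Submodule.zero_mem _) (hG _), Submodule.sub_mem _ (hG _) (hG _)]
      have hsum : ∑ l : Fin r, (T ^ (l : ℕ)) (G' l) = 0 := by
        have h0 : (Ψ g : Vn) = 0 := by rw [LinearMap.mem_ker.1 hg]; rfl
        rw [hΨ, Finset.sum_sub_distrib] at h0
        rw [← Finset.sum_range (fun l => (T ^ l) (G' l)), hs]
        simp only [G', map_sub, Finset.sum_sub_distrib]
        rw [Finset.sum_range_succ' (fun l => (T ^ l) (if l = 0 then 0 else G (l - 1))),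
          Finset.sum_range_succ (fun l => (T ^ l) (G l))]
        simp only [Nat.add_one_ne_zero, if_false, Nat.add_sub_cancel, if_true, map_zero, add_zero]
        rw [show G s = 0 by simp [G], map_zero, add_zero, Finset.sum_range (fun l => (T ^ (l + 1)) (G l)),
          Finset.sum_range (fun l => (T ^ l) (G l))]
        simpa [G] using h0
      have hz := key (fun l => G' l) (fun l => hG' _) hsum
      have hall : ∀ l, G l = 0 := by
        intro l
        induction l with
        | zero => simpa [G'] using hz ⟨0, hr.pos⟩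
        | succ l ih =>
          by_cases h : l + 1 < s
          · have := hz ⟨l + 1, by omega⟩
            simpa [G', ih] using this
          · simp [G, h]
      exact (Submodule.mem_bot F).2 (funext fun l => Subtype.ext (by simpa [G] using hall l))
    have := LinearMap.finrank_le_finrank_of_injective hΨi
    rw [Module.finrank_pi_fintype] at this
    simp only [hD.finrank_eq, Finset.sum_const, Finset.card_univ, Fintype.card_fin, smul_eq_mul] at this
    rwa [show r - 1 = s by omega]

/-- For lines: at least `n / r` fixed points. -/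
theorem lines_bound (hrF : (r : F) ≠ 0) {T : Module.End F Vn} (hT : T ^ r = 1) {D : Fin n → Submodule F Vn}
    (hD : Cfsg.Geo.IsMDecomposition 1 D) {σ : Equiv.Perm (Fin n)} (hσ : ∀ j, (D j).map T = D (σ j))
    (hline : ∀ j, σ j = j → ∀ v ∈ D j, T v = v) :
    n ≤ finrank F (LinearMap.ker (T - 1)) * r := by
  classical
  have hr : r.Prime := Fact.out
  have hinjT : Function.Injective T := injective_of_pow (z := (1 : F)) (by rw [hT, one_smul]) one_ne_zero
  let orb : Fin n → Finset (Fin n) := fun j => (Finset.range r).image fun l => (σ ^ l) j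
  let reps : Finset (Finset (Fin n)) := Finset.univ.image orb
  have hper : ∀ j, (σ ^ r) j = j := fun j => by
    by_cases hj : σ j = j
    · rw [Equiv.Perm.coe_pow]; exact Function.iterate_fixed hj r
    · have hmap : ∀ l, (D j).map (T ^ l) = D ((σ ^ l) j) := by
        intro l
        induction l with
        | zero => simp [Module.End.one_eq_id]
        | succ l ih => rw [pow_succ', Module.End.mul_eq_comp, Submodule.map_comp, ih, hσ, pow_succ', Equiv.Perm.mul_apply]
      have hDinj : Function.Injective D := fun l l' h => by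
        by_contra hne'
        have h2 := hD.indep.pairwiseDisjoint hne'
        rw [Function.onFun, h, disjoint_self] at h2
        have := hD.finrank_eq l'
        rw [h2, finrank_bot] at this
        omega
      exact hDinj (by rw [← hmap, hT, Module.End.one_eq_id, Submodule.map_id])
  have hmod : ∀ l j, (σ ^ l) j = (σ ^ (l % r)) j := fun l j => by
    conv_lhs => rw [← Nat.mod_add_div l r, pow_add, Equiv.Perm.mul_apply]
    congr 1
    generalize l / r = c
    induction c with
    | zero => simp
    | succ c ih => rw [Nat.mul_succ, pow_add, Equiv.Perm.mul_apply, hper, ih]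
  have hself : ∀ j, j ∈ orb j := fun j => Finset.mem_image.2 ⟨0, Finset.mem_range.2 hr.pos, by simp⟩
  have horb : ∀ j l, orb ((σ ^ l) j) = orb j := fun j l => by
    refine Finset.eq_of_subset_of_card_le (fun x hx => ?_) (le_of_eq ?_)
    · obtain ⟨m, -, rfl⟩ := Finset.mem_image.1 hx
      rw [← Equiv.Perm.mul_apply, ← pow_add, hmod]
      exact Finset.mem_image.2 ⟨_, Finset.mem_range.2 (Nat.mod_lt _ hr.pos), rfl⟩
    · rw [← Finset.card_image_of_injective (orb j) (σ ^ l).injective]
      congr 1
      simp only [orb, Finset.image_image]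
      refine Finset.image_congr fun m _ => ?_
      simp only [Function.comp_apply, ← Equiv.Perm.mul_apply, ← pow_add, add_comm m l]
  have hcount : n ≤ reps.card * r := by
    have h1 : (Finset.univ : Finset (Fin n)) ⊆ reps.biUnion id := fun j _ =>
      Finset.mem_biUnion.2 ⟨orb j, Finset.mem_image.2 ⟨j, Finset.mem_univ _, rfl⟩, hself j⟩
    have h2 := Finset.card_le_card h1
    rw [Finset.card_univ, Fintype.card_fin] at h2
    refine h2.trans (Finset.card_biUnion_le_card_mul _ _ _ fun S hS => ?_)
    obtain ⟨j, -, rfl⟩ := Finset.mem_image.1 hS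
    exact (Finset.card_image_le).trans (by simp)
  have hsel : ∀ S : reps, ∃ j, orb j = S := fun S => by
    obtain ⟨j, -, hj⟩ := Finset.mem_image.1 S.2; exact ⟨j, hj⟩
  choose rep hrep using hsel
  have hnz : ∀ j, ∃ v : Vn, v ∈ D j ∧ v ≠ 0 := fun j => (Submodule.ne_bot_iff _).1 (fun h => by
    have := hD.finrank_eq j; rw [h, finrank_bot] at this; omega)
  choose w hw hw0 using hnz
  let N : reps → Vn := fun S => ∑ l ∈ Finset.range r, (T ^ l) (w (rep S))
  have hmem : ∀ l j (v : Vn), v ∈ D j → (T ^ l) v ∈ D ((σ ^ l) j) := by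
    intro l
    induction l with
    | zero => intro j v hv; simpa using hv
    | succ l ih =>
      intro j v hv
      rw [pow_succ' σ, Equiv.Perm.mul_apply, pow_succ', Module.End.mul_apply, ← hσ]
      exact ⟨_, ih j v hv, rfl⟩
  have hNk : ∀ S, N S ∈ LinearMap.ker (T - 1) := fun S => by
    show (T - 1) (∑ l ∈ Finset.range r, (T ^ l) (w (rep S))) = 0
    rw [← LinearMap.sum_apply, ← Module.End.mul_apply, mul_geom_sum, hT, sub_self, LinearMap.zero_apply]
  have hli : LinearIndependent F N := by
    rw [Fintype.linearIndependent_iff]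
    intro c hc S
    let u : Fin n → Vn := fun x => ∑ S' : reps, ∑ l ∈ (Finset.range r).filter (fun l => (σ ^ l) (rep S') = x),
      c S' • (T ^ l) (w (rep S'))
    have hu := zero_of_decomp (by rw [one_mul]) hD u
      (fun x => Submodule.sum_mem _ fun S' _ => Submodule.sum_mem _ fun l hl => Submodule.smul_mem _ _ (by
        rw [← (Finset.mem_filter.1 hl).2]; exact hmem l _ _ (hw _)))
      (by
        simp only [u]
        rw [Finset.sum_comm, ← hc]
        refine Finset.sum_congr rfl fun S' _ => ?_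
        rw [Finset.sum_fiberwise, ← Finset.smul_sum]) (rep S)
    have hu' : ∑ l ∈ (Finset.range r).filter (fun l => (σ ^ l) (rep S) = rep S), c S • (T ^ l) (w (rep S)) = 0 := by
      rw [← hu]
      simp only [u]
      symm
      refine Finset.sum_eq_single S (fun S' _ hne => ?_) (fun h => absurd (Finset.mem_univ _) h)
      rw [Finset.sum_eq_zero]
      intro l hl
      exfalso
      refine hne (Subtype.ext ?_)
      rw [← hrep S', ← hrep S, ← horb (rep S') l, (Finset.mem_filter.1 hl).2]
    by_cases hfix : σ (rep S) = rep S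
    · have hTl : ∀ l : ℕ, (T ^ l) (w (rep S)) = w (rep S) := by
        intro l
        induction l with
        | zero => simp
        | succ l ih => rw [pow_succ', Module.End.mul_apply, ih, hline _ hfix _ (hw _)]
      rw [Finset.filter_eq_self.2 (fun l _ => by rw [Equiv.Perm.coe_pow]; exact Function.iterate_fixed hfix l)] at hu'
      simp only [hTl, Finset.sum_const, Finset.card_range] at hu'
      rw [← Nat.cast_smul_eq_nsmul F, smul_smul, smul_eq_zero] at hu'
      exact (mul_eq_zero.1 (hu'.resolve_right (hw0 _))).resolve_left hrF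
    · obtain ⟨-, hinj⟩ := sigma_facts hT hD hσ hfix
      have hone : (Finset.range r).filter (fun l => (σ ^ l) (rep S) = rep S) = {0} := by
        ext l
        simp only [Finset.mem_filter, Finset.mem_range, Finset.mem_singleton]
        refine ⟨fun ⟨hl, h⟩ => ?_, fun h => by subst h; simp [hr.pos]⟩
        have := hinj (a₁ := ⟨l, hl⟩) (a₂ := ⟨0, hr.pos⟩) (by simpa using h)
        exact congrArg Fin.val this
      rw [hone, Finset.sum_singleton, pow_zero, Module.End.one_apply, smul_eq_zero] at hu'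
      exact hu'.resolve_right (hw0 _)
  have hcard : reps.card ≤ finrank F (LinearMap.ker (T - 1)) := by
    have h := finrank_span_eq_card hli
    rw [Fintype.card_coe] at h
    rw [← h]
    exact Submodule.finrank_mono (Submodule.span_le.2 (Set.range_subset_iff.2 hNk))
  exact hcount.trans (Nat.mul_le_mul_right r hcard)

/-- The number of unordered decompositions divides the order of `GL_n`. -/
theorem dvd_card_GL (hn : n = a * t) (ha : 1 ≤ a) (ht : 2 ≤ t) (h : r ∣ Nat.card {D : Fin t → Submodule F Vn // Cfsg.Geo.IsMDecomposition a D} / Nat.factorial t) :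
    r ∣ Nat.card (GL (Fin n) F) := by
  classical
  set X := {D : Fin t → Submodule F Vn // Cfsg.Geo.IsMDecomposition a D}
  have hXf : Finite X := inferInstance
  -- free action of permutations
  have hfree : Nat.factorial t ∣ Nat.card X := by
    let f : X → Set (Submodule F Vn) := fun D => Set.range D.1
    have : Fintype (Set.range f) := Fintype.ofFinite _
    have key : ∀ S : Set.range f, Nat.card {D : X // Set.rangeFactorization f D = S} = Nat.factorial t := by
      rintro ⟨_, D₀, rfl⟩
      have hinj : ∀ D : X, Function.Injective D.1 := fun D l l' h => by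
        by_contra hne'
        have h2 := D.2.indep.pairwiseDisjoint hne'
        rw [Function.onFun, h, disjoint_self] at h2
        have := D.2.finrank_eq l'
        rw [h2, finrank_bot] at this
        have := D.2.pos
        omega
      have hmk : ∀ σ : Equiv.Perm (Fin t), Cfsg.Geo.IsMDecomposition a (D₀.1 ∘ σ) := fun σ =>
        (of_iSup D₀.2.pos D₀.2.two_le hn (fun j => D₀.2.finrank_eq _) (by
          rw [← D₀.2.iSup_eq_top]; exact σ.surjective.iSup_comp D₀.1)).1
      let e : Equiv.Perm (Fin t) → {D : X // Set.rangeFactorization f D = ⟨f D₀, D₀, rfl⟩} := fun σ =>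
        ⟨⟨D₀.1 ∘ σ, hmk σ⟩, Subtype.ext (show Set.range (D₀.1 ∘ σ) = Set.range D₀.1 from σ.surjective.range_comp _)⟩
      have he : Function.Bijective e := by
        refine ⟨fun σ τ hst => Equiv.ext fun j => hinj D₀ (congrFun (congrArg (fun D => D.1.1) hst) j), ?_⟩
        rintro ⟨D, hD⟩
        have hrg : Set.range D.1 = Set.range D₀.1 := congrArg Subtype.val hD
        refine ⟨(Equiv.ofInjective _ (hinj D)).trans ((Equiv.setCongr hrg).trans (Equiv.ofInjective _ (hinj D₀)).symm), ?_⟩
        refine Subtype.ext (Subtype.ext (funext fun j => ?_))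
        simp [e, Equiv.apply_ofInjective_symm]
      rw [← Nat.card_eq_of_bijective e he, Nat.card_perm, Nat.card_fin]
    rw [Nat.card_congr (Equiv.sigmaFiberEquiv (Set.rangeFactorization f)).symm, Nat.card_sigma]
    simp only [key, Finset.sum_const, smul_eq_mul]
    exact dvd_mul_left _ _
  -- transitive action of the linear group
  have hequiv : ∀ D : X, ∃ φ : (Fin t → Fin a → F) ≃ₗ[F] Vn, ∀ j,
      (LinearMap.range (LinearMap.single F (fun _ => Fin a → F) j)).map (φ : _ →ₗ[F] Vn) = D.1 j := by
    intro D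
    let β := fun j => (Module.finBasisOfFinrankEq F (D.1 j) (D.2.finrank_eq j)).equivFun.symm
    let Φ : (Fin t → Fin a → F) →ₗ[F] Vn :=
      LinearMap.lsum F (fun _ => Fin a → F) F (fun j => (D.1 j).subtype.comp (β j).toLinearMap)
    have hΦ : ∀ u, Φ u = ∑ j, ((β j) (u j) : Vn) := fun u => by simp [Φ]
    have hinj : Function.Injective Φ := by
      rw [← LinearMap.ker_eq_bot, eq_bot_iff]
      intro u hu
      have h0 := zero_of_decomp hn D.2 (fun j => ((β j) (u j) : Vn)) (fun j => ((β j) (u j)).2) (by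
        rw [← hΦ]; exact LinearMap.mem_ker.1 hu)
      exact (Submodule.mem_bot F).2 (funext fun j => (β j).map_eq_zero_iff.1 (Subtype.ext (h0 j)))
    let φ := LinearEquiv.ofBijective Φ ⟨hinj, (LinearMap.injective_iff_surjective_of_finrank_eq_finrank (by
      rw [Module.finrank_pi_fintype, Module.finrank_fin_fun, hn]
      simp [mul_comm])).1 hinj⟩
    refine ⟨φ, fun j => ?_⟩
    refine le_antisymm ?_ fun v hv => ?_
    · rintro _ ⟨_, ⟨y, rfl⟩, rfl⟩
      show Φ _ ∈ _
      rw [hΦ, Finset.sum_eq_single j (fun l _ hl => by simp [Pi.single_eq_of_ne hl]) (by simp)]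
      exact SetLike.coe_mem _
    · refine ⟨LinearMap.single F (fun _ => Fin a → F) j ((β j).symm ⟨v, hv⟩), ⟨_, rfl⟩, ?_⟩
      show Φ _ = v
      rw [hΦ, Finset.sum_eq_single j (fun l _ hl => by simp [Pi.single_eq_of_ne hl]) (by simp)]
      simp
  let e₀ : (Fin t → Fin a → F) ≃ₗ[F] Vn := LinearEquiv.ofFinrankEq _ _ (by
    rw [Module.finrank_pi_fintype, Module.finrank_fin_fun, hn]
    simp [mul_comm])
  let std : Fin t → Submodule F Vn := fun j =>
    (LinearMap.range (LinearMap.single F (fun _ => Fin a → F) j)).map (e₀ : _ →ₗ[F] Vn)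
  let G := (Vn ≃ₗ[F] Vn)
  have hstd : ∀ g : G, Cfsg.Geo.IsMDecomposition a (fun j => (std j).map (g : Vn →ₗ[F] Vn)) := fun g => by
    refine (of_iSup ha ht hn (fun j => ?_) ?_).1
    · rw [LinearEquiv.finrank_map_eq, LinearEquiv.finrank_map_eq,
        LinearMap.finrank_range_of_inj (Pi.single_injective (M := fun _ : Fin t => Fin a → F) j), Module.finrank_fin_fun]
    · rw [← Submodule.map_iSup, ← Submodule.map_iSup, LinearMap.iSup_range_single, Submodule.map_top, LinearEquiv.range,
        Submodule.map_top, LinearEquiv.range]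
  let F' : G → X := fun g => ⟨_, hstd g⟩
  have : Finite (Vn →ₗ[F] Vn) := Module.finite_of_finite F
  have : Finite G := Finite.of_injective _ LinearEquiv.toLinearMap_injective
  have : Fintype X := Fintype.ofFinite _
  have hcomp : ∀ (g g' : G) (S : Submodule F Vn), S.map ((g * g' : G) : Vn →ₗ[F] Vn) =
      (S.map (g' : Vn →ₗ[F] Vn)).map (g : Vn →ₗ[F] Vn) := fun g g' S => Submodule.map_comp _ _ _
  have hfib : ∀ D : X, Nat.card {g : G // F' g = D} = Nat.card {g : G // ∀ j, (std j).map (g : Vn →ₗ[F] Vn) = std j} := by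
    intro D
    obtain ⟨φ, hφ⟩ := hequiv D
    set g₀ : G := e₀.symm.trans φ
    have hg₀ : ∀ j, (std j).map (g₀ : Vn →ₗ[F] Vn) = D.1 j := fun j => by
      rw [← hφ j, ← Submodule.map_comp]
      congr 1
      ext v; simp [g₀]
    refine Nat.card_congr
      { toFun := fun g => ⟨g₀⁻¹ * g.1, fun j => by
          rw [hcomp, show (std j).map (g.1 : Vn →ₗ[F] Vn) = D.1 j from congrFun (congrArg Subtype.val g.2) j, ← hg₀, ← hcomp,
            inv_mul_cancel]
          exact Submodule.map_id _⟩
        invFun := fun s => ⟨g₀ * s.1, Subtype.ext (funext fun j => by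
          show (std j).map ((g₀ * s.1 : G) : Vn →ₗ[F] Vn) = D.1 j
          rw [hcomp, s.2, hg₀])⟩
        left_inv := fun g => Subtype.ext (mul_inv_cancel_left _ _)
        right_inv := fun s => Subtype.ext (inv_mul_cancel_left _ _) }
  have hG : Nat.card X ∣ Nat.card G := by
    rw [Nat.card_congr (Equiv.sigmaFiberEquiv F').symm, Nat.card_sigma]
    simp only [hfib, Finset.sum_const, Finset.card_univ, smul_eq_mul, ← Nat.card_eq_fintype_card]
    exact dvd_mul_right _ _
  have hGG : Nat.card G = Nat.card (GL (Fin n) F) := Nat.card_congr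
    ((LinearMap.GeneralLinearGroup.generalLinearEquiv F Vn).symm.trans Matrix.GeneralLinearGroup.toLin.symm).toEquiv
  exact hGG ▸ ((h.trans (Nat.div_dvd_of_dvd hfree)).trans hG)

end Fin

end Cfsg.Agent.GeomClasses.DecompDerange
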