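import Mathlib

/-! # Points of the norm-one torus on two hyperplanes

The number of `t : Fin n → Fˣ` with product `1` on two linear forms, by additive characters and Plancherel. -/

set_option autoImplicit false

namespace Cfsg.Agent.GeomClasses.TorusCount

open Finset

variable {F : Type*} [Field F] [Fintype F] [DecidableEq F] (ψ : AddChar F ℂ)

/-- The twisted exponential sum over `∏ t = δ`. -/
noncomputable def esum {n : ℕ} (ξ : Fin n → F) (δ : Fˣ) : ℂ :=
  ∑ t : Fin n → Fˣ, if ∏ l, t l = δ then ψ (∑ l, ξ l * (t l : F)) else 0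

noncomputable def coord (a : F) : ℂ := ∑ s : Fˣ, ψ (a * (s : F))

theorem sum_esum {n : ℕ} (ξ : Fin n → F) : ∑ δ, esum ψ ξ δ = ∏ l, coord ψ (ξ l) := by
  unfold esum coord
  rw [Finset.sum_comm, Finset.prod_univ_sum]
  refine Finset.sum_bij (fun t _ => t) (by simp) (by simp) (fun b _ => ⟨b, mem_univ _, rfl⟩) fun t _ => ?_
  rw [Finset.sum_ite_eq Finset.univ, if_pos (mem_univ _)]
  exact map_sum_eq_prod _ _ _
where
  map_sum_eq_prod {n : ℕ} (t : Fin n → Fˣ) (ξ : Fin n → F) (ψ : AddChar F ℂ) :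
      ψ (∑ l, ξ l * (t l : F)) = ∏ l, ψ (ξ l * (t l : F)) := by
    classical
    induction (Finset.univ : Finset (Fin n)) using Finset.induction_on with
    | empty => simp
    | insert a s ha ih => rw [Finset.sum_insert ha, Finset.prod_insert ha, AddChar.map_add_eq_mul, ih]

theorem esum_succ {n : ℕ} (ξ : Fin (n + 1) → F) (δ : Fˣ) :
    esum ψ ξ δ = ∑ s : Fˣ, ψ (ξ 0 * (s : F)) * esum ψ (fun l => ξ l.succ) (δ / s) := by
  unfold esum
  rw [← Equiv.sum_comp (Fin.consEquiv fun _ => Fˣ)]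
  rw [Fintype.sum_prod_type]
  refine Finset.sum_congr rfl fun s _ => ?_
  rw [Finset.mul_sum]
  refine Finset.sum_congr rfl fun t _ => ?_
  have h : (s * ∏ l, t l = δ) ↔ (∏ l, t l = δ / s) := by
    rw [eq_div_iff_mul_eq', mul_comm]
  simp only [Fin.consEquiv_apply, Fin.prod_univ_succ, Fin.sum_univ_succ, Fin.cons_zero, Fin.cons_succ, h,
    AddChar.map_add_eq_mul, mul_ite, mul_zero]

theorem coord_zero : coord ψ (0 : F) = (Fintype.card F - 1 : ℕ) := by
  simp [coord, Fintype.card_units]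

theorem coord_ne_zero (hψ : ψ.IsPrimitive) {a : F} (ha : a ≠ 0) : coord ψ a = -1 := by
  have h := AddChar.sum_mulShift a hψ
  rw [if_neg ha, Nat.cast_zero] at h
  have h2 : ∑ x ∈ (univ.erase (0 : F)), ψ (x * a) = coord ψ a := by
    refine (Finset.sum_bij (fun (s : Fˣ) _ => (s : F)) (fun s _ => by simp) (fun s _ s' _ e => Units.ext e)
      (fun b hb => ⟨Units.mk0 b (Finset.ne_of_mem_erase hb), mem_univ _, rfl⟩) fun s _ => by rw [mul_comm]).symm
  rw [← Finset.add_sum_erase _ _ (mem_univ (0 : F)), h2, zero_mul, AddChar.map_zero_eq_one] at h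
  linear_combination h

theorem esum_of_zero (hψ : ψ.IsPrimitive) : ∀ {n : ℕ} (ξ : Fin n → F) (δ : Fˣ), (∃ l, ξ l = 0) →
    ((Fintype.card F - 1 : ℕ) : ℂ) * esum ψ ξ δ = ∏ l, coord ψ (ξ l) := by
  intro n
  induction n with
  | zero => exact fun ξ δ h => h.elim fun l => l.elim0
  | succ n ih =>
    intro ξ δ h
    rw [esum_succ, Fin.prod_univ_succ]
    rcases eq_or_ne (ξ 0) 0 with h0 | h0
    · simp only [h0, zero_mul, AddChar.map_zero_eq_one, one_mul, coord_zero]
      congr 1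
      rw [← sum_esum ψ fun l => ξ l.succ]
      exact Equiv.sum_comp (Equiv.divLeft δ) _
    · obtain ⟨l, hl⟩ := h
      obtain ⟨l, rfl⟩ := Fin.exists_succ_eq.mpr (show l ≠ 0 from fun e => h0 (e ▸ hl))
      rw [Finset.mul_sum, coord, Finset.sum_mul]
      exact Finset.sum_congr rfl fun s _ => by rw [← ih (fun l => ξ l.succ) (δ / s) ⟨l, hl⟩]; ring

theorem plancherel (hψ : ψ.IsPrimitive) (f : F → ℂ) :
    ∑ d : F, Complex.normSq (∑ u, f u * ψ (d * u)) = Fintype.card F * ∑ u, Complex.normSq (f u) := by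
  have key : ((∑ d : F, Complex.normSq (∑ u, f u * ψ (d * u)) : ℝ) : ℂ) =
      ((Fintype.card F * ∑ u, Complex.normSq (f u) : ℝ) : ℂ) := by
    push_cast
    simp only [← Complex.mul_conj, map_sum, Finset.sum_mul, map_mul, Finset.mul_sum]
    rw [Finset.sum_comm]
    refine Finset.sum_congr rfl fun u _ => ?_
    rw [Finset.sum_comm]
    have h' : ∀ v, (∑ d : F, f v * ψ (d * v) * ((starRingEnd ℂ) (f u) * (starRingEnd ℂ) (ψ (d * u)))) =
        if v = u then (Fintype.card F : ℂ) * (f u * (starRingEnd ℂ) (f u)) else 0 := by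
      intro v
      have h1 : ∀ d : F, f v * ψ (d * v) * ((starRingEnd ℂ) (f u) * (starRingEnd ℂ) (ψ (d * u))) =
          f v * (starRingEnd ℂ) (f u) * ψ (d * (v - u)) := by
        intro d
        rw [mul_sub, sub_eq_add_neg, AddChar.map_add_eq_mul, AddChar.map_neg_eq_conj]
        ring
      rw [Finset.sum_congr rfl fun d _ => h1 d, ← Finset.mul_sum, AddChar.sum_mulShift _ hψ]
      by_cases huv : v = u
      · simp [huv, mul_comm]
      · simp [huv, sub_eq_zero]
    rw [Finset.sum_congr rfl fun v _ => h' v, Finset.sum_ite_eq', if_pos (mem_univ _)]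
  exact_mod_cast key

theorem sum_normSq_esum_le (hψ : ψ.IsPrimitive) : ∀ {n : ℕ} (ξ : Fin n → F), (∀ l, ξ l ≠ 0) →
    ∑ δ, Complex.normSq (esum ψ ξ δ) ≤ (Fintype.card F : ℝ) ^ n := by
  intro n
  induction n with
  | zero =>
    intro ξ _
    simp [esum, apply_ite Complex.normSq, Finset.sum_ite_eq]
  | succ n ih =>
    intro ξ hξ
    classical
    let g : F → ℂ := fun u => if hu : u = 0 then 0 else esum ψ (fun l => ξ l.succ) (Units.mk0 u hu)⁻¹
    have hS : ∀ δ : Fˣ, esum ψ ξ δ = ∑ u : F, g u * ψ ((ξ 0 * δ) * u) := by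
      intro δ
      rw [esum_succ]
      have h0 : ∑ u : F, g u * ψ ((ξ 0 * δ) * u) = ∑ u ∈ univ.erase (0 : F), g u * ψ ((ξ 0 * δ) * u) := by
        rw [← Finset.add_sum_erase _ _ (mem_univ (0 : F))]; simp [g]
      rw [h0]
      refine Finset.sum_bij (fun (s : Fˣ) _ => ((s / δ : Fˣ) : F)) (fun s _ => by simp) (fun s _ s' _ e => ?_)
        (fun b hb => ⟨Units.mk0 b (Finset.ne_of_mem_erase hb) * δ, mem_univ _, by simp⟩) (fun s _ => ?_)
      · simpa using Units.ext e
      · simp only [g, dif_neg (Units.ne_zero (s / δ)), Units.mk0_val, inv_div]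
        rw [mul_comm]
        congr 2
        simp [mul_assoc, mul_div_cancel₀]
    have hle : ∑ δ : Fˣ, Complex.normSq (esum ψ ξ δ) ≤ ∑ d : F, Complex.normSq (∑ u, g u * ψ (d * u)) := by
      rw [Finset.sum_congr rfl fun δ _ => by rw [hS δ]]
      rw [← Finset.sum_image (s := (univ : Finset Fˣ)) (g := fun δ : Fˣ => ξ 0 * (δ : F))
        (f := fun d => Complex.normSq (∑ u, g u * ψ (d * u)))
        (fun a _ b _ e => Units.ext (mul_left_cancel₀ (hξ 0) e))]
      exact Finset.sum_le_univ_sum_of_nonneg fun d => Complex.normSq_nonneg _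
    refine hle.trans ?_
    rw [plancherel ψ hψ, pow_succ']
    refine mul_le_mul_of_nonneg_left ?_ (Nat.cast_nonneg _)
    refine le_trans (le_of_eq ?_) (ih _ fun l => hξ l.succ)
    rw [← Finset.add_sum_erase _ _ (mem_univ (0 : F))]
    simp only [g, dite_true, map_zero, zero_add]
    refine (Finset.sum_bij (fun (s : Fˣ) _ => ((s⁻¹ : Fˣ) : F)) (fun s _ => by simp) (fun s _ s' _ e => ?_)
      (fun b hb => ⟨(Units.mk0 b (Finset.ne_of_mem_erase hb))⁻¹, mem_univ _, by simp⟩) (fun s _ => ?_)).symm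
    · simpa using Units.ext e
    · congr 1
      rw [dif_neg (Units.ne_zero s⁻¹), Units.mk0_val, inv_inv]

theorem norm_esum_le (hψ : ψ.IsPrimitive) {n : ℕ} (ξ : Fin n → F) (δ : Fˣ) {z : ℕ}
    (hz : (univ.filter fun l => ξ l = 0).card ≤ z) {B : ℝ}
    (hB1 : ((Fintype.card F - 1 : ℕ) : ℝ) ^ (z - 1) ≤ B) (hB2 : (Fintype.card F : ℝ) ^ ((n + 1) / 2) ≤ B) :
    ‖esum ψ ξ δ‖ ≤ B := by
  by_cases h : ∃ l, ξ l = 0
  · have hp1 : (1 : ℝ) ≤ (Fintype.card F - 1 : ℕ) := by
      have := Fintype.one_lt_card (α := F)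
      exact_mod_cast (by omega : 1 ≤ Fintype.card F - 1)
    have e := congrArg norm (esum_of_zero ψ hψ ξ δ h)
    rw [norm_mul, Complex.norm_natCast, norm_prod] at e
    have hc : ∀ l, ‖coord ψ (ξ l)‖ = if ξ l = 0 then ((Fintype.card F - 1 : ℕ) : ℝ) else 1 := by
      intro l
      split_ifs with hl
      · rw [hl, coord_zero, Complex.norm_natCast]
      · rw [coord_ne_zero ψ hψ hl, norm_neg, norm_one]
    rw [Finset.prod_congr rfl fun l _ => hc l, Finset.prod_ite, Finset.prod_const_one, mul_one,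
      Finset.prod_const] at e
    have hpos : 1 ≤ (univ.filter fun l => ξ l = 0).card :=
      Finset.card_pos.mpr (by obtain ⟨l, hl⟩ := h; exact ⟨l, by simpa⟩)
    obtain ⟨j, hj⟩ : ∃ j, (univ.filter fun l => ξ l = 0).card = j + 1 := ⟨_, (Nat.sub_add_cancel hpos).symm⟩
    rw [hj, pow_succ'] at e
    rw [mul_left_cancel₀ (ne_of_gt (lt_of_lt_of_le one_pos hp1)) e]
    exact (pow_le_pow_right₀ hp1 (by omega)).trans hB1
  · push_neg at h
    have h1 : Complex.normSq (esum ψ ξ δ) ≤ (Fintype.card F : ℝ) ^ n :=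
      le_trans (Finset.single_le_sum (f := fun δ => Complex.normSq (esum ψ ξ δ))
        (fun _ _ => Complex.normSq_nonneg _) (mem_univ δ)) (sum_normSq_esum_le ψ hψ ξ h)
    have hq1 : (1 : ℝ) ≤ Fintype.card F := by exact_mod_cast Fintype.card_pos
    refine le_trans ?_ hB2
    rw [← sq_le_sq₀ (norm_nonneg _) (by positivity), ← Complex.normSq_eq_norm_sq, ← pow_mul]
    exact h1.trans (pow_le_pow_right₀ hq1 (by omega))

theorem numeric {n q : ℕ} (hn : 13 ≤ n) (hq : 5 ≤ q) :
    q ^ 2 * (q ^ ((n + 1) / 2) + n * (q - 1)) < (q - 1) ^ (n - 2) * (q - 2) := by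
  obtain ⟨p, rfl⟩ : ∃ p, q = p + 1 := ⟨q - 1, by omega⟩
  rw [show p + 1 - 1 = p by omega, show p + 1 - 2 = p - 1 by omega]
  have key : ∀ k, 2 * (p + 1) ^ (k + 9) < 3 * p ^ (2 * k + 11) := by
    intro k
    induction k with
    | zero =>
      have h1 : (4 * (p + 1)) ^ 9 ≤ (5 * p) ^ 9 := Nat.pow_le_pow_left (by omega) 9
      have h2 : 4 ^ 2 * p ^ 9 ≤ p ^ 11 := by
        calc 4 ^ 2 * p ^ 9 ≤ p ^ 2 * p ^ 9 := Nat.mul_le_mul_right _ (Nat.pow_le_pow_left (by omega) 2)
          _ = p ^ 11 := by ring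
      have h3 : 0 < p ^ 9 := pow_pos (by omega) _
      rw [mul_pow, mul_pow] at h1
      norm_num at h1 h2 ⊢
      omega
    | succ k ih =>
      have h2 : p + 1 ≤ p ^ 2 := by nlinarith
      calc 2 * (p + 1) ^ (k + 1 + 9) = 2 * (p + 1) ^ (k + 9) * (p + 1) := by ring
        _ ≤ 2 * (p + 1) ^ (k + 9) * p ^ 2 := Nat.mul_le_mul_left _ h2
        _ < 3 * p ^ (2 * k + 11) * p ^ 2 := Nat.mul_lt_mul_of_pos_right ih (pow_pos (by omega) 2)
        _ = 3 * p ^ (2 * (k + 1) + 11) := by ring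
  have hnp : n * p ≤ (p + 1) ^ ((n + 1) / 2) := by
    have h5 : ∀ k, 2 * k + 14 ≤ 5 ^ (k + 6) := by
      intro k; induction k with
      | zero => norm_num
      | succ k ih => rw [show k + 1 + 6 = k + 6 + 1 by omega, pow_succ]; omega
    obtain ⟨k, hk⟩ : ∃ k, (n + 1) / 2 = k + 7 := ⟨(n + 1) / 2 - 7, by omega⟩
    calc n * p ≤ (2 * k + 14) * (p + 1) := Nat.mul_le_mul (by omega) (by omega)
      _ ≤ 5 ^ (k + 6) * (p + 1) := Nat.mul_le_mul_right _ (h5 k)
      _ ≤ (p + 1) ^ (k + 6) * (p + 1) := Nat.mul_le_mul_right _ (Nat.pow_le_pow_left (by omega) _)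
      _ = (p + 1) ^ ((n + 1) / 2) := by rw [hk, ← pow_succ]
  obtain ⟨k, hk⟩ : ∃ k, (n + 1) / 2 = k + 7 := ⟨(n + 1) / 2 - 7, by omega⟩
  calc (p + 1) ^ 2 * ((p + 1) ^ ((n + 1) / 2) + n * p)
      ≤ (p + 1) ^ 2 * (2 * (p + 1) ^ ((n + 1) / 2)) := Nat.mul_le_mul_left _ (by omega)
    _ = 2 * (p + 1) ^ (k + 9) := by rw [hk]; ring
    _ < 3 * p ^ (2 * k + 11) := key k
    _ ≤ (p - 1) * p ^ (n - 2) := Nat.mul_le_mul (by omega) (Nat.pow_le_pow_right (by omega) (by omega))
    _ = p ^ (n - 2) * (p - 1) := mul_comm _ _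

omit ψ in
/-- Main count. -/
theorem count {n : ℕ} (hn : 13 ≤ n) (hq : 5 ≤ Fintype.card F) (c d : Fin n → F) (hc : ∑ l, c l = 0) (hd : ∑ l, d l = 0)
    (hind : ∀ a b : F, (a ≠ 0 ∨ b ≠ 0) → ∃ l, a * c l + b * d l ≠ 0)
    (hdeg : ∀ l l', c l = 0 → d l = 0 → c l' = 0 → d l' = 0 → l = l') :
    n * (Fintype.card F - 1) < (univ.filter fun t : Fin n → Fˣ => ∏ l, t l = 1 ∧ ∑ l, c l * (t l : F) = 0 ∧
      ∑ l, d l * (t l : F) = 0).card := by
  classical
  obtain ⟨ψ, hψ1⟩ := AddChar.exists_apply_ne_zero.mpr (one_ne_zero (α := F))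
  have hψ : ψ.IsPrimitive := AddChar.IsPrimitive.of_ne_one fun e => hψ1 (by rw [e]; rfl)
  set q := Fintype.card F with hqdef
  set N := (univ.filter fun t : Fin n → Fˣ => ∏ l, t l = 1 ∧ ∑ l, c l * (t l : F) = 0 ∧
      ∑ l, d l * (t l : F) = 0).card with hN
  let lf : F × F → Fin n → F := fun x l => x.1 * c l + x.2 * d l
  -- expansion
  have hexp : ((q : ℂ) ^ 2) * N = ∑ x : F × F, esum ψ (lf x) 1 := by
    unfold esum
    rw [Finset.sum_comm]
    have h : ∀ t : Fin n → Fˣ, (∑ x : F × F, if ∏ l, t l = 1 then ψ (∑ l, lf x l * (t l : F)) else 0) =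
        if (∏ l, t l = 1 ∧ ∑ l, c l * (t l : F) = 0 ∧ ∑ l, d l * (t l : F) = 0) then (q : ℂ) ^ 2 else 0 := by
      intro t
      by_cases ht : ∏ l, t l = 1
      · simp only [ht, true_and, if_true]
        have e : ∀ x : F × F, ∑ l, lf x l * (t l : F) =
            x.1 * (∑ l, c l * (t l : F)) + x.2 * ∑ l, d l * (t l : F) := by
          intro x; simp only [lf, add_mul, Finset.sum_add_distrib, Finset.mul_sum, mul_assoc]
        simp only [e, AddChar.map_add_eq_mul, Fintype.sum_prod_type, ← Finset.mul_sum, ← Finset.sum_mul,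
          AddChar.sum_mulShift _ hψ]
        by_cases h1 : ∑ l, c l * (t l : F) = 0 <;> by_cases h2 : ∑ l, d l * (t l : F) = 0 <;>
          simp [h1, h2, sq, q]
      · simp [ht]
    rw [Finset.sum_congr rfl fun t _ => h t, ← Finset.sum_filter, Finset.sum_const, nsmul_eq_mul, mul_comm]
  have hmain : esum ψ (lf (0, 0)) 1 = ((q - 1 : ℕ) : ℂ) ^ (n - 1) := by
    have hp : ((q - 1 : ℕ) : ℂ) ≠ 0 := by
      exact_mod_cast (by omega : q - 1 ≠ 0)
    apply mul_left_cancel₀ hp
    rw [esum_of_zero ψ hψ _ _ ⟨⟨0, by omega⟩, by simp [lf]⟩, ← pow_succ', show n - 1 + 1 = n by omega]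
    simp [lf, coord_zero, q]
  -- zero counts
  let z : F × F → ℕ := fun x => (univ.filter fun l => lf x l = 0).card
  have hz2 : ∀ x : F × F, x ≠ 0 → z x ≤ n - 2 := by
    intro x hx
    have hx' : x.1 ≠ 0 ∨ x.2 ≠ 0 := by
      by_contra h; push_neg at h; exact hx (Prod.ext h.1 h.2)
    obtain ⟨l, hl⟩ := hind _ _ hx'
    have hsum : ∑ l, lf x l = 0 := by simp [lf, Finset.sum_add_distrib, ← Finset.mul_sum, hc, hd]
    obtain ⟨l', hl', hne⟩ : ∃ l', lf x l' ≠ 0 ∧ l' ≠ l := by
      by_contra h; push_neg at h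
      rw [Finset.sum_eq_single l (fun b _ hb => by_contra fun e => hb (h b e)) (by simp)] at hsum
      exact hl hsum
    have : (univ.filter fun i => lf x i = 0) ⊆ univ \ {l, l'} := by
      intro i hi
      simp only [mem_filter, mem_univ, true_and] at hi
      simp only [mem_sdiff, mem_univ, true_and, mem_insert, mem_singleton, not_or]
      exact ⟨fun e => hl (e ▸ hi), fun e => hl' (e ▸ hi)⟩
    refine (Finset.card_le_card this).trans ?_
    rw [Finset.card_univ_diff, Finset.card_pair (Ne.symm hne), Fintype.card_fin]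
  have hzz : ∀ x y : F × F, x.1 * y.2 - x.2 * y.1 ≠ 0 → z x + z y ≤ n + 1 := by
    intro x y hxy
    rw [show z x + z y = ((univ.filter fun l => lf x l = 0) ∪ univ.filter fun l => lf y l = 0).card +
      ((univ.filter fun l => lf x l = 0) ∩ univ.filter fun l => lf y l = 0).card from
      (Finset.card_union_add_card_inter _ _).symm]
    refine Nat.add_le_add ((Finset.card_le_univ _).trans (le_of_eq (Fintype.card_fin n))) ?_
    rw [Finset.card_le_one]
    have key : ∀ i, lf x i = 0 → lf y i = 0 → c i = 0 ∧ d i = 0 := by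
      intro i h1 h2
      simp only [lf] at h1 h2
      constructor <;> refine (mul_eq_zero.mp ?_).resolve_left hxy
      · linear_combination y.2 * h1 - x.2 * h2
      · linear_combination x.1 * h2 - y.1 * h1
    simp only [mem_inter, mem_filter, mem_univ, true_and]
    intro a ha b hb
    exact hdeg a b (key a ha.1 ha.2).1 (key a ha.1 ha.2).2 (key b hb.1 hb.2).1 (key b hb.1 hb.2).2
  set p : ℝ := ((q - 1 : ℕ) : ℝ) with hpdef
  have hp1 : (1 : ℝ) ≤ p := by rw [hpdef]; exact_mod_cast (by omega : 1 ≤ q - 1)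
  set Q : ℝ := (q : ℝ) ^ ((n + 1) / 2) with hQ
  have hpQ : p ^ ((n + 1) / 2) ≤ Q := by
    rw [hQ, hpdef]; gcongr; omega
  -- the exceptional line
  obtain ⟨x0, hx0, hmax⟩ := Finset.exists_max_image ((univ : Finset (F × F)).erase 0) z
    ⟨(1, 0), by simp⟩
  have hsmall : ∀ x : F × F, x ≠ 0 → x.1 * x0.2 - x.2 * x0.1 ≠ 0 → ‖esum ψ (lf x) 1‖ ≤ Q := by
    intro x hx hdet
    have h1 := hzz x x0 hdet
    have h2 := hmax x (by simp [hx])
    exact norm_esum_le ψ hψ _ _ (z := (n + 1) / 2) (by show z x ≤ _; omega)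
      ((pow_le_pow_right₀ hp1 (by omega)).trans hpQ) le_rfl
  have hbig : ∀ x : F × F, x ≠ 0 → ‖esum ψ (lf x) 1‖ ≤ p ^ (n - 3) + Q := fun x hx =>
    norm_esum_le ψ hψ _ _ (z := n - 2) (hz2 x hx)
      (by rw [show n - 2 - 1 = n - 3 by omega]; exact le_add_of_nonneg_right (by positivity))
      (le_add_of_nonneg_left (by positivity))
  let L : Finset (F × F) := ((univ : Finset (F × F)).erase 0).filter fun x => x.1 * x0.2 - x.2 * x0.1 = 0
  have hL : L.card ≤ q - 1 := by
    have hsub : L ⊆ (univ : Finset Fˣ).image fun s : Fˣ => ((s : F) * x0.1, (s : F) * x0.2) := by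
      intro x hx
      simp only [L, mem_filter, mem_erase, mem_univ, and_true] at hx
      have hx00 : x0 ≠ 0 := Finset.ne_of_mem_erase hx0
      simp only [mem_image, mem_univ, true_and]
      by_cases h1 : x0.1 = 0
      · have h2 : x0.2 ≠ 0 := fun e => hx00 (Prod.ext h1 e)
        have hx1 : x.1 = 0 := by
          have := hx.2; rw [h1, mul_zero, sub_zero] at this
          exact (mul_eq_zero.mp this).resolve_right h2
        have hx2 : x.2 ≠ 0 := fun e => hx.1 (Prod.ext hx1 e)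
        exact ⟨Units.mk0 (x.2 / x0.2) (div_ne_zero hx2 h2), by simp [h1, hx1, h2, Prod.ext_iff]⟩
      · have hx1 : x.1 ≠ 0 := by
          intro e
          have := hx.2; rw [e, zero_mul, zero_sub, neg_eq_zero] at this
          exact hx.1 (Prod.ext e ((mul_eq_zero.mp this).resolve_right h1))
        refine ⟨Units.mk0 (x.1 / x0.1) (div_ne_zero hx1 h1), ?_⟩
        have := sub_eq_zero.mp hx.2
        refine Prod.ext (by simp [h1]) ?_
        simp only [Units.val_mk0]
        field_simp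
        linear_combination this
    refine (Finset.card_le_card hsub).trans (Finset.card_image_le.trans ?_)
    rw [Finset.card_univ, Fintype.card_units]
  have herr : ∑ x ∈ (univ : Finset (F × F)).erase 0, ‖esum ψ (lf x) 1‖ ≤ p * p ^ (n - 3) + (q : ℝ) ^ 2 * Q := by
    calc ∑ x ∈ (univ : Finset (F × F)).erase 0, ‖esum ψ (lf x) 1‖
        ≤ ∑ x ∈ (univ : Finset (F × F)).erase 0, ((if x ∈ L then p ^ (n - 3) else 0) + Q) := by
          refine Finset.sum_le_sum fun x hx => ?_
          have hx' := Finset.ne_of_mem_erase hx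
          split_ifs with h
          · exact hbig x hx'
          · rw [zero_add]
            exact hsmall x hx' fun e => h (mem_filter.mpr ⟨hx, e⟩)
      _ = (L.card : ℝ) * p ^ (n - 3) + (((univ : Finset (F × F)).erase 0).card : ℝ) * Q := by
          rw [Finset.sum_add_distrib, Finset.sum_const, nsmul_eq_mul, ← Finset.sum_filter,
            Finset.sum_const, nsmul_eq_mul]
          congr 4
          ext x
          simp only [mem_filter, and_iff_right_iff_imp]
          exact fun h => (mem_filter.mp h).1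
      _ ≤ p * p ^ (n - 3) + (q : ℝ) ^ 2 * Q := by
          refine add_le_add (mul_le_mul_of_nonneg_right ?_ (by positivity))
            (mul_le_mul_of_nonneg_right ?_ (by positivity))
          · rw [hpdef]; exact_mod_cast hL
          · have h := Finset.card_le_univ ((univ : Finset (F × F)).erase 0)
            rw [Fintype.card_prod, ← sq] at h
            exact_mod_cast h
  have hlow : p ^ (n - 1) - (p * p ^ (n - 3) + (q : ℝ) ^ 2 * Q) ≤ (q : ℝ) ^ 2 * N := by
    have h1 := hexp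
    rw [← Finset.add_sum_erase _ _ (mem_univ (0 : F × F))] at h1
    change _ = esum ψ (lf (0, 0)) 1 + _ at h1
    rw [hmain] at h1
    have h2 : ((q - 1 : ℕ) : ℂ) ^ (n - 1) = ((q : ℂ) ^ 2 * N) +
        -(∑ x ∈ (univ : Finset (F × F)).erase 0, esum ψ (lf x) 1) := by rw [h1]; ring
    have h3 := congrArg norm h2
    rw [norm_pow, Complex.norm_natCast] at h3
    have h4 := norm_add_le ((q : ℂ) ^ 2 * N) (-(∑ x ∈ (univ : Finset (F × F)).erase 0, esum ψ (lf x) 1))
    rw [norm_neg, norm_mul, norm_pow, Complex.norm_natCast, Complex.norm_natCast] at h4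
    have h5 := (norm_sum_le ((univ : Finset (F × F)).erase 0) fun x => esum ψ (lf x) 1).trans herr
    linarith
  by_contra hcon
  push_neg at hcon
  have hnum : ((q : ℝ) ^ 2 * (Q + n * p)) < p ^ (n - 2) * (p - 1) := by
    have := numeric hn hq
    have h2 : ((q - 2 : ℕ) : ℝ) = p - 1 := by
      rw [hpdef, Nat.cast_sub (by omega), Nat.cast_sub (by omega)]; push_cast; ring
    have h := (Nat.cast_lt (α := ℝ)).mpr this
    push_cast [h2, ← hpdef] at h
    exact h
  have hN' : (N : ℝ) ≤ n * p := by rw [hpdef]; exact_mod_cast hcon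
  have e1 : p ^ (n - 1) = p ^ (n - 2) * p := by rw [← pow_succ]; congr 1; omega
  have e2 : p * p ^ (n - 3) = p ^ (n - 2) := by rw [← pow_succ']; congr 1; omega
  have := mul_le_mul_of_nonneg_left hN' (sq_nonneg (q : ℝ))
  nlinarith

end Cfsg.Agent.GeomClasses.TorusCount
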