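import Cfsg.Agent.GeomClasses.Basic
import Cfsg.Agent.GeomClasses.TorusCount

/-! # Overgroups of the determinant one monomial group -/

set_option autoImplicit false

namespace Cfsg.Agent.GeomClasses.MonomialMax

open Matrix Finset

variable {F : Type*} [Field F] {n : ℕ}

local notation "GLn" => GL (Fin n) F

/-- Every column has at most one nonzero entry. -/
def IsMono (g : GL (Fin n) F) : Prop := ∀ l, ∃ k, ∀ i, i ≠ k → (g : Matrix (Fin n) (Fin n) F) i l = 0

/-- The monomial matrix sending `e_j` to `c j e_{σ j}`. -/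
def mono (σ : Equiv.Perm (Fin n)) (c : Fin n → Fˣ) : GL (Fin n) F where
  val := Matrix.of fun i j => if i = σ j then (c j : F) else 0
  inv := Matrix.of fun i j => if j = σ i then ((c i)⁻¹ : Fˣ) else (0 : F)
  val_inv := by
    ext i j
    rw [mul_apply, Fintype.sum_eq_single (σ.symm i)]
    · by_cases h : i = j
      · subst h; simp
      · simp [h, Ne.symm h, Matrix.one_apply]
    · intro l hl
      have : i ≠ σ l := fun e => hl (by rw [e, Equiv.symm_apply_apply])
      simp [this]
  inv_val := by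
    ext i j
    rw [mul_apply, Fintype.sum_eq_single (σ i)]
    · by_cases h : i = j
      · subst h; simp
      · simp [h, Matrix.one_apply]
    · intro l hl
      simp [hl]

theorem mono_apply (σ : Equiv.Perm (Fin n)) (c : Fin n → Fˣ) (i j : Fin n) :
    (mono σ c : Matrix (Fin n) (Fin n) F) i j = if i = σ j then (c j : F) else 0 := rfl

theorem mono_inv_apply (σ : Equiv.Perm (Fin n)) (c : Fin n → Fˣ) (i j : Fin n) :
    ((mono σ c)⁻¹ : GLn).val i j = if j = σ i then (((c i)⁻¹ : Fˣ) : F) else 0 := rfl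

theorem mono_mul_apply (σ : Equiv.Perm (Fin n)) (c : Fin n → Fˣ) (A : Matrix (Fin n) (Fin n) F) (i j : Fin n) :
    ((mono σ c : Matrix (Fin n) (Fin n) F) * A) i j = (c (σ.symm i) : F) * A (σ.symm i) j := by
  rw [mul_apply, Fintype.sum_eq_single (σ.symm i)]
  · simp [mono_apply]
  · intro l hl
    have : i ≠ σ l := fun e => hl (by rw [e, Equiv.symm_apply_apply])
    simp [mono_apply, this]

theorem mul_mono_inv_apply (σ : Equiv.Perm (Fin n)) (c : Fin n → Fˣ) (A : Matrix (Fin n) (Fin n) F) (i j : Fin n) :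
    (A * ((mono σ c)⁻¹ : GLn).val) i j = A i (σ.symm j) * (((c (σ.symm j))⁻¹ : Fˣ) : F) := by
  rw [mul_apply, Fintype.sum_eq_single (σ.symm j)]
  · simp [mono_inv_apply]
  · intro l hl
    have : j ≠ σ l := fun e => hl (by rw [e, Equiv.symm_apply_apply])
    simp [mono_inv_apply, this]

theorem conj_apply (σ : Equiv.Perm (Fin n)) (c : Fin n → Fˣ) (A : Matrix (Fin n) (Fin n) F) (i j : Fin n) :
    ((mono σ c : Matrix (Fin n) (Fin n) F) * A * ((mono σ c)⁻¹ : GLn).val) i j =
      (c (σ.symm i) : F) * A (σ.symm i) (σ.symm j) * (((c (σ.symm j))⁻¹ : Fˣ) : F) := by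
  rw [mul_mono_inv_apply, mono_mul_apply]

theorem det_mono (σ : Equiv.Perm (Fin n)) (c : Fin n → Fˣ) :
    (mono σ c : Matrix (Fin n) (Fin n) F).det = ((Equiv.Perm.sign σ : ℤ) : F) * ∏ l, (c l : F) := by
  have : (mono σ c : Matrix (Fin n) (Fin n) F) =
      (Matrix.diagonal fun l => (c l : F)).submatrix σ.symm id := by
    ext i j
    by_cases h : i = σ j
    · simp [mono_apply, h]
    · have : σ.symm i ≠ j := fun e => h (by rw [← e, Equiv.apply_symm_apply])
      simp [mono_apply, h, this]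
  rw [this, Matrix.det_permute, Equiv.Perm.sign_symm, Matrix.det_diagonal]

theorem isMono_mono (σ : Equiv.Perm (Fin n)) (c : Fin n → Fˣ) : IsMono (mono σ c) :=
  fun l => ⟨σ l, fun i hi => by simp [mono_apply, hi]⟩

theorem exists_ne_zero_col (g : GLn) (l : Fin n) : ∃ i, (g : Matrix (Fin n) (Fin n) F) i l ≠ 0 := by
  by_contra h
  push_neg at h
  have h1 : ((g⁻¹ : GLn).val * (g : Matrix (Fin n) (Fin n) F)) l l = 1 := by
    rw [← Units.val_mul, inv_mul_cancel]; simp
  rw [mul_apply, Finset.sum_eq_zero (fun i _ => by rw [h i, mul_zero])] at h1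
  exact zero_ne_one h1

theorem exists_mono {g : GLn} (hg : IsMono g) : ∃ σ c, g = mono σ c := by
  choose f hf using hg
  have hne : ∀ l, (g : Matrix (Fin n) (Fin n) F) (f l) l ≠ 0 := by
    intro l h0
    obtain ⟨i, hi⟩ := exists_ne_zero_col g l
    by_cases e : i = f l
    · exact hi (e ▸ h0)
    · exact hi (hf l i e)
  have hinj : Function.Injective f := by
    intro l l' e
    by_contra hne'
    have h1 : ((g⁻¹ : GLn).val * (g : Matrix (Fin n) (Fin n) F)) l l = 1 := by
      rw [← Units.val_mul, inv_mul_cancel]; simp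
    have h2 : ((g⁻¹ : GLn).val * (g : Matrix (Fin n) (Fin n) F)) l l' = 0 := by
      rw [← Units.val_mul, inv_mul_cancel]; simp [Matrix.one_apply, hne']
    rw [mul_apply, Fintype.sum_eq_single (f l) (fun i hi => by rw [hf l i hi, mul_zero])] at h1
    rw [mul_apply, Fintype.sum_eq_single (f l') (fun i hi => by rw [hf l' i hi, mul_zero]), ← e] at h2
    rcases mul_eq_zero.mp h2 with h | h
    · rw [h, zero_mul] at h1; exact zero_ne_one h1
    · exact hne l' (e ▸ h)
  refine ⟨Equiv.ofBijective f hinj.bijective_of_finite, fun l => Units.mk0 _ (hne l), Units.ext ?_⟩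
  ext i j
  rw [mono_apply]
  by_cases h : i = f j
  · simp [h]
  · simp [h, hf j i h]

variable (K : Subgroup (GL (Fin n) F))

/-- `K` contains all monomial matrices of determinant one. -/
def ContainsN : Prop := ∀ g : GL (Fin n) F, IsMono g → (g : Matrix (Fin n) (Fin n) F).det = 1 → g ∈ K

variable {K}

theorem exists_fin_notMem {s : Finset (Fin n)} (h : s.card < n) : ∃ d, d ∉ s := by
  obtain ⟨d, hd⟩ := Finset.exists_mem_notMem_of_card_lt_card
    (show s.card < (Finset.univ : Finset (Fin n)).card by simpa)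
  exact ⟨d, hd.2⟩

theorem diag_mem (hN : ContainsN K) {c : Fin n → Fˣ} (hc : ∏ l, c l = 1) : mono 1 c ∈ K := by
  refine hN _ (isMono_mono _ _) ?_
  rw [det_mono, Equiv.Perm.sign_one, ← Units.coe_prod, hc]; simp

/-- Two coordinate torus element. -/
def two (a b : Fin n) (x : Fˣ) : Fin n → Fˣ := fun l => if l = a then x else if l = b then x⁻¹ else 1

theorem prod_two {a b : Fin n} (hab : a ≠ b) (x : Fˣ) : ∏ l, two a b x l = 1 := by
  rw [← Finset.mul_prod_erase _ _ (mem_univ a),
    ← Finset.mul_prod_erase _ _ (Finset.mem_erase.mpr ⟨Ne.symm hab, mem_univ b⟩),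
    Finset.prod_eq_one]
  · simp [two, Ne.symm hab]
  · intro l hl
    simp only [mem_erase, mem_univ, and_true] at hl
    simp [two, hl.1, hl.2]

theorem diag_conj_apply (c : Fin n → Fˣ) (A : Matrix (Fin n) (Fin n) F) (i j : Fin n) :
    ((mono 1 c : Matrix (Fin n) (Fin n) F) * A * ((mono 1 c)⁻¹ : GLn).val) i j =
      (c i : F) * A i j * (((c j)⁻¹ : Fˣ) : F) := conj_apply 1 c A i j

/-- A square-zero element commutated with a torus element. -/
theorem comm_step (hN : ContainsN K) {X : GLn} (hX : X ∈ K) (α : Matrix (Fin n) (Fin n) F)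
    (hα : (X : Matrix (Fin n) (Fin n) F) = 1 + α) (S : Finset (Fin n))
    (hrow : ∀ i j, i ∉ S → α i j = 0) (hcol : ∀ i j, j ∈ S → α i j = 0)
    {c : Fin n → Fˣ} (hc : ∏ l, c l = 1) :
    ∃ Y ∈ K, (Y : Matrix (Fin n) (Fin n) F) =
      1 + Matrix.of fun i j => ((c i : F) * (((c j)⁻¹ : Fˣ) : F) - 1) * α i j := by
  set α' := Matrix.of fun i j => (c i : F) * (((c j)⁻¹ : Fˣ) : F) * α i j with hα'
  have hz : ∀ β γ : Matrix (Fin n) (Fin n) F, (∀ i j, j ∈ S → β i j = 0) → (∀ i j, i ∉ S → γ i j = 0) →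
      β * γ = 0 := by
    intro β γ h1 h2
    ext i j
    rw [mul_apply, Matrix.zero_apply]
    refine Finset.sum_eq_zero fun l _ => ?_
    by_cases hl : l ∈ S
    · rw [h1 i l hl, zero_mul]
    · rw [h2 l j hl, mul_zero]
  have hinv : (X⁻¹ : GLn).val = 1 - α := by
    refine Units.inv_eq_of_mul_eq_one_right ?_
    rw [hα, add_mul, one_mul, mul_sub, mul_one, hz α α hcol hrow, sub_zero, sub_add_cancel]
  refine ⟨mono 1 c * X * (mono 1 c)⁻¹ * X⁻¹,
    K.mul_mem (K.mul_mem (K.mul_mem (diag_mem hN hc) hX) (K.inv_mem (diag_mem hN hc))) (K.inv_mem hX), ?_⟩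
  have e : ((mono 1 c : Matrix (Fin n) (Fin n) F) * (X : Matrix (Fin n) (Fin n) F) * ((mono 1 c)⁻¹ : GLn).val) =
      1 + α' := by
    rw [hα, mul_add, add_mul, mul_one, ← Units.val_mul, mul_inv_cancel, Units.val_one]
    congr 1
    ext i j
    rw [diag_conj_apply, hα', Matrix.of_apply]
    ring
  rw [Units.val_mul, Units.val_mul, Units.val_mul, e, hinv, add_mul, one_mul, mul_sub, mul_one,
    hz α' α (fun i j hj => by simp [hα', hcol i j hj]) hrow]
  ext i j
  simp [hα']
  ring

theorem root_all (hN : ContainsN K) (hn : 3 ≤ n) {s l : Fin n} (hsl : s ≠ l) {a : F} (ha : a ≠ 0) {X : GLn}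
    (hX : X ∈ K) (hXv : (X : Matrix (Fin n) (Fin n) F) = Matrix.transvection s l a) :
    Cfsg.Geo.specialLinear (Fin n) F ≤ K := by
  classical
  have key : ∀ (i j : Fin n), i ≠ j → ∀ b : F, ∃ Y ∈ K, (Y : Matrix (Fin n) (Fin n) F) = Matrix.transvection i j b := by
    intro i j hij b
    rcases eq_or_ne b 0 with rfl | hb
    · exact ⟨1, K.one_mem, by simp [Matrix.transvection]⟩
    obtain ⟨d, hd⟩ := exists_fin_notMem (s := {s, l})
      (lt_of_le_of_lt (Finset.card_insert_le _ _) (by simp; omega))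
    simp only [Finset.mem_insert, Finset.mem_singleton, not_or] at hd
    let σ0 : Equiv.Perm (Fin n) := Equiv.swap s i
    let σ : Equiv.Perm (Fin n) := Equiv.swap (σ0 l) j * σ0
    have hσl : σ l = j := by simp [σ]
    have hσs : σ s = i := by
      simp only [σ, Equiv.Perm.mul_apply]
      rw [show σ0 s = i from Equiv.swap_apply_left s i, Equiv.swap_apply_of_ne_of_ne _ hij]
      intro e
      exact hsl (σ0.injective ((Equiv.swap_apply_left s i).trans e))
    let x : Fˣ := Units.mk0 b hb * (Units.mk0 a ha)⁻¹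
    let sg : Fˣ := Units.map (Int.castRingHom F).toMonoidHom (Equiv.Perm.sign σ)
    let c : Fin n → Fˣ := fun k => (if k = s then x else if k = d then x⁻¹ else 1) * (if k = d then sg else 1)
    have hdet : (mono σ c : Matrix (Fin n) (Fin n) F).det = 1 := by
      rw [det_mono]
      have : ∏ k, c k = sg := by
        rw [Finset.prod_mul_distrib, Finset.prod_ite_eq', if_pos (mem_univ _)]
        have := prod_two (F := F) (Ne.symm hd.1) x
        unfold two at this
        rw [this, one_mul]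
      rw [← Units.coe_prod, this]
      show ((Equiv.Perm.sign σ : ℤ) : F) * ((Equiv.Perm.sign σ : ℤ) : F) = 1
      rw [← Int.cast_mul, ← Units.val_mul, Int.units_mul_self]; simp
    have hm := hN _ (isMono_mono σ c) hdet
    refine ⟨mono σ c * X * (mono σ c)⁻¹, K.mul_mem (K.mul_mem hm hX) (K.inv_mem hm), ?_⟩
    rw [Units.val_mul, Units.val_mul, hXv, Matrix.transvection, Matrix.transvection, mul_add, add_mul, mul_one,
      ← Units.val_mul, mul_inv_cancel, Units.val_one]
    congr 1
    ext i' j'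
    rw [conj_apply]
    by_cases h : i' = i ∧ j' = j
    · obtain ⟨rfl, rfl⟩ := h
      rw [← hσs, ← hσl, Equiv.symm_apply_apply, Equiv.symm_apply_apply]
      simp [c, x, Ne.symm hd.1, Ne.symm hd.2, Ne.symm hsl]
      field_simp
    · rw [Matrix.single_apply_of_ne, Matrix.single_apply_of_ne]
      · simp
      · exact fun e => h ⟨e.1.symm, e.2.symm⟩
      · intro e
        exact h ⟨by rw [← hσs, e.1, Equiv.apply_symm_apply], by rw [← hσl, e.2, Equiv.apply_symm_apply]⟩
  intro g hg
  let A : Matrix.SpecialLinearGroup (Fin n) F := ⟨(g : Matrix (Fin n) (Fin n) F), mem_specialLinear_iff.mp hg⟩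
  have hnt : Nontrivial (Fin n) := ⟨s, l, hsl⟩
  suffices ∀ B : Matrix.SpecialLinearGroup (Fin n) F, Matrix.SpecialLinearGroup.toGL B ∈ K by
    have := this A
    rwa [show Matrix.SpecialLinearGroup.toGL A = g from Units.ext rfl] at this
  intro B
  induction B using Cfsg.Agent.Linear.transvection_induction with
  | ht i j hij b =>
    obtain ⟨Y, hY, hYv⟩ := key i j hij b
    convert hY using 1
    exact Units.ext hYv.symm
  | hmul A B hA hB => rw [map_mul]; exact K.mul_mem hA hB

theorem exists_fin_ne (hn : 13 ≤ n) (a b c d e : Fin n) : ∃ k, k ≠ a ∧ k ≠ b ∧ k ≠ c ∧ k ≠ d ∧ k ≠ e := by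
  obtain ⟨k, hk⟩ := exists_fin_notMem (s := {a, b, c, d, e})
    (lt_of_le_of_lt Finset.card_le_five (by omega))
  simp only [Finset.mem_insert, Finset.mem_singleton, not_or] at hk
  exact ⟨k, hk⟩

theorem exists_unit_gen [Fintype F] (hq : 5 ≤ Fintype.card F) :
    ∃ x : Fˣ, x ≠ 1 ∧ (x : F) ≠ -1 ∧ (x : F) ^ 3 ≠ 1 := by
  classical
  obtain ⟨g, hg⟩ := IsCyclic.exists_generator (α := Fˣ)
  have ho : 4 ≤ orderOf g := by
    rw [orderOf_eq_card_of_forall_mem_zpowers hg, Nat.card_eq_fintype_card, Fintype.card_units]; omega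
  refine ⟨g, ?_, ?_, ?_⟩
  · intro e; rw [e, orderOf_one] at ho; omega
  · intro e
    exact pow_ne_one_of_lt_orderOf (n := 2) (by norm_num) (by omega : 2 < orderOf g)
      (Units.ext (by push_cast; rw [e]; ring))
  · intro e
    exact pow_ne_one_of_lt_orderOf (n := 3) (by norm_num) (by omega : 3 < orderOf g)
      (Units.ext (by push_cast; exact e))

/-- An element trivial outside a pair of rows, not supported inside the pair, gives the special linear group. -/
theorem sl_of_rows [Fintype F] (hq : 5 ≤ Fintype.card F) (hn : 13 ≤ n) (hN : ContainsN K) {X : GLn} (hX : X ∈ K)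
    {r j : Fin n} (hrow : ∀ i l, i ≠ r → i ≠ j → (X : Matrix (Fin n) (Fin n) F) i l = (1 : Matrix _ _ F) i l)
    {s l : Fin n} (hlr : l ≠ r) (hlj : l ≠ j) (hsl : s ≠ l) (hne : (X : Matrix (Fin n) (Fin n) F) s l ≠ 0) :
    Cfsg.Geo.specialLinear (Fin n) F ≤ K := by
  classical
  obtain ⟨x, hx1, -, -⟩ := exists_unit_gen (F := F) hq
  obtain ⟨l', hl'r, hl'j, hl'l, -, -⟩ := exists_fin_ne hn r j l l l
  obtain ⟨d, hdr, hdj, hdl, hdl', -⟩ := exists_fin_ne hn r j l l' l'
  let S : Finset (Fin n) := {r, j}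
  have hS : ∀ i, i ∈ S ↔ i = r ∨ i = j := by simp [S]
  set α := (X : Matrix (Fin n) (Fin n) F) - 1 with hαdef
  have hα : ∀ i k, i ∉ S → α i k = 0 := by
    intro i k hi
    rw [hS] at hi; push_neg at hi
    rw [hαdef, Matrix.sub_apply, hrow i k hi.1 hi.2, sub_self]
  -- first step
  have hc : ∏ k, two l l' x k = 1 := prod_two (Ne.symm hl'l) x
  have ht1 : ∀ i, i ∈ S → two l l' x i = 1 := by
    intro i hi
    rcases (hS i).mp hi with rfl | rfl
    · simp [two, Ne.symm hlr, Ne.symm hl'r]
    · simp [two, Ne.symm hlj, Ne.symm hl'j]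
  set M : Matrix (Fin n) (Fin n) F :=
    Matrix.of fun i k => ((((two l l' x k)⁻¹ : Fˣ) : F) - 1) * α i k with hM
  have hMconj : (mono 1 (two l l' x) : Matrix (Fin n) (Fin n) F) * (X : Matrix (Fin n) (Fin n) F) *
      ((mono 1 (two l l' x))⁻¹ : GLn).val = (X : Matrix (Fin n) (Fin n) F) + M := by
    have hX1 : (X : Matrix (Fin n) (Fin n) F) = 1 + α := by rw [hαdef]; abel
    rw [hX1, mul_add, add_mul, mul_one, ← Units.val_mul, mul_inv_cancel, Units.val_one, add_assoc]
    congr 1
    ext i k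
    rw [diag_conj_apply, Matrix.add_apply, hM, Matrix.of_apply]
    by_cases hi : i ∈ S
    · rw [ht1 i hi, Units.val_one]; ring
    · rw [hα i k hi]; ring
  set β := (X⁻¹ : GLn).val * M with hβ
  have hMrow : ∀ i k, i ∉ S → M i k = 0 := fun i k hi => by rw [hM, Matrix.of_apply, hα i k hi, mul_zero]
  have hMcol : ∀ i k, (k ≠ l ∧ k ≠ l') → M i k = 0 := fun i k hk => by
    rw [hM, Matrix.of_apply]; simp [two, hk.1, hk.2]
  have hXM : (X : Matrix (Fin n) (Fin n) F) * β = M := by
    rw [hβ, ← mul_assoc, ← Units.val_mul, mul_inv_cancel, Units.val_one, one_mul]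
  have hβrow : ∀ i k, i ∉ S → β i k = 0 := by
    intro i k hi
    have h := congrFun (congrFun hXM i) k
    rw [hMrow i k hi] at h
    rw [hS] at hi; push_neg at hi
    rw [mul_apply, Fintype.sum_eq_single i (fun b hb => by
      rw [hrow i b hi.1 hi.2, Matrix.one_apply_ne (Ne.symm hb), zero_mul]),
      hrow i i hi.1 hi.2, Matrix.one_apply_eq, one_mul] at h
    exact h
  have hβcol : ∀ i k, (k ≠ l ∧ k ≠ l') → β i k = 0 := fun i k hk => by
    rw [hβ, mul_apply]; exact Finset.sum_eq_zero fun b _ => by rw [hMcol b k hk, mul_zero]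
  obtain ⟨s1, hs1⟩ : ∃ s1, β s1 l ≠ 0 := by
    by_contra h; push_neg at h
    have h' := congrFun (congrFun hXM s) l
    rw [mul_apply, Finset.sum_eq_zero (fun b _ => by rw [h b, mul_zero]), hM, Matrix.of_apply, hαdef,
      Matrix.sub_apply, Matrix.one_apply_ne hsl, sub_zero] at h'
    rcases mul_eq_zero.mp h'.symm with e | e
    · rw [show two l l' x l = x by simp [two], sub_eq_zero] at e
      exact hx1 (inv_eq_one.mp (Units.ext e))
    · exact hne e
  have hs1S : s1 ∈ S := by_contra fun h => hs1 (hβrow s1 l h)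
  have hSout : ∀ k ∈ S, k ≠ l ∧ k ≠ l' ∧ k ≠ d := by
    intro k hk
    rcases (hS k).mp hk with rfl | rfl
    · exact ⟨Ne.symm hlr, Ne.symm hl'r, Ne.symm hdr⟩
    · exact ⟨Ne.symm hlj, Ne.symm hl'j, Ne.symm hdj⟩
  have hs1o := hSout s1 hs1S
  have hY : (X⁻¹ * (mono 1 (two l l' x) * X * (mono 1 (two l l' x))⁻¹)) ∈ K :=
    K.mul_mem (K.inv_mem hX) (K.mul_mem (K.mul_mem (diag_mem hN hc) hX) (K.inv_mem (diag_mem hN hc)))
  have hYv : ((X⁻¹ * (mono 1 (two l l' x) * X * (mono 1 (two l l' x))⁻¹) : GLn) : Matrix (Fin n) (Fin n) F)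
      = 1 + β := by
    rw [Units.val_mul, Units.val_mul, Units.val_mul, hMconj, mul_add, ← Units.val_mul, inv_mul_cancel,
      Units.val_one]
  obtain ⟨Z, hZ, hZv⟩ := comm_step hN hY β hYv S hβrow
    (fun i k hk => hβcol i k ⟨(hSout k hk).1, (hSout k hk).2.1⟩) (prod_two hs1o.2.2 x)
  set γ : Matrix (Fin n) (Fin n) F :=
    Matrix.of fun i k => ((two s1 d x i : F) * (((two s1 d x k)⁻¹ : Fˣ) : F) - 1) * β i k with hγ
  have hγ0 : ∀ i k, (i ≠ s1 ∨ (k ≠ l ∧ k ≠ l')) → γ i k = 0 := by
    intro i k h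
    by_cases hk : k ≠ l ∧ k ≠ l'
    · rw [hγ, Matrix.of_apply, hβcol i k hk, mul_zero]
    · have hi := h.resolve_right hk
      by_cases hiS : i ∈ S
      · have hk' : k ≠ s1 ∧ k ≠ d := by
          rcases not_and_or.mp hk with e | e <;> simp only [ne_eq, not_not] at e <;> subst e
          · exact ⟨Ne.symm hs1o.1, Ne.symm hdl⟩
          · exact ⟨Ne.symm hs1o.2.1, Ne.symm hdl'⟩
        rw [hγ, Matrix.of_apply]
        simp [two, hi, (hSout i hiS).2.2, hk'.1, hk'.2]
      · rw [hγ, Matrix.of_apply, hβrow i k hiS, mul_zero]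
  have hγne : γ s1 l ≠ 0 := by
    rw [hγ, Matrix.of_apply]
    refine mul_ne_zero ?_ hs1
    simp only [two, if_true, if_neg (Ne.symm hs1o.1), if_neg (Ne.symm hdl), inv_one, Units.val_one, mul_one,
      sub_ne_zero]
    exact fun e => hx1 (Units.ext e)
  obtain ⟨W, hW, hWv⟩ := comm_step hN hZ γ hZv {s1}
    (fun i k hi => hγ0 i k (Or.inl (by simpa using hi)))
    (fun i k hk => hγ0 i k (Or.inr (by
      rw [Finset.mem_singleton.mp hk]; exact ⟨hs1o.1, hs1o.2.1⟩)))
    (prod_two (Ne.symm hdl) x)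
  refine root_all hN (by omega) hs1o.1 (a := ((((x⁻¹ : Fˣ)) : F) - 1) * γ s1 l) ?_ hW ?_
  · refine mul_ne_zero (sub_ne_zero.mpr fun e => hx1 (inv_eq_one.mp (Units.ext e))) hγne
  · rw [hWv, Matrix.transvection]
    congr 1
    ext i k
    by_cases h : i = s1 ∧ k = l
    · obtain ⟨rfl, rfl⟩ := h
      rw [Matrix.single_apply_same, Matrix.of_apply]
      simp [two, hs1o.1, hs1o.2.2]
    · rw [Matrix.single_apply_of_ne _ _ _ _ _ (fun e => h ⟨e.1.symm, e.2.symm⟩), Matrix.of_apply]
      by_cases hi : i = s1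
      · subst hi
        have hkl : k ≠ l := fun e => h ⟨rfl, e⟩
        by_cases hk : k = l'
        · subst hk; simp [two, hs1o.1, hs1o.2.2, hkl, Ne.symm hdl']
        · rw [hγ0 _ _ (Or.inr ⟨hkl, hk⟩), mul_zero]
      · rw [hγ0 _ _ (Or.inl hi), mul_zero]

/-- Deleting the row `r`. -/
def er (r : Fin n) (A : Matrix (Fin n) (Fin n) F) : Matrix (Fin n) (Fin n) F :=
  Matrix.of fun i j => if i = r then 0 else A i j

theorem er_apply (r : Fin n) (A : Matrix (Fin n) (Fin n) F) (i j : Fin n) :
    er r A i j = if i = r then 0 else A i j := rfl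

variable (K) in
/-- `A` is induced on the quotient by an element of `K` fixing the line of `e_r`. -/
def Rep (r : Fin n) (A : Matrix (Fin n) (Fin n) F) : Prop :=
  ∃ g ∈ K, (∀ i, i ≠ r → (g : Matrix (Fin n) (Fin n) F) i r = 0) ∧ er r (g : Matrix (Fin n) (Fin n) F) = A

theorem rep_mul {r : Fin n} {A B : Matrix (Fin n) (Fin n) F} (hA : Rep K r A) (hB : Rep K r B) :
    Rep K r (A * B) := by
  obtain ⟨g, hg, hgr, rfl⟩ := hA
  obtain ⟨h, hh, hhr, rfl⟩ := hB
  refine ⟨g * h, K.mul_mem hg hh, fun i hi => ?_, ?_⟩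
  · rw [Units.val_mul, mul_apply, Fintype.sum_eq_single r fun l hl => by rw [hhr l hl, mul_zero], hgr i hi,
      zero_mul]
  · ext i j
    rw [er_apply, mul_apply]
    by_cases hi : i = r
    · rw [if_pos hi]
      exact (Finset.sum_eq_zero fun l _ => by rw [er_apply, if_pos hi, zero_mul]).symm
    · rw [if_neg hi, Units.val_mul, mul_apply]
      refine Finset.sum_congr rfl fun l _ => ?_
      rw [er_apply, if_neg hi, er_apply]
      split_ifs with hl
      · rw [hl, hgr i hi, zero_mul, zero_mul]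
      · rfl

theorem rep_mono_conj {r : Fin n} {A : Matrix (Fin n) (Fin n) F} (hA : Rep K r A) {σ : Equiv.Perm (Fin n)}
    (hσ : σ r = r) {c : Fin n → Fˣ} (hm : mono σ c ∈ K) :
    Rep K r (Matrix.of fun i j => (c (σ.symm i) : F) * A (σ.symm i) (σ.symm j) *
      (((c (σ.symm j))⁻¹ : Fˣ) : F)) := by
  obtain ⟨g, hg, hgr, rfl⟩ := hA
  have hσr : σ.symm r = r := by rw [Equiv.symm_apply_eq, hσ]
  refine ⟨mono σ c * g * (mono σ c)⁻¹, K.mul_mem (K.mul_mem hm hg) (K.inv_mem hm), fun i hi => ?_, ?_⟩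
  · rw [Units.val_mul, Units.val_mul, conj_apply, hσr,
      hgr _ (fun e => hi (by rw [← hσ, ← e, Equiv.apply_symm_apply])), mul_zero, zero_mul]
  · ext i j
    rw [er_apply, Units.val_mul, Units.val_mul, conj_apply, Matrix.of_apply, er_apply]
    by_cases hi : i = r
    · rw [if_pos hi, hi, hσr, if_pos rfl, mul_zero, zero_mul]
    · rw [if_neg hi, if_neg fun e => hi (by rw [← hσ, ← e, Equiv.apply_symm_apply])]

/-- Any prescribed diagonal off `r`. -/
theorem exists_diag (hN : ContainsN K) (r : Fin n) (c : Fin n → Fˣ) :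
    ∃ c' : Fin n → Fˣ, (∀ i, i ≠ r → c' i = c i) ∧ mono 1 c' ∈ K := by
  refine ⟨Function.update c r ((∏ i ∈ (univ.erase r), c i))⁻¹, fun i hi => Function.update_of_ne hi _ _,
    diag_mem hN ?_⟩
  rw [← Finset.mul_prod_erase _ _ (mem_univ r), Function.update_self,
    Finset.prod_congr rfl fun i hi => Function.update_of_ne (Finset.ne_of_mem_erase hi) _ c, inv_mul_cancel]

theorem rep_diag_conj (hN : ContainsN K) {r : Fin n} {A : Matrix (Fin n) (Fin n) F} (hA : Rep K r A)
    (c : Fin n → Fˣ) :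
    Rep K r (Matrix.of fun i j => (c i : F) * A i j * (((c j)⁻¹ : Fˣ) : F)) := by
  obtain ⟨c', hc', hm⟩ := exists_diag hN r c
  obtain ⟨g, -, hgr, hgA⟩ := id hA
  convert rep_mono_conj hA (σ := (1 : Equiv.Perm (Fin n))) rfl hm using 1
  ext i j
  show (c i : F) * A i j * (((c j)⁻¹ : Fˣ) : F) = (c' i : F) * A i j * (((c' j)⁻¹ : Fˣ) : F)
  by_cases hi : i = r
  · subst hi hgA; simp [er_apply]
  by_cases hj : j = r
  · subst hj hgA; simp [er_apply, hi, hgr i hi]
  rw [hc' i hi, hc' j hj]

/-- `K` induces every homology with centre `u` and axis `φ` on the quotient. -/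
def Hom (K : Subgroup (GL (Fin n) F)) (r : Fin n) (u φ : Fin n → F) : Prop :=
  u r = 0 ∧ φ r = 0 ∧ φ ⬝ᵥ u = 1 ∧ ∀ η : Fˣ, Rep K r (er r 1 + ((η : F) - 1) • vecMulVec u φ)

theorem er_one_mul_vec {r : Fin n} {u φ : Fin n → F} (hu : u r = 0) :
    er r (1 : Matrix (Fin n) (Fin n) F) * vecMulVec u φ = vecMulVec u φ := by
  ext i j
  rw [mul_apply, Fintype.sum_eq_single i fun l hl => by simp [er_apply, Matrix.one_apply_ne (Ne.symm hl)],
    er_apply]
  by_cases hi : i = r
  · simp [hi, vecMulVec_apply, hu]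
  · simp [hi]

theorem vec_mul_er_one {r : Fin n} {u φ : Fin n → F} (hφ : φ r = 0) :
    vecMulVec u φ * er r (1 : Matrix (Fin n) (Fin n) F) = vecMulVec u φ := by
  ext i j
  rw [mul_apply, Fintype.sum_eq_single j fun l hl => by simp [er_apply, Matrix.one_apply_ne hl], er_apply]
  by_cases hj : j = r
  · simp [hj, vecMulVec_apply, hφ]
  · simp [hj]

theorem er_one_sq (r : Fin n) : er r (1 : Matrix (Fin n) (Fin n) F) * er r 1 = er r 1 := by
  ext i j
  rw [mul_apply, Fintype.sum_eq_single i fun l hl => by simp [er_apply, Matrix.one_apply_ne (Ne.symm hl)],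
    er_apply, er_apply]
  by_cases hi : i = r <;> simp [hi]

theorem two_mul_hom {r : Fin n} (a b : F) {w χ w' χ' : Fin n → F} (hw : w r = 0) (hw' : w' r = 0)
    (hχ : χ r = 0) :
    (er r (1 : Matrix (Fin n) (Fin n) F) + a • vecMulVec w χ) * (er r 1 + b • vecMulVec w' χ') =
      er r 1 + (b • vecMulVec w' χ' + a • vecMulVec w χ + (a * b * (χ ⬝ᵥ w')) • vecMulVec w χ') := by
  rw [Matrix.add_mul, Matrix.mul_add, Matrix.mul_add, er_one_sq, Matrix.mul_smul, er_one_mul_vec hw',
    Matrix.smul_mul, vec_mul_er_one hχ, Matrix.smul_mul, Matrix.mul_smul, Matrix.vecMulVec_mul_vecMulVec,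
    Matrix.vecMulVec_smul, smul_smul, smul_smul]
  simp only [smul_add, add_assoc]

theorem hom_diag (hN : ContainsN K) {r : Fin n} {u φ : Fin n → F} (h : Hom K r u φ) (c : Fin n → Fˣ) :
    Hom K r (fun i => (c i : F) * u i) (fun i => φ i * (((c i)⁻¹ : Fˣ) : F)) := by
  obtain ⟨hu, hφ, h1, h2⟩ := h
  refine ⟨by simp [hu], by simp [hφ], ?_, fun η => ?_⟩
  · rw [← h1]; exact Finset.sum_congr rfl fun i _ => by field_simp [Units.ne_zero]; simp [mul_assoc, mul_comm]
  · convert rep_diag_conj hN (h2 η) c using 1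
    ext i j
    rw [Matrix.of_apply, Matrix.add_apply, Matrix.add_apply, er_apply, Matrix.smul_apply, Matrix.smul_apply,
      vecMulVec_apply, vecMulVec_apply, smul_eq_mul, smul_eq_mul]
    by_cases hij : i = j
    · subst hij
      have hcc : (c i : F) * (((c i)⁻¹ : Fˣ) : F) = 1 := by rw [← Units.val_mul, mul_inv_cancel, Units.val_one]
      rw [Matrix.one_apply_eq]
      split_ifs
      · ring
      · linear_combination -hcc
    · simp [Matrix.one_apply_ne hij]; ring

theorem hom_perm (hN : ContainsN K) {r : Fin n} {u φ : Fin n → F} (h : Hom K r u φ) {σ : Equiv.Perm (Fin n)}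
    (hσ : σ r = r) : Hom K r (fun i => u (σ.symm i)) (fun i => φ (σ.symm i)) := by
  obtain ⟨hu, hφ, h1, h2⟩ := h
  have hσr : σ.symm r = r := by rw [Equiv.symm_apply_eq, hσ]
  let sg : Fˣ := Units.map (Int.castRingHom F).toMonoidHom (Equiv.Perm.sign σ)
  let c : Fin n → Fˣ := fun k => if k = r then sg else 1
  have hm : mono σ c ∈ K := by
    refine hN _ (isMono_mono _ _) ?_
    rw [det_mono, ← Units.coe_prod, Finset.prod_ite_eq', if_pos (mem_univ _)]
    show ((Equiv.Perm.sign σ : ℤ) : F) * ((Equiv.Perm.sign σ : ℤ) : F) = 1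
    rw [← Int.cast_mul, ← Units.val_mul, Int.units_mul_self]; simp
  refine ⟨by simp [hσr, hu], by simp [hσr, hφ], ?_, fun η => ?_⟩
  · rw [← h1]; exact Equiv.sum_comp σ.symm fun i => φ i * u i
  · convert rep_mono_conj (h2 η) hσ hm using 1
    ext i j
    have hs : ∀ k, σ.symm k = r ↔ k = r := fun k => ⟨fun e => by rw [← hσ, ← e, Equiv.apply_symm_apply],
      fun e => e ▸ hσr⟩
    simp only [Matrix.of_apply, Matrix.add_apply, er_apply, Matrix.smul_apply, vecMulVec_apply, hs,
      Matrix.one_apply, smul_eq_mul, σ.symm.injective.eq_iff, c]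
    by_cases hi : i = r
    · simp [hi, hσr, hu]
    · by_cases hj : j = r
      · simp [hi, hj, hσr, hφ]
      · simp [hi, hj]

/-- Conjugating one homology family by a homology. -/
theorem hom_hom {r : Fin n} {u φ u' φ' : Fin n → F} (h : Hom K r u φ) (h' : Hom K r u' φ') (η₁ : Fˣ) :
    Hom K r (u' + (((η₁ : F) - 1) * (φ ⬝ᵥ u')) • u) (φ' + ((((η₁⁻¹ : Fˣ) : F) - 1) * (φ' ⬝ᵥ u)) • φ) := by
  obtain ⟨hu, hφ, h1, h2⟩ := h
  obtain ⟨hu', hφ', h1', h2'⟩ := h'
  set a := (η₁ : F) - 1 with ha
  set a' := ((η₁⁻¹ : Fˣ) : F) - 1 with ha'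
  have haa : a + a' + a * a' = 0 := by
    have : (η₁ : F) * ((η₁⁻¹ : Fˣ) : F) = 1 := by rw [← Units.val_mul, mul_inv_cancel, Units.val_one]
    rw [ha, ha']; linear_combination this
  refine ⟨by simp [hu, hu'], by simp [hφ, hφ'], ?_, fun η => ?_⟩
  · simp only [add_dotProduct, dotProduct_add, smul_dotProduct, dotProduct_smul, smul_eq_mul, h1, h1']
    linear_combination (φ ⬝ᵥ u') * (φ' ⬝ᵥ u) * haa
  · convert rep_mul (rep_mul (h2 η₁) (h2' η)) (h2 η₁⁻¹) using 1
    rw [← ha, ← ha', two_mul_hom _ _ hu hu' hφ]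
    set b := (η : F) - 1
    rw [Matrix.add_mul, Matrix.mul_add, er_one_sq, Matrix.mul_smul, er_one_mul_vec hu]
    simp only [Matrix.add_mul, Matrix.mul_add, Matrix.smul_mul, Matrix.mul_smul, vec_mul_er_one hφ,
      vec_mul_er_one hφ', Matrix.vecMulVec_mul_vecMulVec, Matrix.vecMulVec_smul, smul_smul, h1]
    ext i j
    simp only [Matrix.add_apply, Matrix.smul_apply, vecMulVec_apply, Pi.add_apply, Pi.smul_apply, smul_eq_mul]
    linear_combination -(u i * φ j) * haa

theorem exists_unit_notMem [Fintype F] (hq : 5 ≤ Fintype.card F) (s : Finset F) (hs : s.card ≤ 3) :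
    ∃ η : Fˣ, (η : F) ∉ s := by
  classical
  obtain ⟨x, -, hx⟩ := Finset.exists_mem_notMem_of_card_lt_card
    (show (insert (0 : F) s).card < (Finset.univ : Finset F).card by
      rw [Finset.card_univ]; have := Finset.card_insert_le (0 : F) s; omega)
  simp only [Finset.mem_insert, not_or] at hx
  exact ⟨Units.mk0 x hx.1, hx.2⟩

/-- A homology whose centre and axis have different supports gives everything. -/
theorem sl_of_good [Fintype F] (hq : 5 ≤ Fintype.card F) (hn : 13 ≤ n) (hN : ContainsN K) {r : Fin n}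
    {w χ : Fin n → F} (h : Hom K r w χ) {j : Fin n}
    (hj : (w j ≠ 0 ∧ χ j = 0) ∨ (w j = 0 ∧ χ j ≠ 0)) : Cfsg.Geo.specialLinear (Fin n) F ≤ K := by
  classical
  obtain ⟨z, hz1, -, -⟩ := exists_unit_gen (F := F) hq
  have hz1' : (z : F) - 1 ≠ 0 := sub_ne_zero.mpr fun e => hz1 (Units.ext e)
  set a := (z : F) - 1 with ha
  set a' := ((z⁻¹ : Fˣ) : F) - 1 with ha'
  have haa : a + a' + a * a' = 0 := by
    have : (z : F) * ((z⁻¹ : Fˣ) : F) = 1 := by rw [← Units.val_mul, mul_inv_cancel, Units.val_one]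
    rw [ha, ha']; linear_combination this
  have ha0 : a' ≠ 0 := fun e => hz1' (by rw [e] at haa; linear_combination haa)
  let c : Fin n → Fˣ := fun i => if i = j then z else 1
  have h' := hom_diag hN h c
  obtain ⟨hw, hχ, h1, h2⟩ := h
  obtain ⟨hw', hχ', h1', h2'⟩ := h'
  set w' := fun i => (c i : F) * w i with hw'def
  set χ' := fun i => χ i * (((c i)⁻¹ : Fˣ) : F) with hχ'def
  have hjr : j ≠ r := by
    rintro rfl
    rcases hj with h | h
    · exact h.1 hw
    · exact h.2 hχ
  rcases hj with ⟨hwj, hχj⟩ | ⟨hwj, hχj⟩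
  · have hχe : χ' = χ := by
      funext i; by_cases hi : i = j
      · subst hi; simp [χ', hχj]
      · simp [χ', c, hi]
    rw [hχe] at h1' h2'
    obtain ⟨g, hg, hgr, hgA⟩ := rep_mul (h2 z) (h2' z⁻¹)
    rw [two_mul_hom _ _ hw hw' hχ, h1', mul_one] at hgA
    obtain ⟨l, hl⟩ : ∃ l, χ l ≠ 0 := by
      by_contra h0; push_neg at h0
      rw [show χ = 0 from funext h0, zero_dotProduct] at h1
      exact zero_ne_one h1
    have hlr : l ≠ r := fun e => hl (e ▸ hχ)
    have hlj : l ≠ j := fun e => hl (e ▸ hχj)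
    have hrow : ∀ i k, i ≠ r → (g : Matrix (Fin n) (Fin n) F) i k =
        (1 : Matrix (Fin n) (Fin n) F) i k + a' * ((((c i : Fˣ) : F) - 1) * w i) * χ k := by
      intro i k hi
      have := congrFun (congrFun hgA i) k
      rw [er_apply, if_neg hi] at this
      rw [this]
      simp only [Matrix.add_apply, Matrix.smul_apply, vecMulVec_apply, er_apply, if_neg hi, smul_eq_mul, w']
      rw [← ha, ← ha']
      linear_combination (w i * χ k) * haa
    refine sl_of_rows hq hn hN hg (r := r) (j := j) (fun i k hir hij => ?_) hlr hlj (s := j) (Ne.symm hlj) ?_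
    · rw [hrow i k hir]; simp [c, hij]
    · rw [hrow j l hjr, Matrix.one_apply_ne (Ne.symm hlj), zero_add]
      simp only [c, if_true, ← ha]
      exact mul_ne_zero (mul_ne_zero ha0 (mul_ne_zero hz1' hwj)) hl
  · have hwe : w' = w := by
      funext i; by_cases hi : i = j
      · subst hi; simp [w', hwj]
      · simp [w', c, hi]
    rw [hwe] at h1' h2'
    have hA := rep_mul (h2 z) (h2' z⁻¹)
    rw [two_mul_hom _ _ hw hw hχ, h1, mul_one] at hA
    set κ := a * (1 - ((z⁻¹ : Fˣ) : F)) * χ j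
    have hA' : Rep K r (er r 1 + vecMulVec (κ • w) (Pi.single j 1)) := by
      convert hA using 1
      ext i k
      simp only [Matrix.add_apply, Matrix.smul_apply, vecMulVec_apply, Pi.smul_apply, smul_eq_mul, χ']
      rw [← ha, ← ha']
      by_cases hk : k = j
      · subst hk
        simp only [c, κ, if_true, Pi.single_eq_same, ha, ha', Units.val_inv_eq_inv_val]
        field_simp [Units.ne_zero]
        ring
      · simp only [c, if_neg hk, Pi.single_eq_of_ne hk, inv_one, Units.val_one, ha, ha', Units.val_inv_eq_inv_val]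
        field_simp [Units.ne_zero]
        ring
    obtain ⟨l, hl⟩ : ∃ l, w l ≠ 0 := by
      by_contra h0; push_neg at h0
      rw [show w = 0 from funext h0, dotProduct_zero] at h1
      exact zero_ne_one h1
    have hlr : l ≠ r := fun e => hl (e ▸ hw)
    have hlj : l ≠ j := fun e => hl (e ▸ hwj)
    have hA1 := rep_diag_conj hN hA' (fun i => if i = l then z else 1)
    have hA2 := rep_diag_conj hN hA' (fun i => if i = j then -1 else 1)
    obtain ⟨g, hg, hgr, hgA⟩ := rep_mul hA1 hA2
    have hneg : (((-1 : Fˣ))⁻¹ : Fˣ) = (-1 : Fˣ) := by rw [inv_neg, inv_one]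
    have e1 : (Matrix.of fun i k => ((if i = l then z else 1 : Fˣ) : F) *
        (er r (1 : Matrix (Fin n) (Fin n) F) + vecMulVec (κ • w) (Pi.single j 1)) i k *
        (((if k = l then z else 1 : Fˣ)⁻¹ : Fˣ) : F)) =
        er r 1 + (1 : F) • vecMulVec (fun i => ((if i = l then z else 1 : Fˣ) : F) * (κ * w i)) (Pi.single j 1) := by
      ext i k
      simp only [Matrix.of_apply, Matrix.add_apply, vecMulVec_apply, er_apply, Pi.smul_apply, smul_eq_mul,
        one_smul]
      by_cases hk : k = j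
      · subst hk
        by_cases hik : i = k
        · subst hik; simp [hwj, Ne.symm hlj]
        · simp [Ne.symm hlj, Matrix.one_apply_ne hik]
      · by_cases hik : i = k
        · subst hik; by_cases hil : i = l
          · subst hil; by_cases hir : i = r <;> simp [hk, hir, hw]
          · simp [hk, hil]
        · simp [hk, Matrix.one_apply_ne hik]
    have e2 : (Matrix.of fun i k => ((if i = j then -1 else 1 : Fˣ) : F) *
        (er r (1 : Matrix (Fin n) (Fin n) F) + vecMulVec (κ • w) (Pi.single j 1)) i k *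
        (((if k = j then -1 else 1 : Fˣ)⁻¹ : Fˣ) : F)) =
        er r 1 + (-1 : F) • vecMulVec (κ • w) (Pi.single j 1) := by
      ext i k
      simp only [Matrix.of_apply, Matrix.add_apply, Matrix.smul_apply, vecMulVec_apply, er_apply, Pi.smul_apply,
        smul_eq_mul]
      by_cases hk : k = j
      · subst hk
        by_cases hik : i = k
        · subst hik; simp [hwj, hneg]; split_ifs <;> simp
        · simp [hik, hneg, Matrix.one_apply_ne hik]
      · by_cases hik : i = k
        · subst hik; simp [hk]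
        · simp [hk, Matrix.one_apply_ne hik]
    rw [e1, e2, two_mul_hom _ _ (by simp [hw]) (by simp [hw]) (by simp [Ne.symm hjr])] at hgA
    have hrow : ∀ i k, i ≠ r → (g : Matrix (Fin n) (Fin n) F) i k = (1 : Matrix (Fin n) (Fin n) F) i k +
        ((((if i = l then z else 1 : Fˣ)) : F) - 1) * (κ * w i) * (Pi.single j (1 : F) : Fin n → F) k := by
      intro i k hi
      have := congrFun (congrFun hgA i) k
      rw [er_apply, if_neg hi] at this
      rw [this]
      have h0 : (Pi.single j (1 : F) : Fin n → F) ⬝ᵥ (κ • w) = 0 := by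
        rw [single_dotProduct]; simp [hwj]
      simp only [Matrix.add_apply, Matrix.smul_apply, vecMulVec_apply, er_apply, if_neg hi, smul_eq_mul, h0,
        Pi.smul_apply]
      ring
    refine sl_of_rows hq hn hN hg (r := r) (j := l) (fun i k hir hil => ?_) hjr (Ne.symm hlj)
      (s := l) hlj ?_
    · rw [hrow i k hir]; simp [hil]
    · rw [hrow l j hlr, Matrix.one_apply_ne hlj, zero_add]
      simp only [if_true, Pi.single_eq_same, mul_one, ← ha, κ]
      exact mul_ne_zero hz1' (mul_ne_zero (mul_ne_zero (mul_ne_zero hz1'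
        (sub_ne_zero.mpr fun e => hz1 (inv_eq_one.mp (Units.ext e.symm)))) hχj) hl)

theorem exists_three_unit [Fintype F] (hq : 5 ≤ Fintype.card F) (v : F) :
    ∃ s₁ s₂ s₃ : Fˣ, s₁ ≠ s₂ ∧ s₁ ≠ s₃ ∧ s₂ ≠ s₃ ∧ (s₁ : F) ≠ v ∧ (s₂ : F) ≠ v ∧ (s₃ : F) ≠ v := by
  classical
  obtain ⟨s1, h1⟩ := exists_unit_notMem hq {v} (by simp)
  obtain ⟨s2, h2⟩ := exists_unit_notMem hq {v, (s1 : F)} (Finset.card_le_two.trans (by norm_num))
  obtain ⟨s3, h3⟩ := exists_unit_notMem hq {v, (s1 : F), (s2 : F)} Finset.card_le_three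
  simp only [Finset.mem_insert, Finset.mem_singleton, not_or, Units.val_inj] at h1 h2 h3
  exact ⟨s1, s2, s3, Ne.symm h2.2, Ne.symm h3.2.1, Ne.symm h3.2.2, h1, h2.1, h3.1⟩

theorem sum_split (f g : Fin n → F) {p q : Fin n} (hpq : p ≠ q) (h : ∀ i, i ≠ p → i ≠ q → f i = g i) :
    ∑ i, f i = ∑ i, g i + (f p - g p) + (f q - g q) := by
  have h1 : ∑ i, (f i - g i) = (f p - g p) + (f q - g q) :=
    Fintype.sum_eq_add p q hpq fun i hi => sub_eq_zero.mpr (h i hi.1 hi.2)
  rw [Finset.sum_sub_distrib] at h1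
  linear_combination h1

theorem sl_of_three [Fintype F] (hq : 5 ≤ Fintype.card F) (hn : 13 ≤ n) (hN : ContainsN K) {r : Fin n}
    {u φ : Fin n → F} (h : Hom K r u φ) {j p q : Fin n} (hjp : j ≠ p) (hjq : j ≠ q) (hpq : p ≠ q)
    (hj : u j ≠ 0) (hp : u p ≠ 0) (hq' : u q ≠ 0) : Cfsg.Geo.specialLinear (Fin n) F ≤ K := by
  classical
  by_cases hgood : ∃ i, (u i ≠ 0 ∧ φ i = 0) ∨ (u i = 0 ∧ φ i ≠ 0)
  · obtain ⟨i, hi⟩ := hgood
    exact sl_of_good hq hn hN h hi
  push_neg at hgood
  have hφj : φ j ≠ 0 := (hgood j).1 hj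
  set xp := φ p * u p with hxp
  set xq := φ q * u q with hxq
  have hxp0 : xp ≠ 0 := mul_ne_zero ((hgood p).1 hp) hp
  have hxq0 : xq ≠ 0 := mul_ne_zero ((hgood q).1 hq') hq'
  set S' := 1 - xp - xq with hS'
  obtain ⟨η, hη⟩ := exists_unit_notMem hq {1, 1 - S'⁻¹} (Finset.card_le_two.trans (by norm_num))
  simp only [Finset.mem_insert, Finset.mem_singleton, not_or] at hη
  set a := (η : F) - 1 with ha
  set a' := ((η⁻¹ : Fˣ) : F) - 1 with ha'
  have ha0 : a ≠ 0 := sub_ne_zero.mpr hη.1
  have ha0' : a' ≠ 0 := sub_ne_zero.mpr fun e => hη.1 (by rw [inv_eq_one.mp (Units.ext e)]; rfl)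
  set R := -a⁻¹ - S' with hR
  have hR0 : R ≠ 0 := by
    intro e
    apply hη.2
    rw [hR, sub_eq_zero] at e
    rw [← e, inv_neg, inv_inv, ha]; ring
  set R' := -a'⁻¹ - S' with hR'
  obtain ⟨s1, s2, s3, e12, e13, e23, v1, v2, v3⟩ := exists_three_unit hq (R / xp)
  let g : F → F := fun t => xp * (R - xp * t) + xq * xq * t - R' * t * (R - xp * t)
  obtain ⟨s, hs, hgs⟩ : ∃ s : Fˣ, (s : F) ≠ R / xp ∧ g s ≠ 0 := by
    by_contra hh; push_neg at hh
    have g1 := hh s1 v1; have g2 := hh s2 v2; have g3 := hh s3 v3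
    simp only [g] at g1 g2 g3
    set B := -(xp * xp) + xq * xq - R' * R
    set C := R' * xp
    have d12 : B + C * ((s1 : F) + s2) = 0 := by
      refine (mul_eq_zero.mp (?_ : ((s1 : F) - s2) * _ = 0)).resolve_left
        (sub_ne_zero.mpr fun e => e12 (Units.ext e))
      linear_combination g1 - g2
    have d13 : B + C * ((s1 : F) + s3) = 0 := by
      refine (mul_eq_zero.mp (?_ : ((s1 : F) - s3) * _ = 0)).resolve_left
        (sub_ne_zero.mpr fun e => e13 (Units.ext e))
      linear_combination g1 - g3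
    have hC : C = 0 := by
      refine (mul_eq_zero.mp (?_ : C * ((s2 : F) - s3) = 0)).resolve_right
        (sub_ne_zero.mpr fun e => e23 (Units.ext e))
      linear_combination d12 - d13
    have : xp * R = 0 := by
      simp only [B, C] at d12 hC
      linear_combination g1 - (s1 : F) * d12 + ((s1 : F) * s2) * hC
    exact mul_ne_zero hxp0 hR0 this
  set T := (R - xp * (s : F)) / xq with hT
  have hT0 : R - xp * (s : F) ≠ 0 := by
    intro e
    apply hs
    field_simp
    linear_combination -e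
  let c : Fin n → Fˣ := fun i => if i = p then s else if i = q then Units.mk0 T (div_ne_zero hT0 hxq0) else 1
  have hcj : c j = 1 := by simp [c, hjp, hjq]
  have hsum : ∑ i, φ i * u i = 1 := h.2.2.1
  have hA : φ ⬝ᵥ (fun i => (c i : F) * u i) = -a⁻¹ := by
    rw [dotProduct, sum_split _ (fun i => φ i * u i) hpq (fun i h1 h2 => by simp [c, h1, h2]), hsum]
    simp only [c, if_true, if_neg (Ne.symm hpq), Units.val_mk0]
    have hTq : xq * T = R - xp * (s : F) := by rw [hT]; field_simp
    simp only [hxp, hxq] at hTq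
    rw [show -a⁻¹ = R + S' by rw [hR]; ring]
    simp only [hS', hxp, hxq]
    linear_combination hTq
  have hB : (fun i => φ i * (((c i)⁻¹ : Fˣ) : F)) ⬝ᵥ u = S' + xp / (s : F) + xq / T := by
    rw [dotProduct, sum_split _ (fun i => φ i * u i) hpq (fun i h1 h2 => by simp [c, h1, h2]), hsum]
    simp only [c, if_true, if_neg (Ne.symm hpq), Units.val_inv_eq_inv_val, Units.val_mk0]
    rw [hS', hxp, hxq, div_eq_mul_inv, div_eq_mul_inv]
    ring
  refine sl_of_good hq hn hN (hom_hom h (hom_diag hN h c) η) (j := j) (Or.inr ⟨?_, ?_⟩)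
  · simp only [Pi.add_apply, Pi.smul_apply, smul_eq_mul, hcj, Units.val_one, one_mul, hA, ← ha]
    rw [mul_neg, mul_inv_cancel₀ ha0]; ring
  · simp only [Pi.add_apply, Pi.smul_apply, smul_eq_mul, hcj, inv_one, Units.val_one, mul_one, hB, ← ha']
    intro e
    have e1 : S' + xp / (s : F) + xq / T = -a'⁻¹ := by
      have : (1 + a' * (S' + xp / (s : F) + xq / T)) * φ j = 0 := by linear_combination e
      have := (mul_eq_zero.mp this).resolve_right hφj
      rw [← mul_right_inj' ha0', mul_neg, mul_inv_cancel₀ ha0']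
      linear_combination this
    apply hgs
    have hTi : xq / T = xq * xq / (R - xp * (s : F)) := by rw [hT]; field_simp
    rw [hTi] at e1
    have e2 : xp / (s : F) + xq * xq / (R - xp * (s : F)) = R' := by rw [hR', ← e1]; ring
    simp only [g, ← e2]
    field_simp
    ring

theorem sl_of_hom [Fintype F] (hq : 5 ≤ Fintype.card F) (hn : 13 ≤ n) (hN : ContainsN K) {r : Fin n}
    {u φ : Fin n → F} (h : Hom K r u φ) {j p : Fin n} (hjp : j ≠ p)
    (hj : u j ≠ 0) (hp : u p ≠ 0) : Cfsg.Geo.specialLinear (Fin n) F ≤ K := by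
  classical
  by_cases h3 : ∃ q, q ≠ j ∧ q ≠ p ∧ u q ≠ 0
  · obtain ⟨q, hqj, hqp, hq'⟩ := h3
    exact sl_of_three hq hn hN h hjp (Ne.symm hqj) (Ne.symm hqp) hj hp hq'
  push_neg at h3
  by_cases hgood : ∃ i, (u i ≠ 0 ∧ φ i = 0) ∨ (u i = 0 ∧ φ i ≠ 0)
  · obtain ⟨i, hi⟩ := hgood
    exact sl_of_good hq hn hN h hi
  push_neg at hgood
  have hφ0 : ∀ i, i ≠ j → i ≠ p → φ i = 0 := fun i h1 h2 => (hgood i).2 (h3 i h1 h2)
  have hφj : φ j ≠ 0 := (hgood j).1 hj
  have hφp : φ p ≠ 0 := (hgood p).1 hp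
  obtain ⟨q, hqj, hqp, hqr, -, -⟩ := exists_fin_ne hn j p r r r
  have hpr : p ≠ r := fun e => hp (e ▸ h.1)
  have h' := hom_perm hN h (σ := Equiv.swap p q) (Equiv.swap_apply_of_ne_of_ne (Ne.symm hpr) (Ne.symm hqr))
  set u' := fun i => u ((Equiv.swap p q).symm i) with hu'
  set φ' := fun i => φ ((Equiv.swap p q).symm i) with hφ'
  have hu'j : u' j = u j := by simp [u', Equiv.swap_apply_of_ne_of_ne hjp (Ne.symm hqj)]
  have hu'p : u' p = 0 := by simp [u', h3 q hqj hqp]
  have hu'q : u' q = u p := by simp [u']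
  have hφ'j : φ' j = φ j := by simp [φ', Equiv.swap_apply_of_ne_of_ne hjp (Ne.symm hqj)]
  have hφ'p : φ' p = 0 := by simp [φ', hφ0 q hqj hqp]
  set x := φ j * u j
  have hx : x ≠ 0 := mul_ne_zero hφj hj
  have hdot : φ ⬝ᵥ u' = x := by
    rw [dotProduct, Fintype.sum_eq_single j, hu'j]
    intro i hi
    by_cases hip : i = p
    · rw [hip, hu'p, mul_zero]
    · rw [hφ0 i hi hip, zero_mul]
  have hdot' : φ' ⬝ᵥ u = x := by
    rw [dotProduct, Fintype.sum_eq_single j, hφ'j]
    intro i hi
    by_cases hip : i = p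
    · rw [hip, hφ'p, zero_mul]
    · rw [h3 i hi hip, mul_zero]
  obtain ⟨η, hη⟩ := exists_unit_notMem hq {1, 1 - x⁻¹} (Finset.card_le_two.trans (by norm_num))
  simp only [Finset.mem_insert, Finset.mem_singleton, not_or] at hη
  have hH := hom_hom h h' η
  refine sl_of_three hq hn hN hH hjp (Ne.symm hqj) (Ne.symm hqp) ?_ ?_ ?_
  · simp only [Pi.add_apply, Pi.smul_apply, smul_eq_mul, hdot, hu'j]
    rw [show u j + ((η : F) - 1) * x * u j = u j * (1 + ((η : F) - 1) * x) by ring]
    refine mul_ne_zero hj fun e => hη.2 ?_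
    field_simp
    linear_combination e
  · simp only [Pi.add_apply, Pi.smul_apply, smul_eq_mul, hdot, hu'p, zero_add]
    exact mul_ne_zero (mul_ne_zero (sub_ne_zero.mpr hη.1) hx) hp
  · simp only [Pi.add_apply, Pi.smul_apply, smul_eq_mul, hdot, hu'q, h3 q hqj hqp, mul_zero, add_zero]
    exact hp

theorem col_inv {g : GLn} {r : Fin n} (hg : ∀ i, i ≠ r → (g : Matrix (Fin n) (Fin n) F) i r = 0) {i : Fin n}
    (hi : i ≠ r) : (g⁻¹ : GLn).val i r = 0 := by
  have h : ∀ k, ((g⁻¹ : GLn).val * (g : Matrix (Fin n) (Fin n) F)) k r =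
      (g⁻¹ : GLn).val k r * (g : Matrix (Fin n) (Fin n) F) r r := fun k => by
    rw [mul_apply, Fintype.sum_eq_single r fun l hl => by rw [hg l hl, mul_zero]]
  have hne : (g : Matrix (Fin n) (Fin n) F) r r ≠ 0 := by
    intro e
    have := h r
    rw [← Units.val_mul, inv_mul_cancel, e, mul_zero] at this
    simp at this
  have := h i
  rw [← Units.val_mul, inv_mul_cancel, Units.val_one, Matrix.one_apply_ne hi] at this
  exact (mul_eq_zero.mp this.symm).resolve_right hne

theorem sl_of_fixed [Fintype F] (hq : 5 ≤ Fintype.card F) (hn : 13 ≤ n) (hN : ContainsN K) {B : GLn} (hB : B ∈ K)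
    (hBm : ¬ IsMono B) {r : Fin n} (hr : ∀ i, i ≠ r → (B : Matrix (Fin n) (Fin n) F) i r = 0) :
    Cfsg.Geo.specialLinear (Fin n) F ≤ K := by
  classical
  have hkey : ∀ l l', l ≠ r → ∑ i ∈ univ.erase r, (B⁻¹ : GLn).val l i * (B : Matrix (Fin n) (Fin n) F) i l' =
      (1 : Matrix (Fin n) (Fin n) F) l l' := by
    intro l l' hl
    rw [← Units.val_one, ← inv_mul_cancel B, Units.val_mul, mul_apply, ← Finset.add_sum_erase _ _ (mem_univ r),
      col_inv hr hl, zero_mul, zero_add]
  by_cases hsing : ∀ l, l ≠ r → ∃ k, k ≠ r ∧ ∀ i, i ≠ r → i ≠ k → (B : Matrix (Fin n) (Fin n) F) i l = 0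
  · choose! f hfr hf using hsing
    have hone : ∀ l l', l ≠ r → l' ≠ r → (B⁻¹ : GLn).val l (f l') * (B : Matrix (Fin n) (Fin n) F) (f l') l' =
        (1 : Matrix (Fin n) (Fin n) F) l l' := by
      intro l l' hl hl'
      rw [← hkey l l' hl, Finset.sum_eq_single_of_mem (f l') (by simp [hfr l' hl'])]
      intro i hi hne
      rw [hf l' hl' i (Finset.ne_of_mem_erase hi) hne, mul_zero]
    have hne : ∀ l, l ≠ r → (B : Matrix (Fin n) (Fin n) F) (f l) l ≠ 0 := by
      intro l hl e
      have := hone l l hl hl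
      rw [e, mul_zero, Matrix.one_apply_eq] at this
      exact zero_ne_one this
    let f' : Fin n → Fin n := fun l => if l = r then r else f l
    have hinj : Function.Injective f' := by
      intro l l' e
      by_cases hl : l = r <;> by_cases hl' : l' = r <;> simp only [f', hl, hl', if_true, if_false] at e ⊢
      · exact absurd e.symm (hfr l' hl')
      · exact absurd e (hfr l hl)
      · by_contra hne'
        have h1 := hone l l' hl hl'
        rw [← e, Matrix.one_apply_ne hne'] at h1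
        have h2 := hone l l hl hl
        rcases mul_eq_zero.mp h1 with h | h
        · rw [h, zero_mul, Matrix.one_apply_eq] at h2; exact zero_ne_one h2
        · exact hne l' hl' (e ▸ h)
    let σ := Equiv.ofBijective f' hinj.bijective_of_finite
    have hσ : ∀ l, σ l = if l = r then r else f l := fun l => rfl
    let c0 : Fin n → Fˣ := fun l => if h : l = r then 1 else Units.mk0 _ (hne l h)
    let sg : Fˣ := Units.map (Int.castRingHom F).toMonoidHom (Equiv.Perm.sign σ)
    let c : Fin n → Fˣ := Function.update c0 r (sg * (∏ l ∈ univ.erase r, c0 l)⁻¹)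
    have hm : mono σ c ∈ K := by
      refine hN _ (isMono_mono _ _) ?_
      rw [det_mono, ← Units.coe_prod, ← Finset.mul_prod_erase _ _ (mem_univ r),
        show c r = sg * (∏ l ∈ univ.erase r, c0 l)⁻¹ from Function.update_self _ _ _,
        Finset.prod_congr rfl fun l hl => Function.update_of_ne (Finset.ne_of_mem_erase hl) _ c0,
        inv_mul_cancel_right]
      show ((Equiv.Perm.sign σ : ℤ) : F) * ((Equiv.Perm.sign σ : ℤ) : F) = 1
      rw [← Int.cast_mul, ← Units.val_mul, Int.units_mul_self]; simp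
    let X := (mono σ c)⁻¹ * B
    have hXv : ∀ i k, (X : Matrix (Fin n) (Fin n) F) i k =
        (((c i)⁻¹ : Fˣ) : F) * (B : Matrix (Fin n) (Fin n) F) (σ i) k := by
      intro i k
      rw [Units.val_mul, mul_apply, Fintype.sum_eq_single (σ i) fun l hl => by
        rw [mono_inv_apply, if_neg hl, zero_mul], mono_inv_apply, if_pos rfl]
    have hXrow : ∀ i k, i ≠ r → (X : Matrix (Fin n) (Fin n) F) i k = (1 : Matrix (Fin n) (Fin n) F) i k := by
      intro i k hi
      rw [hXv, hσ, if_neg hi]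
      have hci : c i = Units.mk0 _ (hne i hi) := by simp [c, c0, hi]
      by_cases hik : i = k
      · subst hik
        rw [hci, Units.val_inv_eq_inv_val, Units.val_mk0, inv_mul_cancel₀ (hne i hi), Matrix.one_apply_eq]
      · rw [Matrix.one_apply_ne hik]
        by_cases hk : k = r
        · rw [hk, hr _ (hfr i hi), mul_zero]
        · rw [hf k hk (f i) (hfr i hi), mul_zero]
          intro e
          have := hinj (show f' i = f' k by simp [f', hi, hk, e])
          exact hik this
    by_cases hex : ∃ l, l ≠ r ∧ (X : Matrix (Fin n) (Fin n) F) r l ≠ 0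
    · obtain ⟨l, hl, hXl⟩ := hex
      exact sl_of_rows hq hn hN (K.mul_mem (K.inv_mem hm) hB) (r := r) (j := r)
        (fun i k hi _ => hXrow i k hi) hl hl (Ne.symm hl) hXl
    · push_neg at hex
      refine absurd (fun l => ⟨σ l, fun i hi => ?_⟩) hBm
      have hBX : B = mono σ c * X := by simp [X]
      rw [hBX, Units.val_mul, mono_mul_apply]
      have hne2 : σ.symm i ≠ l := fun e => hi (by rw [← e, Equiv.apply_symm_apply])
      by_cases hir : σ.symm i = r
      · rw [hir] at hne2 ⊢; rw [hex l (Ne.symm hne2), mul_zero]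
      · rw [hXrow _ _ hir, Matrix.one_apply_ne hne2, mul_zero]
  · push_neg at hsing
    obtain ⟨a, har, ha⟩ := hsing
    obtain ⟨i0, hi0⟩ : ∃ i, i ≠ r ∧ (B : Matrix (Fin n) (Fin n) F) i a ≠ 0 := by
      by_contra h; push_neg at h
      have := hkey a a har
      rw [Finset.sum_eq_zero (fun i hi => by rw [h i (Finset.ne_of_mem_erase hi), mul_zero]),
        Matrix.one_apply_eq] at this
      exact zero_ne_one this
    obtain ⟨i1, hi1r, hi10, hi1⟩ := ha i0 hi0.1
    let u : Fin n → F := fun i => if i = r then 0 else (B : Matrix (Fin n) (Fin n) F) i a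
    let φ : Fin n → F := fun i => (B⁻¹ : GLn).val a i
    have hφr : φ r = 0 := col_inv hr har
    have hφu : φ ⬝ᵥ u = 1 := by
      rw [dotProduct, ← Finset.add_sum_erase _ _ (mem_univ r), hφr, zero_mul, zero_add,
        ← Matrix.one_apply_eq a, ← hkey a a har]
      exact Finset.sum_congr rfl fun i hi => by simp [u, φ, Finset.ne_of_mem_erase hi]
    refine sl_of_hom hq hn hN (r := r) (u := u) (φ := φ) ⟨by simp [u], hφr, hφu, fun η => ?_⟩
      (Ne.symm hi10) (by simp [u, hi0.1, hi0.2]) (by simp [u, hi1r, hi1])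
    have hd := diag_mem hN (prod_two har η)
    refine ⟨B * mono 1 (two a r η) * B⁻¹, K.mul_mem (K.mul_mem hB hd) (K.inv_mem hB), ?_, ?_⟩
    all_goals
      have hval : ∀ i j, i ≠ r → ((B * mono 1 (two a r η) * B⁻¹ : GLn) : Matrix (Fin n) (Fin n) F) i j =
          (1 : Matrix (Fin n) (Fin n) F) i j + ((η : F) - 1) * ((B : Matrix (Fin n) (Fin n) F) i a * φ j) := by
        intro i j hi
        have h1 : ((B * mono 1 (two a r η) * B⁻¹ : GLn) : Matrix (Fin n) (Fin n) F) i j =
            ∑ l, (B : Matrix (Fin n) (Fin n) F) i l * (two a r η l : F) * (B⁻¹ : GLn).val l j := by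
          rw [Units.val_mul, Units.val_mul, mul_apply]
          refine Finset.sum_congr rfl fun l _ => ?_
          rw [mul_apply, Fintype.sum_eq_single l fun k hk => by simp [mono_apply, hk]]
          simp [mono_apply]
        have h2 : (1 : Matrix (Fin n) (Fin n) F) i j =
            ∑ l, (B : Matrix (Fin n) (Fin n) F) i l * (B⁻¹ : GLn).val l j := by
          rw [← mul_apply, ← Units.val_mul, mul_inv_cancel, Units.val_one]
        rw [h1, h2, sum_split _ (fun l => (B : Matrix (Fin n) (Fin n) F) i l * (B⁻¹ : GLn).val l j) har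
          (fun l h1 h2 => by simp [two, h1, h2])]
        simp [two, Ne.symm har, hr i hi, φ]
        ring
    · intro i hi
      rw [hval i r hi, Matrix.one_apply_ne hi, hφr]; ring
    · ext i j
      rw [er_apply]
      by_cases hi : i = r
      · simp [er_apply, hi, vecMulVec_apply, u]
      · rw [if_neg hi, hval i j hi]; simp [er_apply, hi, vecMulVec_apply, u]

/-- The cubic relation forces a monomial conjugate of a torus element to move only basis vectors in its image. -/
theorem kills_moved {w : GLn} {π : Equiv.Perm (Fin n)} {c : Fin n → Fˣ} (hw : w = mono π c) {x : F}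
    (hx0 : x ≠ 0) (hxm : x ≠ -1) (hx3 : x ^ 3 ≠ 1)
    (hcub : ∀ M : Matrix (Fin n) (Fin n) F, M = (w : Matrix (Fin n) (Fin n) F) →
      M * M * M - (x + x⁻¹ + 1) • (M * M) + (x + x⁻¹ + 1) • M - 1 = 0)
    {ρ : Fin n → F} (hρ : ∀ l, (c l : F) * ρ (π l) = ρ l) {l : Fin n} (hl : π l ≠ l ∨ c l ≠ 1) : ρ l = 0 := by
  set s := x + x⁻¹ + 1 with hs
  by_cases h1 : π l = l
  · have h := hρ l
    rw [h1] at h
    have hc : (c l : F) - 1 ≠ 0 := sub_ne_zero.mpr fun e => hl.elim (fun e' => e' h1) fun e' => e' (Units.ext e)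
    exact (mul_eq_zero.mp (by linear_combination h : ((c l : F) - 1) * ρ l = 0)).resolve_left hc
  · set m := π l with hm
    have hmm : π m ≠ m := fun e => h1 (π.injective e)
    have hM : ∀ (A : Matrix (Fin n) (Fin n) F) i j,
        (A * (mono π c : Matrix (Fin n) (Fin n) F)) i j = A i (π j) * (c j : F) := by
      intro A i j
      rw [mul_apply, Fintype.sum_eq_single (π j) fun k hk => by simp [mono_apply, hk]]
      simp [mono_apply]
    have E : ∀ i, (if i = π (π m) then (c (π m) : F) * (c m : F) * (c l : F) else 0) -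
        s * (if i = π m then (c m : F) * (c l : F) else 0) + s * (if i = m then (c l : F) else 0) -
        (if i = l then 1 else 0) = 0 := by
      intro i
      have h := congrFun (congrFun (hcub _ rfl) i) l
      rw [hw, Matrix.sub_apply, Matrix.add_apply, Matrix.sub_apply, Matrix.smul_apply, Matrix.smul_apply,
        hM, hM, hM, mono_apply, mono_apply, mono_apply, Matrix.one_apply, Matrix.zero_apply, ← hm] at h
      simp only [ite_mul, zero_mul, smul_eq_mul, mul_assoc] at h ⊢
      exact h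
    by_cases h2 : π m = l
    · have hπl : π (π m) = m := by rw [h2, hm]
      have el := E l
      have em := E m
      rw [hπl, h2] at el em
      simp [h1, Ne.symm h1] at el em
      have hP : (c m : F) * (c l : F) ≠ 1 := by
        intro hP
        have hsm : s = -1 := by linear_combination -el - s * hP
        apply hxm
        have : (x + 1) ^ 2 = 0 := by
          rw [hs] at hsm; field_simp at hsm; linear_combination hsm
        exact eq_neg_of_add_eq_zero_left (sq_eq_zero_iff.mp this)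
      have h3 := hρ l
      have h4 := hρ m
      rw [← hm] at h3
      rw [h2] at h4
      refine (mul_eq_zero.mp (?_ : ((c m : F) * (c l : F) - 1) * ρ l = 0)).resolve_left (sub_ne_zero.mpr hP)
      linear_combination (c l : F) * h4 + h3
    · exfalso
      have e := E (π m)
      have h3 : π m ≠ π (π m) := fun e => hmm (π.injective e).symm
      simp [h3, hmm, h2] at e
      apply hx3
      rw [hs] at e
      field_simp at e
      linear_combination (x - 1) * e

theorem indep_cols (g : GLn) (M : Finset (Fin n)) (a b : Fin n)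
    (h : ∀ l ∈ M, ∀ k, k ≠ a → k ≠ b → (g : Matrix (Fin n) (Fin n) F) k l = 0) : M.card ≤ 2 := by
  classical
  have hli : LinearIndependent F fun l : M => fun k => (g : Matrix (Fin n) (Fin n) F) k l := by
    exact (Matrix.linearIndependent_cols_of_isUnit (Units.isUnit g)).comp _ Subtype.val_injective
  have hle : Submodule.span F (Set.range fun l : M => fun k => (g : Matrix (Fin n) (Fin n) F) k l) ≤
      Submodule.span F (Set.range ![(Pi.single a 1 : Fin n → F), Pi.single b 1]) := by
    rw [Submodule.span_le]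
    rintro _ ⟨⟨l, hl⟩, rfl⟩
    by_cases hab : a = b
    · have : (fun k => (g : Matrix (Fin n) (Fin n) F) k l) =
          (g : Matrix (Fin n) (Fin n) F) a l • (Pi.single a 1 : Fin n → F) := by
        funext k
        by_cases hk : k = a
        · subst hk; simp
        · simp [hk, h l hl k hk (hab ▸ hk)]
      show (fun k => (g : Matrix (Fin n) (Fin n) F) k l) ∈ _
      rw [this]
      exact Submodule.smul_mem _ _ (Submodule.subset_span ⟨0, rfl⟩)
    · have : (fun k => (g : Matrix (Fin n) (Fin n) F) k l) =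
          (g : Matrix (Fin n) (Fin n) F) a l • (Pi.single a 1 : Fin n → F) +
          (g : Matrix (Fin n) (Fin n) F) b l • Pi.single b 1 := by
        funext k
        by_cases hka : k = a
        · subst hka; simp [Ne.symm hab, hab]
        · by_cases hkb : k = b
          · subst hkb; simp [hka]
          · simp [hka, hkb, h l hl k hka hkb]
      show (fun k => (g : Matrix (Fin n) (Fin n) F) k l) ∈ _
      rw [this]
      exact Submodule.add_mem _ (Submodule.smul_mem _ _ (Submodule.subset_span ⟨0, rfl⟩))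
        (Submodule.smul_mem _ _ (Submodule.subset_span ⟨1, rfl⟩))
  have h1 := Submodule.finrank_mono hle
  rw [finrank_span_eq_card hli, Fintype.card_coe] at h1
  exact h1.trans ((finrank_range_le_card (R := F) _).trans (le_of_eq (Fintype.card_fin 2)))

/-- A torus conjugate fixing `e_r`: either it is not monomial, or the two columns span a coordinate plane. -/
theorem plane [Fintype F] (hq : 5 ≤ Fintype.card F) (hN : ContainsN K) {g : GLn} (hg : g ∈ K)
    {a b r : Fin n} (hab : a ≠ b) (ha : (g⁻¹ : GLn).val a r = 0) (hb : (g⁻¹ : GLn).val b r = 0) :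
    (∃ B ∈ K, ¬ IsMono B ∧ ∃ r, ∀ i, i ≠ r → (B : Matrix (Fin n) (Fin n) F) i r = 0) ∨
      ∃ P : Finset (Fin n), P.card ≤ 2 ∧ ∀ i, i ∉ P →
        (g : Matrix (Fin n) (Fin n) F) i a = 0 ∧ (g : Matrix (Fin n) (Fin n) F) i b = 0 := by
  classical
  obtain ⟨x, hx1, hxm, hx3⟩ := exists_unit_gen (F := F) hq
  let w : GLn := g * mono 1 (two a b x) * g⁻¹
  have hd : ∀ (A : Matrix (Fin n) (Fin n) F) i j,
      (A * (mono 1 (two a b x) : Matrix (Fin n) (Fin n) F)) i j = A i j * (two a b x j : F) := by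
    intro A i j
    rw [mul_apply, Fintype.sum_eq_single j fun k hk => by simp [mono_apply, hk]]
    simp [mono_apply]
  have hwg : (w : Matrix (Fin n) (Fin n) F) * g = g * mono 1 (two a b x) := by
    rw [← Units.val_mul, ← Units.val_mul]; simp [w]
  have hgw : (g⁻¹ : GLn).val * w = mono 1 (two a b x) * (g⁻¹ : GLn).val := by
    rw [← Units.val_mul, ← Units.val_mul]; simp [w, mul_assoc]
  by_cases hmono : IsMono w
  swap
  · refine Or.inl ⟨w, K.mul_mem (K.mul_mem hg (diag_mem hN (prod_two hab x))) (K.inv_mem hg), hmono, r,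
      fun i hi => ?_⟩
    rw [Units.val_mul, mul_apply,
      Finset.sum_congr rfl (g := fun l => (g : Matrix (Fin n) (Fin n) F) i l * (g⁻¹ : GLn).val l r) fun l _ => ?_]
    · rw [← mul_apply, ← Units.val_mul, mul_inv_cancel]; simp [hi]
    · rw [Units.val_mul, hd]
      by_cases hla : l = a
      · subst hla; simp [ha]
      · by_cases hlb : l = b
        · subst hlb; simp [hb]
        · simp [two, hla, hlb]
  obtain ⟨π, c, hw⟩ := exists_mono hmono
  have hρ : ∀ k, k ≠ a → k ≠ b → ∀ l, (c l : F) * (g⁻¹ : GLn).val k (π l) = (g⁻¹ : GLn).val k l := by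
    intro k hka hkb l
    have h := congrFun (congrFun hgw k) l
    rw [hw, mono_mul_apply, mul_apply,
      Fintype.sum_eq_single (π l) fun i hi => by simp [mono_apply, hi]] at h
    simp only [show (1 : Equiv.Perm (Fin n)).symm k = k from rfl, two, if_neg hka, if_neg hkb, Units.val_one,
      one_mul, mono_apply, if_true] at h
    linear_combination h
  have hcub : ∀ M : Matrix (Fin n) (Fin n) F, M = (w : Matrix (Fin n) (Fin n) F) →
      M * M * M - ((x : F) + (x : F)⁻¹ + 1) • (M * M) + ((x : F) + (x : F)⁻¹ + 1) • M - 1 = 0 := by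
    rintro M rfl
    set D := (mono 1 (two a b x) : Matrix (Fin n) (Fin n) F)
    set s := (x : F) + (x : F)⁻¹ + 1 with hs
    have h0 : D * D * D - s • (D * D) + s • D - 1 = 0 := by
      ext i j
      simp only [Matrix.sub_apply, Matrix.add_apply, Matrix.smul_apply, Matrix.zero_apply, Matrix.one_apply, D,
        mono_mul_apply, hd, smul_eq_mul]
      by_cases hij : i = j
      · subst hij
        simp only [mono_apply, Equiv.Perm.coe_one, id, if_true, Equiv.refl_symm]
        simp only [two]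
        have hx := Units.ne_zero x
        split_ifs <;> simp [hs] <;> field_simp <;> ring
      · simp [mono_apply, hij]
    have hwv : (w : Matrix (Fin n) (Fin n) F) = g * D * (g⁻¹ : GLn).val := by simp [w, D, Units.val_mul]
    have hgg : (g⁻¹ : GLn).val * (g : Matrix (Fin n) (Fin n) F) = 1 := by
      rw [← Units.val_mul, inv_mul_cancel, Units.val_one]
    have hgg' : (g : Matrix (Fin n) (Fin n) F) * (g⁻¹ : GLn).val = 1 := by
      rw [← Units.val_mul, mul_inv_cancel, Units.val_one]
    calc _ = (g : Matrix (Fin n) (Fin n) F) * (D * D * D - s • (D * D) + s • D - 1) * (g⁻¹ : GLn).val := by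
          rw [hwv]
          simp only [mul_sub, sub_mul, mul_add, add_mul, Matrix.mul_smul, Matrix.smul_mul, mul_one, hgg',
            mul_assoc]
          simp only [← mul_assoc (g⁻¹ : GLn).val, hgg, one_mul, mul_assoc]
      _ = 0 := by rw [h0, mul_zero, zero_mul]
  let M := univ.filter fun l => π l ≠ l ∨ c l ≠ 1
  refine Or.inr ⟨M, indep_cols g⁻¹ M a b fun l hl k hka hkb => ?_, fun i hi => ?_⟩
  · exact kills_moved hw (Units.ne_zero x) hxm hx3 hcub (ρ := fun l => (g⁻¹ : GLn).val k l) (hρ k hka hkb)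
      (by simpa [M] using hl)
  · simp only [M, mem_filter, mem_univ, true_and, not_or, not_not] at hi
    have hrow : ∀ j, (g : Matrix (Fin n) (Fin n) F) i j * ((two a b x j : F) - 1) = 0 := by
      intro j
      have h := congrFun (congrFun hwg i) j
      rw [hd, hw, mono_mul_apply, show π.symm i = i by rw [Equiv.symm_apply_eq, hi.1], hi.2, Units.val_one,
        one_mul] at h
      linear_combination -h
    constructor
    · refine (mul_eq_zero.mp (hrow a)).resolve_right (sub_ne_zero.mpr fun e => hx1 (Units.ext ?_))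
      simpa [two] using e
    · refine (mul_eq_zero.mp (hrow b)).resolve_right (sub_ne_zero.mpr fun e => hx1 ?_)
      have : two a b x b = 1 := Units.ext e
      simpa [two, Ne.symm hab] using this

theorem fix_of_three [Fintype F] (hq : 5 ≤ Fintype.card F) (hN : ContainsN K) {g : GLn} (hg : g ∈ K)
    (hgm : ¬ IsMono g) {a b c r : Fin n} (hab : a ≠ b) (hac : a ≠ c) (hbc : b ≠ c)
    (ha : (g⁻¹ : GLn).val a r = 0) (hb : (g⁻¹ : GLn).val b r = 0) (hc : (g⁻¹ : GLn).val c r = 0) :
    ∃ B ∈ K, ¬ IsMono B ∧ ∃ r, ∀ i, i ≠ r → (B : Matrix (Fin n) (Fin n) F) i r = 0 := by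
  classical
  rcases plane hq hN hg hab ha hb with h | ⟨P, hP, hPg⟩
  · exact h
  rcases plane hq hN hg hac ha hc with h | ⟨Q, hQ, hQg⟩
  · exact h
  obtain ⟨k, hk⟩ : ∃ k, ∀ i, i ≠ k → (g : Matrix (Fin n) (Fin n) F) i a = 0 := by
    by_contra hh
    push_neg at hh
    obtain ⟨i1, hi1, hg1⟩ := hh a
    obtain ⟨i2, hi2, hg2⟩ := hh i1
    have hT : ∀ R : Finset (Fin n), R.card ≤ 2 → (∀ i, i ∉ R → (g : Matrix (Fin n) (Fin n) F) i a = 0) →
        R = {i1, i2} := by
      intro R hR hRg
      refine (Finset.eq_of_subset_of_card_le ?_ (by rw [Finset.card_pair (Ne.symm hi2)]; exact hR)).symm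
      intro i hi
      simp only [Finset.mem_insert, Finset.mem_singleton] at hi
      by_contra hiR
      rcases hi with rfl | rfl
      · exact hg1 (hRg _ hiR)
      · exact hg2 (hRg _ hiR)
    have hP' := hT P hP fun i hi => (hPg i hi).1
    have hQ' := hT Q hQ fun i hi => (hQg i hi).1
    have hcard := indep_cols g {a, b, c} i1 i2 fun l hl k hk1 hk2 => by
      have hkP : k ∉ P := by rw [hP']; simp [hk1, hk2]
      have hkQ : k ∉ Q := by rw [hQ']; simp [hk1, hk2]
      simp only [Finset.mem_insert, Finset.mem_singleton] at hl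
      rcases hl with rfl | rfl | rfl
      · exact (hPg k hkP).1
      · exact (hPg k hkP).2
      · exact (hQg k hkQ).2
    rw [Finset.card_insert_of_notMem (by simp [hab, hac]), Finset.card_pair hbc] at hcard
    omega
  let τ : Equiv.Perm (Fin n) := Equiv.swap a k
  let sg : Fˣ := Units.map (Int.castRingHom F).toMonoidHom (Equiv.Perm.sign τ)
  let cc : Fin n → Fˣ := fun i => if i = a then sg else 1
  have hm : mono τ cc ∈ K := by
    refine hN _ (isMono_mono _ _) ?_
    rw [det_mono, ← Units.coe_prod, Finset.prod_ite_eq', if_pos (mem_univ _)]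
    show ((Equiv.Perm.sign τ : ℤ) : F) * ((Equiv.Perm.sign τ : ℤ) : F) = 1
    rw [← Int.cast_mul, ← Units.val_mul, Int.units_mul_self]; simp
  refine ⟨mono τ cc * g, K.mul_mem hm hg, fun hmm => hgm fun l => ?_, a, fun i hi => ?_⟩
  · obtain ⟨j, hj⟩ := hmm l
    refine ⟨τ.symm j, fun i hi => ?_⟩
    have h := hj (τ i) fun e => hi (by rw [← e, Equiv.symm_apply_apply])
    rw [Units.val_mul, mono_mul_apply, Equiv.symm_apply_apply] at h
    exact (mul_eq_zero.mp h).resolve_left (Units.ne_zero _)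
  · rw [Units.val_mul, mono_mul_apply, hk, mul_zero]
    intro e
    exact hi (by rw [← τ.apply_symm_apply i, e]; simp [τ])

theorem fix_of_two [Fintype F] (hq : 5 ≤ Fintype.card F) (hn : 13 ≤ n) (hN : ContainsN K) {g : GLn} (hg : g ∈ K)
    (hgm : ¬ IsMono g) {a b r : Fin n} (hab : a ≠ b) (ha : (g⁻¹ : GLn).val a r = 0)
    (hb : (g⁻¹ : GLn).val b r = 0) :
    ∃ B ∈ K, ¬ IsMono B ∧ ∃ r, ∀ i, i ≠ r → (B : Matrix (Fin n) (Fin n) F) i r = 0 := by
  classical
  rcases plane hq hN hg hab ha hb with h | ⟨P, hP, hPg⟩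
  · exact h
  have hgm' : ¬ IsMono g⁻¹ := by
    intro h
    obtain ⟨σ, c, e⟩ := exists_mono h
    apply hgm
    rw [← inv_inv g, e]
    intro l
    refine ⟨σ.symm l, fun i hi => ?_⟩
    rw [mono_inv_apply, if_neg]
    intro e'
    exact hi (by rw [e', Equiv.symm_apply_apply])
  obtain ⟨i, hi⟩ := exists_fin_notMem (s := P) (by omega)
  obtain ⟨i', hi'⟩ := exists_fin_notMem (s := insert i P) (lt_of_le_of_lt (Finset.card_insert_le _ _) (by omega))
  obtain ⟨i'', hi''⟩ := exists_fin_notMem (s := insert i' (insert i P))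
    (lt_of_le_of_lt (Finset.card_insert_le _ _)
      (lt_of_le_of_lt (Nat.add_le_add_right (Finset.card_insert_le _ _) 1) (by omega)))
  simp only [Finset.mem_insert, not_or] at hi' hi''
  exact fix_of_three hq hN (K.inv_mem hg) hgm' (r := a) (Ne.symm hi'.1) (Ne.symm hi''.2.1) (Ne.symm hi''.1)
    (by rw [inv_inv]; exact (hPg i hi).1) (by rw [inv_inv]; exact (hPg i' hi'.2).1)
    (by rw [inv_inv]; exact (hPg i'' hi''.2.2).1)

theorem exists_fixed [Fintype F] (hq : 5 ≤ Fintype.card F) (hn : 13 ≤ n) (hN : ContainsN K) {y : GLn} (hy : y ∈ K)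
    (hym : ¬ IsMono y) : ∃ B ∈ K, ¬ IsMono B ∧ ∃ r, ∀ i, i ≠ r → (B : Matrix (Fin n) (Fin n) F) i r = 0 := by
  classical
  by_cases h1 : ∃ a b r, a ≠ b ∧ (y : Matrix (Fin n) (Fin n) F) a r = 0 ∧ (y : Matrix (Fin n) (Fin n) F) b r = 0
  · obtain ⟨a, b, r, hab, ha, hb⟩ := h1
    refine fix_of_two hq hn hN (K.inv_mem hy) ?_ hab (by rw [inv_inv]; exact ha) (by rw [inv_inv]; exact hb)
    intro h
    obtain ⟨σ, c, e⟩ := exists_mono h
    apply hym
    rw [← inv_inv y, e]
    exact fun l => ⟨σ.symm l, fun i hi => by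
      rw [mono_inv_apply, if_neg]
      intro e'; exact hi (by rw [e', Equiv.symm_apply_apply])⟩
  by_cases h2 : ∃ a b r, a ≠ b ∧ (y⁻¹ : GLn).val a r = 0 ∧ (y⁻¹ : GLn).val b r = 0
  · obtain ⟨a, b, r, hab, ha, hb⟩ := h2
    exact fix_of_two hq hn hN hy hym hab ha hb
  push_neg at h1 h2
  set Y := (y : Matrix (Fin n) (Fin n) F) with hY
  set Y' := (y⁻¹ : GLn).val with hY'
  have hYY : Y * Y' = 1 := by rw [hY, hY', ← Units.val_mul, mul_inv_cancel, Units.val_one]
  have hY'Y : Y' * Y = 1 := by rw [hY, hY', ← Units.val_mul, inv_mul_cancel, Units.val_one]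
  let i : Fin n := ⟨0, by omega⟩
  obtain ⟨e, he⟩ : ∃ e, ∀ l0, Y' l0 i = 0 → Y' l0 e ≠ 0 := by
    by_cases hz : ∃ l0, Y' l0 i = 0
    · obtain ⟨l0, hl0⟩ := hz
      obtain ⟨e, he⟩ : ∃ e, Y' l0 e ≠ 0 := by
        by_contra h; push_neg at h
        have := congrFun (congrFun hY'Y l0) l0
        rw [mul_apply, Finset.sum_eq_zero (fun k _ => by rw [h k, zero_mul]), Matrix.one_apply_eq] at this
        exact zero_ne_one this
      refine ⟨e, fun l hl => ?_⟩
      by_cases hll : l = l0
      · exact hll ▸ he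
      · exact absurd hl0 (h2 l l0 i hll hl)
    · push_neg at hz
      exact ⟨i, fun l hl => absurd hl (hz l)⟩
  obtain ⟨r, hri, hre, -, -, -⟩ := exists_fin_ne hn i e e e e
  obtain ⟨s, hsi, hse, hsr, -, -⟩ := exists_fin_ne hn i e r r r
  let c : Fin n → F := fun l => Y r l * Y' l i
  let d : Fin n → F := fun l => Y s l * Y' l i
  have hc : ∑ l, c l = 0 := by
    have h := congrFun (congrFun hYY r) i
    rwa [mul_apply, Matrix.one_apply_ne hri] at h
  have hd : ∑ l, d l = 0 := by
    have h := congrFun (congrFun hYY s) i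
    rwa [mul_apply, Matrix.one_apply_ne hsi] at h
  have hind : ∀ a b : F, (a ≠ 0 ∨ b ≠ 0) → ∃ l, a * c l + b * d l ≠ 0 := by
    intro a b hab
    by_contra h; push_neg at h
    let ρ : Fin n → F := fun l => a * Y r l + b * Y s l
    have hρ0 : ∀ l, Y' l i ≠ 0 → ρ l = 0 := fun l hl =>
      (mul_eq_zero.mp (by simp only [c, d] at h; linear_combination h l : ρ l * Y' l i = 0)).resolve_right hl
    have hρY : ∀ k, ∑ l, ρ l * Y' l k = a * (1 : Matrix (Fin n) (Fin n) F) r k + b * (1 : Matrix _ _ F) s k := by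
      intro k
      rw [← hYY, mul_apply, mul_apply, Finset.mul_sum, Finset.mul_sum, ← Finset.sum_add_distrib]
      exact Finset.sum_congr rfl fun l _ => by ring
    have hρ : ρ = 0 := by
      funext l
      by_cases hl : Y' l i = 0
      · have he' := hρY e
        rw [Fintype.sum_eq_single l fun k hk => by
            rw [hρ0 k (fun hk0 => h2 k l i hk hk0 hl), zero_mul],
          Matrix.one_apply_ne hre, Matrix.one_apply_ne hse, mul_zero, mul_zero, add_zero] at he'
        exact (mul_eq_zero.mp he').resolve_right (he l hl)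
      · exact hρ0 l hl
    have hr' := hρY r
    have hs' := hρY s
    simp [hρ, hsr, Ne.symm hsr] at hr' hs'
    tauto
  have hdeg : ∀ l l', c l = 0 → d l = 0 → c l' = 0 → d l' = 0 → l = l' := by
    have key : ∀ l, c l = 0 → d l = 0 → Y' l i = 0 := by
      intro l h3 h4
      by_contra h5
      exact h1 r s l (Ne.symm hsr) ((mul_eq_zero.mp h3).resolve_right h5) ((mul_eq_zero.mp h4).resolve_right h5)
    intro l l' a1 a2 b1 b2
    by_contra hne
    exact h2 l l' i hne (key l a1 a2) (key l' b1 b2)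
  have hcount := TorusCount.count hn hq c d hc hd hind hdeg
  set S := univ.filter fun t : Fin n → Fˣ => ∏ l, t l = 1 ∧ ∑ l, c l * (t l : F) = 0 ∧
      ∑ l, d l * (t l : F) = 0
  have hval : ∀ (t : Fin n → Fˣ) p, ((y * mono 1 t * y⁻¹ : GLn) : Matrix (Fin n) (Fin n) F) p i =
      ∑ l, Y p l * (t l : F) * Y' l i := by
    intro t p
    rw [Units.val_mul, Units.val_mul, mul_apply]
    refine Finset.sum_congr rfl fun l _ => ?_
    rw [mul_apply, Fintype.sum_eq_single l fun k hk => by simp [mono_apply, hk]]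
    simp [mono_apply, Y, Y']
  obtain ⟨t, htS, ht⟩ : ∃ t ∈ S, ¬ IsMono (y * mono 1 t * y⁻¹) := by
    by_contra hh
    push_neg at hh
    have hfac : ∀ t, t ∈ S → ∃ p : Fin n × Fˣ, ∀ l, (t l : F) * Y' l i = (p.2 : F) * Y' l p.1 := by
      intro t ht
      obtain ⟨σ, cc, hk⟩ := exists_mono (hh t ht)
      refine ⟨(σ i, cc i), fun l => ?_⟩
      have h : (mono 1 t * y⁻¹ : GLn) = y⁻¹ * mono σ cc := by rw [← hk]; simp [mul_assoc]
      have h' := congrArg (fun g : GLn => (g : Matrix (Fin n) (Fin n) F) l i) h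
      simp only [Units.val_mul, mono_mul_apply] at h'
      rw [mul_apply, Fintype.sum_eq_single (σ i) fun k hk => by simp [mono_apply, hk]] at h'
      simp only [show (1 : Equiv.Perm (Fin n)).symm l = l from rfl, mono_apply, if_true] at h'
      show (t l : F) * (y⁻¹ : GLn).val l i = (cc i : F) * (y⁻¹ : GLn).val l (σ i)
      linear_combination h'
    haveI : Nonempty (Fin n × Fˣ) := ⟨(i, 1)⟩
    choose! F' hF' using hfac
    have hle : S.card ≤ (univ : Finset (Fin n × Fˣ)).card := by
      refine Finset.card_le_card_of_injOn F' (fun t _ => mem_univ _) ?_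
      intro t ht t' ht' e
      have heq : ∀ l, Y' l i ≠ 0 → t l = t' l := fun l hl => Units.ext (mul_right_cancel₀ hl
        (by rw [hF' t ht l, hF' t' ht' l, e]))
      funext l
      by_cases hl : Y' l i = 0
      · have h3 := ((mem_filter.mp ht).2).1
        have h4 := ((mem_filter.mp ht').2).1
        rw [← Finset.mul_prod_erase _ _ (mem_univ l)] at h3 h4
        rw [Finset.prod_congr rfl fun k hk => heq k fun hk0 =>
          h2 k l i (Finset.ne_of_mem_erase hk) hk0 hl] at h3
        exact mul_right_cancel (h3.trans h4.symm)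
      · exact heq l hl
    rw [Finset.card_univ, Fintype.card_prod, Fintype.card_fin, Fintype.card_units] at hle
    omega
  obtain ⟨-, ht1, ht2, ht3⟩ := mem_filter.mp htS
  have hk : y * mono 1 t * y⁻¹ ∈ K := K.mul_mem (K.mul_mem hy (diag_mem hN ht1)) (K.inv_mem hy)
  refine fix_of_two hq hn hN (K.inv_mem hk) ?_ (Ne.symm hsr) (r := i) ?_ ?_
  · intro h
    obtain ⟨σ, cc, e⟩ := exists_mono h
    apply ht
    rw [← inv_inv (y * mono 1 t * y⁻¹), e]
    exact fun l => ⟨σ.symm l, fun k hk => by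
      rw [mono_inv_apply, if_neg]
      intro e'; exact hk (by rw [e', Equiv.symm_apply_apply])⟩
  · rw [inv_inv, hval, ← ht2]; exact Finset.sum_congr rfl fun l _ => by simp only [c]; ring
  · rw [inv_inv, hval, ← ht3]; exact Finset.sum_congr rfl fun l _ => by simp only [d]; ring

/-- Anything beyond the monomial group gives the special linear group. -/
theorem sl_of_not_mono [Fintype F] (hq : 5 ≤ Fintype.card F) (hn : 13 ≤ n) (hN : ContainsN K) {y : GLn} (hy : y ∈ K)
    (hym : ¬ IsMono y) : Cfsg.Geo.specialLinear (Fin n) F ≤ K := by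
  obtain ⟨B, hB, hBm, r, hr⟩ := exists_fixed hq hn hN hy hym
  exact sl_of_fixed hq hn hN hB hBm hr

end Cfsg.Agent.GeomClasses.MonomialMax
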