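import Cfsg.Agent.GeomClasses.DecompTools
import Cfsg.Agent.GeomClasses.BlockCoords
import Cfsg.Agent.GeomClasses.MonomialMax
import Cfsg.Agent.GeomClasses.BlockMax

/-! # Maximality of decomposition stabilisers in the special linear group -/

set_option autoImplicit false

namespace Cfsg.Agent.GeomClasses

open Matrix

variable {ι κ : Type} [Fintype ι] [DecidableEq ι] [Fintype κ] [DecidableEq κ] {F : Type*} [Field F] {t m : ℕ}

/-- A coordinate form of membership in the decomposition stabiliser. -/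
theorem conjGL_mem_decomp_iff {D : Fin t → Submodule F (ι → F)} (hD : Cfsg.Geo.IsMDecomposition m D)
    (e : (ι → F) ≃ₗ[F] (κ → F)) (blk : κ → Fin t) (he : ∀ a x, x ∈ D a ↔ ∀ l, blk l ≠ a → e x l = 0) (g : GL κ F) :
    conjGL e g ∈ Cfsg.Geo.decompositionStabilizer D ↔
      ∀ a, ∃ b, ∀ l i, blk l = a → blk i ≠ b → (g : Matrix κ κ F) i l = 0 := by
  constructor
  · rintro ⟨σ, hσ⟩ a
    refine ⟨σ a, fun l i hl hi => ?_⟩
    have hx : e.symm (Pi.single l 1) ∈ D a := (he a _).mpr fun l' hl' => by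
      rw [LinearEquiv.apply_symm_apply, Pi.single_eq_of_ne]
      rintro rfl; exact hl' hl
    have h := Submodule.mem_map_of_mem (f := Matrix.toLin' (conjGL e g : Matrix ι ι F)) hx
    rw [hσ a, Matrix.toLin'_apply, conjGL_mulVec, LinearEquiv.apply_symm_apply, he (σ a)] at h
    have := h i hi
    rwa [LinearEquiv.apply_symm_apply, Matrix.mulVec_single_one, Matrix.col_apply] at this
  · intro h
    refine mem_decomp_of_forall hD fun a => ?_
    obtain ⟨b, hb⟩ := h a
    refine ⟨b, fun x hx => (he b _).mpr fun i hi => ?_⟩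
    rw [conjGL_mulVec, LinearEquiv.apply_symm_apply]
    refine Finset.sum_eq_zero fun l _ => ?_
    by_cases hl : blk l = a
    · show (g : Matrix κ κ F) i l * e x l = 0; rw [hb l i hl hi, zero_mul]
    · rw [(he a x).mp hx l hl, mul_zero]

/-- Maximality of the coordinate stabiliser transports to the decomposition. -/
theorem isMaximalIn_decomp_of {D : Fin t → Submodule F (ι → F)} (hD : Cfsg.Geo.IsMDecomposition m D)
    (e : (ι → F) ≃ₗ[F] (κ → F)) (blk : κ → Fin t) (he : ∀ a x, x ∈ D a ↔ ∀ l, blk l ≠ a → e x l = 0)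
    (hblk : Function.Surjective blk)
    (hmax : ∀ K : Subgroup (GL κ F), (∀ g : GL κ F, (∀ a, ∃ b, ∀ l i, blk l = a → blk i ≠ b →
        (g : Matrix κ κ F) i l = 0) → (g : Matrix κ κ F).det = 1 → g ∈ K) →
      ∀ y ∈ K, (¬ ∀ a, ∃ b, ∀ l i, blk l = a → blk i ≠ b → (y : Matrix κ κ F) i l = 0) →
        Cfsg.Geo.specialLinear κ F ≤ K) :
    Cfsg.Geo.IsMaximalIn (Cfsg.Geo.specialLinear ι F)
      (Cfsg.Geo.decompositionStabilizer D ⊓ Cfsg.Geo.specialLinear ι F) := by
  have hdet : ∀ g : GL κ F, conjGL e g ∈ Cfsg.Geo.specialLinear ι F ↔ (g : Matrix κ κ F).det = 1 := fun g => by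
    rw [mem_specialLinear_iff, conjGL_det]
  constructor
  · refine lt_of_le_of_ne inf_le_right fun heq => ?_
    obtain ⟨p, hp⟩ := hblk ⟨0, by have := hD.two_le; omega⟩
    obtain ⟨q, hq⟩ := hblk ⟨1, by have := hD.two_le; omega⟩
    have hpq : blk p ≠ blk q := by rw [hp, hq]; simp
    have hd : (Pi.single q (1 : F) : κ → F) ⬝ᵥ Pi.single p 1 = 0 := by
      rw [single_dotProduct, Pi.single_eq_of_ne (show q ≠ p from fun e' => hpq (by rw [e'])), mul_zero]
    have hmem : conjGL e (tv (Pi.single p 1) (Pi.single q 1) hd) ∈ Cfsg.Geo.specialLinear ι F :=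
      (hdet _).mpr (mem_specialLinear_iff.mp (tv_mem_specialLinear _ _ hd))
    rw [← heq] at hmem
    obtain ⟨b, hb⟩ := (conjGL_mem_decomp_iff hD e blk he _).mp hmem.1 (blk q)
    have h1 : (tv (Pi.single p (1 : F)) (Pi.single q 1) hd : Matrix κ κ F) p q = 1 := by
      rw [tv_val, Matrix.add_apply, Matrix.one_apply_ne (fun e' => hpq (by rw [e'])), vecMulVec_apply]
      simp
    have h2 : (tv (Pi.single p (1 : F)) (Pi.single q 1) hd : Matrix κ κ F) q q = 1 := by
      rw [tv_val, Matrix.add_apply, Matrix.one_apply_eq, vecMulVec_apply,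
        Pi.single_eq_of_ne (fun e' => hpq (by rw [e']))]
      simp
    have hb1 : blk p = b := by_contra fun e' => one_ne_zero (h1.symm.trans (hb q p rfl e'))
    have hb2 : blk q = b := by_contra fun e' => one_ne_zero (h2.symm.trans (hb q q rfl e'))
    exact hpq (hb1.trans hb2.symm)
  intro M hNM hMS
  by_cases hle : M ≤ Cfsg.Geo.decompositionStabilizer D
  · exact Or.inl (le_antisymm (le_inf hle hMS) hNM)
  right
  refine le_antisymm hMS fun g hg => ?_
  obtain ⟨y, hy, hyD⟩ := SetLike.not_le_iff_exists.mp hle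
  have key := hmax (M.comap (conjGL e).toMonoidHom) (fun g h1 h2 => Subgroup.mem_comap.mpr
    (hNM ⟨(conjGL_mem_decomp_iff hD e blk he g).mpr h1, (hdet g).mpr h2⟩)) ((conjGL e).symm y)
    (by rw [Subgroup.mem_comap]; show conjGL e ((conjGL e).symm y) ∈ M; rw [MulEquiv.apply_symm_apply]; exact hy)
    (fun h => hyD (by
      have := (conjGL_mem_decomp_iff hD e blk he _).mpr h
      rwa [MulEquiv.apply_symm_apply] at this))
  have hg' : (conjGL e).symm g ∈ Cfsg.Geo.specialLinear κ F := by
    rw [mem_specialLinear_iff, ← hdet, MulEquiv.apply_symm_apply]; exact hg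
  have := key hg'
  rw [Subgroup.mem_comap] at this
  simpa using this

theorem exists_unit_ne_one_of_card [Fintype F] (h : 3 ≤ Fintype.card F) : ∃ z : Fˣ, z ≠ 1 := by
  classical
  haveI : Nontrivial Fˣ := Fintype.one_lt_card_iff_nontrivial.mp (by rw [Fintype.card_units]; omega)
  exact exists_ne 1

theorem isMaximalIn_decomp [Fintype F] {n : ℕ} (hn : 13 ≤ n) (D : Fin t → Submodule F (Fin n → F))
    (hD : Cfsg.Geo.IsMDecomposition m D) (h1 : ¬ (m = 1 ∧ Fintype.card F ≤ 4))
    (h2 : ¬ (m = 2 ∧ Fintype.card F = 2)) :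
    Cfsg.Geo.IsMaximalIn (Cfsg.Geo.specialLinear (Fin n) F)
      (Cfsg.Geo.decompositionStabilizer D ⊓ Cfsg.Geo.specialLinear (Fin n) F) := by
  classical
  let b : ∀ i, Module.Basis (Fin m) F (D i) := fun i => Module.finBasisOfFinrankEq F (D i) (hD.finrank_eq i)
  obtain ⟨e, -, he⟩ := exists_blockCoords hD b
  have hcard : n = t * m := by
    have := e.finrank_eq
    simpa [Module.finrank_fintype_fun_eq_card] using this
  have hq2 : 2 ≤ Fintype.card F := Fintype.one_lt_card
  by_cases hm1 : m = 1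
  · subst hm1
    let Φ : Fin n ≃ Fin t × Fin 1 := (finCongr (by omega : n = t * 1)).trans finProdFinEquiv.symm
    have hinj : Function.Injective fun l => (Φ l).1 := fun l l' h =>
      Φ.injective (Prod.ext h (Subsingleton.elim _ _))
    refine isMaximalIn_decomp_of hD (e.trans (LinearEquiv.funCongrLeft F F Φ)) (fun l => (Φ l).1)
      (fun a x => ?_) (fun a => ⟨Φ.symm (a, 0), by simp⟩) ?_
    · rw [he a x]
      constructor
      · intro h l hl
        show e x (Φ l) = 0
        exact h (Φ l).1 (Φ l).2 hl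
      · intro h j k hj
        have := h (Φ.symm (j, k)) (by simp [hj])
        simpa [LinearEquiv.funCongrLeft, LinearMap.funLeft] using this
    · intro K hN y hy hyb
      refine MonomialMax.sl_of_not_mono (by omega) hn (fun g hg hdet => hN g (fun a => ?_) hdet) hy fun hym => ?_
      · obtain ⟨k, hk⟩ := hg (Φ.symm (a, 0))
        refine ⟨(Φ k).1, fun l i hl hi => ?_⟩
        have hl' : l = Φ.symm (a, 0) := hinj (by simpa using hl)
        rw [hl']
        exact hk i fun e' => hi (by rw [e'])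
      · refine hyb fun a => ?_
        obtain ⟨k, hk⟩ := hym (Φ.symm (a, 0))
        refine ⟨(Φ k).1, fun l i hl hi => ?_⟩
        have hl' : l = Φ.symm (a, 0) := hinj (by simpa using hl)
        rw [hl']
        exact hk i fun e' => hi (by rw [e'])
  · have hm : 2 ≤ m := by have := hD.pos; omega
    refine isMaximalIn_decomp_of hD e Prod.fst (fun a x => ?_) (fun a => ⟨(a, ⟨0, by omega⟩), rfl⟩) ?_
    · rw [he a x]
      exact ⟨fun h l hl => h l.1 l.2 hl, fun h j k hj => h (j, k) hj⟩
    · intro K hN y hy hyb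
      refine BlockMax.sl_of_not_block (fun g hg hdet => hN g (fun a => ?_) hdet) hm (fun hm2 => ⟨?_, ?_⟩) hy
        fun h => hyb fun a => ?_
      · obtain ⟨b', hb'⟩ := hg a
        exact ⟨b', fun l i hl hi => by obtain ⟨l1, l2⟩ := l; subst hl; exact hb' l2 i hi⟩
      · subst hm2; omega
      · exact exists_unit_ne_one_of_card (by omega)
      · obtain ⟨b', hb'⟩ := h a
        exact ⟨b', fun l i hl hi => by obtain ⟨l1, l2⟩ := l; subst hl; exact hb' l2 i hi⟩

end Cfsg.Agent.GeomClasses
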