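import Mathlib

/-!
Eigenbases of maps with scalar square in odd characteristic.
-/

set_option autoImplicit false

namespace Cfsg.Agent.GeomClasses.EigenBasisTwo

open Matrix

variable {F : Type*} [Field F] {n : ℕ}

theorem exists_eigen_basis (h2 : (2 : F) ≠ 0) (x : Matrix (Fin n) (Fin n) F) {c : F} (hc0 : c ≠ 0)
    (hz : ∀ v, x *ᵥ (x *ᵥ v) = (c * c) • v) :
    ∃ (a b : ℕ) (bb : Module.Basis (Fin a ⊕ Fin b) F (Fin n → F)),
      (∀ i, x *ᵥ bb (Sum.inl i) = c • bb (Sum.inl i)) ∧ (∀ i, x *ᵥ bb (Sum.inr i) = (-c) • bb (Sum.inr i)) ∧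
      x.det = c ^ a * (-c) ^ b ∧ a + b = n := by
  classical
  set X := x.mulVecLin
  let P := LinearMap.ker (X - c • LinearMap.id)
  let Q := LinearMap.ker (X + c • LinearMap.id)
  have hP : ∀ v ∈ P, X v = c • v := fun v hv => sub_eq_zero.1 hv
  have hQ : ∀ v ∈ Q, X v = (-c) • v := fun v hv => by
    rw [neg_smul]; exact eq_neg_of_add_eq_zero_left hv
  have hPQ : IsCompl P Q := by
    refine ⟨Submodule.disjoint_def.2 fun v hv hv' => ?_,
      codisjoint_iff.2 (eq_top_iff.2 fun v _ => ?_)⟩
    · have h := hQ v hv'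
      rw [hP v hv, ← sub_eq_zero, ← sub_smul] at h
      refine (smul_eq_zero.1 h).resolve_left ?_
      rw [sub_neg_eq_add, ← two_mul]; exact mul_ne_zero h2 hc0
    · have hz' : ∀ v, X (X v) = (c * c) • v := hz
      refine Submodule.mem_sup.2 ⟨(2 * c)⁻¹ • (c • v + X v), ?_, (2 * c)⁻¹ • (c • v - X v), ?_, ?_⟩
      · simp only [P, LinearMap.mem_ker, LinearMap.sub_apply, LinearMap.smul_apply, LinearMap.id_apply,
          map_smul, map_add, hz']
        module
      · simp only [Q, LinearMap.mem_ker, LinearMap.add_apply, LinearMap.smul_apply, LinearMap.id_apply,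
          map_smul, map_sub, hz']
        module
      · rw [← smul_add, show c • v + X v + (c • v - X v) = (2 * c) • v by module,
          smul_smul, inv_mul_cancel₀ (mul_ne_zero h2 hc0), one_smul]
  let bb : Module.Basis (Fin (Module.finrank F P) ⊕ Fin (Module.finrank F Q)) F (Fin n → F) :=
    ((Module.finBasis F P).prod (Module.finBasis F Q)).map (Submodule.prodEquivOfIsCompl P Q hPQ)
  have hbP : ∀ i, X (bb (Sum.inl i)) = c • bb (Sum.inl i) := fun i => by
    simpa [bb, X] using hP _ (Module.finBasis F P i).2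
  have hbQ : ∀ i, X (bb (Sum.inr i)) = (-c) • bb (Sum.inr i) := fun i => by
    simpa [bb, X] using hQ _ (Module.finBasis F Q i).2
  have hdim := Module.finrank_eq_card_basis bb
  rw [Module.finrank_pi, Fintype.card_fin, Fintype.card_sum, Fintype.card_fin, Fintype.card_fin] at hdim
  refine ⟨_, _, bb, hbP, hbQ, ?_, hdim.symm⟩
  have h1 : LinearMap.det X = x.det := LinearMap.det_toLin' x
  rw [← h1, ← LinearMap.det_toMatrix bb]
  have h3 : LinearMap.toMatrix bb bb X = Matrix.diagonal (Sum.elim (fun _ => c) (fun _ => -c)) := by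
    ext i j
    rw [LinearMap.toMatrix_apply, Matrix.diagonal_apply]
    rcases j with j | j
    · rw [hbP, map_smul, Finsupp.smul_apply, bb.repr_self, Finsupp.single_apply]
      by_cases h : i = Sum.inl j
      · subst h; simp
      · simp [h, Ne.symm h]
    · rw [hbQ, map_smul, Finsupp.smul_apply, bb.repr_self, Finsupp.single_apply]
      by_cases h : i = Sum.inr j
      · subst h; simp
      · simp [h, Ne.symm h]
  rw [h3, Matrix.det_diagonal, Fintype.prod_sum_type]
  simp

end Cfsg.Agent.GeomClasses.EigenBasisTwo
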