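import Cfsg.Agent.GeomClasses.OrthTools
import Cfsg.Agent.Forms.Discr

/-!
Over the field with three elements a non-degenerate space of dimension three, or an anisotropic
plane, carries a frame fixed by all its isometries.  So the stabiliser in `Ω` of an orthogonal
decomposition into such blocks is contained in the stabiliser of a finer frame.
-/

set_option autoImplicit false

namespace Cfsg.Agent.GeomClasses.FrameRefine

open Matrix Cfsg.Agent.Forms

variable {ι : Type} [Fintype ι] [DecidableEq ι] {F : Type*} [Field F]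

/-- The product of the reflections in orthogonal vectors with equal values. -/
theorem exists_refl_pair (Q : QuadraticForm F (ι → F)) (h2 : (2 : F) ≠ 0) {u u' : ι → F}
    (hu : Q u ≠ 0) (h : Q u' = Q u) (ho : QuadraticMap.polar Q u u' = 0) :
    ∃ g ∈ Cfsg.Geo.omegaGL ⇑Q, ∀ x, (g : Matrix ι ι F) *ᵥ x =
      ((reflGL Q u : GL ι F) : Matrix ι ι F) *ᵥ (((reflGL Q u' : GL ι F) : Matrix ι ι F) *ᵥ x) := by
  refine ⟨reflComm Q u (u - u'), reflComm_mem Q _ _, fun x => ?_⟩
  have hd : Q (u - u') ≠ 0 := by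
    rw [sub_eq_add_neg, QuadraticMap.map_add Q, QuadraticMap.map_neg, QuadraticMap.polar_neg_right,
      ho, h, neg_zero, add_zero, ← two_mul]
    exact mul_ne_zero h2 hu
  have hc : reflection Q (u - u') * reflection Q u * reflection Q (u - u') = reflection Q u' := by
    conv_lhs => arg 2; rw [← reflection_inv Q (u - u')]
    rw [conj_reflection, reflection_sub_apply Q h.symm hd]
  have hc' : reflGL Q (u - u') * reflGL Q u * reflGL Q (u - u') = reflGL Q u' := by
    simp only [reflGL, ← map_mul, hc]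
  rw [← hc']
  simp only [reflComm, Subgroup.coe_mul, Units.val_mul, Matrix.mulVec_mulVec, mul_assoc]

/-- The members of a frame, up to sign. -/
def IsGood {t k : ℕ} (e : Fin t → Fin k → (ι → F)) (v : ι → F) : Prop :=
  ∃ i l, v = e i l ∨ v = -e i l

/-- The stabiliser of a frame up to signs. -/
def frameGroup [Finite F] {t k : ℕ} (e : Fin t → Fin k → (ι → F)) : Subgroup (GL ι F) where
  carrier := {g | ∀ v, IsGood e v → IsGood e ((g : Matrix ι ι F) *ᵥ v)}
  one_mem' := fun v hv => by simpa using hv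
  mul_mem' := fun {a b} ha hb v hv => by
    rw [Units.val_mul, ← Matrix.mulVec_mulVec]; exact ha _ (hb v hv)
  inv_mem' := fun {g} hg v hv => by
    let S := {w : ι → F // IsGood e w}
    let f : S → S := fun w => ⟨_, hg w.1 w.2⟩
    have hf : Function.Injective f := fun a b h => Subtype.ext (by
      have h' := congrArg (((g⁻¹ : GL ι F) : Matrix ι ι F) *ᵥ ·) (congrArg Subtype.val h)
      simpa [f, Matrix.mulVec_mulVec, ← Units.val_mul] using h')
    obtain ⟨⟨w, hw⟩, hwv⟩ := (Finite.injective_iff_surjective.1 hf) ⟨v, hv⟩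
    have e' : (g : Matrix ι ι F) *ᵥ w = v := congrArg Subtype.val hwv
    have : ((g⁻¹ : GL ι F) : Matrix ι ι F) *ᵥ v = w := by
      rw [← e', Matrix.mulVec_mulVec, ← Units.val_mul, inv_mul_cancel, Units.val_one, Matrix.one_mulVec]
    rw [this]; exact hw

/-- A frame inside the blocks gives a group between the stabiliser and `Ω`. -/
theorem exists_between_of_frame [Finite F] (Q : QuadraticForm F (ι → F)) (h2 : (2 : F) ≠ 0)
    {t k : ℕ} {D : Fin t → Submodule F (ι → F)}
    (hort : ∀ i j, i ≠ j → ∀ a ∈ D i, ∀ b ∈ D j, QuadraticMap.polar Q a b = 0)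
    (ht : 5 ≤ t) (hk : 1 ≤ k) {c : F} (hc : c ≠ 0) (e : Fin t → Fin k → (ι → F))
    (hmem : ∀ i l, e i l ∈ D i) (hQe : ∀ i l, Q (e i l) = c)
    (horth : ∀ i l l', l ≠ l' → QuadraticMap.polar Q (e i l) (e i l') = 0)
    (hclass : ∀ i, ∀ v ∈ D i, Q v = c → ∃ l, v = e i l ∨ v = -e i l)
    (hwit : ∀ i, ∀ l, ∃ b ∈ D i, Q b ≠ 0 ∧ QuadraticMap.polar Q (e i l) b = 0) :
    ∃ K : Subgroup (GL ι F), Cfsg.Geo.decompositionStabilizer D ⊓ Cfsg.Geo.omegaGL ⇑Q < K ∧
      K < Cfsg.Geo.omegaGL ⇑Q := by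
  classical
  have hpol : ∀ i l j l', QuadraticMap.polar Q (e i l) (e j l') =
      if i = j ∧ l = l' then 2 * c else 0 := by
    intro i l j l'
    by_cases hij : i = j
    · subst hij
      by_cases hll : l = l'
      · subst hll; rw [if_pos ⟨rfl, rfl⟩, polar_self_two_mul, hQe]
      · rw [if_neg (fun h => hll h.2), horth i l l' hll]
    · rw [if_neg (fun h => hij h.1), hort i j hij _ (hmem i l) _ (hmem j l')]
  have h2c : (2 : F) * c ≠ 0 := mul_ne_zero h2 hc
  have hle : Cfsg.Geo.decompositionStabilizer D ⊓ Cfsg.Geo.omegaGL ⇑Q ≤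
      frameGroup e ⊓ Cfsg.Geo.omegaGL ⇑Q := by
    rintro g ⟨⟨σ, hσ⟩, hgΩ⟩
    refine ⟨fun v hv => ?_, hgΩ⟩
    obtain ⟨i, l, hv⟩ := hv
    have hvD : v ∈ D i := by
      rcases hv with rfl | rfl <;> [exact hmem i l; exact (D i).neg_mem (hmem i l)]
    have hQv : Q v = c := by
      rcases hv with rfl | rfl <;> [exact hQe i l; rw [QuadraticMap.map_neg, hQe i l]]
    have hgv : (g : Matrix ι ι F) *ᵥ v ∈ D (σ i) := by
      rw [← hσ i]; exact ⟨v, hvD, Matrix.toLin'_apply _ _⟩
    exact ⟨σ i, hclass _ _ hgv ((omegaGL_preserves Q hgΩ v).trans hQv)⟩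
  have hnotD : ∀ {i j : Fin t}, i ≠ j → ∀ l, e i l ∉ D j := by
    intro i j hij l h
    have := hort i j hij _ (hmem i l) _ h
    rw [hpol, if_pos ⟨rfl, rfl⟩] at this
    exact h2c this
  let P : Fin 5 → Fin t := fun a => ⟨a, by omega⟩
  have hP : ∀ a b, P a = P b ↔ a = b := fun a b => by simp [P, Fin.ext_iff]
  let z : Fin k := ⟨0, by omega⟩
  obtain ⟨bw, hbwD, hQbw, hbw⟩ := hwit (P 0) z
  have hbw0 : ∀ a, QuadraticMap.polar Q (e (P a) z) bw = 0 := by
    intro a
    by_cases h : P a = P 0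
    · rw [h]; exact hbw
    · exact hort _ _ h _ (hmem _ _) _ hbwD
  obtain ⟨x, y, hxy⟩ : ∃ x y : F, x ^ 2 + y ^ 2 = -1 := by
    obtain ⟨x, y, h⟩ := Cfsg.Agent.Forms.exists_sq_add_sq_eq (one_ne_zero (α := F)) (one_ne_zero (α := F)) (-1)
    exact ⟨x, y, by linear_combination h⟩
  refine ⟨frameGroup e ⊓ Cfsg.Geo.omegaGL ⇑Q, lt_of_le_of_ne hle fun heq => ?_,
    lt_of_le_of_ne inf_le_right fun heq => ?_⟩
  · set u := e (P 0) z - e (P 1) z with hu
    set u' := e (P 2) z - e (P 3) z with hu'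
    have hQd : ∀ a b, a ≠ b → Q (e (P a) z - e (P b) z) = 2 * c := by
      intro a b hab
      rw [sub_eq_add_neg, QuadraticMap.map_add Q, QuadraticMap.map_neg,
        QuadraticMap.polar_neg_right, hpol, if_neg (fun h => hab ((hP a b).1 h.1)), hQe, hQe]
      ring
    obtain ⟨g, hgΩ, hg⟩ := exists_refl_pair Q h2 (u := u) (u' := u')
      (by rw [hu, hQd 0 1 (by decide)]; exact h2c) (by rw [hu, hu', hQd 0 1 (by decide), hQd 2 3 (by decide)])
      (by
        simp only [hu, hu', QuadraticMap.polar_sub_left, QuadraticMap.polar_sub_right, hpol, hP]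
        simp)
    have hswap : ∀ a b, a ≠ b → ∀ x, ((reflGL Q (e (P a) z - e (P b) z) : GL ι F) : Matrix ι ι F) *ᵥ x =
        x - ((2 * c)⁻¹ * (QuadraticMap.polar Q (e (P a) z) x - QuadraticMap.polar Q (e (P b) z) x)) •
          (e (P a) z - e (P b) z) := by
      intro a b hab x
      rw [reflGL_mulVec, hQd a b hab, QuadraticMap.polar_sub_left]
    have hperm : ∀ a b, a ≠ b → ∀ i l, IsGood e
        (((reflGL Q (e (P a) z - e (P b) z) : GL ι F) : Matrix ι ι F) *ᵥ e i l) := by
      intro a b hab i l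
      rw [hswap a b hab, hpol, hpol]
      by_cases ha : P a = i ∧ z = l
      · refine ⟨P b, z, Or.inl ?_⟩
        obtain ⟨rfl, rfl⟩ := ha
        rw [if_pos ⟨rfl, rfl⟩, if_neg (fun h => hab ((hP a b).1 h.1.symm)), sub_zero,
          inv_mul_cancel₀ h2c, one_smul, sub_sub_cancel]
      by_cases hb : P b = i ∧ z = l
      · refine ⟨P a, z, Or.inl ?_⟩
        obtain ⟨rfl, rfl⟩ := hb
        rw [if_neg ha, if_pos ⟨rfl, rfl⟩, zero_sub, mul_neg, inv_mul_cancel₀ h2c]
        module
      · exact ⟨i, l, Or.inl (by rw [if_neg ha, if_neg hb, sub_self, mul_zero, zero_smul, sub_zero])⟩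
    have hgK : g ∈ frameGroup e ⊓ Cfsg.Geo.omegaGL ⇑Q := by
      refine ⟨fun v hv => ?_, hgΩ⟩
      have pos : ∀ i l, IsGood e ((g : Matrix ι ι F) *ᵥ e i l) := by
        intro i l
        rw [hg]
        obtain ⟨j, l', h⟩ := hperm 2 3 (by decide) i l
        rcases h with h | h
        · rw [h]; exact hperm 0 1 (by decide) j l'
        · rw [h, Matrix.mulVec_neg]
          obtain ⟨j', l'', h' | h'⟩ := hperm 0 1 (by decide) j l'
          · exact ⟨j', l'', Or.inr (by rw [h'])⟩
          · exact ⟨j', l'', Or.inl (by rw [h', neg_neg])⟩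
      obtain ⟨i, l, rfl | rfl⟩ := hv
      · exact pos i l
      · rw [Matrix.mulVec_neg]
        obtain ⟨j, l', h | h⟩ := pos i l
        · exact ⟨j, l', Or.inr (by rw [h])⟩
        · exact ⟨j, l', Or.inl (by rw [h, neg_neg])⟩
    rw [← heq] at hgK
    obtain ⟨σ, hσ⟩ := hgK.1
    have himg : ∀ l, (g : Matrix ι ι F) *ᵥ e (P 0) l ∈ D (σ (P 0)) := fun l => by
      rw [← hσ (P 0)]; exact ⟨_, hmem _ l, Matrix.toLin'_apply _ _⟩
    have h0 : (g : Matrix ι ι F) *ᵥ e (P 0) z = e (P 1) z := by
      rw [hg, hswap 2 3 (by decide), hpol, hpol, if_neg (by simp [hP]), if_neg (by simp [hP]),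
        sub_self, mul_zero, zero_smul, sub_zero, hswap 0 1 (by decide), hpol, hpol,
        if_pos ⟨rfl, rfl⟩, if_neg (by simp [hP]), sub_zero, inv_mul_cancel₀ h2c, one_smul, sub_sub_cancel]
    have h1 : (g : Matrix ι ι F) *ᵥ bw = bw := by
      rw [hg, hswap 2 3 (by decide), hbw0, hbw0, sub_self, mul_zero, zero_smul, sub_zero,
        hswap 0 1 (by decide), hbw0, hbw0, sub_self, mul_zero, zero_smul, sub_zero]
    have m0 := himg z
    have m1 : bw ∈ D (σ (P 0)) := by
      rw [← hσ (P 0)]; exact ⟨bw, hbwD, by rw [Matrix.toLin'_apply, h1]⟩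
    rw [h0] at m0
    have e0 : P 1 = σ (P 0) := by by_contra h; exact hnotD h z m0
    have e1 : P 0 = σ (P 0) := by
      by_contra h
      have := hort _ _ h _ hbwD _ m1
      rw [polar_self_two_mul] at this
      exact mul_ne_zero h2 hQbw this
    exact absurd ((hP 1 0).1 (e0.trans e1.symm)) (by decide)
  · set u := e (P 0) z + e (P 1) z + x • e (P 2) z + y • e (P 3) z with hu
    have hQu : Q u = c := by
      simp only [hu, QuadraticMap.map_add Q, QuadraticMap.map_smul, QuadraticMap.polar_add_left,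
        QuadraticMap.polar_smul_left, QuadraticMap.polar_smul_right, smul_eq_mul, hQe, hpol, hP]
      simp only [Fin.reduceEq, false_and, if_false, mul_zero, add_zero]
      linear_combination c * hxy
    obtain ⟨g, hgΩ, hg⟩ := exists_refl_pair Q h2 (u := u) (u' := e (P 4) z)
      (by rw [hQu]; exact hc) (by rw [hQu, hQe])
      (by simp only [hu, QuadraticMap.polar_add_left, QuadraticMap.polar_smul_left, hpol, hP]; simp)
    rw [← heq] at hgΩ
    have hgood := hgΩ.1 (e (P 0) z) ⟨P 0, z, Or.inl rfl⟩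
    rw [hg, reflGL_mulVec, reflGL_mulVec, hQu, hQe] at hgood
    obtain ⟨j, l, hjl⟩ := hgood
    rw [hpol (P 4) z (P 0) z, if_neg (by simp [hP]), mul_zero, zero_smul, sub_zero] at hjl
    have hpu : QuadraticMap.polar Q u (e (P 0) z) = 2 * c := by
      simp only [hu, QuadraticMap.polar_add_left, QuadraticMap.polar_smul_left, hpol, hP]; simp
    rw [hpu, show c⁻¹ * (2 * c) = 2 by field_simp] at hjl
    have hkey : ∀ a, a = 0 ∨ a = 1 → QuadraticMap.polar Q (e (P a) z) (e j l) ≠ 0 := by
      intro a ha hzero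
      have hz0 : QuadraticMap.polar Q (e (P a) z) (e (P 0) z - (2 : F) • u) = 0 := by
        rcases hjl with h | h <;> rw [h]
        · exact hzero
        · rw [QuadraticMap.polar_neg_right, hzero, neg_zero]
      rw [QuadraticMap.polar_sub_right, QuadraticMap.polar_smul_right, smul_eq_mul] at hz0
      rcases ha with rfl | rfl
      · rw [QuadraticMap.polar_comm Q _ u, hpu, hpol, if_pos ⟨rfl, rfl⟩] at hz0
        exact h2c (by linear_combination -hz0)
      · have hau : QuadraticMap.polar Q (e (P 1) z) u = 2 * c := by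
          simp only [hu, QuadraticMap.polar_add_right, QuadraticMap.polar_smul_right, hpol, hP]; simp
        rw [hau, hpol, if_neg (by simp [hP])] at hz0
        exact mul_ne_zero h2 h2c (by linear_combination -hz0)
    have k0 := hkey 0 (Or.inl rfl)
    have k1 := hkey 1 (Or.inr rfl)
    rw [hpol] at k0 k1
    by_cases hh0 : P 0 = j ∧ z = l
    · by_cases hh1 : P 1 = j ∧ z = l
      · exact absurd ((hP 0 1).1 (hh0.1.trans hh1.1.symm)) (by decide)
      · exact k1 (if_neg hh1)
    · exact k0 (if_neg hh0)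

theorem three_cases [Fintype F] (h : Fintype.card F = 3) (a : F) : a = 0 ∨ a = 1 ∨ a = -1 := by
  have h2 : (2 : F) ≠ 0 := by
    intro h2
    haveI : CharP F 2 := CharTwo.of_one_ne_zero_of_two_eq_zero one_ne_zero h2
    have := FiniteField.even_card_of_char_two (ringChar.eq F 2)
    omega
  by_contra hc
  push_neg at hc
  classical
  have : ({0, 1, -1, a} : Finset F).card ≤ 3 := h ▸ Finset.card_le_univ _
  rw [Finset.card_insert_of_notMem, Finset.card_insert_of_notMem, Finset.card_pair hc.2.2.symm] at this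
  · omega
  · simp only [Finset.mem_insert, Finset.mem_singleton, not_or]
    exact ⟨fun e => h2 (by linear_combination e), hc.2.1.symm⟩
  · simp only [Finset.mem_insert, Finset.mem_singleton, not_or]
    exact ⟨zero_ne_one, fun e => one_ne_zero (neg_eq_zero.1 e.symm), hc.1.symm⟩

theorem three_eq_zero [Fintype F] (h : Fintype.card F = 3) : (3 : F) = 0 := by
  simpa [h] using FiniteField.cast_card_eq_zero F

theorem sq_sum_eq_one [Fintype F] (hF : Fintype.card F = 3) {k : ℕ} (hk : k = 2 ∨ k = 3)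
    (a : Fin k → F) (h : ∑ l, a l * a l = 1) :
    ∃ l, (a l = 1 ∨ a l = -1) ∧ ∀ l', l' ≠ l → a l' = 0 := by
  have h3 := three_eq_zero hF
  have hne : (2 : F) ≠ 0 := fun e => one_ne_zero (α := F) (by linear_combination h3 - e)
  have hsum : (1 : F) + 1 ≠ 1 ∧ (1 : F) + 1 + 1 ≠ 1 ∧ (0 : F) ≠ 1 :=
    ⟨fun e => one_ne_zero (α := F) (by linear_combination e),
      fun e => hne (by linear_combination e), zero_ne_one⟩
  rcases hk with rfl | rfl
  · rw [Fin.sum_univ_two] at h
    rcases three_cases hF (a 0) with h0 | h0 | h0 <;> rcases three_cases hF (a 1) with h1 | h1 | h1 <;>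
      simp [h0, h1] at h <;>
      first
        | (refine ⟨0, ?_, ?_⟩ <;> first | (simp [h0]; done) | (intro l; fin_cases l <;> simp [h1]; done))
        | (refine ⟨1, ?_, ?_⟩ <;> first | (simp [h1]; done) | (intro l; fin_cases l <;> simp [h0]; done))
  · rw [Fin.sum_univ_three] at h
    rcases three_cases hF (a 0) with h0 | h0 | h0 <;> rcases three_cases hF (a 1) with h1 | h1 | h1 <;>
      rcases three_cases hF (a 2) with h2 | h2 | h2 <;>
      simp [h0, h1, h2, hsum, hne] at h <;>
      first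
        | (refine ⟨0, ?_, ?_⟩ <;> first | (simp [h0]; done) | (intro l; fin_cases l <;> simp [h1, h2]; done))
        | (refine ⟨1, ?_, ?_⟩ <;> first | (simp [h1]; done) | (intro l; fin_cases l <;> simp [h0, h2]; done))
        | (refine ⟨2, ?_, ?_⟩ <;> first | (simp [h2]; done) | (intro l; fin_cases l <;> simp [h0, h1]; done))

/-- Over three elements, blocks of dimension three or anisotropic planes are refined by frames. -/
theorem exists_between_blocks [Fintype F] (hF : Fintype.card F = 3) (Q : QuadraticForm F (ι → F))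
    {t k : ℕ} {D : Fin t → Submodule F (ι → F)}
    (hD : Cfsg.Geo.IsOrthogonalMDecomposition ⇑Q k D) (ht : 5 ≤ t)
    (hk : k = 3 ∨ (k = 2 ∧ ∀ i, ¬ Cfsg.Geo.IsPlusTypeOn (⇑Q) (D i))) :
    ∃ K : Subgroup (GL ι F), Cfsg.Geo.decompositionStabilizer D ⊓ Cfsg.Geo.omegaGL ⇑Q < K ∧
      K < Cfsg.Geo.omegaGL ⇑Q := by
  classical
  have h3 := three_eq_zero hF
  have h2 : (2 : F) ≠ 0 := fun e => one_ne_zero (α := F) (by linear_combination h3 - e)
  have hd := hD.decomp
  have hkk : k = 2 ∨ k = 3 := by rcases hk with h | h <;> [exact Or.inr h; exact Or.inl h.1]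
  let i₀ : Fin t := ⟨0, by omega⟩
  let B : LinearMap.BilinForm F (D i₀) :=
    (QuadraticMap.polarBilin Q).compl₁₂ (D i₀).subtype (D i₀).subtype
  have hB : ∀ x y : D i₀, B x y = QuadraticMap.polar Q (x : ι → F) y := fun _ _ => rfl
  have hS : B.IsSymm := ⟨fun x y => QuadraticMap.polar_comm (⇑Q) _ _⟩
  have hnd : B.Nondegenerate := by
    have key : ∀ x : D i₀, (∀ y, B x y = 0) → x = 0 := by
      intro x hx
      by_contra h0
      obtain ⟨-, v, hv, hxv⟩ := hd.nondegenerate i₀ x x.2 (fun e => h0 (Subtype.ext e))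
      exact hxv (hx ⟨v, hv⟩)
    exact ⟨key, fun y hy => key y fun x => (hS.eq x y ▸ hy x : B y x = 0)⟩
  obtain ⟨b, hb0, hb1, hb2⟩ := Cfsg.Agent.Forms.exists_orth_family h2 (k - 1) hS hnd
    (by rw [hd.decomp.finrank_eq]; omega)
  obtain ⟨c, hc, w, hw0, hwc⟩ : ∃ c : F, c ≠ 0 ∧ ∃ w : Fin k → D i₀,
      (∀ l l', l ≠ l' → B (w l) (w l') = 0) ∧ ∀ l, B (w l) (w l) = 2 * c := by
    have hdel : B (b (Fin.last _)) (b (Fin.last _)) = 1 ∨ B (b (Fin.last _)) (b (Fin.last _)) = -1 := by
      rcases three_cases hF (B (b (Fin.last _)) (b (Fin.last _))) with h | h | h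
      exacts [absurd h hb2, Or.inl h, Or.inr h]
    rcases hdel with hdel | hdel
    · refine ⟨2, h2, fun l => b ⟨l, by omega⟩,
        fun l l' h => hb0 _ _ (by simpa [Fin.ext_iff] using h), fun l => ?_⟩
      rw [show (2 : F) * 2 = 1 by linear_combination h3]
      by_cases hl : (⟨l, by omega⟩ : Fin (k - 1 + 1)) = Fin.last _
      · show B (b _) (b _) = 1
        rw [hl, hdel]
      · exact hb1 _ hl
    rcases hk with rfl | ⟨rfl, hmin⟩
    · have s01 : B (b 1) (b 0) = 0 := hb0 _ _ (by decide)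
      have e0 : B (b 0) (b 0) = 1 := hb1 _ (by decide)
      have e1 : B (b 1) (b 1) = 1 := hb1 _ (by decide)
      refine ⟨1, one_ne_zero, ![b 0 + b 1, b 0 - b 1, b 2], ?_, ?_⟩
      · intro l l' h
        fin_cases l <;> fin_cases l' <;>
          simp_all [LinearMap.BilinForm.add_left, hb0 0 1 (by decide), hb0 0 2 (by decide),
            hb0 1 2 (by decide), hb0 2 0 (by decide), hb0 2 1 (by decide)]
      · intro l
        fin_cases l
        · simp [hb0 0 1 (by decide), s01, e0, e1]; ring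
        · simp [hb0 0 1 (by decide), s01, e0, e1]; ring
        · show B (b (Fin.last (3 - 1))) (b (Fin.last (3 - 1))) = 2 * 1
          rw [hdel]; linear_combination -h3
    · exfalso
      refine hmin i₀ ⟨Submodule.span F {((b 0 + b 1 : D i₀) : ι → F)}, ?_, ?_, ?_⟩
      · rw [Submodule.span_singleton_le_iff_mem]; exact (b 0 + b 1).2
      · intro v hv
        obtain ⟨r, rfl⟩ := Submodule.mem_span_singleton.1 hv
        rw [QuadraticMap.map_smul]
        have : 2 * Q ((b 0 + b 1 : D i₀) : ι → F) = 0 := by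
          rw [← polar_self_two_mul, ← hB]
          have e0 : B (b 0) (b 0) = 1 := hb1 _ (by decide)
          simp [hb0 0 1 (by decide), hb0 1 0 (by decide), e0, show B (b 1) (b 1) = -1 from hdel]
        rw [(mul_eq_zero.1 this).resolve_left h2, smul_zero]
      · have hne : ((b 0 + b 1 : D i₀) : ι → F) ≠ 0 := by
          intro e
          have e' : b 0 + b 1 = 0 := Subtype.ext e
          have := congrArg (fun v => B (b 0) v) e'
          simp [hb0 0 1 (by decide), hb1 0 (by decide)] at this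
        rw [finrank_span_singleton hne, hd.decomp.finrank_eq]
  choose φ hφ using fun i => hD.isometric i₀ i
  have hpolφ : ∀ i (x y : D i₀), QuadraticMap.polar Q (φ i x : ι → F) (φ i y) =
      QuadraticMap.polar Q (x : ι → F) y := by
    intro i x y
    simp only [QuadraticMap.polar, ← Submodule.coe_add, ← map_add, hφ]
  have hQw : ∀ l, Q (w l : ι → F) = c := fun l => mul_left_cancel₀ h2 (by
    rw [← polar_self_two_mul, ← hB, hwc])
  have hli : LinearIndependent F w :=
    LinearMap.BilinForm.linearIndependent_of_iIsOrtho (B := B)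
      (LinearMap.BilinForm.iIsOrtho_def.2 hw0) fun l => by
        rw [hwc]; exact mul_ne_zero h2 hc
  haveI : Nonempty (Fin k) := ⟨⟨0, by omega⟩⟩
  let bw := basisOfLinearIndependentOfCardEqFinrank hli (by simp [hd.decomp.finrank_eq])
  refine exists_between_of_frame Q h2 (fun i j hij => hd.orthogonal i j hij) ht (by omega) hc
    (fun i l => (φ i (w l) : ι → F)) (fun i l => (φ i (w l)).2) (fun i l => by rw [hφ, hQw])
    (fun i l l' h => by rw [hpolφ, ← hB, hw0 l l' h]) (fun i v hv hQv => ?_) fun i l => ?_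
  rotate_left
  · obtain ⟨l', hl'⟩ : ∃ l' : Fin k, l ≠ l' := by
      by_cases h : (l : ℕ) = 0
      · exact ⟨⟨1, by omega⟩, fun e => by simp [e] at h⟩
      · exact ⟨⟨0, by omega⟩, fun e => by simp [e] at h⟩
    exact ⟨(φ i (w l') : ι → F), (φ i (w l')).2, by rw [hφ, hQw]; exact hc,
      by rw [hpolφ, ← hB, hw0 l l' hl']⟩
  set x := (φ i).symm ⟨v, hv⟩ with hx
  have hφx : φ i x = ⟨v, hv⟩ := (φ i).apply_symm_apply _
  have hQx : Q (x : ι → F) = c := by rw [← hφ i, hφx]; exact hQv
  have hexp : ∑ l, bw.repr x l • w l = x := by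
    conv_rhs => rw [← bw.sum_repr x]
    simp [bw, coe_basisOfLinearIndependentOfCardEqFinrank]
  have hsq : ∑ l, bw.repr x l * bw.repr x l = 1 := by
    have h := hB x x
    rw [polar_self_two_mul, hQx] at h
    nth_rw 1 2 [← hexp] at h
    simp only [map_sum, map_smul, LinearMap.sum_apply, LinearMap.smul_apply, smul_eq_mul] at h
    rw [Finset.sum_congr rfl (g := fun l => bw.repr x l * (bw.repr x l * (2 * c))) (fun l _ => by
      rw [Finset.sum_eq_single l (fun l' _ h' => by rw [hw0 l' l h', mul_zero])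
        (fun h' => absurd (Finset.mem_univ l) h'), hwc])] at h
    refine mul_right_cancel₀ (mul_ne_zero h2 hc) ?_
    rw [Finset.sum_mul, one_mul]
    conv_rhs => rw [← h]
    exact Finset.sum_congr rfl fun l _ => by ring
  obtain ⟨l, hl, hzero⟩ := sq_sum_eq_one hF hkk _ hsq
  have hxl : x = bw.repr x l • w l := by
    conv_lhs => rw [← hexp]
    exact Finset.sum_eq_single l (fun l' _ h' => by rw [hzero l' h', zero_smul])
      (fun h' => absurd (Finset.mem_univ l) h')
  refine ⟨l, ?_⟩
  have hv' : v = (φ i x : ι → F) := by rw [hφx]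
  rw [hv', hxl, map_smul, Submodule.coe_smul]
  rcases hl with hl | hl <;> simp [hl]

end Cfsg.Agent.GeomClasses.FrameRefine
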