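import Cfsg.Agent.GeomClasses.OrthTools
import Cfsg.Agent.GeomClasses.OrthStab

/-! # From the derived orthogonal group to `omegaGL` -/

set_option autoImplicit false

namespace Cfsg.Agent.GeomClasses

open Cfsg.Agent.Forms

variable {ι : Type} [Fintype ι] [DecidableEq ι] {F : Type*} [Field F] (Q : QuadraticForm F (ι → F))

/-- The orthogonal group as a group of matrices. -/
noncomputable def orthToGL : orthGroup Q →* GL ι F :=
  (Cfsg.isometryGroup F ⇑Q).subtype.comp (isometryEquiv Q).symm.toMonoidHom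

theorem orthToGL_mulVec (g : orthGroup Q) (x : ι → F) :
    (orthToGL Q g : Matrix ι ι F).mulVec x = (g : (ι → F) ≃ₗ[F] (ι → F)) x := by
  conv_rhs => rw [← (isometryEquiv Q).apply_symm_apply g]
  rfl

theorem omegaGL_eq_map : Cfsg.Geo.omegaGL ⇑Q = (commutator (orthGroup Q)).map (orthToGL Q) := by
  rw [orthToGL, ← Subgroup.map_map]
  refine congrArg (Subgroup.map (Cfsg.isometryGroup F ⇑Q).subtype) ?_
  ext g
  rw [mem_omega_iff, Subgroup.mem_map]
  exact ⟨fun hg => ⟨_, hg, (isometryEquiv Q).symm_apply_apply g⟩,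
    fun ⟨x, hx, hxg⟩ => by rw [← hxg]; simpa using hx⟩

/-- Maximality of the part of a subgroup inside `omegaGL`, from a statement about the derived group. -/
theorem isMaximalIn_omega {H : Subgroup (GL ι F)} {P : orthGroup Q → Prop}
    (hP : ∀ g, orthToGL Q g ∈ H ↔ P g) (hne : ∃ g ∈ commutator (orthGroup Q), ¬ P g)
    (hmax : ∀ M : Subgroup (orthGroup Q), (∀ g ∈ commutator (orthGroup Q), P g → g ∈ M) →
      ∀ g ∈ M, g ∈ commutator (orthGroup Q) → ¬ P g → commutator (orthGroup Q) ≤ M) :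
    Cfsg.Geo.IsMaximalIn (Cfsg.Geo.omegaGL ⇑Q) (H ⊓ Cfsg.Geo.omegaGL ⇑Q) := by
  refine ⟨lt_of_le_of_ne inf_le_right fun heq => ?_, fun M hHM hMK => ?_⟩
  · obtain ⟨g, hg, hgP⟩ := hne
    have h : orthToGL Q g ∈ Cfsg.Geo.omegaGL ⇑Q := omegaGL_eq_map Q ▸ Subgroup.mem_map_of_mem _ hg
    rw [← heq] at h
    exact hgP ((hP g).mp h.1)
  · by_cases hex : ∀ g ∈ M, g ∈ H
    · exact Or.inl (le_antisymm (fun g hg => ⟨hex g hg, hMK hg⟩) hHM)
    · push Not at hex
      obtain ⟨g, hg, hgn⟩ := hex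
      obtain ⟨g', hg', rfl⟩ := Subgroup.mem_map.mp (omegaGL_eq_map Q ▸ hMK hg)
      refine Or.inr (le_antisymm hMK ?_)
      rw [omegaGL_eq_map, Subgroup.map_le_iff_le_comap]
      exact hmax (M.comap (orthToGL Q))
        (fun x hx hxp => hHM ⟨(hP x).mpr hxp, omegaGL_eq_map Q ▸ Subgroup.mem_map_of_mem _ hx⟩)
        g' hg hg' fun hp => hgn ((hP g').mpr hp)

theorem mem_stab_iff (W : Submodule F (ι → F)) (g : orthGroup Q) :
    orthToGL Q g ∈ Cfsg.Geo.subspaceStabilizer W ↔ ∀ x ∈ W, (g : (ι → F) ≃ₗ[F] (ι → F)) x ∈ W := by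
  rw [Cfsg.Agent.GeomClasses.mem_subspaceStabilizer_iff]
  exact forall₂_congr fun x _ => by rw [orthToGL_mulVec]

/-- A totally singular subspace stabiliser is maximal in `omegaGL`. -/
theorem isMaximalIn_singular_orth [Finite F] (hQ : (QuadraticMap.polarBilin Q).Nondegenerate)
    (hn : 7 ≤ Fintype.card ι) {W : Submodule F (ι → F)} (hW : ∀ x ∈ W, Q x = 0) (hW0 : W ≠ ⊥)
    (hbig : ∀ u, Q u = 0 → u ∉ W → (∀ x ∈ W, QuadraticMap.polar Q x u = 0) →
      ∃ v, (∀ x ∈ W, QuadraticMap.polar Q x v = 0) ∧ QuadraticMap.polar Q u v = 0 ∧ Q v ≠ 0) :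
    Cfsg.Geo.IsMaximalIn (Cfsg.Geo.omegaGL ⇑Q) (Cfsg.Geo.subspaceStabilizer W ⊓ Cfsg.Geo.omegaGL ⇑Q) := by
  have hn' : 7 ≤ Module.finrank F (ι → F) := by rw [Module.finrank_pi]; exact hn
  refine isMaximalIn_omega Q (mem_stab_iff Q W) ?_ fun M hM g hg _ hgn => ?_
  · obtain ⟨w, hw, hw0⟩ := Submodule.exists_mem_ne_zero_of_ne_bot hW0
    have hI := isForm_quadratic Q hQ
    obtain ⟨d, -, hwd⟩ := hI.exists_perp_pairing (H := ⊥) (y := w) (by simpa using hw0) (1 : F)
    simp only [QuadraticMap.polarBilin_apply_apply] at hwd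
    have hQw := hW w hw
    set b := d - Q d • w with hbdef
    have hQb : Q b = 0 := by
      rw [hbdef, sub_eq_add_neg, ← neg_smul, QuadraticMap.map_add Q, QuadraticMap.map_smul, hQw,
        QuadraticMap.polar_smul_right, QuadraticMap.polar_comm (⇑Q) d w, hwd, smul_eq_mul]
      simp
    have hbw : QuadraticMap.polar Q b w = 1 := by
      rw [hbdef, QuadraticMap.polar_sub_left, QuadraticMap.polar_smul_left, QuadraticMap.polar_comm (⇑Q) d w, hwd,
        polar_self_two_mul, hQw]
      simp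
    obtain ⟨v, hvb, hvW⟩ : ∃ v, v ∈ perp (QuadraticMap.polarBilin Q) (Submodule.span F {b}) ∧
        v ∉ W ⊔ Submodule.span F {b} := by
      refine SetLike.not_le_iff_exists.mp fun hle : perp (QuadraticMap.polarBilin Q) (Submodule.span F {b}) ≤
        W ⊔ Submodule.span F {b} => ?_
      have h1 := Submodule.finrank_mono hle
      have h2 := hI.finrank_perp (Submodule.span F {b})
      have h3 := Submodule.finrank_sup_add_finrank_inf_eq W (Submodule.span F {b})
      have h4 : Module.finrank F (Submodule.span F {b}) ≤ 1 := (finrank_span_le_card {b}).trans (by simp)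
      have h5 := Submodule.finrank_mono (show W ≤ perp (QuadraticMap.polarBilin Q) W from
        fun y hy x hx => polar_ts hW hx hy)
      have h6 := hI.finrank_perp W
      omega
    have hvb' : QuadraticMap.polar Q b v = 0 := mem_perp_span_singleton.mp hvb
    refine ⟨eichler Q b v hQb hvb', eichler_mem_comm hQ hn' hQb hvb', fun hst => hvW ?_⟩
    have h := hst w hw
    rw [eichler_apply, eichlerMap_apply, hbw, one_smul] at h
    set μ := QuadraticMap.polar Q v w + Q v * 1
    have h' : v - μ • b ∈ W := by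
      have := sub_mem h hw
      convert this using 1; abel
    simpa using add_mem (Submodule.mem_sup_left (T := Submodule.span F {b}) h')
      (Submodule.mem_sup_right (Submodule.smul_mem _ μ (Submodule.mem_span_singleton_self b)))
  · push Not at hgn
    obtain ⟨x, hx, hgx⟩ := hgn
    exact singular_stab_maximal hQ hn' hW hbig hM hg hx hgx

end Cfsg.Agent.GeomClasses

namespace Cfsg.Agent.GeomClasses

theorem two_ne_zero_of_odd_card {F : Type*} [Field F] [Fintype F] (hodd : Odd (Fintype.card F)) : (2 : F) ≠ 0 :=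
  fun h => by
    haveI : CharP F 2 := CharTwo.of_one_ne_zero_of_two_eq_zero one_ne_zero h
    have h1 : ringChar F = 2 := ringChar.eq F 2
    have h2 := FiniteField.even_card_of_char_two h1
    rw [Nat.odd_iff] at hodd; omega

end Cfsg.Agent.GeomClasses
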