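import Cfsg.Agent.GeomClasses.FrameRefine
import Cfsg.Agent.GeomClasses.OmegaBridge

/-!
Small fields: orthogonal decompositions into hyperbolic planes or four-dimensional plus-type
blocks whose stabilisers are not maximal.
-/

set_option autoImplicit false

namespace Cfsg.Agent.GeomClasses.FrameRefinePlus

open Matrix Cfsg.Agent.Forms

variable {ι : Type} [Fintype ι] [DecidableEq ι] {F : Type*} [Field F]

/-- The stabiliser of a set of vectors. -/
def setGroup [Finite F] (P : (ι → F) → Prop) : Subgroup (GL ι F) where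
  carrier := {g | ∀ v, P v → P ((g : Matrix ι ι F) *ᵥ v)}
  one_mem' := fun v hv => by simpa using hv
  mul_mem' := fun {a b} ha hb v hv => by
    rw [Units.val_mul, ← Matrix.mulVec_mulVec]; exact ha _ (hb v hv)
  inv_mem' := fun {g} hg v hv => by
    let S := {w : ι → F // P w}
    let f : S → S := fun w => ⟨_, hg w.1 w.2⟩
    have hf : Function.Injective f := fun a b h => Subtype.ext (by
      have h' := congrArg (((g⁻¹ : GL ι F) : Matrix ι ι F) *ᵥ ·) (congrArg Subtype.val h)
      simpa [f, Matrix.mulVec_mulVec, ← Units.val_mul] using h')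
    obtain ⟨⟨w, hw⟩, hwv⟩ := (Finite.injective_iff_surjective.1 hf) ⟨v, hv⟩
    have e' : (g : Matrix ι ι F) *ᵥ w = v := congrArg Subtype.val hwv
    have : ((g⁻¹ : GL ι F) : Matrix ι ι F) *ᵥ v = w := by
      rw [← e', Matrix.mulVec_mulVec, ← Units.val_mul, inv_mul_cancel, Units.val_one, Matrix.one_mulVec]
    rw [this]; exact hw

variable (Q : QuadraticForm F (ι → F))

/-- The vectors of value one inside a block. -/
def IsUnitIn {t : ℕ} (D : Fin t → Submodule F (ι → F)) (v : ι → F) : Prop := ∃ i, v ∈ D i ∧ Q v = 1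

theorem exists_siegel [Finite F] (hQ : (QuadraticMap.polarBilin Q).Nondegenerate) (hn : 7 ≤ Fintype.card ι)
    {p v : ι → F} (hp : Q p = 0) (hpv : QuadraticMap.polar Q p v = 0) :
    ∃ g ∈ Cfsg.Geo.omegaGL ⇑Q, ∀ y, (g : Matrix ι ι F) *ᵥ y = y + QuadraticMap.polar Q p y • v -
      (QuadraticMap.polar Q v y + Q v * QuadraticMap.polar Q p y) • p := by
  have hn' : 7 ≤ Module.finrank F (ι → F) := by rw [Module.finrank_pi]; exact hn
  refine ⟨orthToGL Q (eichler Q p v hp hpv), ?_, fun y => ?_⟩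
  · rw [omegaGL_eq_map]
    exact Subgroup.mem_map_of_mem _ (eichler_mem_comm hQ hn' hp hpv)
  · rw [orthToGL_mulVec, eichler_apply, eichlerMap_apply]

theorem stab_unit {t : ℕ} {D : Fin t → Submodule F (ι → F)} {g : GL ι F}
    (hg : g ∈ Cfsg.Geo.decompositionStabilizer D) (hgΩ : g ∈ Cfsg.Geo.omegaGL ⇑Q) {v : ι → F}
    (hv : IsUnitIn Q D v) : IsUnitIn Q D ((g : Matrix ι ι F) *ᵥ v) := by
  obtain ⟨σ, hσ⟩ := hg
  obtain ⟨i, hv, h1⟩ := hv
  exact ⟨σ i, by rw [← hσ i]; exact ⟨v, hv, Matrix.toLin'_apply _ _⟩,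
    (omegaGL_preserves Q hgΩ v).trans h1⟩

theorem lt_lt {H K T : Subgroup (GL ι F)} (hle : H ≤ K) (hKT : K ≤ T) {g k : GL ι F}
    (hg : g ∈ K) (hg' : g ∉ H) (hk : k ∈ T) (hk' : k ∉ K) : H < K ∧ K < T :=
  ⟨lt_of_le_of_ne hle fun e => hg' (e ▸ hg), lt_of_le_of_ne hKT fun e => hk' (e ▸ hk)⟩

/-- A vector pairing non-trivially with vectors of two blocks lies in no block. -/
theorem notMem_block {t : ℕ} {D : Fin t → Submodule F (ι → F)}
    (hort : ∀ i j, i ≠ j → ∀ a ∈ D i, ∀ b ∈ D j, QuadraticMap.polar Q a b = 0) {i j : Fin t}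
    (hij : i ≠ j) {x a b : ι → F} (ha : a ∈ D i) (hb : b ∈ D j)
    (hxa : QuadraticMap.polar Q x a ≠ 0) (hxb : QuadraticMap.polar Q x b ≠ 0) (l : Fin t) :
    x ∉ D l := by
  intro hx
  by_cases h : l = i
  · subst h; exact hxb (hort _ _ hij x hx b hb)
  · exact hxa (hort _ _ h x hx a ha)

/-- Coordinates in a space spanned by one or two orthogonal hyperbolic pairs. -/
theorem eq_pair {W : Submodule F (ι → F)} (hdim : Module.finrank F W = 2) {e f : ι → F}
    (he : e ∈ W) (hf : f ∈ W) (hp : IsPair Q e f) {v : ι → F} (hv : v ∈ W) :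
    ∃ x y : F, v = x • e + y • f := by
  have ee : QuadraticMap.polar Q e e = 0 := by rw [polar_self_two_mul, hp.qe, mul_zero]
  have ff : QuadraticMap.polar Q f f = 0 := by rw [polar_self_two_mul, hp.qf, mul_zero]
  have fe : QuadraticMap.polar Q f e = 1 := by rw [QuadraticMap.polar_comm, hp.ef]
  have hli : LinearIndependent F ![e, f] := by
    rw [LinearIndependent.pair_iff]
    intro s t hst
    have h1 := congrArg (fun x => QuadraticMap.polar Q e x) hst
    have h2 := congrArg (fun x => QuadraticMap.polar Q f x) hst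
    simp only [QuadraticMap.polar_add_right, QuadraticMap.polar_smul_right, smul_eq_mul, ee, ff, fe, hp.ef,
      QuadraticMap.polar_zero_right, mul_zero, mul_one, zero_add, add_zero] at h1 h2
    exact ⟨h2, h1⟩
  have hle : Submodule.span F (Set.range ![e, f]) ≤ W := Submodule.span_le.mpr (by
    rintro _ ⟨i, rfl⟩; fin_cases i <;> assumption)
  have heq := Submodule.eq_of_le_of_finrank_eq hle (by rw [finrank_span_eq_card hli, hdim]; rfl)
  rw [← heq, Matrix.range_cons_cons_empty, Submodule.mem_span_pair] at hv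
  obtain ⟨a, b, h⟩ := hv
  exact ⟨a, b, h.symm⟩

theorem value_pair {e f : ι → F} (hp : IsPair Q e f) (x y : F) : Q (x • e + y • f) = x * y := by
  rw [QuadraticMap.map_add (⇑Q), QuadraticMap.map_smul, QuadraticMap.map_smul, QuadraticMap.polar_smul_left,
    QuadraticMap.polar_smul_right, hp.qe, hp.qf, hp.ef]
  simp

/-- Hyperbolic pairs in the blocks. -/
theorem exists_pairs {t : ℕ} {D : Fin t → Submodule F (ι → F)}
    (hD : Cfsg.Geo.IsOrthogonalMDecomposition ⇑Q 2 D) (hplus : ∀ i, Cfsg.Geo.IsPlusTypeOn (⇑Q) (D i)) :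
    ∀ i, ∃ e f, e ∈ D i ∧ f ∈ D i ∧ IsPair Q e f := by
  intro i
  obtain ⟨U, hU, hs, hdim⟩ := hplus i
  obtain ⟨e, he, he0⟩ := (Submodule.ne_bot_iff U).1 fun h => by
    rw [h, finrank_bot, hD.decomp.decomp.finrank_eq] at hdim; omega
  obtain ⟨-, x, hx, hex⟩ := hD.decomp.nondegenerate i e (hU he) he0
  obtain ⟨f, hf, hp⟩ := exists_pair Q (hU he) (hs e he) hx hex
  exact ⟨e, f, hU he, hf, hp⟩

theorem exists_between_plane_odd [Fintype F] (hF : Fintype.card F = 3 ∨ Fintype.card F = 5)
    {t : ℕ} {D : Fin t → Submodule F (ι → F)} (hD : Cfsg.Geo.IsOrthogonalMDecomposition ⇑Q 2 D)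
    (hplus : ∀ i, Cfsg.Geo.IsPlusTypeOn (⇑Q) (D i)) (ht : 5 ≤ t) :
    ∃ K : Subgroup (GL ι F), Cfsg.Geo.decompositionStabilizer D ⊓ Cfsg.Geo.omegaGL ⇑Q < K ∧
      K < Cfsg.Geo.omegaGL ⇑Q := by
  choose e f he hf hp using exists_pairs Q hD hplus
  have hort := fun i j hij => hD.decomp.orthogonal i j hij
  have hdim := hD.decomp.decomp.finrank_eq
  have hef : ∀ i (x y x' y' : F), QuadraticMap.polar Q (x • e i + y • f i) (x' • e i + y' • f i) =
      x * y' + y * x' := by
    intro i x y x' y'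
    simp only [QuadraticMap.polar_add_left, QuadraticMap.polar_add_right, QuadraticMap.polar_smul_left,
      QuadraticMap.polar_smul_right, polar_self_two_mul, (hp i).qe, (hp i).qf, (hp i).ef,
      QuadraticMap.polar_comm (⇑Q) (f i) (e i), smul_eq_mul]
    ring
  rcases hF with hF | hF
  · have h3 := FrameRefine.three_eq_zero hF
    have h2 : (2 : F) ≠ 0 := fun e' => one_ne_zero (α := F) (by linear_combination h3 - e')
    refine FrameRefine.exists_between_of_frame Q h2 hort ht le_rfl one_ne_zero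
      (fun i (_ : Fin 1) => (1 : F) • e i + (1 : F) • f i)
      (fun i _ => add_mem ((D i).smul_mem _ (he i)) ((D i).smul_mem _ (hf i)))
      (fun i _ => by rw [value_pair Q (hp i), one_mul]) (fun i l l' h => absurd (Subsingleton.elim l l') h)
      (fun i v hv hQv => ⟨0, ?_⟩)
      fun i _ => ⟨(1 : F) • e i + (-1 : F) • f i, add_mem ((D i).smul_mem _ (he i)) ((D i).smul_mem _ (hf i)),
        by rw [value_pair Q (hp i)]; simp, by rw [hef]; ring⟩
    obtain ⟨x, y, rfl⟩ := eq_pair Q (hdim i) (he i) (hf i) (hp i) hv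
    rw [value_pair Q (hp i)] at hQv
    rcases FrameRefine.three_cases hF x with rfl | rfl | rfl
    · simp at hQv
    · rw [one_mul] at hQv; subst hQv; exact Or.inl rfl
    · right
      rw [show y = -1 by linear_combination -hQv]
      module
  · have h5 : (5 : F) = 0 := by simpa [hF] using FiniteField.cast_card_eq_zero F
    have h2 : (2 : F) ≠ 0 := fun e' => one_ne_zero (α := F) (by linear_combination h5 - 2 * e')
    have hx4 : ∀ x : F, x ≠ 0 → x = 1 ∨ x = -1 ∨ x = 2 ∨ x = -2 := by
      intro x hx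
      have h1 : x ^ 4 = 1 := by
        have h := FiniteField.pow_card_sub_one_eq_one x hx
        simpa [hF] using h
      have h4 : (x - 1) * (x + 1) * (x - 2) * (x + 2) = 0 := by
        linear_combination h1 + (1 - x ^ 2) * h5
      rcases mul_eq_zero.1 h4 with h | h
      · rcases mul_eq_zero.1 h with h | h
        · rcases mul_eq_zero.1 h with h | h
          · exact Or.inl (sub_eq_zero.1 h)
          · exact Or.inr (Or.inl (eq_neg_of_add_eq_zero_left h))
        · exact Or.inr (Or.inr (Or.inl (sub_eq_zero.1 h)))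
      · exact Or.inr (Or.inr (Or.inr (eq_neg_of_add_eq_zero_left h)))
    let E : Fin t → Fin 2 → (ι → F) := fun i =>
      ![(1 : F) • e i + (1 : F) • f i, (2 : F) • e i + (-2 : F) • f i]
    have hED : ∀ i l, E i l ∈ D i := fun i l => by
      fin_cases l <;> exact add_mem ((D i).smul_mem _ (he i)) ((D i).smul_mem _ (hf i))
    have hQE : ∀ i l, Q (E i l) = 1 := fun i l => by
      fin_cases l
      · exact (value_pair Q (hp i) 1 1).trans (one_mul 1)
      · exact (value_pair Q (hp i) 2 (-2)).trans (by linear_combination -h5)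
    have hEo : ∀ i l l', l ≠ l' → QuadraticMap.polar Q (E i l) (E i l') = 0 := fun i l l' h => by
      fin_cases l <;> fin_cases l'
      · exact absurd rfl h
      · exact (hef i 1 1 2 (-2)).trans (by ring)
      · exact (hef i 2 (-2) 1 1).trans (by ring)
      · exact absurd rfl h
    refine FrameRefine.exists_between_of_frame Q h2 hort ht (by norm_num) one_ne_zero E hED hQE hEo
      (fun i v hv hQv => ?_) fun i l => ⟨E i (1 - l), hED i _, by rw [hQE]; exact one_ne_zero,
        hEo i _ _ (by revert l; decide)⟩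
    obtain ⟨x, y, rfl⟩ := eq_pair Q (hdim i) (he i) (hf i) (hp i) hv
    rw [value_pair Q (hp i)] at hQv
    have hx : x ≠ 0 := fun h => by rw [h, zero_mul] at hQv; exact zero_ne_one hQv
    have hy : ∀ z, x * z = 1 → y = z := fun z hz => mul_left_cancel₀ hx (hQv.trans hz.symm)
    rcases hx4 x hx with rfl | rfl | rfl | rfl
    · refine ⟨0, Or.inl ?_⟩
      rw [hy 1 (one_mul 1)]; rfl
    · refine ⟨0, Or.inr ?_⟩
      rw [hy (-1) (by ring)]
      show _ = -((1 : F) • e i + (1 : F) • f i)
      module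
    · refine ⟨1, Or.inl ?_⟩
      rw [hy (-2) (by linear_combination -h5)]; rfl
    · refine ⟨1, Or.inr ?_⟩
      rw [hy 2 (by linear_combination -h5)]
      show _ = -((2 : F) • e i + (-2 : F) • f i)
      module

variable [Fintype F]

/-- The two-dimensional blocks in characteristic two. -/
theorem exists_between_plane_even {t : ℕ} {D : Fin t → Submodule F (ι → F)}
    (hD : Cfsg.Geo.IsOrthogonalMDecomposition ⇑Q 2 D) (hQ : (QuadraticMap.polarBilin Q).Nondegenerate)
    (hn : 7 ≤ Fintype.card ι) (ht : 5 ≤ t) (h2 : (2 : F) = 0) (a b e : Fin t → (ι → F))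
    (ha : ∀ i, a i ∈ D i) (hb : ∀ i, b i ∈ D i) (he : ∀ i, e i ∈ D i) (hQa : ∀ i, Q (a i) = 1)
    (hab : ∀ i, QuadraticMap.polar Q (a i) (b i) = 1) (hQe : ∀ i, Q (e i) = 0)
    (hae : ∀ i, QuadraticMap.polar Q (a i) (e i) = 1)
    (S : AddSubgroup (ι → F)) (hS : ∀ v, IsUnitIn Q D v → v ∈ S)
    (hSgen : S = AddSubgroup.closure {v | IsUnitIn Q D v})
    (hgen : ∀ i v, v ∈ D i → Q v = 1 → v = a i ∨ (Q (b i) = 1 ∧ (v = b i ∨ v = a i + b i)))
    (hout : ∀ i, ∃ w : ι → F, w ∈ D i ∧ (∀ v ∈ S, QuadraticMap.polar Q v w = 0 ∨ QuadraticMap.polar Q v w = 1) ∧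
      ((QuadraticMap.polar Q (a i) w = 0 ∧ QuadraticMap.polar Q (e i) w ≠ 0 ∧ QuadraticMap.polar Q (e i) w ≠ 1) ∨
       (QuadraticMap.polar Q (a i) w = 1 ∧ QuadraticMap.polar Q (e i) w ≠ 0 ∧ QuadraticMap.polar Q (e i) w ≠ 1)) ∨
      (∀ v ∈ S, QuadraticMap.polar Q v (a i) = 0)) :
    ∃ K : Subgroup (GL ι F), Cfsg.Geo.decompositionStabilizer D ⊓ Cfsg.Geo.omegaGL ⇑Q < K ∧
      K < Cfsg.Geo.omegaGL ⇑Q := by
  classical
  have hort := fun i j hij => hD.decomp.orthogonal i j hij
  have hneg : ∀ x : F, -x = x := fun x => by linear_combination (-x) * h2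
  let P : Fin 5 → Fin t := fun k => ⟨k, by omega⟩
  have hP : ∀ k l, P k = P l ↔ k = l := fun k l => by simp [P, Fin.ext_iff]
  have haa : ∀ i j, QuadraticMap.polar Q (a i) (a j) = 0 := by
    intro i j
    by_cases h : i = j
    · subst h; rw [polar_self_two_mul, h2, zero_mul]
    · exact hort i j h _ (ha i) _ (ha j)
  have hab' : ∀ i j, QuadraticMap.polar Q (a i) (b j) = if i = j then 1 else 0 := by
    intro i j
    by_cases h : i = j
    · subst h; rw [if_pos rfl, hab]
    · rw [if_neg h]; exact hort i j h _ (ha i) _ (hb j)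
  have hba' : ∀ i j, QuadraticMap.polar Q (b i) (a j) = if j = i then 1 else 0 := fun i j => by
    rw [QuadraticMap.polar_comm, hab']
  have hbb : ∀ i j, QuadraticMap.polar Q (b i) (b j) = 0 := by
    intro i j
    by_cases h : i = j
    · subst h; rw [polar_self_two_mul, h2, zero_mul]
    · exact hort i j h _ (hb i) _ (hb j)
  have hS' : ∀ g : GL ι F, (∀ v, IsUnitIn Q D v → (g : Matrix ι ι F) *ᵥ v ∈ S) →
      g ∈ setGroup (fun v => v ∈ S) := by
    intro g hg v hv
    rw [hSgen] at hv
    induction hv using AddSubgroup.closure_induction with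
    | mem x hx => exact hg x hx
    | zero => rw [Matrix.mulVec_zero]; exact S.zero_mem
    | add x y _ _ hx hy => rw [Matrix.mulVec_add]; exact S.add_mem hx hy
    | neg x _ hx => rw [Matrix.mulVec_neg]; exact S.neg_mem hx
  have hle : Cfsg.Geo.decompositionStabilizer D ⊓ Cfsg.Geo.omegaGL ⇑Q ≤
      setGroup (fun v => v ∈ S) ⊓ Cfsg.Geo.omegaGL ⇑Q := fun g hg =>
    ⟨hS' g fun v hv => hS _ (stab_unit Q hg.1 hg.2 hv), hg.2⟩
  set p := a (P 0) + a (P 1) with hp
  set v₀ := b (P 0) + b (P 1) + a (P 2) with hv₀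
  have hQp : Q p = 0 := by
    rw [hp, QuadraticMap.map_add Q, haa, hQa, hQa]; linear_combination h2
  have hpv : QuadraticMap.polar Q p v₀ = 0 := by
    simp only [hp, hv₀, QuadraticMap.polar_add_left, QuadraticMap.polar_add_right, haa, hab', hP]
    simp only [Fin.reduceEq, if_true, if_false, add_zero, zero_add]
    linear_combination h2
  obtain ⟨g, hgΩ, hg⟩ := exists_siegel Q hQ hn hQp hpv
  have hga : ∀ i, (g : Matrix ι ι F) *ᵥ a i =
      a i - ((if i = P 0 then 1 else 0) + (if i = P 1 then 1 else 0) : F) • p := by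
    intro i
    rw [hg]
    simp only [hp, hv₀, QuadraticMap.polar_add_left, haa, hba', add_zero, mul_zero, zero_smul]
  have hpb : ∀ i, QuadraticMap.polar Q p (b i) =
      (if P 0 = i then 1 else 0) + (if P 1 = i then 1 else 0) := fun i => by
    rw [hp, QuadraticMap.polar_add_left, hab', hab']
  have hvb : ∀ i, QuadraticMap.polar Q v₀ (b i) = if P 2 = i then 1 else 0 := fun i => by
    rw [hv₀, QuadraticMap.polar_add_left, QuadraticMap.polar_add_left, hbb, hbb, hab', zero_add, zero_add]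
  have hmem : g ∈ setGroup (fun v => v ∈ S) ⊓ Cfsg.Geo.omegaGL ⇑Q := by
    refine ⟨hS' g fun v hv => ?_, hgΩ⟩
    obtain ⟨i, hv, hv1⟩ := hv
    have hSa : ∀ j, a j ∈ S := fun j => hS _ ⟨j, ha j, hQa j⟩
    have hpS : p ∈ S := S.add_mem (hSa _) (hSa _)
    have iteS : ∀ (c : Prop) [Decidable c] (x : ι → F), x ∈ S → ((if c then 1 else 0 : F) • x) ∈ S := by
      intro c _ x hx
      split_ifs
      · rwa [one_smul]
      · rw [zero_smul]; exact S.zero_mem
    have hA : (g : Matrix ι ι F) *ᵥ a i ∈ S := by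
      rw [hga, add_smul]
      exact S.sub_mem (hSa i) (S.add_mem (iteS _ _ hpS) (iteS _ _ hpS))
    rcases hgen i v hv hv1 with rfl | ⟨hQb, hcase⟩
    · exact hA
    have hbS : ∀ j, Q (b j) = 1 → b j ∈ S := fun j hj => hS _ ⟨j, hb j, hj⟩
    have hB : (g : Matrix ι ι F) *ᵥ b i ∈ S := by
      have hQb' : ∀ j, Q (b j) = 1 := by
        intro j
        obtain ⟨φ, hφ⟩ := hD.isometric i j
        have m1 := hgen j (φ ⟨a i, ha i⟩ : ι → F) (φ ⟨a i, ha i⟩).2 (by rw [hφ]; exact hQa i)
        have m2 := hgen j (φ ⟨b i, hb i⟩ : ι → F) (φ ⟨b i, hb i⟩).2 (by rw [hφ]; exact hQb)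
        rcases m1 with m1 | ⟨h, -⟩
        · rcases m2 with m2 | ⟨h, -⟩
          · have he' := congrArg Subtype.val (φ.injective (Subtype.ext (m1.trans m2.symm)))
            have := hab i
            rw [show a i = b i from he', polar_self_two_mul, h2, zero_mul] at this
            exact absurd this zero_ne_one
          · exact h
        · exact h
      have hvS : v₀ ∈ S := S.add_mem (S.add_mem (hbS _ (hQb' _)) (hbS _ (hQb' _))) (hSa _)
      have hQv : Q v₀ = 1 := by
        simp only [hv₀, QuadraticMap.map_add Q, QuadraticMap.polar_add_left, hbb, hba', hQb', hQa, hP]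
        simp only [Fin.reduceEq, if_false, add_zero]
        linear_combination h2
      rw [hg, hpb, hvb, hQv, one_mul]
      refine S.sub_mem (S.add_mem (hbS i hQb) ?_) ?_
      · rw [add_smul]; exact S.add_mem (iteS _ _ hvS) (iteS _ _ hvS)
      · rw [add_smul, add_smul]
        exact S.add_mem (iteS _ _ hpS) (S.add_mem (iteS _ _ hpS) (iteS _ _ hpS))
    rcases hcase with rfl | rfl
    · exact hB
    · rw [Matrix.mulVec_add]; exact S.add_mem hA hB
  have hgnot : g ∉ Cfsg.Geo.decompositionStabilizer D ⊓ Cfsg.Geo.omegaGL ⇑Q := by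
    rintro ⟨⟨σ, hσ⟩, -⟩
    have him : (g : Matrix ι ι F) *ᵥ b (P 0) ∈ D (σ (P 0)) := by
      rw [← hσ (P 0)]; exact ⟨_, hb _, Matrix.toLin'_apply _ _⟩
    refine notMem_block Q hort (show P 1 ≠ P 2 by simp [hP]) (ha (P 1)) (hb (P 2)) ?_ ?_ _ him
    · rw [hg, hpb, hvb]
      simp only [hp, hv₀, QuadraticMap.polar_sub_left, QuadraticMap.polar_add_left, QuadraticMap.polar_smul_left,
        haa, hba', smul_eq_mul, hP, Fin.reduceEq, if_true, if_false, mul_zero, add_zero, zero_add, mul_one, sub_zero]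
      exact one_ne_zero
    · rw [hg, hpb, hvb]
      simp only [hp, hv₀, QuadraticMap.polar_sub_left, QuadraticMap.polar_add_left, QuadraticMap.polar_smul_left,
        hab', hbb, smul_eq_mul, hP, Fin.reduceEq, if_true, if_false, mul_zero, add_zero, zero_add, mul_one, one_mul, sub_zero]
      exact one_ne_zero
  have hpe : QuadraticMap.polar Q (e (P 0)) (a (P 1)) = 0 :=
    hort _ _ (by simp [hP]) _ (he _) _ (ha _)
  obtain ⟨k, hkΩ, hk⟩ := exists_siegel Q hQ hn (hQe (P 0)) hpe
  have hkimg : (k : Matrix ι ι F) *ᵥ a (P 0) = a (P 0) + a (P 1) - e (P 0) := by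
    rw [hk, haa, QuadraticMap.polar_comm Q (e (P 0)), hae, hQa, zero_add, one_mul, one_smul, one_smul]
  have hknot : k ∉ setGroup (fun v => v ∈ S) ⊓ Cfsg.Geo.omegaGL ⇑Q := by
    rintro ⟨hk', -⟩
    have him : a (P 0) + a (P 1) - e (P 0) ∈ S := hkimg ▸ hk' _ (hS _ ⟨_, ha _, hQa _⟩)
    obtain ⟨w, h | h⟩ := hout (P 0)
    · obtain ⟨hw, hint, hcase⟩ := h
      have h01 := hint _ him
      rw [QuadraticMap.polar_sub_left, QuadraticMap.polar_add_left,
        hort _ _ (show P 1 ≠ P 0 by simp [hP]) _ (ha _) _ hw, add_zero, sub_eq_add_neg, hneg] at h01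
      rcases hcase with ⟨ea, e0, e1⟩ | ⟨ea, e0, e1⟩ <;> rw [ea] at h01
      · rw [zero_add] at h01; exact h01.elim e0 e1
      · rcases h01 with h | h
        · exact e1 (by linear_combination h - h2)
        · exact e0 (by linear_combination h)
    · have := h _ him
      rw [QuadraticMap.polar_sub_left, QuadraticMap.polar_add_left, haa, haa,
        QuadraticMap.polar_comm Q (e (P 0)), hae, add_zero, zero_sub, neg_eq_zero] at this
      exact one_ne_zero this
  exact ⟨_, lt_lt hle inf_le_right hmem hgnot hkΩ hknot⟩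

theorem exists_between_plane_char_two {t : ℕ} {D : Fin t → Submodule F (ι → F)}
    (hF : Fintype.card F = 2 ∨ Fintype.card F = 4)
    (hD : Cfsg.Geo.IsOrthogonalMDecomposition ⇑Q 2 D) (hQ : (QuadraticMap.polarBilin Q).Nondegenerate)
    (hplus : ∀ i, Cfsg.Geo.IsPlusTypeOn (⇑Q) (D i)) (hn : 7 ≤ Fintype.card ι) (ht : 5 ≤ t) :
    ∃ K : Subgroup (GL ι F), Cfsg.Geo.decompositionStabilizer D ⊓ Cfsg.Geo.omegaGL ⇑Q < K ∧
      K < Cfsg.Geo.omegaGL ⇑Q := by
  classical
  choose e f he hf hp using exists_pairs Q hD hplus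
  have hdim := hD.decomp.decomp.finrank_eq
  have hort := fun i j hij => hD.decomp.orthogonal i j hij
  have hcast := FiniteField.cast_card_eq_zero F
  have h2 : (2 : F) = 0 := by
    rcases hF with h | h <;> rw [h] at hcast
    · exact_mod_cast hcast
    · have : (2 : F) * 2 = 0 := by push_cast at hcast; linear_combination hcast
      exact mul_self_eq_zero.1 this
  let a : Fin t → (ι → F) := fun i => (1 : F) • e i + (1 : F) • f i
  have ha : ∀ i, a i ∈ D i := fun i => add_mem ((D i).smul_mem _ (he i)) ((D i).smul_mem _ (hf i))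
  have hQa : ∀ i, Q (a i) = 1 := fun i => by rw [value_pair Q (hp i), one_mul]
  have hxy : ∀ i (x y x' y' : F), QuadraticMap.polar Q (x • e i + y • f i) (x' • e i + y' • f i) =
      x * y' + y * x' := by
    intro i x y x' y'
    simp only [QuadraticMap.polar_add_left, QuadraticMap.polar_add_right, QuadraticMap.polar_smul_left,
      QuadraticMap.polar_smul_right, polar_self_two_mul, (hp i).qe, (hp i).qf, (hp i).ef,
      QuadraticMap.polar_comm (⇑Q) (f i) (e i), smul_eq_mul]
    ring
  have hee : ∀ i, e i = (1 : F) • e i + (0 : F) • f i := fun i => by rw [one_smul, zero_smul, add_zero]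
  have hae : ∀ i, QuadraticMap.polar Q (a i) (e i) = 1 := fun i => by
    conv_lhs => arg 3; rw [hee i]
    rw [hxy]; ring
  rcases hF with hF | hF
  · have htwo : ∀ x : F, x = 0 ∨ x = 1 := fun x => by
      by_cases h : x = 0
      · exact Or.inl h
      · exact Or.inr (by simpa [hF] using FiniteField.pow_card_sub_one_eq_one x h)
    have hcl : ∀ i v, v ∈ D i → Q v = 1 → v = a i := by
      intro i v hv h1
      obtain ⟨x, y, rfl⟩ := eq_pair Q (hdim i) (he i) (hf i) (hp i) hv
      rw [value_pair Q (hp i)] at h1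
      rcases htwo x with rfl | rfl
      · simp at h1
      · rw [one_mul] at h1; subst h1; rfl
    refine exists_between_plane_even Q hD hQ hn ht h2 a e e ha he he hQa hae (fun i => (hp i).qe) hae
      (AddSubgroup.closure {v | IsUnitIn Q D v}) (fun v hv => AddSubgroup.subset_closure hv) rfl
      (fun i v hv h1 => Or.inl (hcl i v hv h1)) fun i => ⟨a i, Or.inr fun v hv => ?_⟩
    induction hv using AddSubgroup.closure_induction with
    | mem x hx =>
      obtain ⟨j, hx, h1⟩ := hx
      rw [hcl j x hx h1]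
      by_cases h : j = i
      · subst h; rw [polar_self_two_mul, h2, zero_mul]
      · exact hort j i h _ (ha j) _ (ha i)
    | zero => exact QuadraticMap.polar_zero_left Q _
    | add x y _ _ hx hy => rw [QuadraticMap.polar_add_left, hx, hy, add_zero]
    | neg x _ hx => rw [QuadraticMap.polar_neg_left, hx, neg_zero]
  · obtain ⟨w, hw⟩ : ∃ w : F, w ^ 2 + w + 1 = 0 := by
      by_contra hc
      push_neg at hc
      have h01 : ∀ x : F, x = 0 ∨ x = 1 := by
        intro x
        by_cases hx : x = 0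
        · exact Or.inl hx
        · have h3 : x ^ 3 = 1 := by simpa [hF] using FiniteField.pow_card_sub_one_eq_one x hx
          have : (x - 1) * (x ^ 2 + x + 1) = 0 := by linear_combination h3
          exact Or.inr (sub_eq_zero.1 ((mul_eq_zero.1 this).resolve_right (hc x)))
      have h1 : (Finset.univ : Finset F) ⊆ {0, 1} := fun x _ => by
        rcases h01 x with h | h <;> simp [h]
      have := (Finset.card_le_card h1).trans Finset.card_le_two
      rw [Finset.card_univ, hF] at this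
      omega
    have hw0 : w ≠ 0 := fun h => by rw [h] at hw; simp at hw
    have hw1 : w ≠ 1 := fun h => by
      rw [h] at hw
      exact one_ne_zero (α := F) (by linear_combination hw - h2)
    let b : Fin t → (ι → F) := fun i => w • e i + (w ^ 2) • f i
    have hQb : ∀ i, Q (b i) = 1 := fun i => by
      rw [value_pair Q (hp i)]; linear_combination (w - 1) * hw
    have hb : ∀ i, b i ∈ D i := fun i => add_mem ((D i).smul_mem _ (he i)) ((D i).smul_mem _ (hf i))
    have hab : ∀ i, QuadraticMap.polar Q (a i) (b i) = 1 := fun i => by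
      rw [hxy]; linear_combination hw - h2
    have hcl : ∀ i v, v ∈ D i → Q v = 1 → v = a i ∨ v = b i ∨ v = a i + b i := by
      intro i v hv h1
      obtain ⟨x, y, rfl⟩ := eq_pair Q (hdim i) (he i) (hf i) (hp i) hv
      rw [value_pair Q (hp i)] at h1
      have hx : x ≠ 0 := fun h => by rw [h, zero_mul] at h1; exact zero_ne_one h1
      have h3 : x ^ 3 = 1 := by simpa [hF] using FiniteField.pow_card_sub_one_eq_one x hx
      have hy : y = x ^ 2 := mul_left_cancel₀ hx (by rw [h1, ← h3]; ring)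
      subst hy
      have : (x - 1) * (x - w) * (x - w ^ 2) = 0 := by
        linear_combination h3 + (-x ^ 2 + w * x - w + 1) * hw
      rcases mul_eq_zero.1 this with h | h
      · rcases mul_eq_zero.1 h with h | h
        · rw [sub_eq_zero.1 h, one_pow]; exact Or.inl rfl
        · rw [sub_eq_zero.1 h]; exact Or.inr (Or.inl rfl)
      · rw [sub_eq_zero.1 h]
        refine Or.inr (Or.inr ?_)
        show (w ^ 2) • e i + ((w ^ 2) ^ 2) • f i = (1 : F) • e i + (1 : F) • f i + (w • e i + (w ^ 2) • f i)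
        rw [show w ^ 2 = 1 + w by linear_combination hw - (1 + w) * h2,
          show (1 + w) ^ 2 = 1 + (1 + w) by linear_combination hw - h2]
        module
    refine exists_between_plane_even Q hD hQ hn ht h2 a b e ha hb he hQa hab (fun i => (hp i).qe) hae
      (AddSubgroup.closure {v | IsUnitIn Q D v}) (fun v hv => AddSubgroup.subset_closure hv) rfl
      (fun i v hv h1 => (hcl i v hv h1).imp id fun h => ⟨hQb i, h⟩)
      fun i => ⟨b i, Or.inl ⟨hb i, fun v hv => ?_, Or.inr ⟨hab i, ?_, ?_⟩⟩⟩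
    · induction hv using AddSubgroup.closure_induction with
      | mem x hx =>
        obtain ⟨j, hx, h1⟩ := hx
        by_cases h : j = i
        · subst h
          rcases hcl j x hx h1 with rfl | rfl | rfl
          · exact Or.inr (hab j)
          · exact Or.inl (by rw [polar_self_two_mul, h2, zero_mul])
          · exact Or.inr (by rw [QuadraticMap.polar_add_left, hab, polar_self_two_mul, h2, zero_mul, add_zero])
        · exact Or.inl (hort j i h _ hx _ (hb i))
      | zero => exact Or.inl (QuadraticMap.polar_zero_left Q _)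
      | add x y _ _ hx hy =>
        rw [QuadraticMap.polar_add_left]
        rcases hx with hx | hx <;> rcases hy with hy | hy <;> rw [hx, hy]
        · exact Or.inl (add_zero 0)
        · exact Or.inr (zero_add 1)
        · exact Or.inr (add_zero 1)
        · exact Or.inl (by linear_combination h2)
      | neg x _ hx =>
        rw [QuadraticMap.polar_neg_left]
        rcases hx with hx | hx <;> rw [hx]
        · exact Or.inl neg_zero
        · exact Or.inr (by linear_combination -h2)
    · conv_lhs => arg 2; rw [hee i]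
      rw [hxy, zero_mul, add_zero, one_mul]
      exact pow_ne_zero 2 hw0
    · conv_lhs => arg 2; rw [hee i]
      rw [hxy, zero_mul, add_zero, one_mul]
      intro h
      exact hw0 (by linear_combination hw - h - h2)

/-- Four-dimensional plus-type blocks over two elements. -/
theorem exists_between_four {t : ℕ} {D : Fin t → Submodule F (ι → F)} (hF : Fintype.card F = 2)
    (hD : Cfsg.Geo.IsOrthogonalMDecomposition ⇑Q 4 D) (hQ : (QuadraticMap.polarBilin Q).Nondegenerate)
    (hplus : ∀ i, Cfsg.Geo.IsPlusTypeOn (⇑Q) (D i)) (hn : 7 ≤ Fintype.card ι) (ht : 3 ≤ t) :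
    ∃ K : Subgroup (GL ι F), Cfsg.Geo.decompositionStabilizer D ⊓ Cfsg.Geo.omegaGL ⇑Q < K ∧
      K < Cfsg.Geo.omegaGL ⇑Q := by
  classical
  have hort := fun i j hij => hD.decomp.orthogonal i j hij
  have hdim := hD.decomp.decomp.finrank_eq
  have h2 : (2 : F) = 0 := by simpa [hF] using FiniteField.cast_card_eq_zero F
  have hneg : ∀ x : F, -x = x := fun x => by linear_combination (-x) * h2
  have hneg' : ∀ x : ι → F, -x = x := fun x => funext fun i => hneg _
  have htwo : ∀ x : F, x = 0 ∨ x = 1 := fun x => by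
    by_cases h : x = 0
    · exact Or.inl h
    · exact Or.inr (by simpa [hF] using FiniteField.pow_card_sub_one_eq_one x h)
  have hbasis : ∀ i, ∃ e f d d', e ∈ D i ∧ f ∈ D i ∧ d ∈ D i ∧ d' ∈ D i ∧ IsPair Q e f ∧ IsPair Q d d' ∧
      QuadraticMap.polar Q e d = 0 ∧ QuadraticMap.polar Q e d' = 0 ∧
      QuadraticMap.polar Q f d = 0 ∧ QuadraticMap.polar Q f d' = 0 := by
    intro i
    obtain ⟨U, hU, hs, hUdim⟩ := hplus i
    rw [hdim] at hUdim
    obtain ⟨e, he, he0⟩ := (Submodule.ne_bot_iff U).1 fun h => by rw [h, finrank_bot] at hUdim; omega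
    obtain ⟨-, x, hx, hex⟩ := hD.decomp.nondegenerate i e (hU he) he0
    obtain ⟨f, hf, hp⟩ := exists_pair Q (hU he) (hs e he) hx hex
    let B := QuadraticMap.polarBilin Q
    obtain ⟨d, ⟨hdU, hdf⟩, hd0⟩ := (Submodule.ne_bot_iff (U ⊓ LinearMap.ker (B f))).1 fun h => by
      have h1 := Submodule.finrank_sup_add_finrank_inf_eq U (LinearMap.ker (B f))
      have h2' := (B f).finrank_range_add_finrank_ker
      have h3 := Submodule.finrank_le (LinearMap.range (B f))
      have h4 := Submodule.finrank_le (U ⊔ LinearMap.ker (B f))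
      rw [h, finrank_bot] at h1
      rw [Module.finrank_self] at h3
      omega
    have hed : QuadraticMap.polar Q e d = 0 := polar_ts hs he hdU
    have hfd : QuadraticMap.polar Q f d = 0 := hdf
    obtain ⟨-, y, hy, hdy⟩ := hD.decomp.nondegenerate i d (hU hdU) hd0
    have ee : QuadraticMap.polar Q e e = 0 := by rw [polar_self_two_mul, hp.qe, mul_zero]
    have ff : QuadraticMap.polar Q f f = 0 := by rw [polar_self_two_mul, hp.qf, mul_zero]
    have fe : QuadraticMap.polar Q f e = 1 := by rw [QuadraticMap.polar_comm, hp.ef]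
    set y' := y - QuadraticMap.polar Q f y • e - QuadraticMap.polar Q e y • f with hy'
    have hW : y' ∈ D i ⊓ (LinearMap.ker (B e) ⊓ LinearMap.ker (B f)) := by
      refine ⟨sub_mem (sub_mem hy ((D i).smul_mem _ (hU he))) ((D i).smul_mem _ hf), ?_, ?_⟩ <;>
      · show QuadraticMap.polar Q _ y' = 0
        simp only [hy', QuadraticMap.polar_sub_right, QuadraticMap.polar_smul_right, smul_eq_mul, ee, ff, fe, hp.ef]
        ring
    have hdy' : QuadraticMap.polar Q d y' ≠ 0 := by
      simp only [hy', QuadraticMap.polar_sub_right, QuadraticMap.polar_smul_right, smul_eq_mul,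
        QuadraticMap.polar_comm (⇑Q) d e, QuadraticMap.polar_comm (⇑Q) d f, hed, hfd, mul_zero, sub_zero]
      exact hdy
    obtain ⟨d', hd', hp'⟩ := exists_pair Q (W := D i ⊓ (LinearMap.ker (B e) ⊓ LinearMap.ker (B f)))
      ⟨hU hdU, hed, hfd⟩ (hs d hdU) hW hdy'
    exact ⟨e, f, d, d', hU he, hf, hU hdU, hd'.1, hp, hp', hed, hd'.2.1, hfd, hd'.2.2⟩
  choose e f d d' he hf hd hd' hp hp' o1 o2 o3 o4 using hbasis
  let vec : Fin t → (F × F) × (F × F) → (ι → F) := fun i c =>
    c.1.1 • e i + c.1.2 • f i + c.2.1 • d i + c.2.2 • d' i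
  have hvecD : ∀ i c, vec i c ∈ D i := fun i c =>
    add_mem (add_mem (add_mem ((D i).smul_mem _ (he i)) ((D i).smul_mem _ (hf i)))
      ((D i).smul_mem _ (hd i))) ((D i).smul_mem _ (hd' i))
  have hvv : ∀ i c c', QuadraticMap.polar Q (vec i c) (vec i c') =
      c.1.1 * c'.1.2 + c.1.2 * c'.1.1 + (c.2.1 * c'.2.2 + c.2.2 * c'.2.1) := by
    intro i c c'
    simp only [vec, QuadraticMap.polar_add_left, QuadraticMap.polar_add_right, QuadraticMap.polar_smul_left,
      QuadraticMap.polar_smul_right, polar_self_two_mul, (hp i).qe, (hp i).qf, (hp i).ef, (hp' i).qe,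
      (hp' i).qf, (hp' i).ef, QuadraticMap.polar_comm (⇑Q) (f i) (e i),
      QuadraticMap.polar_comm (⇑Q) (d' i) (d i), o1, o2, o3, o4, QuadraticMap.polar_comm (⇑Q) (d i) (e i),
      QuadraticMap.polar_comm (⇑Q) (d i) (f i), QuadraticMap.polar_comm (⇑Q) (d' i) (e i),
      QuadraticMap.polar_comm (⇑Q) (d' i) (f i), smul_eq_mul]
    ring
  have hQv : ∀ i c, Q (vec i c) = c.1.1 * c.1.2 + c.2.1 * c.2.2 := by
    intro i c
    simp only [vec, QuadraticMap.map_add Q, QuadraticMap.map_smul, QuadraticMap.polar_add_left,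
      QuadraticMap.polar_smul_left, QuadraticMap.polar_smul_right, (hp i).qe, (hp i).qf, (hp i).ef, (hp' i).qe,
      (hp' i).qf, (hp' i).ef, o1, o2, o3, o4, smul_eq_mul]
    ring
  have hcoord : ∀ i v, v ∈ D i → ∃ c, v = vec i c := by
    intro i v hv
    let L : ((F × F) × (F × F)) →ₗ[F] (ι → F) :=
      { toFun := vec i
        map_add' := fun c c' => by simp only [vec, Prod.fst_add, Prod.snd_add]; module
        map_smul' := fun s c => by simp only [vec, Prod.smul_fst, Prod.smul_snd, smul_eq_mul, RingHom.id_apply]; module }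
    have hinj : Function.Injective L := by
      rw [← LinearMap.ker_eq_bot, LinearMap.ker_eq_bot']
      intro c hc
      have h : ∀ c', QuadraticMap.polar Q (vec i c) (vec i c') = 0 := fun c' => by
        rw [show vec i c = 0 from hc]; exact QuadraticMap.polar_zero_left Q _
      have e1 := h ((0, 1), (0, 0))
      have e2 := h ((1, 0), (0, 0))
      have e3 := h ((0, 0), (0, 1))
      have e4 := h ((0, 0), (1, 0))
      rw [hvv] at e1 e2 e3 e4
      simp only [mul_zero, mul_one, add_zero, zero_add] at e1 e2 e3 e4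
      exact Prod.ext (Prod.ext e1 e2) (Prod.ext e3 e4)
    have hr : LinearMap.range L = D i := Submodule.eq_of_le_of_finrank_eq
      (by rintro _ ⟨c, rfl⟩; exact hvecD i c)
      (by rw [LinearMap.finrank_range_of_inj hinj, hdim]; simp)
    obtain ⟨c, hc⟩ := hr.ge hv
    exact ⟨c, hc.symm⟩
  let cA : (F × F) × (F × F) := ((1, 1), (0, 0))
  let cB : (F × F) × (F × F) := ((1, 0), (1, 1))
  let cC : (F × F) × (F × F) := ((0, 0), (1, 1))
  let P : Fin 3 → Fin t := fun k => ⟨k, by omega⟩
  have hP : ∀ k l, P k = P l ↔ k = l := fun k l => by simp [P, Fin.ext_iff]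
  have hz : ∀ i j c c', i ≠ j → QuadraticMap.polar Q (vec i c) (vec j c') = 0 := fun i j c c' h =>
    hort i j h _ (hvecD i c) _ (hvecD j c')
  have hle : Cfsg.Geo.decompositionStabilizer D ⊓ Cfsg.Geo.omegaGL ⇑Q ≤
      setGroup (IsUnitIn Q D) ⊓ Cfsg.Geo.omegaGL ⇑Q := fun g hg =>
    ⟨fun v hv => stab_unit Q hg.1 hg.2 hv, hg.2⟩
  set p := vec (P 0) cA + vec (P 1) cA with hp0
  set q := vec (P 0) cB + vec (P 1) cB with hq0
  have hQp : Q p = 0 := by
    rw [hp0, QuadraticMap.map_add Q, hQv, hQv, hz _ _ _ _ (by simp [hP])]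
    simp only [cA]; linear_combination h2
  have hQq : Q q = 0 := by
    rw [hq0, QuadraticMap.map_add Q, hQv, hQv, hz _ _ _ _ (by simp [hP])]
    simp only [cB]; linear_combination h2
  have hpq : QuadraticMap.polar Q p q = 0 := by
    simp only [hp0, hq0, QuadraticMap.polar_add_left, QuadraticMap.polar_add_right, hvv,
      hz _ _ _ _ (show P 0 ≠ P 1 by simp [hP]), hz _ _ _ _ (show P 1 ≠ P 0 by simp [hP]), cA, cB]
    linear_combination h2
  obtain ⟨g, hgΩ, hg⟩ := exists_siegel Q hQ hn hQp hpq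
  have hg0 : ∀ c, (g : Matrix ι ι F) *ᵥ vec (P 0) c = vec (P 0) c +
      (c.1.1 + c.1.2) • q + (c.1.2 + c.2.1 + c.2.2) • p := by
    intro c
    rw [hg, hQq, zero_mul, add_zero, sub_eq_add_neg, ← neg_smul, hneg]
    simp only [hp0, hq0, QuadraticMap.polar_add_left, hvv, hz _ _ _ _ (show P 1 ≠ P 0 by simp [hP]), cA, cB]
    module
  have hg1 : ∀ c, (g : Matrix ι ι F) *ᵥ vec (P 1) c = vec (P 1) c +
      (c.1.1 + c.1.2) • q + (c.1.2 + c.2.1 + c.2.2) • p := by
    intro c
    rw [hg, hQq, zero_mul, add_zero, sub_eq_add_neg, ← neg_smul, hneg]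
    simp only [hp0, hq0, QuadraticMap.polar_add_left, hvv, hz _ _ _ _ (show P 0 ≠ P 1 by simp [hP]), cA, cB]
    module
  have hgfix : ∀ i, i ≠ P 0 → i ≠ P 1 → ∀ v ∈ D i, (g : Matrix ι ι F) *ᵥ v = v := by
    intro i h0 h1 v hv
    rw [hg]
    simp [hp0, hq0, QuadraticMap.polar_add_left, hort _ _ (Ne.symm h0) _ (hvecD _ _) _ hv,
      hort _ _ (Ne.symm h1) _ (hvecD _ _) _ hv]
  have self2 : ∀ x : ι → F, x + x = 0 := fun x => by rw [← two_smul F, h2, zero_smul]
  have hflip : ∀ i j : Fin 3, (i = 0 ∧ j = 1) ∨ (i = 1 ∧ j = 0) → ∀ v, v ∈ D (P i) → Q v = 1 →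
      IsUnitIn Q D ((g : Matrix ι ι F) *ᵥ v) := by
    intro i j hij v hv h1
    obtain ⟨c, rfl⟩ := hcoord _ v hv
    have hgi : (g : Matrix ι ι F) *ᵥ vec (P i) c = vec (P i) c +
        (c.1.1 + c.1.2) • (vec (P i) cB + vec (P j) cB) +
        (c.1.2 + c.2.1 + c.2.2) • (vec (P i) cA + vec (P j) cA) := by
      rcases hij with ⟨rfl, rfl⟩ | ⟨rfl, rfl⟩
      · exact hg0 c
      · rw [hg1 c, hp0, hq0, add_comm (vec (P 0) cA), add_comm (vec (P 0) cB)]
    obtain ⟨⟨x, y⟩, ⟨z, w⟩⟩ := c
    rw [hQv] at h1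
    simp only at h1 hgi
    have h11 : (1 : F) + 1 = 0 := by linear_combination h2
    obtain hcase | hcase : (x = (x + y) + (y + z + w) ∧ y = y + z + w ∧ z = x + y ∧ w = x + y) ∨
        (x + y = 0 ∧ y + z + w = 0) := by
      rcases htwo x with rfl | rfl <;> rcases htwo y with rfl | rfl <;> rcases htwo z with rfl | rfl <;>
        rcases htwo w with rfl | rfl <;> simp [h11] at h1 ⊢
    · refine ⟨P j, ?_⟩
      have e1 : (g : Matrix ι ι F) *ᵥ vec (P i) ((x, y), (z, w)) = vec (P j) ((x, y), (z, w)) := by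
        rw [hgi]
        set α := x + y
        set β := y + z + w
        obtain ⟨hx, hy, hz', hw⟩ := hcase
        rw [hx, hy, hz', hw]
        simp only [vec, cA, cB]
        linear_combination (norm := module) ((α + β) • self2 (e (P i))) + β • self2 (f (P i)) +
          α • self2 (d (P i)) + α • self2 (d' (P i))
      rw [e1]
      exact ⟨hvecD _ _, by rw [hQv]; exact h1⟩
    · refine ⟨P i, ?_⟩
      rw [hgi, hcase.1, hcase.2, zero_smul, zero_smul, add_zero, add_zero]
      exact ⟨hvecD _ _, by rw [hQv]; exact h1⟩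
  have hgK : g ∈ setGroup (IsUnitIn Q D) ⊓ Cfsg.Geo.omegaGL ⇑Q := by
    refine ⟨fun v hv => ?_, hgΩ⟩
    obtain ⟨i, hv, h1⟩ := hv
    by_cases h0 : i = P 0
    · subst h0; exact hflip 0 1 (Or.inl ⟨rfl, rfl⟩) v hv h1
    by_cases h1' : i = P 1
    · subst h1'; exact hflip 1 0 (Or.inr ⟨rfl, rfl⟩) v hv h1
    · rw [hgfix i h0 h1' v hv]; exact ⟨i, hv, h1⟩
  have hgnot : g ∉ Cfsg.Geo.decompositionStabilizer D ⊓ Cfsg.Geo.omegaGL ⇑Q := by
    rintro ⟨⟨σ, hσ⟩, -⟩
    have him : ∀ c, (g : Matrix ι ι F) *ᵥ vec (P 0) c ∈ D (σ (P 0)) := fun c => by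
      rw [← hσ (P 0)]; exact ⟨_, hvecD _ c, Matrix.toLin'_apply _ _⟩
    have m0 := him cA
    have m1 := him cC
    rw [hg0] at m0 m1
    have eA : vec (P 0) cA + (cA.1.1 + cA.1.2) • q + (cA.1.2 + cA.2.1 + cA.2.2) • p = vec (P 1) cA := by
      rw [show cA.1.1 + cA.1.2 = (0 : F) by simp only [cA]; linear_combination h2,
        show cA.1.2 + cA.2.1 + cA.2.2 = (1 : F) by simp [cA], zero_smul, add_zero, one_smul, hp0,
        ← add_assoc, self2, zero_add]
    have eC : vec (P 0) cC + (cC.1.1 + cC.1.2) • q + (cC.1.2 + cC.2.1 + cC.2.2) • p = vec (P 0) cC := by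
      rw [show cC.1.1 + cC.1.2 = (0 : F) by simp [cC],
        show cC.1.2 + cC.2.1 + cC.2.2 = (0 : F) by simp only [cC]; linear_combination h2, zero_smul,
        zero_smul, add_zero, add_zero]
    rw [eA] at m0; rw [eC] at m1
    by_cases h : σ (P 0) = P 0
    · have := hort _ _ (show P 0 ≠ P 1 by simp [hP]) _ (h ▸ m0) _ (hvecD (P 1) cB)
      rw [hvv] at this
      simp [cA, cB] at this
    · have := hort _ _ h _ m1 _ (hvecD (P 0) ((1, 0), (1, 0)))
      rw [hvv] at this
      simp [cC] at this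
  set v₀ := vec (P 0) cB + vec (P 1) cB + vec (P 2) cA with hv₀
  have hpv₀ : QuadraticMap.polar Q p v₀ = 0 := by
    simp only [hv₀, QuadraticMap.polar_add_right, hp0, QuadraticMap.polar_add_left, hvv,
      hz _ _ _ _ (show P 0 ≠ P 1 by simp [hP]), hz _ _ _ _ (show P 1 ≠ P 0 by simp [hP]),
      hz _ _ _ _ (show P 0 ≠ P 2 by simp [hP]), hz _ _ _ _ (show P 1 ≠ P 2 by simp [hP]), cA, cB]
    linear_combination h2
  obtain ⟨k, hkΩ, hk⟩ := exists_siegel Q hQ hn hQp hpv₀
  have hknot : k ∉ setGroup (IsUnitIn Q D) ⊓ Cfsg.Geo.omegaGL ⇑Q := by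
    rintro ⟨hk', -⟩
    obtain ⟨l, hl, -⟩ := hk' (vec (P 0) cB) ⟨P 0, hvecD _ _, by rw [hQv]; simp [cB]⟩
    refine notMem_block Q hort (show P 1 ≠ P 2 by simp [hP]) (hvecD (P 1) cA) (hvecD (P 2) cB) ?_ ?_ l hl <;>
    · rw [hk]
      have hQv0 : Q v₀ = 1 := by
        simp only [hv₀, QuadraticMap.map_add Q, QuadraticMap.polar_add_left, hQv,
          hz _ _ _ _ (show P 0 ≠ P 1 by simp [hP]), hz _ _ _ _ (show P 0 ≠ P 2 by simp [hP]),
          hz _ _ _ _ (show P 1 ≠ P 2 by simp [hP]), cA, cB]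
        linear_combination h2
      rw [hQv0]
      simp only [hv₀, hp0, QuadraticMap.polar_sub_left, QuadraticMap.polar_add_left,
        QuadraticMap.polar_smul_left, hvv, smul_eq_mul, hz _ _ _ _ (show P 0 ≠ P 2 by simp [hP]),
        hz _ _ _ _ (show P 1 ≠ P 2 by simp [hP]), hz _ _ _ _ (show P 2 ≠ P 0 by simp [hP]),
        hz _ _ _ _ (show P 1 ≠ P 0 by simp [hP]), hz _ _ _ _ (show P 0 ≠ P 1 by simp [hP]),
        hz _ _ _ _ (show P 2 ≠ P 1 by simp [hP]), cA, cB]
      intro h
      first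
        | exact one_ne_zero (α := F) (by linear_combination h)
        | exact one_ne_zero (α := F) (by linear_combination h - h2)
        | exact one_ne_zero (α := F) (by linear_combination h - 2 * h2)
        | exact one_ne_zero (α := F) (by linear_combination h + 2 * h2)
        | exact one_ne_zero (α := F) (by linear_combination h - 3 * h2)
        | exact one_ne_zero (α := F) (by linear_combination h + 3 * h2)
        | exact one_ne_zero (α := F) (by linear_combination h + h2)
  exact ⟨_, lt_lt hle inf_le_right hgK hgnot hkΩ hknot⟩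

end Cfsg.Agent.GeomClasses.FrameRefinePlus
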