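import Cfsg.Agent.GeomClasses.PrimeSingerThree
import Cfsg.Prelude.Def_GeometricClasses
import Mathlib.GroupTheory.PGroup

/-!
# The subgroup `3^{1+2}` of `GL_3`
-/

set_option autoImplicit false

namespace Cfsg.Agent.GeomClasses.ExtraspecialThree

open Matrix

variable {F : Type*} [Field F] [Fintype F]

local notation "M3" => Matrix (Fin 3) (Fin 3) F

/-- The diagonal generator. -/
def D (w : F) : M3 := Matrix.diagonal ![1, w, w * w]

/-- The cyclic shift. -/
def S : M3 := !![0, 0, 1; 1, 0, 0; 0, 1, 0]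

theorem finite_units : Finite (GL (Fin 3) F) := inferInstance

omit [Fintype F] in
theorem eigen_absurd {c A B : M3} {P : M3} {d : Fin 3 → F} (hd : Function.Injective d) (hP : P.det ≠ 0)
    (hc : c * P = P * Matrix.diagonal d) (hA : A * c = c * A) (hB : B * c = c * B) : A * B = B * A := by
  have hu : IsUnit P.det := isUnit_iff_ne_zero.2 hP
  have hkey : ∀ M : M3, M * c = c * M → ∀ i j, i ≠ j → (P⁻¹ * M * P) i j = 0 := by
    intro M hM i j hij
    have h1 : (P⁻¹ * M * P) * Matrix.diagonal d = Matrix.diagonal d * (P⁻¹ * M * P) := by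
      have hc' : Matrix.diagonal d = P⁻¹ * c * P := by
        rw [Matrix.mul_assoc, hc, ← Matrix.mul_assoc, Matrix.nonsing_inv_mul _ hu, Matrix.one_mul]
      rw [hc']
      calc P⁻¹ * M * P * (P⁻¹ * c * P) = P⁻¹ * (M * (P * P⁻¹) * c) * P := by simp only [Matrix.mul_assoc]
        _ = P⁻¹ * (c * (P * P⁻¹) * M) * P := by rw [Matrix.mul_nonsing_inv _ hu, Matrix.mul_one, Matrix.mul_one, hM]
        _ = _ := by simp only [Matrix.mul_assoc]
    have h2 := congrFun (congrFun h1 i) j
    rw [Matrix.mul_diagonal, Matrix.diagonal_mul] at h2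
    have h3 : (P⁻¹ * M * P) i j * (d j - d i) = 0 := by linear_combination h2
    exact (mul_eq_zero.1 h3).resolve_right (sub_ne_zero.2 fun e => hij (hd e).symm)
  have hdiag : ∀ M : M3, M * c = c * M → P⁻¹ * M * P = Matrix.diagonal (fun i => (P⁻¹ * M * P) i i) := fun M hM => by
    ext i j
    rcases eq_or_ne i j with rfl | h
    · rw [Matrix.diagonal_apply_eq]
    · rw [Matrix.diagonal_apply_ne _ h, hkey M hM i j h]
  have hcomm : P⁻¹ * A * P * (P⁻¹ * B * P) = P⁻¹ * B * P * (P⁻¹ * A * P) := by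
    rw [hdiag A hA, hdiag B hB, Matrix.diagonal_mul_diagonal, Matrix.diagonal_mul_diagonal]
    exact congrArg _ (funext fun i => mul_comm _ _)
  have hexp : ∀ X Y : M3, P * (P⁻¹ * X * P * (P⁻¹ * Y * P)) * P⁻¹ = X * Y := fun X Y => by
    calc P * (P⁻¹ * X * P * (P⁻¹ * Y * P)) * P⁻¹
        = (P * P⁻¹) * X * ((P * P⁻¹) * Y) * (P * P⁻¹) := by simp only [Matrix.mul_assoc]
      _ = X * Y := by simp [Matrix.mul_nonsing_inv _ hu]
  rw [← hexp A B, hcomm, hexp]

/-- Coordinates in which the group is standard. -/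
theorem structure_basis (R : Subgroup (GL (Fin 3) F)) (hR : Nat.card R = 27) (hRe : Monoid.exponent R = 3)
    (hRna : ¬ IsMulCommutative R) (h3 : (3 : F) ≠ 0) (hdvd3 : 3 ∣ Nat.card Fˣ) :
    ∃ (w : F) (A B C : GL (Fin 3) F) (P : M3), w ^ 3 = 1 ∧ w ≠ 1 ∧ A ∈ R ∧ B ∈ R ∧ C ∈ R ∧ P.det ≠ 0 ∧
      (C : M3) = w • 1 ∧ A * B ≠ B * A ∧ (A : M3) * P = P * D w ∧ (B : M3) * P = P * S := by
  classical
  have : Fact (Nat.Prime 3) := ⟨Nat.prime_three⟩
  have hpG : IsPGroup 3 R := IsPGroup.of_card (n := 3) (by rw [hR]; norm_num)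
  obtain ⟨A, B, hAB⟩ : ∃ A B : R, A * B ≠ B * A := by
    by_contra h
    push_neg at h
    exact hRna ⟨⟨h⟩⟩
  have : Nontrivial R := ⟨⟨A, B, fun h => hAB (by rw [h])⟩⟩
  have hZ : Nat.card (Subgroup.center R) = 3 := by
    obtain ⟨k, hk⟩ := (hpG.to_subgroup (Subgroup.center R)).exists_card_eq
    have hdvd : 3 ^ k ∣ 27 := hk ▸ hR ▸ Subgroup.card_subgroup_dvd_card _
    have hk3 : k ≤ 3 := (Nat.pow_dvd_pow_iff_le_right (show 1 < 3 by norm_num)).1 (show 3 ^ k ∣ 3 ^ 3 by simpa using hdvd)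
    have hk0 : k ≠ 0 := fun h => by
      have := hpG.center_nontrivial
      have : 1 < Nat.card (Subgroup.center R) := Finite.one_lt_card_iff_nontrivial.2 inferInstance
      rw [hk, h] at this
      simp at this
    rcases (show k = 1 ∨ k = 2 ∨ k = 3 by omega) with rfl | rfl | rfl
    · simpa using hk
    all_goals
      exfalso
      have hq : Nat.card (R ⧸ Subgroup.center R) ≤ 3 := by
        have := Subgroup.card_eq_card_quotient_mul_card_subgroup (Subgroup.center R)
        rw [hk, hR] at this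
        omega
      have : IsCyclic (R ⧸ Subgroup.center R) := by
        rcases (show Nat.card (R ⧸ Subgroup.center R) = 1 ∨ Nat.card (R ⧸ Subgroup.center R) = 3 by
          have := Subgroup.card_eq_card_quotient_mul_card_subgroup (Subgroup.center R)
          rw [hk, hR] at this
          omega) with h1 | h3
        · have := (Nat.card_eq_one_iff_unique.1 h1).1
          exact isCyclic_of_subsingleton
        · exact isCyclic_of_prime_card h3
      exact hAB (commutative_of_cyclic_center_quotient (QuotientGroup.mk' (Subgroup.center R)) (by rw [QuotientGroup.ker_mk']) A B)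
  have hc : ∀ x : R, A * B * A⁻¹ * B⁻¹ * x = x * (A * B * A⁻¹ * B⁻¹) := by
    have hq : Nat.card (R ⧸ Subgroup.center R) = 3 ^ 2 := by
      have := Subgroup.card_eq_card_quotient_mul_card_subgroup (Subgroup.center R)
      rw [hZ, hR] at this
      omega
    have h := (IsPGroup.isMulCommutative_of_card_eq_prime_sq hq).is_comm.comm (A : R ⧸ Subgroup.center R) (B : R ⧸ Subgroup.center R)
    intro x
    have hmem : A * B * A⁻¹ * B⁻¹ ∈ Subgroup.center R := by
      rw [← QuotientGroup.eq_one_iff, QuotientGroup.mk_mul, QuotientGroup.mk_mul, QuotientGroup.mk_mul,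
        QuotientGroup.mk_inv, QuotientGroup.mk_inv, h]
      group
    exact (Subgroup.mem_center_iff.1 hmem x).symm
  set c := A * B * A⁻¹ * B⁻¹ with hcdef
  have hpow : ∀ g : R, g ^ 3 = 1 := fun g => by
    have := Monoid.pow_exponent_eq_one g
    rwa [hRe] at this
  have hc1 : c ≠ 1 := fun h => hAB (by
    rw [hcdef] at h
    calc A * B = A * B * A⁻¹ * B⁻¹ * (B * A) := by group
      _ = B * A := by rw [h, one_mul])
  have toM : ∀ x y : R, x = y → ((x : GL (Fin 3) F) : M3) = ((y : GL (Fin 3) F) : M3) := fun x y h => by rw [h]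
  set cm : M3 := ((c : GL (Fin 3) F) : M3)
  have hcm3 : cm ^ 3 = 1 := by
    have := toM _ _ (hpow c)
    simpa using this
  have hcd : cm.det = 1 := by
    have h := congrArg (fun g : R => Matrix.GeneralLinearGroup.det (g : GL (Fin 3) F)) hcdef
    simp only [Subgroup.coe_mul, Subgroup.coe_inv, map_mul, map_inv] at h
    rw [mul_inv_cancel_comm, mul_inv_cancel] at h
    simpa [Matrix.GeneralLinearGroup.val_det_apply] using congrArg Units.val h
  have hcA : ((A : GL (Fin 3) F) : M3) * cm = cm * ((A : GL (Fin 3) F) : M3) := by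
    simpa [cm] using toM _ _ (hc A).symm
  have hcB : ((B : GL (Fin 3) F) : M3) * cm = cm * ((B : GL (Fin 3) F) : M3) := by
    simpa [cm] using toM _ _ (hc B).symm
  have hw3' : ∃ w₀ : F, w₀ ^ 3 = 1 ∧ w₀ ≠ 1 ∧ cm = w₀ • 1 := by
    by_cases hs : ∃ t : F, cm = t • 1
    · obtain ⟨t, ht⟩ := hs
      refine ⟨t, ?_, ?_, ht⟩
      · rw [ht, smul_pow, one_pow] at hcm3
        simpa using congrFun (congrFun hcm3 0) 0
      · rintro rfl
        rw [one_smul] at ht
        exact hc1 (Subtype.ext (Units.ext ht))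
    · exfalso
      push_neg at hs
      have hex : ∃ w₁ : Fˣ, orderOf w₁ = 3 := exists_prime_orderOf_dvd_card' 3 hdvd3
      obtain ⟨w₁, hw₁⟩ := hex
      have hw : (w₁ : F) ^ 3 = 1 := by rw [← Units.val_pow_eq_pow_val, ← hw₁, pow_orderOf_eq_one, Units.val_one]
      have hw1 : (w₁ : F) ≠ 1 := fun h => by
        rw [Units.val_eq_one.1 h, orderOf_one] at hw₁
        norm_num at hw₁
      obtain ⟨P, hP, hcP⟩ := PrimeSingerThree.exists_diag hcm3 hw hw1
        (fun i => PrimeSingerThree.rank_two_le h3 hcm3 hcd (by rw [← pow_mul, mul_comm, pow_mul, hw, one_pow]) (hs _))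
      have hinj : Function.Injective fun i : Fin 3 => (w₁ : F) ^ (i : ℕ) := fun i j hij => by
        have ho : orderOf (w₁ : F) = 3 := orderOf_eq_prime hw hw1
        exact Fin.ext (pow_injOn_Iio_orderOf (by rw [Set.mem_Iio, ho]; exact i.2) (by rw [Set.mem_Iio, ho]; exact j.2) hij)
      exact hAB (Subtype.ext (Units.ext (by
        simpa using eigen_absurd hinj hP hcP hcA hcB)))
  obtain ⟨w, hw, hw1, hcw⟩ := hw3'
  have hABm : ((A : GL (Fin 3) F) : M3) * ((B : GL (Fin 3) F) : M3) = w • (((B : GL (Fin 3) F) : M3) * ((A : GL (Fin 3) F) : M3)) := by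
    have h := toM (A * B) (c * (B * A)) (by rw [hcdef]; group)
    simp only [Subgroup.coe_mul, Units.val_mul] at h
    rw [h, show ((c : GL (Fin 3) F) : M3) = w • 1 from hcw, Matrix.smul_mul, Matrix.one_mul]
  set a : M3 := ((A : GL (Fin 3) F) : M3)
  set b : M3 := ((B : GL (Fin 3) F) : M3)
  have ha3 : a ^ 3 = 1 := by simpa [a] using toM _ _ (hpow A)
  have hb3 : b ^ 3 = 1 := by simpa [b] using toM _ _ (hpow B)
  -- an eigenvector of eigenvalue `1`
  obtain ⟨v, j, hv, hav⟩ : ∃ (v : Fin 3 → F) (j : ℕ), v ≠ 0 ∧ a *ᵥ v = w ^ j • v := by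
    have h0 : (a - w ^ 0 • 1) * ((a - w ^ 1 • 1) * (a - w ^ 2 • 1)) = 0 := by
      have hw2 : w * w + w + 1 = 0 := by
        have : (w - 1) * (w * w + w + 1) = 0 := by linear_combination hw
        exact (mul_eq_zero.1 this).resolve_left (sub_ne_zero.2 hw1)
      simp only [pow_zero, pow_one, pow_two, one_smul, sub_mul, mul_sub, Matrix.smul_mul, Matrix.mul_smul, one_mul, mul_one,
        smul_smul, smul_sub]
      rw [show a * (a * a) = 1 by rw [← ha3]; noncomm_ring]
      match_scalars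
      · linear_combination -hw
      all_goals first | linear_combination hw2 | linear_combination -hw2 | linear_combination hw2 * w | linear_combination -hw2 * w
    by_contra hc'
    push_neg at hc'
    have hu : ∀ k, IsUnit (a - w ^ k • 1) := fun k => by
      rw [Matrix.isUnit_iff_isUnit_det, isUnit_iff_ne_zero]
      intro h
      obtain ⟨u, hu, hu'⟩ := Matrix.exists_mulVec_eq_zero_iff.2 h
      rw [Matrix.sub_mulVec, Matrix.smul_mulVec, Matrix.one_mulVec, sub_eq_zero] at hu'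
      exact hc' u k hu hu'
    have := ((hu 0).mul ((hu 1).mul (hu 2)))
    rw [h0] at this
    exact not_isUnit_zero this
  have hw0 : w ≠ 0 := fun h => by rw [h] at hw; simp at hw
  have hshift : ∀ (u : Fin 3 → F) (t : F), a *ᵥ u = t • u → a *ᵥ (b *ᵥ u) = (w * t) • (b *ᵥ u) := fun u t h => by
    rw [Matrix.mulVec_mulVec, hABm, Matrix.smul_mulVec, ← Matrix.mulVec_mulVec, h, Matrix.mulVec_smul, smul_smul]
  have hbinj : ∀ u, b *ᵥ u = 0 → u = 0 := fun u h => by
    have := congrArg (fun y => (b * b) *ᵥ y) h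
    simp only [Matrix.mulVec_mulVec, Matrix.mulVec_zero] at this
    rwa [show b * b * b = 1 by rw [← hb3]; noncomm_ring, Matrix.one_mulVec] at this
  have hiter : ∀ k, (b ^ k) *ᵥ v ≠ 0 ∧ a *ᵥ ((b ^ k) *ᵥ v) = (w ^ k * w ^ j) • ((b ^ k) *ᵥ v) := by
    intro k
    induction k with
    | zero => simpa using ⟨hv, hav⟩
    | succ k ih =>
      rw [pow_succ', ← Matrix.mulVec_mulVec]
      exact ⟨fun h => ih.1 (hbinj _ h), by rw [hshift _ _ ih.2, pow_succ']; ring_nf⟩
  obtain ⟨hv0, hav0⟩ := hiter (2 * j)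
  rw [← pow_add, show 2 * j + j = 3 * j by ring, pow_mul w, hw, one_pow, one_smul] at hav0
  set v0 := (b ^ (2 * j)) *ᵥ v
  let P : M3 := Matrix.of fun i k => ((b ^ (k : ℕ)) *ᵥ v0) i
  have hk : ∀ k : ℕ, a *ᵥ ((b ^ k) *ᵥ v0) = (w ^ k) • ((b ^ k) *ᵥ v0) ∧ (b ^ k) *ᵥ v0 ≠ 0 := by
    intro k
    induction k with
    | zero => simpa using ⟨hav0, hv0⟩
    | succ k ih =>
      rw [pow_succ', ← Matrix.mulVec_mulVec]
      exact ⟨by rw [hshift _ _ ih.1, pow_succ'], fun h => ih.2 (hbinj _ h)⟩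
  have ho : orderOf w = 3 := orderOf_eq_prime hw hw1
  have hinj : Function.Injective fun i : Fin 3 => w ^ (i : ℕ) := fun i k hij =>
    Fin.ext (pow_injOn_Iio_orderOf (by rw [Set.mem_Iio, ho]; exact i.2) (by rw [Set.mem_Iio, ho]; exact k.2) hij)
  have hli : LinearIndependent F (fun k : Fin 3 => (b ^ (k : ℕ)) *ᵥ v0) :=
    Module.End.eigenvectors_linearIndependent' (Matrix.toLin' a) (fun i : Fin 3 => w ^ (i : ℕ)) hinj _ fun k =>
      ⟨Module.End.mem_eigenspace_iff.2 (hk k).1, (hk k).2⟩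
  have hPd : P.det ≠ 0 := isUnit_iff_ne_zero.1 ((Matrix.isUnit_iff_isUnit_det P).1 (Matrix.linearIndependent_cols_iff_isUnit.1 hli))
  refine ⟨w, A, B, c, P, hw, hw1, A.2, B.2, c.2, hPd, hcw, fun h => hAB (Subtype.ext h), ?_, ?_⟩
  · ext i k
    rw [D, Matrix.mul_diagonal]
    have := congrFun (hk k).1 i
    rw [show (a * P) i k = (a *ᵥ ((b ^ (k : ℕ)) *ᵥ v0)) i by simp [P, Matrix.mul_apply, Matrix.mulVec, dotProduct], this]
    fin_cases k <;> simp [P, pow_two, mul_comm]
  · ext i k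
    rw [show (b * P) i k = ((b ^ ((k : ℕ) + 1)) *ᵥ v0) i by
      rw [pow_succ', ← Matrix.mulVec_mulVec]
      simp [P, Matrix.mul_apply, Matrix.mulVec, dotProduct]]
    fin_cases k <;> simp [P, S, Matrix.mul_apply, Fin.sum_univ_three, hb3]

/-- Membership in the normaliser from the images of two generators. -/
theorem mem_normalizer (R : Subgroup (GL (Fin 3) F)) (hR : Nat.card R = 27) {A B g : GL (Fin 3) F} (hA : A ∈ R) (hB : B ∈ R)
    (hAB : A * B ≠ B * A) (hgA : g * A * g⁻¹ ∈ R) (hgB : g * B * g⁻¹ ∈ R) : g ∈ Cfsg.Geo.subgroupNormalizer R := by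
  classical
  have : Fact (Nat.Prime 3) := ⟨Nat.prime_three⟩
  set H : Subgroup (GL (Fin 3) F) := R ⊓ R.comap (MulAut.conj g).toMonoidHom with hH
  have hHR : H ≤ R := inf_le_left
  have hdvd : Nat.card H ∣ 27 := hR ▸ Subgroup.card_dvd_of_le hHR
  obtain ⟨k, hk, hk'⟩ := (Nat.dvd_prime_pow Nat.prime_three).1 (show Nat.card H ∣ 3 ^ 3 by simpa using hdvd)
  have hcomm : k ≠ 3 → False := fun hk3 => by
    have hAB' : (⟨A, hA, by simpa using hgA⟩ : H) * ⟨B, hB, by simpa using hgB⟩ = ⟨B, hB, by simpa using hgB⟩ * ⟨A, hA, by simpa using hgA⟩ := by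
      rcases (show k = 0 ∨ k = 1 ∨ k = 2 by omega) with rfl | rfl | rfl
      · have := (Nat.card_eq_one_iff_unique.1 hk').1
        exact Subsingleton.elim _ _
      · have : IsCyclic H := isCyclic_of_prime_card (p := 3) (by simpa using hk')
        exact IsCyclic.commGroup.mul_comm _ _
      · exact (IsPGroup.isMulCommutative_of_card_eq_prime_sq hk').is_comm.comm _ _
    exact hAB (congrArg Subtype.val hAB')
  have hk3 : k = 3 := by_contra hcomm
  have heq : H = R := Subgroup.eq_of_le_of_card_ge hHR (by rw [hk', hk3, hR]; norm_num)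
  have hle : R.map (MulAut.conj g).toMonoidHom ≤ R := by
    rw [Subgroup.map_le_iff_le_comap]
    intro x hx
    rw [← heq] at hx
    exact hx.2
  have hge : R.map (MulAut.conj g).toMonoidHom = R := Subgroup.eq_of_le_of_card_ge hle (by
    rw [Subgroup.card_map_of_injective (MulAut.conj g).injective])
  refine Subgroup.mem_normalizer_iff.2 fun h => ⟨fun hh => hle ⟨h, hh, rfl⟩, fun hh => ?_⟩
  obtain ⟨h', hh', e⟩ := hge ▸ (show g * h * g⁻¹ ∈ R from hh)
  rwa [← (MulAut.conj g).injective e]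

end Cfsg.Agent.GeomClasses.ExtraspecialThree
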