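import Cfsg.Agent.GeomClasses.SubspaceDerange

/-!
# Counting pairs of nested subspaces
-/

set_option autoImplicit false

namespace Cfsg.Agent.GeomClasses.FlagDerange

open Module

variable {F : Type*} [Field F] [Fintype F]

theorem card_flags {q : ℕ} (hq : Fintype.card F = q) {n m : ℕ} (hm : m + m ≤ n) :
    Nat.card {P : Submodule F (Fin n → F) × Submodule F (Fin n → F) //
        P.1 ≤ P.2 ∧ finrank F P.1 = m ∧ finrank F P.2 = n - m} =
      Nat.card {U : Submodule F (Fin n → F) // finrank F U = m} *
        Nat.card {U : Submodule F (Fin (n - m) → F) // finrank F U = m} := by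
  classical
  let e : {P : Submodule F (Fin n → F) × Submodule F (Fin n → F) //
        P.1 ≤ P.2 ∧ finrank F P.1 = m ∧ finrank F P.2 = n - m} ≃
      Σ W : {W : Submodule F (Fin n → F) // finrank F W = n - m},
        {U : Submodule F (Fin n → F) // U ≤ (W : Submodule F (Fin n → F)) ∧ finrank F U = m} :=
    { toFun := fun P => ⟨⟨P.1.2, P.2.2.2⟩, ⟨P.1.1, P.2.1, P.2.2.1⟩⟩
      invFun := fun s => ⟨(s.2.1, s.1.1), s.2.2.1, s.2.2.2, s.1.2⟩
      left_inv := fun P => rfl
      right_inv := fun s => rfl }
  have key : ∀ W : {W : Submodule F (Fin n → F) // finrank F W = n - m},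
      Nat.card {U : Submodule F (Fin n → F) // U ≤ (W : Submodule F (Fin n → F)) ∧ finrank F U = m} =
        Nat.card {U : Submodule F (Fin (n - m) → F) // finrank F U = m} := by
    rintro ⟨W, hW⟩
    have h1 : {U : Submodule F (Fin n → F) // U ≤ W ∧ finrank F U = m} ≃ {U : Submodule F W // finrank F U = m} :=
      { toFun := fun U => ⟨U.1.comap W.subtype, by
          rw [(Submodule.comapSubtypeEquivOfLe U.2.1).finrank_eq]; exact U.2.2⟩
        invFun := fun U => ⟨U.1.map W.subtype, Submodule.map_subtype_le W U.1, by
          rw [Submodule.finrank_map_subtype_eq]; exact U.2⟩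
        left_inv := fun U => Subtype.ext (by
          simp only [Submodule.map_comap_subtype]; exact inf_eq_right.2 U.2.1)
        right_inv := fun U => Subtype.ext (Submodule.comap_map_eq_of_injective (Submodule.injective_subtype W) U.1) }
    let φ : W ≃ₗ[F] (Fin (n - m) → F) := LinearEquiv.ofFinrankEq _ _ (by rw [hW, Module.finrank_fin_fun])
    have h2 : {U : Submodule F W // finrank F U = m} ≃ {U : Submodule F (Fin (n - m) → F) // finrank F U = m} :=
      (Submodule.orderIsoMapComapOfBijective φ.toLinearMap φ.bijective).toEquiv.subtypeEquiv fun U => by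
        show _ ↔ finrank F ↥(U.map φ.toLinearMap) = m
        rw [LinearEquiv.finrank_map_eq]
    exact Nat.card_congr (h1.trans h2)
  have : Fintype {W : Submodule F (Fin n → F) // finrank F W = n - m} := Fintype.ofFinite _
  rw [Nat.card_congr e, Nat.card_sigma]
  simp only [key, Finset.sum_const, Finset.card_univ, smul_eq_mul, ← Nat.card_eq_fintype_card]
  rw [SubspaceDerange.card_symm hq (by omega)]

end Cfsg.Agent.GeomClasses.FlagDerange
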