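import Cfsg.Agent.GeomClasses.OmegaBridge
import Cfsg.Agent.Forms.OrthGen
import Cfsg.Agent.Forms.SympBasis

/-! # The two families of maximal totally singular subspaces in plus type -/

set_option autoImplicit false

namespace Cfsg.Agent.GeomClasses

open Module Cfsg.Agent.Forms

variable {F V : Type*} [Field F] [AddCommGroup V] [Module F V] [FiniteDimensional F V]
  {Q : QuadraticForm F V}

set_option quotPrecheck false in
local notation "BQ" => QuadraticMap.polar ⇑Q

local notation "sp" => Submodule.span F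

theorem half_perp (hQ : (QuadraticMap.polarBilin Q).Nondegenerate) {T : Submodule F V}
    (hT : ∀ x ∈ T, Q x = 0) (hdim : 2 * finrank F T = finrank F V) :
    perp (QuadraticMap.polarBilin Q) T = T := by
  have hle : T ≤ perp (QuadraticMap.polarBilin Q) T := fun y hy x hx => polar_ts hT hx hy
  refine (Submodule.eq_of_le_of_finrank_eq hle ?_).symm
  have := (isForm_quadratic Q hQ).finrank_perp T
  omega

/-- An isometry fixing a maximal totally singular subspace has trivial Dickson invariant. -/
theorem dickson_of_stab (hQ : (QuadraticMap.polarBilin Q).Nondegenerate) {T : Submodule F V}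
    (hT : ∀ x ∈ T, Q x = 0) (hdim : 2 * finrank F T = finrank F V) {g : orthGroup Q}
    (hg : ∀ x ∈ T, (g : V ≃ₗ[F] V) x ∈ T) : dickson g = 0 := by
  have hI := isForm_quadratic Q hQ
  set d : V →ₗ[F] V := ((g : V ≃ₗ[F] V) : V →ₗ[F] V) - LinearMap.id
  have hd : ∀ x, d x = (g : V ≃ₗ[F] V) x - x := fun x => by simp [d]
  set Fx := LinearMap.ker d
  have hfix : ∀ f ∈ Fx, (g : V ≃ₗ[F] V) f = f := fun f hf => by
    have := LinearMap.mem_ker.mp hf; rwa [hd, sub_eq_zero] at this
  set P := T.comap d
  set K0 := Fx ⊔ T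
  have hFP : Fx ≤ P := fun f hf => by
    change d f ∈ T; rw [LinearMap.mem_ker.mp hf]; exact zero_mem T
  have hTP : T ≤ P := fun t ht => by change d t ∈ T; rw [hd]; exact sub_mem (hg t ht) ht
  have horthF : ∀ u, ∀ f ∈ Fx, BQ f (d u) = 0 := fun u f hf => by
    have := orth_polar Q g f u
    rw [hfix f hf] at this
    rw [hd, QuadraticMap.polar_sub_right, this, sub_self]
  have hrange : LinearMap.range d = perp (QuadraticMap.polarBilin Q) Fx := by
    refine Submodule.eq_of_le_of_finrank_eq (by rintro _ ⟨u, rfl⟩ f hf; exact horthF u f hf) ?_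
    have e1 := LinearMap.finrank_range_add_finrank_ker d
    have e2 : finrank F (perp (QuadraticMap.polarBilin Q) Fx) + finrank F Fx = finrank F V := hI.finrank_perp Fx
    change finrank F (LinearMap.range d) + finrank F Fx = _ at e1
    omega
  have himage : P.map d = perp (QuadraticMap.polarBilin Q) K0 := by
    refine le_antisymm ?_ fun r hr => ?_
    · rintro _ ⟨u, hu, rfl⟩ x hx
      obtain ⟨f, hf, t, ht, rfl⟩ := Submodule.mem_sup.mp hx
      rw [QuadraticMap.polarBilin_apply_apply, QuadraticMap.polar_add_left, horthF u f hf, polar_ts hT ht hu,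
        add_zero]
    · have h1 : r ∈ perp (QuadraticMap.polarBilin Q) Fx := perp_antitone le_sup_left hr
      have h2 : r ∈ perp (QuadraticMap.polarBilin Q) T := perp_antitone le_sup_right hr
      rw [half_perp hQ hT hdim] at h2
      rw [← hrange] at h1
      obtain ⟨u, rfl⟩ := h1
      exact ⟨u, h2, rfl⟩
  obtain ⟨C, hC⟩ := Submodule.exists_isCompl K0
  set W := C ⊓ P
  set γ : LinearMap.BilinForm F W := (QuadraticMap.polarBilin Q).compl₁₂ (d ∘ₗ W.subtype) W.subtype
  have halt : ∀ u, u ∈ P → BQ (d u) u = 0 := fun u hu => by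
    have e := g.2.2 u
    rw [show (g : V ≃ₗ[F] V) u = u + d u by rw [hd]; abel, QuadraticMap.map_add Q, hT _ hu, add_zero,
      add_eq_left, QuadraticMap.polar_comm] at e
    exact e
  have hskew : ∀ u v, u ∈ P → v ∈ P → BQ (d u) v = - BQ (d v) u := fun u v hu hv => by
    have := halt (u + v) (add_mem hu hv)
    rw [map_add, QuadraticMap.polar_add_left, QuadraticMap.polar_add_right, QuadraticMap.polar_add_right,
      halt u hu, halt v hv, zero_add, add_zero] at this
    exact eq_neg_of_add_eq_zero_left this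
  have hrad : ∀ u : W, (∀ v : W, γ u v = 0) → u = 0 := by
    intro u hu
    have hall : ∀ v ∈ P, BQ (d v) (u : V) = 0 := by
      intro v hv
      obtain ⟨k, hk, c, hc, rfl⟩ := Submodule.mem_sup.mp (show v ∈ K0 ⊔ C by rw [hC.sup_eq_top]; trivial)
      have hkP : k ∈ P := sup_le hFP hTP hk
      have hcP : c ∈ W := ⟨hc, by simpa using sub_mem hv hkP⟩
      rw [map_add, QuadraticMap.polar_add_left, hskew c u hcP.2 u.2.2]
      have h1 : BQ (d (u : V)) c = 0 := hu ⟨c, hcP⟩
      obtain ⟨f, hf, t, ht, rfl⟩ := Submodule.mem_sup.mp hk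
      have h2 : BQ (d (f + t)) (u : V) = 0 := by
        rw [hskew _ _ hkP u.2.2, QuadraticMap.polar_add_right, QuadraticMap.polar_comm, horthF _ f hf,
          polar_ts hT u.2.2 ht, add_zero, neg_zero]
      rw [h1, h2, neg_zero, add_zero]
    have huK : (u : V) ∈ K0 := by
      rw [← hI.perp_perp K0]
      intro r hr
      rw [← himage] at hr
      obtain ⟨v, hv, rfl⟩ := hr
      exact hall v hv
    exact Subtype.ext (Submodule.disjoint_def.mp hC.disjoint _ huK u.2.1)
  have hγalt : ∀ u : W, γ u u = 0 := fun u => halt u u.2.2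
  have hIγ : IsForm (RingHom.id F) γ (fun _ => (0 : F)) := by
    refine isForm_alt _ ⟨fun u hu => hrad u hu, fun u hu => hrad u fun v => ?_⟩ hγalt
    have h1 : γ v u = 0 := hu v
    have h2 : γ u v = - γ v u := hskew u v u.2.2 v.2.2
    rw [h2, h1, neg_zero]
  obtain ⟨m, _, hm, -⟩ := exists_symp_family hIγ
  have e1 : finrank F P = finrank F K0 + finrank F W := by
    have h := Submodule.finrank_sup_add_finrank_inf_eq K0 W
    have hsup : K0 ⊔ W = P := by
      have hKP : K0 ≤ P := sup_le hFP hTP
      change K0 ⊔ C ⊓ P = P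
      rw [← sup_inf_assoc_of_le C hKP, hC.sup_eq_top, top_inf_eq]
    have hinf : K0 ⊓ W = ⊥ := eq_bot_iff.mpr fun x hx =>
      (Submodule.mem_bot F).mpr (Submodule.disjoint_def.mp hC.disjoint x hx.1 hx.2.1)
    rw [hsup, hinf, finrank_bot] at h
    omega
  have e2 : finrank F (P.map d) + finrank F Fx = finrank F P := by
    have h := LinearMap.finrank_range_add_finrank_ker (d.domRestrict P)
    have h1 : LinearMap.range (d.domRestrict P) = P.map d := LinearMap.range_domRestrict P d
    rw [h1, LinearMap.ker_domRestrict, (Submodule.comapSubtypeEquivOfLe hFP).finrank_eq] at h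
    exact h
  have e3 : finrank F (perp (QuadraticMap.polarBilin Q) K0) + finrank F K0 = finrank F V := hI.finrank_perp K0
  rw [himage] at e2
  unfold dickson
  rw [ZMod.natCast_eq_zero_iff_even]
  change Even (finrank F V - finrank F Fx)
  have e4 := Submodule.finrank_le Fx
  rw [Nat.even_iff]
  omega

section Finite

variable [Finite F]

theorem dickson_commutator (hQ : (QuadraticMap.polarBilin Q).Nondegenerate) (hn : 5 ≤ finrank F V)
    {g : orthGroup Q} (hg : g ∈ commutator (orthGroup Q)) : dickson g = 0 := by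
  have hgen := closure_reflectionSet Q hQ (Or.inr (Or.inr (by omega)))
  exact congrArg Multiplicative.toAdd (Abelianization.commutator_subset_ker (dicksonHom hQ hgen) hg)

/-- The Dickson invariant is the parity of the codimension of the meet of a maximal totally singular
subspace with its image. -/
theorem dickson_of_image (hQ : (QuadraticMap.polarBilin Q).Nondegenerate) (hn : 5 ≤ finrank F V)
    {T : Submodule F V} (hT : ∀ x ∈ T, Q x = 0) (hdim : 2 * finrank F T = finrank F V) :
    ∀ (j : ℕ) (g : orthGroup Q) (T' : Submodule F V), T.map ((g : V ≃ₗ[F] V) : V →ₗ[F] V) = T' →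
      finrank F ↥(T ⊓ T') + j = finrank F T → dickson g = (j : ZMod 2) := by
  intro j
  induction j with
  | zero =>
    intro g T' hgT hj
    rw [Nat.cast_zero]
    have h1 : T ⊓ T' = T := Submodule.eq_of_le_of_finrank_eq inf_le_left (by omega)
    have h2 : finrank F T' = finrank F T := by rw [← hgT, LinearEquiv.finrank_map_eq]
    have h3 : T = T' := Submodule.eq_of_le_of_finrank_eq (inf_eq_left.mp h1) h2.symm
    exact dickson_of_stab hQ hT hdim fun x hx => by
      rw [h3, ← hgT]; exact ⟨x, hx, rfl⟩
  | succ j ih =>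
    intro g T' hgT hj
    have hT' : ∀ x ∈ T', Q x = 0 := fun x hx => by
      rw [← hgT] at hx; obtain ⟨y, hy, rfl⟩ := hx
      exact (g.2.2 y).trans (hT y hy)
    have hdim' : 2 * finrank F T' = finrank F V := by rw [← hgT, LinearEquiv.finrank_map_eq]; exact hdim
    obtain ⟨a, ha, haT⟩ : ∃ a ∈ T', a ∉ T := SetLike.not_le_iff_exists.mp fun hle => by
      rw [inf_eq_right.mpr hle] at hj; omega
    obtain ⟨b, hb, hab⟩ : ∃ b ∈ T, BQ b a ≠ 0 := by
      by_contra hno
      push Not at hno
      exact haT (by rw [← half_perp hQ hT hdim]; exact hno)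
    set v := a - b with hv
    have hQv : Q v = -BQ b a := by
      rw [hv, sub_eq_add_neg, QuadraticMap.map_add Q, QuadraticMap.map_neg, hT' a ha, hT b hb,
        QuadraticMap.polar_neg_right, QuadraticMap.polar_comm]; ring
    have hQv0 : Q v ≠ 0 := by rw [hQv]; exact neg_ne_zero.mpr hab
    set r := reflection Q v
    have hra : (r : V ≃ₗ[F] V) a = b := by
      have h1 : BQ v a = Q v := by
        rw [hQv, hv, QuadraticMap.polar_sub_left, polar_ts hT' ha ha, zero_sub]
      rw [Forms.reflection_apply, h1, inv_mul_cancel₀ hQv0, one_smul, hv, sub_sub_cancel]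
    have hrfix : ∀ x, BQ v x = 0 → (r : V ≃ₗ[F] V) x = x := fun x hx => Forms.reflection_fix (Q := Q) hx
    set T'' := T'.map ((r : V ≃ₗ[F] V) : V →ₗ[F] V)
    have hT'' : T.map (((r * g : orthGroup Q) : V ≃ₗ[F] V) : V →ₗ[F] V) = T'' := by
      rw [show T'' = T'.map ((r : V ≃ₗ[F] V) : V →ₗ[F] V) from rfl, ← hgT, ← Submodule.map_comp]
      rfl
    have heq : T ⊓ T'' = (T ⊓ T') ⊔ sp {b} := by
      refine le_antisymm ?_ (sup_le (fun x hx => ⟨hx.1, x, hx.2, hrfix x (by
        rw [hv, QuadraticMap.polar_sub_left, polar_ts hT' ha hx.2, polar_ts hT hb hx.1, sub_zero])⟩)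
        ((Submodule.span_singleton_le_iff_mem _ _).mpr ⟨hb, a, ha, hra⟩))
      rintro x ⟨hx, y, hy, hyx⟩
      have hyx' : (r : V ≃ₗ[F] V) y = x := hyx
      set c := -BQ b y / Q v
      have hry : (r : V ≃ₗ[F] V) y = y - c • a + c • b := by
        rw [Forms.reflection_apply, show BQ v y = -BQ b y by
          rw [hv, QuadraticMap.polar_sub_left, polar_ts hT' ha hy, zero_sub], hv]
        simp only [c, div_eq_inv_mul]
        module
      have hm : y - c • a ∈ T ⊓ T' := ⟨by
        have : y - c • a = x - c • b := by rw [← hyx', hry, add_sub_cancel_right]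
        rw [this]; exact sub_mem hx (T.smul_mem _ hb), sub_mem hy (T'.smul_mem _ ha)⟩
      rw [← hyx', hry]
      exact add_mem (Submodule.mem_sup_left hm) (Submodule.mem_sup_right (Submodule.smul_mem _ _ (Submodule.mem_span_singleton_self b)))
    have hdimI : finrank F ↥(T ⊓ T'') = finrank F ↥(T ⊓ T') + 1 := by
      have hbT : b ∉ T ⊓ T' := fun h => hab (polar_ts hT' h.2 ha)
      have hb0 : b ≠ 0 := fun h => hbT (by rw [h]; exact zero_mem _)
      have h := Submodule.finrank_sup_add_finrank_inf_eq (T ⊓ T') (sp {b})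
      have h0 : (T ⊓ T') ⊓ sp {b} = ⊥ := (Submodule.eq_bot_iff _).mpr fun x hx => by
        obtain ⟨c, rfl⟩ := Submodule.mem_span_singleton.mp hx.2
        by_contra hc
        have hc0 : c ≠ 0 := fun h0 => hc (by rw [h0, zero_smul])
        exact hbT (by simpa [smul_smul, inv_mul_cancel₀ hc0] using (T ⊓ T').smul_mem c⁻¹ hx.1)
      rw [h0, finrank_bot, finrank_span_singleton hb0, ← heq] at h
      omega
    have h1 := ih (r * g) T'' hT'' (by omega)
    have hgen := closure_reflectionSet Q hQ (Or.inr (Or.inr (by omega)))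
    rw [dickson_mul hQ r (hgen ▸ Subgroup.mem_top g), dickson_reflection hQ hQv0] at h1
    have e2 : (2 : ZMod 2) = 0 := rfl
    push_cast
    linear_combination h1 - e2

end Finite

end Cfsg.Agent.GeomClasses
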