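import Cfsg.Agent.GeomClasses.UnitaryBasic

/-!
# Orthonormal eigenbases of diagonalisable isometries of a hermitian form
-/

set_option autoImplicit false

namespace Cfsg.Agent.GeomClasses.UnitaryEigenFrame

open Matrix Cfsg.Agent.Forms Cfsg.Agent.GeomClasses.Unitary

variable {F : Type*} [Field F] [Fintype F] {q n : ℕ}

local notation "hh" => Cfsg.hermForm n F q

/-- An orthonormal family of `n` vectors is the set of columns of an element of `GU`. -/
theorem exists_mem_of_frame (hF : Fintype.card F = q ^ 2) {f : Fin n → Fin n → F}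
    (hf : ∀ i j, hh (f i) (f j) = if i = j then 1 else 0) :
    ∃ g : GL (Fin n) F, g ∈ Cfsg.GU n F q ∧ ∀ i j, (g : Matrix (Fin n) (Fin n) F) i j = f j i := by
  classical
  set M : Matrix (Fin n) (Fin n) F := Matrix.of fun i j => f j i
  have hM : ∀ u v, hh (M *ᵥ u) (M *ᵥ v) = hh u v := by
    intro u v
    have hsum : ∀ w : Fin n → F, M *ᵥ w = ∑ i, w i • f i := fun w => by
      ext k
      simp [M, Matrix.mulVec, dotProduct, mul_comm]
    have hl : ∀ (s : Fin n → Fin n → F) (b : Fin n → F), hh (∑ i, s i) b = ∑ i, hh (s i) b := fun s b =>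
      map_sum (hermB n hF b) s Finset.univ
    have hr : ∀ (a : Fin n → F) (s : Fin n → Fin n → F), hh a (∑ i, s i) = ∑ i, hh a (s i) := fun a s => by
      show hermB n hF (∑ i, s i) a = _
      rw [map_sum, LinearMap.sum_apply]
      rfl
    rw [hsum, hsum, hl]
    simp only [hr, hh_smul_left hF, hh_smul_right hF, hf, mul_ite, mul_one, mul_zero, Finset.sum_ite_eq,
      Finset.mem_univ, if_true]
    rfl
  have hdet : M.det ≠ 0 := by
    intro h0
    obtain ⟨u, hu, hu'⟩ := Matrix.exists_mulVec_eq_zero_iff.2 h0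
    refine hu (funext fun i => ?_)
    have h := hM u (Pi.single i 1)
    rw [hu', hh_zero_left hF] at h
    have hq0 : q ≠ 0 := fun h' => by have := two_le_q hF; omega
    simpa [Cfsg.hermForm, Pi.single_apply, hq0, ite_pow] using h.symm
  exact ⟨Matrix.GeneralLinearGroup.mkOfDetNeZero M hdet, hM, fun i j => rfl⟩

theorem diag_mem (hF : Fintype.card F = q ^ 2) {g : GL (Fin n) F} {d : Fin n → F}
    (hg : (g : Matrix (Fin n) (Fin n) F) = Matrix.diagonal d) (hd : ∀ i, d i * d i ^ q = 1) : g ∈ Cfsg.GU n F q := by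
  rw [mem_GU_iff]
  intro u v
  rw [hg]
  refine Finset.sum_congr rfl fun i _ => ?_
  rw [Matrix.mulVec_diagonal, Matrix.mulVec_diagonal, mul_pow, mul_mul_mul_comm, hd, one_mul]

/-- An isometry spanned by eigenvectors with eigenvalues of norm one has an orthonormal eigenbasis. -/
theorem exists_frame (hF : Fintype.card F = q ^ 2) {x : Matrix (Fin n) (Fin n) F}
    (hx : ∀ u v, hh (x *ᵥ u) (x *ᵥ v) = hh u v) (E : Set F) (hE : ∀ c ∈ E, c * c ^ q = 1)
    (hspan : Submodule.span F {v | ∃ c ∈ E, x *ᵥ v = c • v} = ⊤) :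
    ∃ (d : Fin n → F) (g : GL (Fin n) F), g ∈ Cfsg.GU n F q ∧ (∀ i, d i ∈ E) ∧
      x * (g : Matrix (Fin n) (Fin n) F) = (g : Matrix (Fin n) (Fin n) F) * Matrix.diagonal d := by
  classical
  have horth : ∀ {α β : F} {u v : Fin n → F}, α ∈ E → β ∈ E → α ≠ β → x *ᵥ u = α • u → x *ᵥ v = β • v → hh u v = 0 := by
    intro α β u v hα hβ hne hu hv
    have h := hx u v
    rw [hu, hv, hh_smul_left hF, hh_smul_right hF, ← mul_assoc] at h
    by_contra h0
    have h1 : α * β ^ q = 1 := (mul_eq_right₀ h0).1 h
    exact hne (mul_right_cancel₀ (b := β ^ q) (fun h2 => by rw [h2, mul_zero] at h1; exact zero_ne_one h1)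
      (h1.trans (hE β hβ).symm))
  suffices ∀ k ≤ n, ∃ (f : Fin k → Fin n → F) (d : Fin k → F), (∀ i j, hh (f i) (f j) = if i = j then 1 else 0) ∧
      ∀ i, d i ∈ E ∧ x *ᵥ f i = d i • f i by
    obtain ⟨f, d, hf, hd⟩ := this n le_rfl
    obtain ⟨g, hg, hgf⟩ := exists_mem_of_frame hF hf
    refine ⟨d, g, hg, fun i => (hd i).1, ?_⟩
    ext i j
    rw [Matrix.mul_diagonal, hgf, show (x * (g : Matrix (Fin n) (Fin n) F)) i j = (x *ᵥ f j) i by
      simp [Matrix.mul_apply, Matrix.mulVec, dotProduct, hgf], (hd j).2, Pi.smul_apply, smul_eq_mul, mul_comm]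
  intro k
  induction k with
  | zero => exact fun _ => ⟨Fin.elim0, Fin.elim0, fun i => i.elim0, fun i => i.elim0⟩
  | succ k ih =>
    intro hk
    obtain ⟨f, d, hf, hd⟩ := ih (by omega)
    let pr : (Fin n → F) → (Fin n → F) := fun v => v - ∑ i, hh v (f i) • f i
    have hsum : ∀ (s : Fin k → Fin n → F) (b : Fin n → F), hh (∑ i, s i) b = ∑ i, hh (s i) b := fun s b =>
      map_sum (hermB n hF b) s Finset.univ
    have hpr : ∀ v j, hh (pr v) (f j) = 0 := fun v j => by
      simp only [pr, hh_sub_left hF, hsum, hh_smul_left hF, hf, mul_ite, mul_one, mul_zero, Finset.sum_ite_eq',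
        Finset.mem_univ, if_true, sub_self]
    have hpe : ∀ v c, c ∈ E → x *ᵥ v = c • v → x *ᵥ pr v = c • pr v := by
      intro v c hc hv
      simp only [pr, Matrix.mulVec_sub, Matrix.mulVec_sum, Matrix.mulVec_smul, smul_sub, Finset.smul_sum, hv]
      congr 1
      refine Finset.sum_congr rfl fun i _ => ?_
      by_cases h : c = d i
      · rw [(hd i).2, ← h, smul_comm]
      · rw [horth hc (hd i).1 h hv (hd i).2, zero_smul, zero_smul, smul_zero]
    by_cases hex : ∃ v c, c ∈ E ∧ x *ᵥ v = c • v ∧ hh (pr v) (pr v) ≠ 0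
    · obtain ⟨v, c, hc, hv, hne⟩ := hex
      obtain ⟨r, hr⟩ := exists_norm hF (hh (pr v) (pr v))⁻¹ (by rw [inv_pow, hh_self_fixed hF])
      refine ⟨Fin.cons (r • pr v) f, Fin.cons c d, ?_, ?_⟩
      · intro i j
        refine Fin.cases ?_ (fun i => ?_) i <;> refine Fin.cases ?_ (fun j => ?_) j
        · simp [hh_smul_left hF, hh_smul_right hF, ← mul_assoc, hr, inv_mul_cancel₀ hne]
        · simp [hh_smul_left hF, hpr, (Fin.succ_ne_zero j).symm]
        · simp [hh_smul_right hF, hh_comm_zero hF (hpr v i), Fin.succ_ne_zero i]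
        · simpa using hf i j
      · intro i
        refine Fin.cases ?_ (fun i => ?_) i
        · simp only [Fin.cons_zero]
          exact ⟨hc, by rw [Matrix.mulVec_smul, hpe v c hc hv, smul_comm]⟩
        · simpa using hd i
    · exfalso
      push_neg at hex
      have hzero : ∀ u v c c', c ∈ E → c' ∈ E → x *ᵥ u = c • u → x *ᵥ v = c' • v → hh (pr u) (pr v) = 0 := by
        intro u v c c' hc hc' hu hv
        by_cases hcc : c = c'
        · subst hcc
          have hadd : ∀ a : F, pr (u + a • v) = pr u + a • pr v := fun a => by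
            simp only [pr, hh_add_left hF, hh_smul_left hF, add_smul, Finset.sum_add_distrib, mul_smul, ← Finset.smul_sum]
            rw [smul_sub]; abel
          have key : ∀ a : F, a ^ q * hh (pr u) (pr v) + a * hh (pr v) (pr u) = 0 := fun a => by
            have h := hex (u + a • v) c hc (by rw [Matrix.mulVec_add, Matrix.mulVec_smul, hu, hv, smul_add, smul_comm])
            rw [hadd, hh_add_left hF, hh_add_right hF, hh_add_right hF, hh_smul_left hF, hh_smul_left hF,
              hh_smul_right hF, hh_smul_right hF, hex u c hc hu, hex v c hc hv] at h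
            linear_combination h
          obtain ⟨a, ha⟩ := exists_not_fixed hF
          have h1 := key 1
          rw [one_pow, one_mul, one_mul] at h1
          exact (mul_eq_zero.1 (show (a ^ q - a) * hh (pr u) (pr v) = 0 by linear_combination key a - a * h1)).resolve_left
            (sub_ne_zero.2 ha)
        · exact horth hc hc' hcc (hpe u c hc hu) (hpe v c' hc' hv)
      have hin : ∀ v c, c ∈ E → x *ᵥ v = c • v → v ∈ Submodule.span F (Set.range f) := by
        intro v c hc hv
        have hall : ∀ u, u ∈ Submodule.span F {v | ∃ c ∈ E, x *ᵥ v = c • v} → hh u (pr v) = 0 := by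
          intro u hu
          induction hu using Submodule.span_induction with
          | mem u hu =>
            obtain ⟨c', hc', hu'⟩ := hu
            have h := hzero u v c' c hc' hc hu' hv
            rw [show pr u = u - ∑ i, hh u (f i) • f i from rfl, hh_sub_left hF, hsum] at h
            simpa [hh_smul_left hF, hh_comm_zero hF (hpr v _)] using h
          | zero => exact hh_zero_left hF _
          | add u w _ _ h1 h2 => rw [hh_add_left hF, h1, h2, add_zero]
          | smul a u _ h1 => rw [hh_smul_left hF, h1, mul_zero]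
        have hpr0 : pr v = 0 := funext fun i => by
          have h := hall (Pi.single i 1) (hspan ▸ Submodule.mem_top)
          have hq0 : q ≠ 0 := fun h' => by have := two_le_q hF; omega
          simpa [Cfsg.hermForm, Pi.single_apply, hq0] using h
        have : v = ∑ i, hh v (f i) • f i := sub_eq_zero.1 hpr0
        rw [this]
        exact Submodule.sum_mem _ fun i _ => Submodule.smul_mem _ _ (Submodule.subset_span ⟨i, rfl⟩)
      have htop : Submodule.span F (Set.range f) = ⊤ := top_le_iff.1 (hspan ▸ Submodule.span_le.2 fun v ⟨c, hc, hv⟩ => hin v c hc hv)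
      have := (finrank_range_le_card f : Set.finrank F (Set.range f) ≤ _)
      rw [Set.finrank, htop, finrank_top, Module.finrank_fin_fun, Fintype.card_fin] at this
      omega

end Cfsg.Agent.GeomClasses.UnitaryEigenFrame
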