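import Cfsg.Agent.GeomClasses.TwoHalvesUnitary
import Cfsg.Agent.GeomClasses.UnitaryEigenFrame
import Cfsg.Agent.GeomClasses.SubspaceDerange
import Cfsg.Agent.GeomClasses.DecompDerange

/-!
# Elements of prime order of unitary groups and pairs of totally singular halves
-/

set_option autoImplicit false

namespace Cfsg.Agent.GeomClasses.HalvesDerange

open Matrix Module Cfsg.Agent.Forms Cfsg.Agent.GeomClasses.Unitary

theorem card_ratio {q : ℕ} (hq : 1 ≤ q) : ∀ k : ℕ,
    q ^ ((k + k) * (k + k - 1) / 2) * ∏ i ∈ Finset.range (k + k), (if Even i then q ^ (i + 1) + 1 else q ^ (i + 1) - 1) =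
      (∏ i ∈ Finset.range k, ((q ^ 2) ^ k - (q ^ 2) ^ i)) * (q ^ (k * k) * ∏ i ∈ Finset.range k, (q ^ (2 * i + 1) + 1)) := by
  intro k
  have h1 : ∏ i ∈ Finset.range k, ((q ^ 2) ^ k - (q ^ 2) ^ i) =
      (∏ i ∈ Finset.range k, (q ^ 2) ^ i) * ∏ i ∈ Finset.range k, ((q ^ 2) ^ (i + 1) - 1) := by
    rw [← Finset.prod_range_reflect (fun i => (q ^ 2) ^ (i + 1) - 1) k, ← Finset.prod_mul_distrib]
    refine Finset.prod_congr rfl fun i hi => ?_
    rw [Finset.mem_range] at hi
    rw [Nat.mul_sub, mul_one, ← pow_add, show i + (k - 1 - i + 1) = k by omega]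
  have h2 : ∏ i ∈ Finset.range (k + k), (if Even i then q ^ (i + 1) + 1 else q ^ (i + 1) - 1) =
      ∏ i ∈ Finset.range k, ((q ^ (2 * i + 1) + 1) * ((q ^ 2) ^ (i + 1) - 1)) := by
    clear h1
    induction k with
    | zero => simp
    | succ k ih =>
      rw [show k + 1 + (k + 1) = k + k + 1 + 1 by omega, Finset.prod_range_succ, Finset.prod_range_succ,
        Finset.prod_range_succ (n := k), ih, if_pos (by simp), if_neg (by simp), mul_assoc, ← pow_mul,
        show k + k + 1 + 1 = 2 * (k + 1) by omega, show k + k + 1 = 2 * k + 1 by omega]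
  have h3 : (∏ i ∈ Finset.range k, (q ^ 2) ^ i) * q ^ (k * k) = q ^ ((k + k) * (k + k - 1) / 2) := by
    rw [Finset.prod_pow_eq_pow_sum, ← pow_mul, ← pow_add]
    congr 1
    have e := Finset.sum_range_id_mul_two k
    rcases k with _ | k
    · simp
    · rw [show k + 1 + (k + 1) - 1 = 2 * k + 1 by omega,
        show (k + 1 + (k + 1)) * (2 * k + 1) = 2 * ((k + 1) * (2 * k + 1)) by ring, Nat.mul_div_cancel_left _ two_pos]
      rw [Nat.add_sub_cancel] at e
      nlinarith
  rw [h1, h2, Finset.prod_mul_distrib, ← h3]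
  ring

variable {F : Type*} [Field F] [Fintype F] {q n k : ℕ} (hF : Fintype.card F = q ^ 2)

local notation "hh" => Cfsg.hermForm n F q
local notation "Vn" => (Fin n → F)

include hF

theorem hh_sum_left {ι : Type*} (s : Finset ι) (f : ι → Vn) (v : Vn) :
    hh (∑ i ∈ s, f i) v = ∑ i ∈ s, hh (f i) v := map_sum (hermB n hF v) f s

theorem hh_sum_right {ι : Type*} (s : Finset ι) (f : ι → Vn) (u : Vn) :
    hh u (∑ i ∈ s, f i) = ∑ i ∈ s, hh u (f i) := by
  show hermB n hF (∑ i ∈ s, f i) u = _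
  rw [map_sum, LinearMap.sum_apply]
  rfl

/-- A hyperbolic basis adapted to two halves. -/
theorem exists_hyp_basis {D : Fin 2 → Submodule F Vn} (hD : Cfsg.Geo.IsMDecomposition k D)
    (hts : ∀ i, ∀ x ∈ D i, ∀ y ∈ D i, hh x y = 0) :
    ∃ e : Basis (Fin k ⊕ Fin k) F Vn, D 0 = Submodule.span F (Set.range fun i => e (Sum.inl i)) ∧
      D 1 = Submodule.span F (Set.range fun i => e (Sum.inr i)) ∧
      ∀ i j, hh (e i) (e j) = if i = Sum.swap j then 1 else 0 := by
  classical
  have hc := decomp_two_isCompl hD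
  let b : Basis (Fin k) F (D 0) := Module.finBasisOfFinrankEq F (D 0) (hD.finrank_eq 0)
  have hc' : ∀ i, ∃ d ∈ D 1, ∀ a : D 0, hh (a : Vn) d = b.coord i a := fun i => exists_dual hF hc (hts 0) _
  choose c hcD hcv using hc'
  have hbc : ∀ i j, hh (b i : Vn) (c j) = if i = j then 1 else 0 := fun i j => by
    rw [hcv, Basis.coord_apply, Basis.repr_self, Finsupp.single_apply]
  have hcb : ∀ i j, hh (c j) (b i : Vn) = if i = j then 1 else 0 := fun i j => by
    rw [← hh_conj hF (b i : Vn) (c j), hbc]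
    split_ifs with h
    · rw [one_pow]
    · exact zero_pow_q hF
  let v : Fin k ⊕ Fin k → Vn := Sum.elim (fun i => (b i : Vn)) c
  have hgram : ∀ i j, hh (v i) (v j) = if i = Sum.swap j then (1 : F) else 0 := by
    rintro (i | i) (j | j)
    · simp [v, hts 0 _ (b i).2 _ (b j).2]
    · simp [v, hbc]
    · simp [v, hcb, eq_comm]
    · simp [v, hts 1 _ (hcD i) _ (hcD j)]
  have hli : LinearIndependent F v := by
    rw [Fintype.linearIndependent_iff]
    intro a ha i
    have h1 : hh (∑ j, a j • v j) (v (Sum.swap i)) = 0 := by rw [ha, hh_zero_left hF]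
    rw [hh_sum_left hF] at h1
    simp only [hh_smul_left hF, hgram, Sum.swap_swap, mul_ite, mul_one, mul_zero, Finset.sum_ite_eq',
      Finset.mem_univ, if_true] at h1
    exact h1
  have hcard : Fintype.card (Fin k ⊕ Fin k) = finrank F Vn := by
    have := Submodule.finrank_add_eq_of_isCompl hc
    rw [hD.finrank_eq, hD.finrank_eq] at this
    rw [Fintype.card_sum, Fintype.card_fin, this]
  have : Nonempty (Fin k ⊕ Fin k) := ⟨Sum.inl ⟨0, hD.pos⟩⟩
  let e := basisOfLinearIndependentOfCardEqFinrank hli hcard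
  have he : ∀ i, e i = v i := fun i => by rw [coe_basisOfLinearIndependentOfCardEqFinrank]
  have hspan : ∀ (j : Fin 2) (f : Fin k → Fin k ⊕ Fin k), Function.Injective f → (∀ i, v (f i) ∈ D j) →
      D j = Submodule.span F (Set.range fun i => e (f i)) := by
    intro j f hf h
    refine (Submodule.eq_of_le_of_finrank_eq (Submodule.span_le.2 ?_) ?_).symm
    · rintro _ ⟨i, rfl⟩
      simpa [he] using h i
    · exact (finrank_span_eq_card (e.linearIndependent.comp f hf)).trans
        ((Fintype.card_fin k).trans (hD.finrank_eq j).symm)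
  exact ⟨e, hspan 0 Sum.inl Sum.inl_injective fun i => (b i).2, hspan 1 Sum.inr Sum.inr_injective hcD,
    fun i j => by rw [he, he, hgram]⟩

/-- A linear map keeping the Gram matrix of a basis is an isometry. -/
theorem isometry_of_gram {ι : Type*} [Fintype ι] (e : Basis ι F Vn) (f : Vn →ₗ[F] Vn)
    (h : ∀ i j, hh (f (e i)) (f (e j)) = hh (e i) (e j)) (x y : Vn) : hh (f x) (f y) = hh x y := by
  conv_rhs => rw [← e.sum_equivFun x, ← e.sum_equivFun y]
  conv_lhs => rw [← e.sum_equivFun x, ← e.sum_equivFun y]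
  simp only [map_sum, map_smul, hh_sum_left hF, hh_sum_right hF, hh_smul_left hF, hh_smul_right hF, h]

/-- Bases with equal Gram matrices are related by an isometry. -/
theorem exists_isometry {ι : Type*} [Fintype ι] (e e' : Basis ι F Vn) (h : ∀ i j, hh (e' i) (e' j) = hh (e i) (e j)) :
    ∃ g : GL (Fin n) F, g ∈ Cfsg.GU n F q ∧ ∀ i, (g : Matrix (Fin n) (Fin n) F) *ᵥ e i = e' i := by
  let g : GL (Fin n) F := (glEquiv (Fin n) F).symm (e.equiv e' (Equiv.refl ι))
  have hg : ∀ x, (g : Matrix (Fin n) (Fin n) F) *ᵥ x = (e.equiv e' (Equiv.refl ι) : Vn →ₗ[F] Vn) x := fun x =>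
    glEquiv_symm_mulVec _ x
  refine ⟨g, mem_GU_iff.mpr fun x y => ?_, fun i => by rw [hg]; simp⟩
  rw [hg, hg]
  exact isometry_of_gram hF e _ (fun i j => by simp [h]) x y

/-- Every element of norm one is a `(q - 1)`st power. -/
theorem exists_pow_sub_one {μ : F} (hμ : μ ^ (q + 1) = 1) : ∃ τ : F, τ ≠ 0 ∧ τ ^ (q - 1) = μ := by
  have hq := two_le_q hF
  obtain ⟨g, hg⟩ := IsCyclic.exists_generator (α := Fˣ)
  have hμ0 : μ ≠ 0 := fun h => by rw [h, zero_pow (by omega)] at hμ; exact zero_ne_one hμ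
  obtain ⟨m, hm⟩ := mem_powers_iff_mem_zpowers.2 (hg (Units.mk0 μ hμ0))
  simp only at hm
  have hord : orderOf g = (q + 1) * (q - 1) := by
    rw [orderOf_eq_card_of_forall_mem_zpowers hg, Nat.card_units, Nat.card_eq_fintype_card, hF]
    simpa using Nat.sq_sub_sq q 1
  have h : g ^ (m * (q + 1)) = 1 := by
    rw [pow_mul, hm]; exact Units.ext (by simpa using hμ)
  have h2 := orderOf_dvd_of_pow_eq_one h
  rw [hord, mul_comm m] at h2
  obtain ⟨c, rfl⟩ := Nat.dvd_of_mul_dvd_mul_left (by omega) h2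
  refine ⟨((g ^ c : Fˣ) : F), Units.ne_zero _, ?_⟩
  rw [← Units.val_pow_eq_pow_val, ← pow_mul, mul_comm c, hm]
  rfl

/-- The determinant of an isometry has norm one. -/
theorem det_norm {g : GL (Fin n) F} (hg : g ∈ Cfsg.GU n F q) : (g : Matrix (Fin n) (Fin n) F).det ^ (q + 1) = 1 := by
  classical
  have hq := two_le_q hF
  have h : ((g : Matrix (Fin n) (Fin n) F).map (fun a => a ^ q))ᵀ * (g : Matrix (Fin n) (Fin n) F) = 1 := by
    ext i j
    have h := hg (Pi.single j 1) (Pi.single i 1)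
    simp only [Cfsg.hermForm, Matrix.mulVec_single_one, Matrix.col_apply] at h
    rw [Matrix.mul_apply]
    simp only [Matrix.transpose_apply, Matrix.map_apply]
    rw [show (∑ l, (g : Matrix (Fin n) (Fin n) F) l i ^ q * (g : Matrix (Fin n) (Fin n) F) l j) =
      ∑ l, (g : Matrix (Fin n) (Fin n) F) l j * (g : Matrix (Fin n) (Fin n) F) l i ^ q from
        Finset.sum_congr rfl fun l _ => mul_comm _ _]
    refine h.trans ?_
    rw [Matrix.one_apply]
    simp [Pi.single_apply, zero_pow (show q ≠ 0 by omega), ite_pow]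
  have h2 := congrArg Matrix.det h
  rw [Matrix.det_mul, Matrix.det_transpose, Matrix.det_one,
    show ((g : Matrix (Fin n) (Fin n) F).map (fun a => a ^ q)) = (frobQ hF).mapMatrix (g : Matrix (Fin n) (Fin n) F) from rfl,
    ← RingHom.map_det] at h2
  rw [pow_succ]
  exact h2

/-- Two totally singular subspaces spanning the space are halves. -/
theorem pair_decomp (hnk : n = k * 2) (hk : 1 ≤ k) {W : Fin 2 → Submodule F Vn}
    (hs : ∀ i, ∀ u ∈ W i, ∀ v ∈ W i, hh u v = 0) (htop : W 0 ⊔ W 1 = ⊤) : Cfsg.Geo.IsMDecomposition k W := by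
  have hle : ∀ i, finrank F (W i) ≤ k := fun i => by
    have h4 := (isForm_herm (n := n) hF).finrank_le_of_le_perp (X := W i) (fun v hv => (mem_perp_iff hF).2 fun u hu => hs i v hv u hu)
    rw [Module.finrank_fin_fun] at h4
    omega
  have hsum := Submodule.finrank_sup_add_finrank_inf_eq (W 0) (W 1)
  rw [htop, finrank_top, Module.finrank_fin_fun] at hsum
  have h0 := hle 0
  have h1 := hle 1
  refine (DecompDerange.of_iSup hk le_rfl hnk ?_ ?_).1
  · intro j
    fin_cases j
    · show finrank F (W 0) = k; omega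
    · show finrank F (W 1) = k; omega
  · exact eq_top_iff.2 (htop ▸ sup_le (le_iSup W 0) (le_iSup W 1))

/-- The special unitary group is transitive on pairs of totally singular halves. -/
theorem exists_mover {D D' : Fin 2 → Submodule F Vn} (hD : Cfsg.Geo.IsMDecomposition k D)
    (hts : ∀ i, ∀ x ∈ D i, ∀ y ∈ D i, hh x y = 0) (hD' : Cfsg.Geo.IsMDecomposition k D')
    (hts' : ∀ i, ∀ x ∈ D' i, ∀ y ∈ D' i, hh x y = 0) :
    ∃ g ∈ SUgl n F q, ∀ i, (D i).map (Matrix.toLin' (g : Matrix (Fin n) (Fin n) F)) = D' i := by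
  classical
  obtain ⟨e, he0, he1, hge⟩ := exists_hyp_basis hF hD hts
  obtain ⟨e', he0', he1', hge'⟩ := exists_hyp_basis hF hD' hts'
  obtain ⟨g₁, hg₁, hg₁e⟩ := exists_isometry hF e e' (fun i j => by rw [hge, hge'])
  have hq := two_le_q hF
  have hdU : ((g₁ : Matrix (Fin n) (Fin n) F).det)⁻¹ ^ (q + 1) = 1 := by
    rw [inv_pow, det_norm hF hg₁, _root_.inv_one]
  obtain ⟨τ, hτ0, hτ⟩ := exists_pow_sub_one hF hdU
  -- a diagonal correction
  let i₀ : Fin k := ⟨0, hD.pos⟩
  let w : Fin k ⊕ Fin k → F := Sum.elim (fun i => if i = i₀ then (τ⁻¹) else 1) (fun i => if i = i₀ then τ ^ q else 1)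
  have hw : ∀ i, w i ≠ 0 := by
    rintro (i | i) <;> simp only [w, Sum.elim_inl, Sum.elim_inr] <;> split_ifs <;> simp [hτ0]
  let e₂ := e.unitsSMul fun i => Units.mk0 (w i) (hw i)
  have he₂ : ∀ i, e₂ i = w i • e i := fun i => by simp [e₂, Basis.unitsSMul_apply]
  obtain ⟨g₂, hg₂, hg₂e⟩ := exists_isometry hF e e₂ (fun i j => by
    rw [he₂, he₂, hh_smul_left hF, hh_smul_right hF, hge]
    rcases i with i | i <;> rcases j with j | j <;> simp only [w, Sum.swap, Sum.elim_inl, Sum.elim_inr, reduceCtorEq,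
      if_false, mul_zero, Sum.inl.injEq, Sum.inr.injEq]
    all_goals by_cases hij : i = j
    all_goals first
      | (subst hij; simp only [if_true, mul_one]; split_ifs <;> simp [pow_q_q hF, hτ0])
      | simp [hij])
  have hdet₂ : (g₂ : Matrix (Fin n) (Fin n) F).det = τ⁻¹ * τ ^ q := by
    rw [← LinearMap.det_toLin', ← LinearMap.det_toMatrix e,
      show LinearMap.toMatrix e e (Matrix.toLin' (g₂ : Matrix (Fin n) (Fin n) F)) = Matrix.diagonal w from by
        ext i j
        rw [LinearMap.toMatrix_apply, Matrix.toLin'_apply, hg₂e, he₂, map_smul, Basis.repr_self, Matrix.diagonal_apply]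
        by_cases hij : i = j <;> simp [hij]]
    rw [Matrix.det_diagonal, Fintype.prod_sum_type]
    simp only [w, Sum.elim_inl, Sum.elim_inr, Finset.prod_ite_eq', Finset.mem_univ, if_true]
  refine ⟨g₁ * g₂, ⟨mul_mem hg₁ hg₂, mem_specialLinear_iff.mpr ?_⟩, ?_⟩
  · rw [Units.val_mul, Matrix.det_mul, hdet₂, show τ ^ q = τ ^ (q - 1) * τ by rw [← pow_succ, Nat.sub_add_cancel (by omega)],
      hτ, mul_comm _ τ, inv_mul_cancel_left₀ hτ0]
    exact mul_inv_cancel₀ (fun h0 => by rw [h0, _root_.inv_zero, zero_pow (by omega)] at hdU; exact zero_ne_one hdU)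
  · have hmap : ∀ (f : Fin k → Fin k ⊕ Fin k), (Submodule.span F (Set.range fun i => e (f i))).map
        (Matrix.toLin' ((g₁ * g₂ : GL (Fin n) F) : Matrix (Fin n) (Fin n) F)) = Submodule.span F (Set.range fun i => e' (f i)) := by
      intro f
      refine le_antisymm ?_ (Submodule.span_le.2 ?_)
      · rw [Submodule.map_span_le]
        rintro _ ⟨i, rfl⟩
        rw [Matrix.toLin'_apply, Units.val_mul, ← Matrix.mulVec_mulVec, hg₂e, he₂, Matrix.mulVec_smul, hg₁e]
        exact Submodule.smul_mem _ _ (Submodule.subset_span ⟨i, rfl⟩)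
      · rintro _ ⟨i, rfl⟩
        refine ⟨(w (f i))⁻¹ • e (f i), Submodule.smul_mem _ _ (Submodule.subset_span ⟨i, rfl⟩), ?_⟩
        rw [map_smul, Matrix.toLin'_apply, Units.val_mul, ← Matrix.mulVec_mulVec, hg₂e, he₂, Matrix.mulVec_smul, hg₁e,
          smul_smul, inv_mul_cancel₀ (hw _), one_smul]
    intro i
    fin_cases i
    · show (D 0).map _ = D' 0
      rw [he0, he0', hmap]
    · show (D 1).map _ = D' 1
      rw [he1, he1', hmap]

/-- A conjugate lies in the stabiliser as soon as some pair of halves is stable. -/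
theorem conj_of_pair {D : Fin 2 → Submodule F Vn} (hD : Cfsg.Geo.IsMDecomposition k D)
    (hts : ∀ i, ∀ x ∈ D i, ∀ y ∈ D i, hh x y = 0) {x : GL (Fin n) F} {W : Fin 2 → Submodule F Vn}
    (hW : Cfsg.Geo.IsMDecomposition k W) (hWs : ∀ i, ∀ u ∈ W i, ∀ v ∈ W i, hh u v = 0) (σ : Equiv.Perm (Fin 2))
    (hσ : ∀ i, (W i).map (Matrix.toLin' (x : Matrix (Fin n) (Fin n) F)) = W (σ i)) :
    ∃ g ∈ SUgl n F q, g⁻¹ * x * g ∈ Cfsg.Geo.decompositionStabilizer D := by
  obtain ⟨g, hg, hgD⟩ := exists_mover hF hD hts hW hWs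
  refine ⟨g, hg, σ, fun i => ?_⟩
  rw [Units.val_mul, Units.val_mul, Matrix.toLin'_mul, Matrix.toLin'_mul, Submodule.map_comp, hgD i,
    Submodule.map_comp, hσ, ← hgD (σ i), ← Submodule.map_comp, ← Matrix.toLin'_mul, ← Units.val_mul, inv_mul_cancel,
    Units.val_one, Matrix.toLin'_one, Submodule.map_id]

/-- A conjugate in the stabiliser gives an invariant pair of halves, not interchanged for odd prime order. -/
theorem invariant_of_conj {D : Fin 2 → Submodule F Vn} (hD : Cfsg.Geo.IsMDecomposition k D)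
    (hts : ∀ i, ∀ x ∈ D i, ∀ y ∈ D i, hh x y = 0) {x g : GL (Fin n) F} (hg : g ∈ Cfsg.GU n F q)
    (h : g⁻¹ * x * g ∈ Cfsg.Geo.decompositionStabilizer D) :
    ∃ W : Fin 2 → Submodule F Vn, (∀ i, ∀ u ∈ W i, ∀ v ∈ W i, hh u v = 0) ∧ (∀ i, finrank F (W i) = k) ∧
      W 0 ⊔ W 1 = ⊤ ∧ W 0 ⊓ W 1 = ⊥ ∧ ∃ σ : Equiv.Perm (Fin 2), ∀ i, (W i).map (Matrix.toLin' (x : Matrix (Fin n) (Fin n) F)) = W (σ i) := by
  obtain ⟨σ, hσ⟩ := h
  have hinj : Function.Injective (Matrix.toLin' (g : Matrix (Fin n) (Fin n) F)) := fun u v huv => by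
    have h' := congrArg ((g⁻¹ : GL (Fin n) F) : Matrix (Fin n) (Fin n) F).mulVec huv
    simpa [Matrix.toLin'_apply, Matrix.mulVec_mulVec] using h'
  have hsurj : LinearMap.range (Matrix.toLin' (g : Matrix (Fin n) (Fin n) F)) = ⊤ :=
    LinearMap.range_eq_top.2 (LinearMap.injective_iff_surjective.1 hinj)
  refine ⟨fun i => (D i).map (Matrix.toLin' (g : Matrix (Fin n) (Fin n) F)), ?_, ?_, ?_, ?_, σ, fun i => ?_⟩
  · rintro i _ ⟨u, hu, rfl⟩ _ ⟨v, hv, rfl⟩
    rw [Matrix.toLin'_apply, Matrix.toLin'_apply, mem_GU_iff.1 hg]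
    exact hts i u hu v hv
  · intro i
    rw [← (Submodule.equivMapOfInjective _ hinj (D i)).finrank_eq, hD.finrank_eq]
  · rw [← Submodule.map_sup, (decomp_two_isCompl hD).sup_eq_top, Submodule.map_top, hsurj]
  · rw [← Submodule.map_inf _ hinj, (decomp_two_isCompl hD).inf_eq_bot, Submodule.map_bot]
  · show ((D i).map _).map _ = (D (σ i)).map _
    rw [← hσ i, ← Submodule.map_comp, ← Submodule.map_comp, ← Matrix.toLin'_mul, ← Matrix.toLin'_mul, ← Units.val_mul,
      ← Units.val_mul, ← mul_assoc, ← mul_assoc, mul_inv_cancel, one_mul]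

/-- For odd `r` an element whose stable totally singular subspaces lie in a proper subspace has no fixed point. -/
theorem derangement {D : Fin 2 → Submodule F Vn} (hD : Cfsg.Geo.IsMDecomposition k D)
    (hts : ∀ i, ∀ x ∈ D i, ∀ y ∈ D i, hh x y = 0) {r : ℕ} (hr : Odd r) {x : GL (Fin n) F}
    (hxr : x ^ r = 1) {K : Submodule F Vn} (hK : K ≠ ⊤)
    (hkey : ∀ W : Submodule F Vn, (∀ u ∈ W, ∀ v ∈ W, hh u v = 0) →
      (∀ u ∈ W, (x : Matrix (Fin n) (Fin n) F) *ᵥ u ∈ W) → W ≤ K) :
    ¬ ∃ g ∈ SUgl n F q, g⁻¹ * x * g ∈ Cfsg.Geo.decompositionStabilizer D := by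
  rintro ⟨g, hg, h⟩
  obtain ⟨W, hWs, hWk, htop, hbot, σ, hσ⟩ := invariant_of_conj hF hD hts hg.1 h
  have hpow : ∀ (m : ℕ) (i : Fin 2), (W i).map (Matrix.toLin' ((x ^ m : GL (Fin n) F) : Matrix (Fin n) (Fin n) F)) = W ((σ ^ m) i) := by
    intro m
    induction m with
    | zero => intro i; simp
    | succ m ih =>
      intro i
      rw [pow_succ', Units.val_mul, Matrix.toLin'_mul, Submodule.map_comp, ih, hσ, pow_succ', Equiv.Perm.mul_apply]
  have hfix : ∀ i, σ i = i := by
    intro i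
    by_contra hne
    have hσ2 : σ * σ = 1 := Equiv.ext fun j => by
      show σ (σ j) = j
      have hi : ∀ a b c : Fin 2, a ≠ b → c ≠ a → c = b := by decide
      by_cases hj : σ j = j
      · rw [hj, hj]
      · exact hi (σ j) j (σ (σ j)) hj (fun e => hj (σ.injective e))
    obtain ⟨l, rfl⟩ := hr
    have h1 := hpow (2 * l + 1) i
    rw [hxr, Units.val_one, Matrix.toLin'_one, Submodule.map_id, pow_succ', pow_mul, pow_two, hσ2, one_pow, mul_one] at h1
    have h2 : W 0 = W 1 := by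
      have hi : ∀ a b : Fin 2, a ≠ b → (a = 1 ∧ b = 0) ∨ (a = 0 ∧ b = 1) := by decide
      rcases hi _ _ hne with ⟨e1, e2⟩ | ⟨e1, e2⟩
      · rw [e1, e2] at h1; exact h1
      · rw [e1, e2] at h1; exact h1.symm
    rw [h2, inf_idem] at hbot
    rw [h2, sup_idem, hbot] at htop
    have : finrank F (W 1) = k := hWk 1
    rw [hbot, finrank_bot] at this
    exact absurd hD.pos (by omega)
  refine hK (eq_top_iff.2 (htop ▸ sup_le ?_ ?_)) <;> refine hkey _ (hWs _) fun u hu => ?_
  · have := hσ 0; rw [hfix] at this; exact this ▸ ⟨u, hu, rfl⟩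
  · have := hσ 1; rw [hfix] at this; exact this ▸ ⟨u, hu, rfl⟩

/-- The index of the stabiliser divides `q ^ k² ∏ (q ^ (2i+1) + 1)`. -/
theorem index_dvd {D : Fin 2 → Submodule F Vn} (hD : Cfsg.Geo.IsMDecomposition k D)
    (hts : ∀ i, ∀ x ∈ D i, ∀ y ∈ D i, hh x y = 0) :
    (Cfsg.Geo.decompositionStabilizer D).relIndex (SUgl n F q) ∣
      q ^ (k * k) * ∏ i ∈ Finset.range k, (q ^ (2 * i + 1) + 1) := by
  classical
  obtain ⟨e, he0, he1, hge⟩ := exists_hyp_basis hF hD hts
  have hnk : n = k + k := by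
    have := Submodule.finrank_add_eq_of_isCompl (decomp_two_isCompl hD)
    rwa [hD.finrank_eq, hD.finrank_eq, Module.finrank_fin_fun, eq_comm] at this
  let B : GL (Fin k) F → Matrix (Fin k) (Fin k) F := fun A =>
    ((frobQ hF).mapMatrix ((A⁻¹ : GL (Fin k) F) : Matrix (Fin k) (Fin k) F))ᵀ
  let ψ₀ : GL (Fin k) F →* Matrix (Fin n) (Fin n) F :=
    { toFun := fun A => LinearMap.toMatrix' (Matrix.toLin e e (Matrix.fromBlocks (A : Matrix (Fin k) (Fin k) F) 0 0 (B A)))
      map_one' := by simp [B, Matrix.map_one _ (map_zero (frobQ hF)) (map_one (frobQ hF)), Matrix.fromBlocks_one]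
      map_mul' := fun A A' => by
        rw [← LinearMap.toMatrix'_comp, ← Matrix.toLin_mul, Matrix.fromBlocks_multiply]
        simp only [B, Units.val_mul, _root_.mul_inv_rev, map_mul, Matrix.transpose_mul, Matrix.zero_mul, Matrix.mul_zero,
          add_zero, zero_add] }
  let ψ : GL (Fin k) F →* GL (Fin n) F := ψ₀.toHomUnits
  have hψ : ∀ A, Matrix.toLin' ((ψ A : GL (Fin n) F) : Matrix (Fin n) (Fin n) F) =
      Matrix.toLin e e (Matrix.fromBlocks (A : Matrix (Fin k) (Fin k) F) 0 0 (B A)) := fun A =>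
    Matrix.toLin'_toMatrix' _
  have hψl : ∀ A i, Matrix.toLin' ((ψ A : GL (Fin n) F) : Matrix (Fin n) (Fin n) F) (e (Sum.inl i)) =
      ∑ l, (A : Matrix (Fin k) (Fin k) F) l i • e (Sum.inl l) := fun A i => by
    rw [hψ, Matrix.toLin_self, Fintype.sum_sum_type]; simp
  have hψr : ∀ A i, Matrix.toLin' ((ψ A : GL (Fin n) F) : Matrix (Fin n) (Fin n) F) (e (Sum.inr i)) =
      ∑ l, B A l i • e (Sum.inr l) := fun A i => by
    rw [hψ, Matrix.toLin_self, Fintype.sum_sum_type]; simp
  have hinj : Function.Injective ψ := fun A A' h => Units.ext (by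
    have h' := congrArg (fun g : GL (Fin n) F => Matrix.toLin' (g : Matrix (Fin n) (Fin n) F)) h
    simp only [hψ] at h'
    exact (Matrix.fromBlocks_inj.1 ((Matrix.toLin e e).injective h')).1)
  have hGU : ∀ A, ψ A ∈ Cfsg.GU n F q := fun A => mem_GU_iff.mpr fun u v => by
    rw [← Matrix.toLin'_apply, ← Matrix.toLin'_apply]
    refine isometry_of_gram hF e _ (fun i j => ?_) u v
    have hAB : ∀ i j, ∑ l, (A : Matrix (Fin k) (Fin k) F) l i * B A l j ^ q = if i = j then 1 else 0 := by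
      intro i j
      simp only [B, Matrix.transpose_apply, RingHom.mapMatrix_apply, Matrix.map_apply]
      have h2 : ∀ a : F, (frobQ hF a) ^ q = a := fun a => frobQ_frobQ hF a
      have h := congrFun (congrFun (show ((A⁻¹ : GL (Fin k) F) : Matrix (Fin k) (Fin k) F) * (A : Matrix (Fin k) (Fin k) F) = 1 by
        rw [← Units.val_mul, inv_mul_cancel, Units.val_one]) j) i
      rw [Matrix.mul_apply, Matrix.one_apply] at h
      simp only [h2]
      rw [Finset.sum_congr rfl fun l _ => mul_comm _ _, h]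
      simp [eq_comm]
    have hBA : ∀ i j, ∑ l, B A l i * (A : Matrix (Fin k) (Fin k) F) l j ^ q = if i = j then 1 else 0 := by
      intro i j
      have h := congrArg (frobQ hF) (hAB j i)
      rw [map_sum] at h
      simp only [map_mul, map_pow, apply_ite (frobQ hF), map_one, map_zero] at h
      rw [show (if i = j then (1 : F) else 0) = if j = i then 1 else 0 by simp [eq_comm], ← h]
      refine Finset.sum_congr rfl fun l _ => ?_
      rw [show frobQ hF (B A l i) ^ q = B A l i from frobQ_frobQ hF _, mul_comm]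
      rfl
    rcases i with i | i <;> rcases j with j | j <;>
      simp only [hψl, hψr, hh_sum_left hF, hh_sum_right hF, hh_smul_left hF, hh_smul_right hF, hge, Sum.swap_inl, Sum.swap_inr,
        reduceCtorEq, if_false, mul_zero, Finset.sum_const_zero, Sum.inl.injEq, Sum.inr.injEq, mul_ite, mul_one,
        Finset.sum_ite_eq, Finset.mem_univ, if_true, hAB, hBA]
  have hcardL : Nat.card ψ.range = ∏ i ∈ Finset.range k, ((q ^ 2) ^ k - (q ^ 2) ^ i) := by
    rw [← Nat.card_congr (MonoidHom.ofInjective hinj).toEquiv, Matrix.card_GL_field, hF,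
      ← Finset.prod_range (fun i => (q ^ 2) ^ k - (q ^ 2) ^ i)]
  have hLGU : ψ.range ≤ Cfsg.GU n F q := by rintro _ ⟨A, rfl⟩; exact hGU A
  have hLstab : ψ.range ≤ Cfsg.Geo.decompositionStabilizer D := by
    rintro _ ⟨A, rfl⟩
    refine mem_decomp_two hD fun i => ⟨i, fun x hx => ?_⟩
    rw [← Matrix.toLin'_apply]
    fin_cases i
    · show _ ∈ D 0
      replace hx : x ∈ D 0 := hx
      rw [he0] at hx ⊢
      refine (show (Submodule.span F _).map _ ≤ _ from ?_) ⟨x, hx, rfl⟩
      rw [Submodule.map_span_le]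
      rintro _ ⟨i, rfl⟩
      rw [hψl]
      exact Submodule.sum_mem _ fun l _ => Submodule.smul_mem _ _ (Submodule.subset_span ⟨l, rfl⟩)
    · show _ ∈ D 1
      replace hx : x ∈ D 1 := hx
      rw [he1] at hx ⊢
      refine (show (Submodule.span F _).map _ ≤ _ from ?_) ⟨x, hx, rfl⟩
      rw [Submodule.map_span_le]
      rintro _ ⟨i, rfl⟩
      rw [hψr]
      exact Submodule.sum_mem _ fun l _ => Submodule.smul_mem _ _ (Submodule.subset_span ⟨l, rfl⟩)
  -- index computation
  set L := ψ.range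
  set S := Cfsg.Geo.specialLinear (Fin n) F
  refine (Subgroup.relIndex_dvd_of_le_left (SUgl n F q) hLstab).trans ?_
  have hidx : L.relIndex (Cfsg.GU n F q) = q ^ (k * k) * ∏ i ∈ Finset.range k, (q ^ (2 * i + 1) + 1) := by
    have h := Subgroup.relIndex_mul_relIndex ⊥ L (Cfsg.GU n F q) bot_le hLGU
    rw [Subgroup.relIndex_bot_left, Subgroup.relIndex_bot_left, card_GU hF n, hcardL] at h
    subst hnk
    rw [card_ratio (by have := two_le_q hF; omega) k] at h
    refine Nat.eq_of_mul_eq_mul_left ?_ h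
    refine Finset.prod_pos fun i hi => ?_
    have := Nat.pow_lt_pow_right (show 1 < q ^ 2 by rw [← hF]; exact Fintype.one_lt_card) (Finset.mem_range.1 hi)
    omega
  have hdet : S = (Matrix.GeneralLinearGroup.det : GL (Fin n) F →* Fˣ).ker := by
    ext g
    rw [mem_specialLinear_iff, MonoidHom.mem_ker, Units.ext_iff]
    rfl
  have hb : S.relIndex L ∣ S.relIndex (Cfsg.GU n F q) := by
    rw [hdet, Subgroup.relIndex_ker, Subgroup.relIndex_ker]
    exact Subgroup.card_dvd_of_le (Subgroup.map_mono hLGU)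
  have hK1 := Subgroup.relIndex_mul_relIndex (L ⊓ SUgl n F q) L (Cfsg.GU n F q) inf_le_left hLGU
  have hK2 := Subgroup.relIndex_mul_relIndex (L ⊓ SUgl n F q) (SUgl n F q) (Cfsg.GU n F q) inf_le_right inf_le_left
  have e1 : (L ⊓ SUgl n F q).relIndex L = S.relIndex L := by
    rw [inf_comm, Subgroup.inf_relIndex_right, show SUgl n F q = S ⊓ Cfsg.GU n F q from inf_comm _ _]
    rw [← Subgroup.inf_relIndex_right, inf_assoc, inf_eq_right.2 hLGU, Subgroup.inf_relIndex_right]
  have e2 : (L ⊓ SUgl n F q).relIndex (SUgl n F q) = L.relIndex (SUgl n F q) := Subgroup.inf_relIndex_right _ _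
  have e3 : (SUgl n F q).relIndex (Cfsg.GU n F q) = S.relIndex (Cfsg.GU n F q) := Subgroup.inf_relIndex_left _ _
  rw [← hidx]
  obtain ⟨c, hc⟩ := hb
  rw [e1] at hK1
  rw [e2, e3, ← hK1, hc, mul_left_comm] at hK2
  have hpos : 0 < S.relIndex L := Nat.pos_of_ne_zero Subgroup.index_ne_zero_of_finite
  exact ⟨c, (Nat.eq_of_mul_eq_mul_left hpos hK2).symm⟩

end Cfsg.Agent.GeomClasses.HalvesDerange
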