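import Mathlib

/-!
Unipotent elements of prescribed block type and the types of their invariant subspaces.
-/

set_option autoImplicit false

namespace Cfsg.Agent.GeomClasses.JordanType

open Module

variable {F V : Type*} [Field F] [AddCommGroup V] [Module F V] [FiniteDimensional F V]

/-- The dimension of the image of `D` under `N ^ k`. -/
noncomputable def imDim (N : V →ₗ[F] V) (D : Submodule F V) (k : ℕ) : ℕ := finrank F (D.map (N ^ k))

/-- The number of blocks of `D` longer than `k`. -/
noncomputable def topDim (N : V →ₗ[F] V) (D : Submodule F V) (k : ℕ) : ℕ :=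
  finrank F ↥(D.map (N ^ k) ⊓ LinearMap.ker N)

theorem finrank_map_add (N : V →ₗ[F] V) (S : Submodule F V) :
    finrank F (S.map N) + finrank F ↥(S ⊓ LinearMap.ker N) = finrank F S := by
  have h := LinearMap.finrank_range_add_finrank_ker (N.domRestrict S)
  rw [LinearMap.range_domRestrict] at h
  have e : finrank F (LinearMap.ker (N.domRestrict S)) = finrank F ↥(S ⊓ LinearMap.ker N) := by
    rw [← Submodule.finrank_map_subtype_eq S (LinearMap.ker (N.domRestrict S))]
    refine congrArg (fun W : Submodule F V => finrank F W) ?_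
    ext v
    simp only [Submodule.mem_map, LinearMap.mem_ker, Submodule.mem_inf]
    exact ⟨fun ⟨w, hw, hv⟩ => hv ▸ ⟨w.2, hw⟩, fun ⟨h1, h2⟩ => ⟨⟨v, h1⟩, h2, rfl⟩⟩
  omega

theorem imDim_succ (N : V →ₗ[F] V) (D : Submodule F V) (k : ℕ) :
    imDim N D (k + 1) + topDim N D k = imDim N D k := by
  rw [imDim, imDim, topDim, pow_succ', Module.End.mul_eq_comp, Submodule.map_comp]
  exact finrank_map_add N _

theorem topDim_anti {N : V →ₗ[F] V} {D : Submodule F V} (hD : D.map N ≤ D) (k : ℕ) :
    topDim N D (k + 1) ≤ topDim N D k := by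
  refine Submodule.finrank_mono (inf_le_inf_right _ ?_)
  rw [pow_succ, Module.End.mul_eq_comp, Submodule.map_comp]
  exact Submodule.map_mono hD

theorem map_pow_le {N : V →ₗ[F] V} {D : Submodule F V} (hD : D.map N ≤ D) (k : ℕ) : D.map (N ^ k) ≤ D := by
  induction k with
  | zero => simp [Module.End.one_eq_id]
  | succ k ih => rw [pow_succ', Module.End.mul_eq_comp, Submodule.map_comp]; exact (Submodule.map_mono ih).trans hD

theorem imDim_split {N : V →ₗ[F] V} {D E : Submodule F V} (hD : D.map N ≤ D) (hE : E.map N ≤ E) (h : IsCompl D E)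
    (k : ℕ) : imDim N ⊤ k = imDim N D k + imDim N E k := by
  have hdisj : Disjoint (D.map (N ^ k)) (E.map (N ^ k)) := h.disjoint.mono (map_pow_le hD k) (map_pow_le hE k)
  rw [imDim, imDim, imDim, ← h.sup_eq_top, Submodule.map_sup]
  have := Submodule.finrank_sup_add_finrank_inf_eq (D.map (N ^ k)) (E.map (N ^ k))
  rw [hdisj.eq_bot, finrank_bot] at this
  omega

theorem topDim_split {N : V →ₗ[F] V} {D E : Submodule F V} (hD : D.map N ≤ D) (hE : E.map N ≤ E) (h : IsCompl D E)
    (k : ℕ) : topDim N ⊤ k = topDim N D k + topDim N E k := by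
  have h1 := imDim_succ N ⊤ k
  have h2 := imDim_succ N D k
  have h3 := imDim_succ N E k
  have h4 := imDim_split hD hE h k
  have h5 := imDim_split hD hE h (k + 1)
  omega


/-- Shift of a block-indexed vector. -/
def shift {l : ℕ} (L : Fin l → ℕ) : ((Σ b : Fin l, Fin (L b)) → F) →ₗ[F] ((Σ b : Fin l, Fin (L b)) → F) where
  toFun f s := if h : 1 ≤ (s.2 : ℕ) then f ⟨s.1, ⟨(s.2 : ℕ) - 1, by omega⟩⟩ else 0
  map_add' f g := by funext s; simp only [Pi.add_apply]; split_ifs <;> simp
  map_smul' c f := by funext s; simp only [Pi.smul_apply, RingHom.id_apply]; split_ifs <;> simp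

theorem shift_pow {l : ℕ} (L : Fin l → ℕ) (k : ℕ) (f : (Σ b : Fin l, Fin (L b)) → F) (b : Fin l) (i : Fin (L b)) :
    (shift L ^ k) f ⟨b, i⟩ = if k ≤ (i : ℕ) then f ⟨b, ⟨(i : ℕ) - k, by omega⟩⟩ else 0 := by
  induction k generalizing i with
  | zero => simp
  | succ k ih =>
    rw [pow_succ', Module.End.mul_apply]
    show (if h : 1 ≤ (i : ℕ) then (shift L ^ k) f ⟨b, ⟨(i : ℕ) - 1, by omega⟩⟩ else 0) = _
    by_cases h1 : 1 ≤ (i : ℕ)
    · rw [dif_pos h1, ih]
      by_cases h2 : k + 1 ≤ (i : ℕ)
      · rw [if_pos (show k ≤ (i : ℕ) - 1 by omega), if_pos h2]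
        congr 3
        simp only [Nat.sub_sub, add_comm 1 k]
      · rw [if_neg (show ¬ k ≤ (i : ℕ) - 1 by omega), if_neg h2]
    · rw [dif_neg h1, if_neg (by omega)]

theorem shift_pow_eq_zero {l : ℕ} (L : Fin l → ℕ) {k : ℕ} (h : ∀ b, L b ≤ k) : (shift L : _ →ₗ[F] _) ^ k = 0 := by
  refine LinearMap.ext fun f => funext fun ⟨b, i⟩ => ?_
  rw [shift_pow, if_neg (by have := i.2; have := h b; omega)]
  rfl

theorem imDim_shift {l : ℕ} (L : Fin l → ℕ) (k : ℕ) :
    imDim (shift L : _ →ₗ[F] _) ⊤ k = ∑ b, (L b - k) := by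
  classical
  let J := Σ b : Fin l, Fin (L b - k)
  let ψ : (J → F) →ₗ[F] ((Σ b : Fin l, Fin (L b)) → F) :=
    { toFun := fun f s => if h : k ≤ (s.2 : ℕ) then f ⟨s.1, ⟨(s.2 : ℕ) - k, by have := s.2.2; omega⟩⟩ else 0
      map_add' := fun f g => by funext s; simp only [Pi.add_apply]; split_ifs <;> simp
      map_smul' := fun c f => by funext s; simp only [Pi.smul_apply, RingHom.id_apply]; split_ifs <;> simp }
  have hrange : Submodule.map (shift L ^ k : _ →ₗ[F] _) ⊤ = LinearMap.range ψ := by
    ext g
    constructor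
    · rintro ⟨f, -, rfl⟩
      refine ⟨fun s => f ⟨s.1, ⟨(s.2 : ℕ), by have := s.2.2; omega⟩⟩, funext fun ⟨b, i⟩ => ?_⟩
      rw [shift_pow]
      by_cases h : k ≤ (i : ℕ) <;> simp [ψ, h]
    · rintro ⟨f, rfl⟩
      refine ⟨fun s => if h : (s.2 : ℕ) < L s.1 - k then f ⟨s.1, ⟨(s.2 : ℕ), h⟩⟩ else 0, trivial, funext fun ⟨b, i⟩ => ?_⟩
      rw [shift_pow]
      by_cases h : k ≤ (i : ℕ)
      · have : (i : ℕ) - k < L b - k := by have := i.2; omega
        simp [ψ, h, this]
      · simp [ψ, h]
  have hinj : Function.Injective ψ := fun f g h => by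
    funext ⟨b, i⟩
    have := congrFun h ⟨b, ⟨(i : ℕ) + k, by have := i.2; omega⟩⟩
    simpa [ψ] using this
  rw [imDim, hrange, LinearMap.finrank_range_of_inj hinj, Module.finrank_pi, Fintype.card_sigma]
  simp

theorem topDim_shift {l : ℕ} (L : Fin l → ℕ) (k : ℕ) :
    topDim (shift L : _ →ₗ[F] _) ⊤ k = (Finset.univ.filter fun b => k < L b).card := by
  have h1 := imDim_succ (shift L : _ →ₗ[F] _) ⊤ k
  rw [imDim_shift, imDim_shift] at h1
  have h2 : ∑ b, (L b - (k + 1)) + (Finset.univ.filter fun b => k < L b).card = ∑ b, (L b - k) := by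
    rw [Finset.card_filter, ← Finset.sum_add_distrib]
    refine Finset.sum_congr rfl fun b _ => ?_
    split_ifs <;> omega
  omega

/-- The type of an invariant complemented subspace is a sub-multiset of the type. -/
theorem exists_sub {l : ℕ} (L : Fin l → ℕ) (p : ℕ) (hL : ∀ b, L b ≤ p)
    {D E : Submodule F ((Σ b : Fin l, Fin (L b)) → F)} (hD : D.map (shift L) ≤ D) (hE : E.map (shift L) ≤ E)
    (h : IsCompl D E) :
    ∃ ν : Multiset ℕ, ν ≤ Finset.univ.val.map L ∧ ν.sum = finrank F D := by
  classical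
  set N : _ →ₗ[F] _ := shift L
  refine ⟨∑ b ∈ Finset.range p, Multiset.replicate (topDim N D b - topDim N D (b + 1)) (b + 1), ?_, ?_⟩
  · rw [Multiset.le_iff_count]
    intro c
    rw [Multiset.count_sum', Multiset.count_map]
    simp only [Multiset.count_replicate]
    rcases Nat.eq_zero_or_pos c with rfl | hc
    · simp
    obtain ⟨c, rfl⟩ : ∃ c', c = c' + 1 := ⟨c - 1, by omega⟩
    simp only [Nat.add_right_cancel_iff, Finset.sum_ite_eq', Finset.mem_range]
    split_ifs with hcp
    · have e1 := topDim_split hD hE h c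
      have e2 := topDim_split hD hE h (c + 1)
      rw [topDim_shift] at e1 e2
      have e3 := topDim_anti hE c
      have e4 : (Finset.univ.filter fun b => c + 1 = L b).card + (Finset.univ.filter fun b => c + 1 < L b).card =
          (Finset.univ.filter fun b => c < L b).card := by
        rw [Finset.card_filter, Finset.card_filter, Finset.card_filter, ← Finset.sum_add_distrib]
        exact Finset.sum_congr rfl fun b _ => by split_ifs <;> omega
      show _ ≤ (Finset.univ.filter fun b => c + 1 = L b).card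
      omega
    · exact Nat.zero_le _
  · have hsum : ∀ m, (∑ b ∈ Finset.range m, (topDim N D b - topDim N D (b + 1)) * (b + 1)) + m * topDim N D m + imDim N D m =
        imDim N D 0 := by
      intro m
      induction m with
      | zero => simp
      | succ m ih =>
        have h1 := imDim_succ N D m
        have h2 := topDim_anti hD m
        rw [Finset.sum_range_succ]
        obtain ⟨e, he⟩ : ∃ e, topDim N D m = topDim N D (m + 1) + e := ⟨topDim N D m - topDim N D (m + 1), by omega⟩
        rw [he] at ih h1 ⊢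
        rw [Nat.add_sub_cancel_left]
        simp only [mul_add, add_mul, mul_one, one_mul] at ih ⊢
        have hc : e * m = m * e := mul_comm _ _
        omega
    have hp : imDim N D p = 0 := by
      rw [imDim, shift_pow_eq_zero L hL, Submodule.map_zero, finrank_bot]
    have hp' : topDim N D p = 0 := by have := imDim_succ N D p; omega
    have h0 : imDim N D 0 = finrank F D := by rw [imDim, pow_zero, Module.End.one_eq_id, Submodule.map_id]
    have := hsum p
    rw [hp, hp', mul_zero] at this
    rw [← Multiset.coe_sumAddMonoidHom, map_sum]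
    simp only [Multiset.coe_sumAddMonoidHom, Multiset.sum_replicate, smul_eq_mul]
    omega

end Cfsg.Agent.GeomClasses.JordanType
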