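import Cfsg.Agent.GeomClasses.UnitaryInSL
import Cfsg.Agent.GeomClasses.TwoHalves

/-! # Maximality of stabilisers of two totally singular halves in special unitary groups -/

set_option autoImplicit false

namespace Cfsg.Agent.GeomClasses.Unitary

open Matrix Cfsg.Agent.Forms

variable {F : Type*} [Field F] [Fintype F] {q n : ℕ} (hF : Fintype.card F = q ^ 2)

local notation "hh" => Cfsg.hermForm n F q

include hF

/-- The Siegel element `x ↦ x + h(x, b) a - h(x, a) b`. -/
theorem exists_sU {a b : Fin n → F} (haa : hh a a = 0) (hbb : hh b b = 0) (hab : hh a b = 0) :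
    ∃ u ∈ SUgl n F q, ∀ x, (u : Matrix (Fin n) (Fin n) F) *ᵥ x = x + hh x b • a - hh x a • b := by
  have h' : hh (-b) a = 0 := by rw [← neg_one_smul F b, hh_smul_left hF, hh_comm_zero hF hab, mul_zero]
  have hx : ∀ x, ((hT hF a b hab * hT hF (-b) a h' : GL (Fin n) F) : Matrix (Fin n) (Fin n) F) *ᵥ x
      = x + hh x b • a - hh x a • b := fun x => by
    rw [Units.val_mul, ← Matrix.mulVec_mulVec, hT_mulVec, hT_mulVec, ← neg_one_smul F b, smul_smul, hh_add_left hF,
      hh_smul_left hF, hbb, mul_zero, add_zero]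
    module
  refine ⟨hT hF a b hab * hT hF (-b) a h', ⟨mem_GU_iff.mpr fun u v => ?_, mul_mem (fT_mem_specialLinear _ _ _) (fT_mem_specialLinear _ _ _)⟩, hx⟩
  rw [hx, hx]
  simp only [hh_add_left hF, hh_add_right hF, hh_sub_left hF, hh_sub_right hF, hh_smul_left hF, hh_smul_right hF, haa,
    hbb, hab, hh_comm_zero hF hab, hh_conj hF]
  ring

/-- A dual family in the other half. -/
theorem exists_dual {A B : Submodule F (Fin n → F)} (hc : IsCompl A B) (hB : ∀ x ∈ A, ∀ y ∈ A, hh x y = 0)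
    (f : A →ₗ[F] F) : ∃ d ∈ B, ∀ a : A, hh (a : Fin n → F) d = f a := by
  obtain ⟨φ, hφ⟩ := f.exists_extend
  obtain ⟨z, hz⟩ := (isForm_herm (n := n) hF).exists_right φ
  obtain ⟨a', ha', b', hb', hab⟩ := Submodule.mem_sup.mp (hc.sup_eq_top ▸ Submodule.mem_top (x := z))
  refine ⟨b', hb', fun a => ?_⟩
  have h1 : hh z (a : Fin n → F) = φ a ^ q := hz a
  have h2 : hh (a : Fin n → F) z = φ a := by rw [← hh_conj hF z a, h1, pow_q_q hF]
  rw [← hab, hh_add_right hF, hB a a.2 a' ha', zero_add] at h2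
  rw [h2, ← hφ]; rfl

/-- An element exchanging the two halves. -/
theorem exists_swap {k : ℕ} {D : Fin 2 → Submodule F (Fin n → F)} (hD : Cfsg.Geo.IsMDecomposition k D)
    (hts : ∀ i, ∀ x ∈ D i, ∀ y ∈ D i, hh x y = 0) :
    ∃ s ∈ SUgl n F q, (∀ x ∈ D 0, (s : Matrix (Fin n) (Fin n) F) *ᵥ x ∈ D 1) ∧
      (∀ x ∈ D 1, (s : Matrix (Fin n) (Fin n) F) *ᵥ x ∈ D 0) := by
  classical
  have hc := decomp_two_isCompl hD
  let b : Module.Basis (Fin k) F (D 0) := Module.finBasisOfFinrankEq F (D 0) (hD.finrank_eq 0)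
  have hc' : ∀ i, ∃ d ∈ D 1, ∀ a : D 0, hh (a : Fin n → F) d = b.coord i a := fun i => exists_dual hF hc (hts 0) _
  choose c hcD hcv using hc'
  have hbc : ∀ i j, hh (b i : Fin n → F) (c j) = if i = j then 1 else 0 := fun i j => by
    rw [hcv, Module.Basis.coord_apply, Module.Basis.repr_self, Finsupp.single_apply]
  have hcb : ∀ i j, hh (c j) (b i : Fin n → F) = if i = j then 1 else 0 := fun i j => by
    rw [← hh_conj hF (b i : Fin n → F) (c j), hbc]
    split_ifs with h
    · rw [one_pow]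
    · exact zero_pow_q hF
  let v : Fin k ⊕ Fin k → (Fin n → F) := Sum.elim (fun i => (b i : Fin n → F)) c
  have hgram : ∀ i j, hh (v i) (v j) = if i = Sum.swap j then (1 : F) else 0 := by
    rintro (i | i) (j | j)
    · simp [v, hts 0 _ (b i).2 _ (b j).2]
    · simp [v, hbc]
    · simp [v, hcb, eq_comm]
    · simp [v, hts 1 _ (hcD i) _ (hcD j)]
  have hli : LinearIndependent F v := by
    rw [Fintype.linearIndependent_iff]
    intro a ha i
    have h1 : hh (∑ j, a j • v j) (v (Sum.swap i)) = 0 := by rw [ha, hh_zero_left hF]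
    rw [show hh (∑ j, a j • v j) (v (Sum.swap i)) = hermB n hF (v (Sum.swap i)) (∑ j, a j • v j) from rfl,
      map_sum] at h1
    simp only [map_smul, smul_eq_mul] at h1
    rw [Finset.sum_eq_single i] at h1
    · rwa [show hermB n hF (v (Sum.swap i)) (v i) = hh (v i) (v (Sum.swap i)) from rfl, hgram, Sum.swap_swap,
        if_pos rfl, mul_one] at h1
    · intro j _ hj
      rw [show hermB n hF (v (Sum.swap i)) (v j) = hh (v j) (v (Sum.swap i)) from rfl, hgram, Sum.swap_swap,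
        if_neg hj, mul_zero]
    · exact fun h => absurd (Finset.mem_univ i) h
  have hcard : Fintype.card (Fin k ⊕ Fin k) = Module.finrank F (Fin n → F) := by
    have := Submodule.finrank_add_eq_of_isCompl hc
    rw [hD.finrank_eq, hD.finrank_eq] at this
    rw [Fintype.card_sum, Fintype.card_fin, this]
  have : Nonempty (Fin k ⊕ Fin k) := ⟨Sum.inl ⟨0, hD.pos⟩⟩
  let e := basisOfLinearIndependentOfCardEqFinrank hli hcard
  have he : ∀ i, e i = v i := fun i => by rw [coe_basisOfLinearIndependentOfCardEqFinrank]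
  -- monomial maps
  have key : ∀ μ : Fin k ⊕ Fin k → F, (∀ i, μ i * μ (Sum.swap i) ^ q = 1) → ∀ σ : Equiv.Perm (Fin k ⊕ Fin k),
      (∀ i, σ (Sum.swap i) = Sum.swap (σ i)) → ∃ g : GL (Fin n) F, g ∈ Cfsg.GU n F q ∧
        (∀ i, (g : Matrix (Fin n) (Fin n) F) *ᵥ v i = μ i • v (σ i)) ∧
        (g : Matrix (Fin n) (Fin n) F).det = LinearMap.det (e.constr F fun i => μ i • v (σ i)) := by
    intro μ hμ σ hσ
    set f := e.constr F fun i => μ i • v (σ i) with hf
    have hfv : ∀ i, f (v i) = μ i • v (σ i) := fun i => by rw [← he, hf, Module.Basis.constr_basis]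
    have hiso : ∀ x y, hh (f x) (f y) = hh x y := by
      have h1 : ∀ i y, hh (f (v i)) (f y) = hh (v i) y := by
        intro i y
        have h2 : ∀ j, hh (f (v i)) (f (v j)) = hh (v i) (v j) := fun j => by
          rw [hfv, hfv, hh_smul_left hF, hh_smul_right hF, hgram, hgram, ← hσ]
          by_cases hij : i = Sum.swap j
          · rw [if_pos (congrArg σ hij), if_pos hij, mul_one]
            subst hij
            have := hμ (Sum.swap j)
            rwa [Sum.swap_swap] at this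
          · rw [if_neg (fun h => hij (σ.injective h)), if_neg hij, mul_zero, mul_zero]
        rw [← e.sum_equivFun y]
        simp only [map_sum, map_smul]
        induction (Finset.univ : Finset (Fin k ⊕ Fin k)) using Finset.induction_on with
        | empty => simp [hh_zero_right hF]
        | insert j s hj ih =>
          simp only [Finset.sum_insert hj, hh_add_right hF, hh_smul_right hF, he, h2] at ih ⊢
          rw [ih]
      intro x y
      rw [← e.sum_equivFun x]
      simp only [map_sum, map_smul]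
      induction (Finset.univ : Finset (Fin k ⊕ Fin k)) using Finset.induction_on with
      | empty => simp [hh_zero_left hF]
      | insert j s hj ih =>
        simp only [Finset.sum_insert hj, hh_add_left hF, hh_smul_left hF, he, h1] at ih ⊢
        rw [ih]
    have hinj : Function.Injective f := by
      rw [← LinearMap.ker_eq_bot, LinearMap.ker_eq_bot']
      intro x hx
      refine nonDeg_top hF x trivial fun y _ => ?_
      rw [← hiso, hx, hh_zero_left hF]
    let g : GL (Fin n) F := (glEquiv (Fin n) F).symm (LinearEquiv.ofInjectiveEndo f hinj)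
    have hg : ∀ x, (g : Matrix (Fin n) (Fin n) F) *ᵥ x = f x := fun x => glEquiv_symm_mulVec _ x
    refine ⟨g, mem_GU_iff.mpr fun x y => by rw [hg, hg, hiso], fun i => by rw [hg, hfv], ?_⟩
    rw [← LinearMap.det_toMatrix' f]
    congr 1
  let sw : Equiv.Perm (Fin k ⊕ Fin k) := Equiv.sumComm _ _
  obtain ⟨g1, hg1, hg1v, hd1⟩ := key (fun _ => 1) (fun _ => by rw [one_pow, mul_one]) sw (fun i => rfl)
  have hmap : ∀ (g : GL (Fin n) F) (μ : Fin k ⊕ Fin k → F),
      (∀ i, (g : Matrix (Fin n) (Fin n) F) *ᵥ v i = μ i • v (sw i)) →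
      (∀ x ∈ D 0, (g : Matrix (Fin n) (Fin n) F) *ᵥ x ∈ D 1) ∧
        (∀ x ∈ D 1, (g : Matrix (Fin n) (Fin n) F) *ᵥ x ∈ D 0) := by
    intro g μ hg
    have hspan : ∀ x ∈ D 1, x ∈ Submodule.span F (Set.range c) := by
      intro x hx
      have h1 := e.sum_equivFun x
      simp only [he, Fintype.sum_sum_type, v, Sum.elim_inl, Sum.elim_inr] at h1
      have h2 : ∑ i, e.equivFun x (Sum.inl i) • (b i : Fin n → F) = 0 := by
        refine Submodule.disjoint_def.mp hc.disjoint _ (Submodule.sum_mem _ fun i _ => Submodule.smul_mem _ _ (b i).2) ?_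
        rw [eq_sub_of_add_eq h1]
        exact Submodule.sub_mem _ hx (Submodule.sum_mem _ fun i _ => Submodule.smul_mem _ _ (hcD i))
      rw [h2, zero_add] at h1
      rw [← h1]
      exact Submodule.sum_mem _ fun i _ => Submodule.smul_mem _ _ (Submodule.subset_span ⟨i, rfl⟩)
    constructor
    · intro x hx
      rw [show x = ((∑ i, b.equivFun ⟨x, hx⟩ i • b i : D 0) : Fin n → F) by rw [b.sum_equivFun]]
      rw [Submodule.coe_sum, Matrix.mulVec_sum]
      refine Submodule.sum_mem _ fun i _ => ?_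
      rw [Submodule.coe_smul, Matrix.mulVec_smul]
      refine Submodule.smul_mem _ _ ?_
      rw [show (b i : Fin n → F) = v (Sum.inl i) from rfl, hg]
      exact Submodule.smul_mem _ _ (hcD i)
    · intro x hx
      refine Submodule.span_induction (p := fun y _ => (g : Matrix (Fin n) (Fin n) F) *ᵥ y ∈ D 0) ?_ ?_ ?_ ?_ (hspan x hx)
      · rintro _ ⟨i, rfl⟩
        rw [show c i = v (Sum.inr i) from rfl, hg]
        exact Submodule.smul_mem _ _ (b i).2
      · rw [Matrix.mulVec_zero]; exact Submodule.zero_mem _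
      · intro y z _ _ hy hz; rw [Matrix.mulVec_add]; exact Submodule.add_mem _ hy hz
      · intro a y _ hy; rw [Matrix.mulVec_smul]; exact Submodule.smul_mem _ _ hy
  -- the determinant of the exchange is a sign
  have hsq : (g1 : Matrix (Fin n) (Fin n) F).det * (g1 : Matrix (Fin n) (Fin n) F).det = 1 := by
    rw [← Matrix.det_mul, show (g1 : Matrix (Fin n) (Fin n) F) * g1 = 1 from Matrix.ext_iff_mulVec.mpr fun x => by
      rw [← e.sum_equivFun x, Matrix.mulVec_sum, Matrix.one_mulVec]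
      refine Finset.sum_congr rfl fun i _ => ?_
      rw [Matrix.mulVec_smul, he, ← Matrix.mulVec_mulVec, hg1v, one_smul, hg1v, one_smul]
      simp [sw], Matrix.det_one]
  rcases mul_self_eq_one_iff.mp hsq with h | h
  · exact ⟨g1, ⟨hg1, mem_specialLinear_iff.mpr h⟩, hmap g1 _ hg1v⟩
  obtain ⟨τ, hτ0, hτ⟩ := exists_trace_zero hF
  let i0 : Fin k := ⟨0, hD.pos⟩
  let μ : Fin k ⊕ Fin k → F := Sum.elim (fun i => if i = i0 then τ else 1) (fun i => if i = i0 then (τ⁻¹) ^ q else 1)
  obtain ⟨g2, hg2, hg2v, hd2⟩ := key μ (by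
    rintro (i | i) <;> simp only [μ, Sum.swap, Sum.elim_inl, Sum.elim_inr] <;> split_ifs
    · rw [pow_q_q hF, mul_inv_cancel₀ hτ0]
    · rw [one_pow, mul_one]
    · rw [← mul_pow, inv_mul_cancel₀ hτ0, one_pow]
    · rw [one_pow, mul_one]) (Equiv.refl _) (fun i => rfl)
  have hdet2 : (g2 : Matrix (Fin n) (Fin n) F).det = -1 := by
    rw [hd2, ← LinearMap.det_toMatrix e, show LinearMap.toMatrix e e (e.constr F fun i => μ i • v ((Equiv.refl _) i))
      = Matrix.diagonal μ from by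
        ext i j
        rw [LinearMap.toMatrix_apply, Module.Basis.constr_basis, Equiv.refl_apply, ← he, map_smul,
          Module.Basis.repr_self, Matrix.diagonal_apply]
        by_cases hij : i = j <;> simp [hij]]
    rw [Matrix.det_diagonal, Fintype.prod_sum_type]
    simp only [μ, Sum.elim_inl, Sum.elim_inr, Finset.prod_ite_eq', Finset.mem_univ, if_true]
    rw [inv_pow, show τ ^ q = -τ by linear_combination hτ, inv_neg, mul_neg, mul_inv_cancel₀ hτ0]
  refine ⟨g1 * g2, ⟨mul_mem hg1 hg2, mem_specialLinear_iff.mpr ?_⟩, hmap _ (fun i => μ i) fun i => ?_⟩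
  · rw [Units.val_mul, Matrix.det_mul, h, hdet2]; ring
  · rw [Units.val_mul, ← Matrix.mulVec_mulVec, hg2v, Matrix.mulVec_smul, hg1v, one_smul]; rfl

theorem isMaximalIn_halves {k : ℕ} (hk : 5 ≤ k) {D : Fin 2 → Submodule F (Fin n → F)}
    (hD : Cfsg.Geo.IsMDecomposition k D) (hts : ∀ i, ∀ x ∈ D i, ∀ y ∈ D i, hh x y = 0) :
    Cfsg.Geo.IsMaximalIn (SUgl n F q) (Cfsg.Geo.decompositionStabilizer D ⊓ SUgl n F q) := by
  classical
  have hI := isForm_herm (n := n) hF
  have hc := decomp_two_isCompl hD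
  have hn : n = k + k := by
    have := Submodule.finrank_add_eq_of_isCompl hc
    rwa [hD.finrank_eq, hD.finrank_eq, Module.finrank_pi, Fintype.card_fin, eq_comm] at this
  have hdec : ∀ z, ∃ a ∈ D 0, ∃ b ∈ D 1, z = a + b := fun z => by
    obtain ⟨a, ha, b, hb, h⟩ := Submodule.mem_sup.mp (hc.sup_eq_top ▸ Submodule.mem_top (x := z))
    exact ⟨a, ha, b, hb, h.symm⟩
  -- pairing between the halves
  have hpair : ∀ (i j : Fin 2), i ≠ j → ∀ a ∈ D i, a ≠ 0 → ∀ r : F, ∃ b ∈ D j, hh a b = r := by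
    intro i j hij a ha ha0 r
    obtain ⟨d, -, hd⟩ := pairing_one hF (nonDeg_top hF) (X := ⊤) (Submodule.mem_top (x := a)) ha0 (r ^ q)
    obtain ⟨p, hp, w, hw, rfl⟩ := hdec d
    have h1 : hh a (p + w) = r := by rw [← hh_conj hF (p + w) a, hd, pow_q_q hF]
    fin_cases i <;> fin_cases j <;> first | (exact absurd rfl hij) | skip
    · exact ⟨w, hw, by rwa [hh_add_right hF, hts 0 a ha p hp, zero_add] at h1⟩
    · exact ⟨p, hp, by rwa [hh_add_right hF, hts 1 a ha w hw, add_zero] at h1⟩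
  -- Siegel elements of the stabiliser
  have hsU : ∀ (i j : Fin 2), i ≠ j → ∀ a ∈ D i, ∀ b ∈ D j, hh a b = 0 →
      ∃ u ∈ Cfsg.Geo.decompositionStabilizer D ⊓ SUgl n F q,
        ∀ x, (u : Matrix (Fin n) (Fin n) F) *ᵥ x = x + hh x b • a - hh x a • b := by
    intro i j hij a ha b hb hab
    obtain ⟨u, hu, hux⟩ := exists_sU hF (hts i a ha a ha) (hts j b hb b hb) hab
    refine ⟨u, ⟨mem_decomp_two hD fun l => ⟨l, fun x hx => ?_⟩, hu⟩, hux⟩
    rw [hux]
    rcases eq_or_ne l i with rfl | hli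
    · rw [hts l x hx a ha, zero_smul, sub_zero]
      exact (D l).add_mem hx ((D l).smul_mem _ ha)
    · have hlj : l = j := by omega
      subst hlj
      rw [hts l x hx b hb, zero_smul, add_zero]
      exact (D l).sub_mem hx ((D l).smul_mem _ hb)
  obtain ⟨s, hsSU, hs0, hs1⟩ := exists_swap hF hD hts
  have hsD : s ∈ Cfsg.Geo.decompositionStabilizer D := mem_decomp_two hD fun i => by
    fin_cases i
    · exact ⟨1, hs0⟩
    · exact ⟨0, hs1⟩
  obtain ⟨e0, he0, he00⟩ := (Submodule.ne_bot_iff (D 0)).mp fun h => by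
    have := hD.finrank_eq 0; rw [h, finrank_bot] at this; omega
  refine ⟨lt_of_le_of_ne inf_le_right fun h => ?_, fun L hL hLS => ?_⟩
  · obtain ⟨τ, hτ0, hτ⟩ := exists_trace_zero hF
    have h1 := uT_mem hF e0 τ (hts 0 e0 he0 e0 he0) hτ
    rw [← h] at h1
    obtain ⟨σ, hσ⟩ := h1.1
    obtain ⟨d, hd, hed⟩ := hpair 0 1 (by decide) e0 he0 he00 1
    have h2 : d + (τ * hh d e0) • e0 ∈ D (σ 1) := by
      rw [← hσ 1, Submodule.mem_map]
      exact ⟨d, hd, by rw [Matrix.toLin'_apply, uT_mulVec]⟩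
    rw [← hh_conj hF e0 d, hed, one_pow, mul_one] at h2
    have hd0 : d ≠ 0 := fun h => by rw [h, hh_zero_right hF] at hed; exact zero_ne_one hed
    have key : ∀ i, d + τ • e0 ∈ D i → False := fun i h3 => by
      fin_cases i
      · exact hd0 (Submodule.disjoint_def.mp hc.disjoint d ((Submodule.add_mem_iff_left _ ((D 0).smul_mem _ he0)).mp h3) hd)
      · have h4 := (Submodule.add_mem_iff_right _ hd).mp h3
        rw [Submodule.smul_mem_iff _ hτ0] at h4
        exact he00 (Submodule.disjoint_def.mp hc.disjoint e0 he0 h4)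
    exact key _ h2
  by_cases hle : L ≤ Cfsg.Geo.decompositionStabilizer D
  · exact Or.inl (le_antisymm (le_inf hle hLS) hL)
  obtain ⟨g0, hg0, hg0'⟩ := SetLike.not_le_iff_exists.mp hle
  refine Or.inr (le_antisymm hLS (SU_le_of_uT hF (by omega) fun v c hv hc => ?_))
  suffices hall : ∀ z, hh z z = 0 → IsCentre q L z by
    obtain ⟨_, h⟩ := hall v hv
    exact h c hc
  have hsL : s ∈ L := hL ⟨hsD, hsSU⟩
  -- a vector of a half with a mixed image
  obtain ⟨g, hgL, a, ha, a1, ha1, a2, ha2, hga, ha10, ha20⟩ : ∃ g ∈ L, ∃ a ∈ D 0, ∃ a1 ∈ D 0, ∃ a2 ∈ D 1,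
      (g : Matrix (Fin n) (Fin n) F) *ᵥ a = a1 + a2 ∧ a1 ≠ 0 ∧ a2 ≠ 0 := by
    by_contra hcon
    push_neg at hcon
    have himg : ∀ g ∈ L, ∀ a ∈ D 0, (g : Matrix (Fin n) (Fin n) F) *ᵥ a ∈ D 0 ∨
        (g : Matrix (Fin n) (Fin n) F) *ᵥ a ∈ D 1 := by
      intro g hg a ha
      obtain ⟨a1, ha1, a2, ha2, h⟩ := hdec ((g : Matrix (Fin n) (Fin n) F) *ᵥ a)
      rcases eq_or_ne a1 0 with h1 | h1
      · right; rw [h, h1, zero_add]; exact ha2
      · left; rw [h, hcon g hg a ha a1 ha1 a2 ha2 h h1, add_zero]; exact ha1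
    apply hg0'
    refine mem_decomp_two hD ?_
    have key : ∀ g ∈ L, ∃ j, ∀ x ∈ D 0, (g : Matrix (Fin n) (Fin n) F) *ᵥ x ∈ D j := by
      intro g hg
      rcases image_two (W := (D 0).map (Matrix.toLin' (g : Matrix (Fin n) (Fin n) F))) (D0 := D 0) (D1 := D 1)
        (fun y hy => by
          obtain ⟨x, hx, rfl⟩ := hy
          simpa using himg g hg x hx) with h | h
      · exact ⟨0, fun x hx => by simpa using h (Submodule.mem_map_of_mem hx)⟩
      · exact ⟨1, fun x hx => by simpa using h (Submodule.mem_map_of_mem hx)⟩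
    refine Fin.forall_fin_two.mpr ⟨?_, ?_⟩
    · exact key g0 hg0
    · obtain ⟨j, hj⟩ := key (g0 * s) (L.mul_mem hg0 hsL)
      refine ⟨j, fun x hx => ?_⟩
      have hmap : (D 0).map (Matrix.toLin' (s : Matrix (Fin n) (Fin n) F)) = D 1 := by
        have hinj : Function.Injective (Matrix.toLin' (s : Matrix (Fin n) (Fin n) F)) := fun x y hxy => by
          have h' := congrArg ((s⁻¹ : GL (Fin n) F) : Matrix (Fin n) (Fin n) F).mulVec hxy
          simpa [Matrix.mulVec_mulVec, ← Units.val_mul] using h'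
        refine Submodule.eq_of_le_of_finrank_eq (Submodule.map_le_iff_le_comap.mpr fun x hx => by simpa using hs0 x hx) ?_
        rw [← (Submodule.equivMapOfInjective _ hinj (D 0)).finrank_eq, hD.finrank_eq, hD.finrank_eq]
      rw [← hmap, Submodule.mem_map] at hx
      obtain ⟨y, hy, rfl⟩ := hx
      have := hj y hy
      rw [Units.val_mul, ← Matrix.mulVec_mulVec] at this
      simpa using this
  -- a second vector, the first component independent
  obtain ⟨g, hgL, a, ha, b, hb, hab, a1, ha1, a2, ha2, hga, b1, hb1, b2, hb2, hgb, ha10, hind⟩ :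
      ∃ g ∈ L, ∃ a ∈ D 0, ∃ b ∈ D 1, hh a b = 0 ∧ ∃ a1 ∈ D 0, ∃ a2 ∈ D 1,
        (g : Matrix (Fin n) (Fin n) F) *ᵥ a = a1 + a2 ∧ ∃ b1 ∈ D 0, ∃ b2 ∈ D 1,
        (g : Matrix (Fin n) (Fin n) F) *ᵥ b = b1 + b2 ∧ a1 ≠ 0 ∧ b1 ∉ Submodule.span F {a1} := by
    set B := D 1 ⊓ perp (hermB n hF) (Submodule.span F {a})
    have hBdim : 3 ≤ Module.finrank F B := by
      have h1 := hI.finrank_perp (Submodule.span F {a})
      have h2 : Module.finrank F (Submodule.span F {a}) ≤ 1 := (finrank_span_le_card {a}).trans (by simp)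
      have h3 := Submodule.finrank_sup_add_finrank_inf_eq (D 1) (perp (hermB n hF) (Submodule.span F {a}))
      have h4 := Submodule.finrank_le (D 1 ⊔ perp (hermB n hF) (Submodule.span F {a}))
      rw [hD.finrank_eq] at h3
      rw [Module.finrank_pi, Fintype.card_fin] at h1 h4
      show 3 ≤ Module.finrank F ↥(D 1 ⊓ perp (hermB n hF) (Submodule.span F {a}))
      omega
    by_contra hcon
    push_neg at hcon
    let φ := Matrix.toLin' (g : Matrix (Fin n) (Fin n) F)
    have hφ : Function.Injective φ := fun x y h => by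
      have h' := congrArg ((g⁻¹ : GL (Fin n) F) : Matrix (Fin n) (Fin n) F).mulVec h
      simpa [φ, Matrix.mulVec_mulVec, ← Units.val_mul] using h'
    have hsinj : ∀ x, (s : Matrix (Fin n) (Fin n) F) *ᵥ x = 0 → x = 0 := fun x h => by
      have h' := congrArg (((s⁻¹ : GL (Fin n) F) : Matrix (Fin n) (Fin n) F) *ᵥ ·) h
      simpa [Matrix.mulVec_mulVec, ← Units.val_mul] using h'
    have hBsmall : B.map φ ≤ Submodule.span F {a1} ⊔ Submodule.span F {a2} := by
      rintro _ ⟨b, hb, rfl⟩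
      have hab : hh a b = 0 := hh_comm_zero hF ((mem_perp_single hF).mp hb.2)
      obtain ⟨b1, hb1, b2, hb2, hgb⟩ := hdec (φ b)
      have h1 : b1 ∈ Submodule.span F {a1} :=
        hcon g hgL a ha b hb.1 hab a1 ha1 a2 ha2 hga b1 hb1 b2 hb2 (by simpa [φ] using hgb) ha10
      have h2 := hcon (s * g) (L.mul_mem hsL hgL) a ha b hb.1 hab _ (hs1 a2 ha2) _ (hs0 a1 ha1)
        (by rw [Units.val_mul, ← Matrix.mulVec_mulVec, hga, Matrix.mulVec_add, add_comm]) _ (hs1 b2 hb2) _ (hs0 b1 hb1)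
        (by rw [Units.val_mul, ← Matrix.mulVec_mulVec, show (g : Matrix (Fin n) (Fin n) F) *ᵥ b = φ b from
          (Matrix.toLin'_apply _ _).symm, hgb, Matrix.mulVec_add, add_comm])
        (fun h => ha20 (hsinj a2 h))
      obtain ⟨c, hc2⟩ := Submodule.mem_span_singleton.mp h2
      have h3 : b2 = c • a2 := sub_eq_zero.mp (hsinj _ (by rw [Matrix.mulVec_sub, Matrix.mulVec_smul, hc2, sub_self]))
      rw [hgb]
      exact Submodule.add_mem_sup h1 (by rw [h3]; exact Submodule.smul_mem _ _ (Submodule.mem_span_singleton_self a2))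
    have h1 := Submodule.finrank_mono hBsmall
    rw [← (Submodule.equivMapOfInjective φ hφ B).finrank_eq] at h1
    have h2 := finrank_pair_le hF a1 a2
    omega
  -- the Siegel element and two commutators
  obtain ⟨δ, hδ, hδ0, hδa2, hδb2, hδab⟩ : ∃ δ ∈ D 0, δ ≠ 0 ∧ hh δ a2 = 0 ∧ hh δ b2 = 0 ∧
      δ ∉ Submodule.span F {a1} ⊔ Submodule.span F {b1} := by
    set S := D 0 ⊓ perp (hermB n hF) (Submodule.span F {a2} ⊔ Submodule.span F {b2})
    have hS : 3 ≤ Module.finrank F S := by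
      have h1 := hI.finrank_perp (Submodule.span F {a2} ⊔ Submodule.span F {b2})
      have h2 := finrank_pair_le hF a2 b2
      have h3 := Submodule.finrank_sup_add_finrank_inf_eq (D 0) (perp (hermB n hF) (Submodule.span F {a2} ⊔ Submodule.span F {b2}))
      have h4 := Submodule.finrank_le (D 0 ⊔ perp (hermB n hF) (Submodule.span F {a2} ⊔ Submodule.span F {b2}))
      rw [hD.finrank_eq] at h3
      rw [Module.finrank_pi, Fintype.card_fin] at h1 h4
      show 3 ≤ Module.finrank F ↥(D 0 ⊓ perp (hermB n hF) (Submodule.span F {a2} ⊔ Submodule.span F {b2}))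
      omega
    obtain ⟨δ, hδ, hδ'⟩ : ∃ δ ∈ S, δ ∉ Submodule.span F {a1} ⊔ Submodule.span F {b1} := by
      by_contra h
      push_neg at h
      have h1 := Submodule.finrank_mono h
      have h2 := finrank_pair_le hF a1 b1
      omega
    exact ⟨δ, hδ.1, fun h => hδ' (h ▸ Submodule.zero_mem _),
      (mem_perp_iff hF).mp hδ.2 a2 (Submodule.mem_sup_left (Submodule.mem_span_singleton_self a2)),
      (mem_perp_iff hF).mp hδ.2 b2 (Submodule.mem_sup_right (Submodule.mem_span_singleton_self b2)), hδ'⟩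
  have hδδ := hts 0 δ hδ δ hδ
  have hδa1 : δ ∉ Submodule.span F {a1} := fun h => hδab (Submodule.mem_sup_left h)
  have hgU := mem_GU_iff.mp (hLS hgL).1
  set a' := (g : Matrix (Fin n) (Fin n) F) *ᵥ a with ha'def
  set b' := (g : Matrix (Fin n) (Fin n) F) *ᵥ b with hb'def
  have haa' : hh a' a' = 0 := by rw [hgU, hts 0 a ha a ha]
  have hbb' : hh b' b' = 0 := by rw [hgU, hts 1 b hb b hb]
  have hab' : hh a' b' = 0 := by rw [hgU, hab]
  have hδa' : hh δ a' = 0 := by rw [hga, hh_add_right hF, hts 0 δ hδ a1 ha1, hδa2, add_zero]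
  have hδb' : hh δ b' = 0 := by rw [hgb, hh_add_right hF, hts 0 δ hδ b1 hb1, hδb2, add_zero]
  have hδa := hh_comm_zero hF hδa'
  have hδb := hh_comm_zero hF hδb'
  obtain ⟨w2, hw2, hw2δ, hw2a, hw2b⟩ : ∃ w ∈ D 1, hh δ w = 0 ∧ hh a1 w = 0 ∧ hh b1 w ≠ 0 := by
    have hbδ : b1 ∉ Submodule.span F {δ} ⊔ Submodule.span F {a1} := fun h => by
      obtain ⟨x, hx, y, hy, hxy⟩ := Submodule.mem_sup.mp h
      obtain ⟨t, rfl⟩ := Submodule.mem_span_singleton.mp hx
      rcases eq_or_ne t 0 with rfl | ht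
      · rw [zero_smul, zero_add] at hxy; exact hind (hxy ▸ hy)
      · apply hδab
        have h1 : t • δ ∈ Submodule.span F {a1} ⊔ Submodule.span F {b1} := by
          rw [show t • δ = b1 - y by rw [← hxy]; abel]
          exact Submodule.sub_mem _ (Submodule.mem_sup_right (Submodule.mem_span_singleton_self b1)) (Submodule.mem_sup_left hy)
        rwa [Submodule.smul_mem_iff _ ht] at h1
    obtain ⟨d, hd, hd1⟩ := hI.exists_perp_pairing hbδ (1 : F)
    obtain ⟨p, hp, w, hw, rfl⟩ := hdec d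
    have hval : ∀ x ∈ D 0, hh x w = hh (p + w) x ^ q := fun x hx => by
      rw [hh_conj hF, hh_add_right hF, hts 0 x hx p hp, zero_add]
    refine ⟨w, hw, ?_, ?_, ?_⟩
    · rw [hval δ hδ, show hh (p + w) δ = 0 from hd δ (Submodule.mem_sup_left (Submodule.mem_span_singleton_self δ)),
        zero_pow_q hF]
    · rw [hval a1 ha1, show hh (p + w) a1 = 0 from hd a1 (Submodule.mem_sup_right (Submodule.mem_span_singleton_self a1)),
        zero_pow_q hF]
    · rw [hval b1 hb1, show hh (p + w) b1 = 1 from hd1, one_pow]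
      exact one_ne_zero
  obtain ⟨ω, hω⟩ := exists_not_fixed hF
  obtain ⟨μ, hμ⟩ : ∃ μ : F, μ = ω * hh b1 w2 := ⟨_, rfl⟩
  obtain ⟨w3, hw3, hw3δ, hw3a⟩ : ∃ w ∈ D 1, hh δ w = 0 ∧ hh a1 w = μ := by
    have ha1δ : a1 ∉ Submodule.span F {δ} := fun h => by
      obtain ⟨c, hc'⟩ := Submodule.mem_span_singleton.mp h
      have hc0 : c ≠ 0 := fun h0 => ha10 (by rw [← hc', h0, zero_smul])
      exact hδa1 (Submodule.mem_span_singleton.mpr ⟨c⁻¹, by rw [← hc', smul_smul, inv_mul_cancel₀ hc0, one_smul]⟩)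
    obtain ⟨d, hd, hd1⟩ := hI.exists_perp_pairing ha1δ (μ ^ q)
    obtain ⟨p, hp, w, hw, rfl⟩ := hdec d
    have hval : ∀ x ∈ D 0, hh x w = hh (p + w) x ^ q := fun x hx => by
      rw [hh_conj hF, hh_add_right hF, hts 0 x hx p hp, zero_add]
    refine ⟨w, hw, ?_, ?_⟩
    · rw [hval δ hδ, show hh (p + w) δ = 0 from hd δ (Submodule.mem_span_singleton_self δ), zero_pow_q hF]
    · rw [hval a1 ha1, show hh (p + w) a1 = μ ^ q from hd1, pow_q_q hF]
  obtain ⟨k1, hk1, hk1x⟩ := hsU 0 1 (by decide) δ hδ w2 hw2 hw2δ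
  obtain ⟨k2, hk2, hk2x⟩ := hsU 0 1 (by decide) δ hδ w3 hw3 hw3δ
  obtain ⟨U0, hU0, hU0x⟩ := hsU 0 1 (by decide) a ha b hb hab
  have hconjU : ∀ (t : GL (Fin n) F), t ∈ Cfsg.GU n F q → ∀ u a b : Fin n → F, ∀ U U' : GL (Fin n) F,
      (∀ x, (U : Matrix (Fin n) (Fin n) F) *ᵥ x = x + hh x b • a - hh x a • b) →
      (∀ x, (U' : Matrix (Fin n) (Fin n) F) *ᵥ x = x + hh x ((t : Matrix (Fin n) (Fin n) F) *ᵥ b) • ((t : Matrix (Fin n) (Fin n) F) *ᵥ a)
        - hh x ((t : Matrix (Fin n) (Fin n) F) *ᵥ a) • ((t : Matrix (Fin n) (Fin n) F) *ᵥ b)) →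
      U' = t * U * t⁻¹ := by
    intro t ht _ a b U U' hU hU'
    rw [eq_mul_inv_iff_mul_eq]
    refine gl_ext fun x => ?_
    rw [Units.val_mul, Units.val_mul, ← Matrix.mulVec_mulVec, ← Matrix.mulVec_mulVec, hU, hU', mem_GU_iff.mp ht,
      mem_GU_iff.mp ht, Matrix.mulVec_sub, Matrix.mulVec_add, Matrix.mulVec_smul, Matrix.mulVec_smul]
  obtain ⟨U, -, hUx⟩ := exists_sU hF haa' hbb' hab'
  have hUL : U ∈ L := by
    rw [hconjU g (hLS hgL).1 0 a b U0 U hU0x hUx]
    exact L.mul_mem (L.mul_mem hgL (hL hU0)) (L.inv_mem hgL)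
  set r := hh b1 w2
  have hk1a : (k1 : Matrix (Fin n) (Fin n) F) *ᵥ a' = a' := by
    rw [hk1x, hδa, zero_smul, sub_zero, hga, hh_add_left hF, hw2a, hts 1 a2 ha2 w2 hw2, add_zero, zero_smul, add_zero]
  have hk1b : (k1 : Matrix (Fin n) (Fin n) F) *ᵥ b' = b' + r • δ := by
    rw [hk1x, hδb, zero_smul, sub_zero, hgb, hh_add_left hF, hts 1 b2 hb2 w2 hw2, add_zero]
  have hk2a : (k2 : Matrix (Fin n) (Fin n) F) *ᵥ a' = a' + μ • δ := by
    rw [hk2x, hδa, zero_smul, sub_zero, hga, hh_add_left hF, hts 1 a2 ha2 w3 hw3, add_zero, hw3a]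
  have hk2δ : (k2 : Matrix (Fin n) (Fin n) F) *ᵥ δ = δ := by
    rw [hk2x, hw3δ, hδδ, zero_smul, zero_smul, add_zero, sub_zero]
  have hbδb : hh (b' + r • δ) (b' + r • δ) = 0 := by
    simp only [hh_add_left hF, hh_add_right hF, hh_smul_left hF, hh_smul_right hF, hbb', hδb', hδb, hδδ]; ring
  have habδ : hh a' (b' + r • δ) = 0 := by rw [hh_add_right hF, hh_smul_right hF, hab', hδa, mul_zero, add_zero]
  obtain ⟨U1, -, hU1x⟩ := exists_sU hF haa' hbδb habδ
  have hU1L : U1 ∈ L := by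
    rw [hconjU k1 hk1.2.1 0 a' b' U U1 hUx (by rw [hk1a, hk1b]; exact hU1x)]
    exact L.mul_mem (L.mul_mem (hL hk1) hUL) (L.inv_mem (hL hk1))
  have hrδ : hh (r • δ) (r • δ) = 0 := by rw [hh_smul_left hF, hh_smul_right hF, hδδ, mul_zero, mul_zero]
  have harδ : hh a' (r • δ) = 0 := by rw [hh_smul_right hF, hδa, mul_zero]
  obtain ⟨X, -, hXx⟩ := exists_sU hF haa' hrδ harδ
  have hXL : X ∈ L := by
    have : X = U1 * U⁻¹ := by
      rw [eq_mul_inv_iff_mul_eq]
      refine gl_ext fun x => ?_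
      rw [Units.val_mul, ← Matrix.mulVec_mulVec, hUx, hXx, hU1x]
      simp only [hh_add_left hF, hh_sub_left hF, hh_smul_left hF, hh_smul_right hF, hh_add_right hF, haa', hab',
        hh_comm_zero hF hab', hδa, hδb]
      module
    rw [this]; exact L.mul_mem hU1L (L.inv_mem hUL)
  have haμ : hh (a' + μ • δ) (a' + μ • δ) = 0 := by
    simp only [hh_add_left hF, hh_add_right hF, hh_smul_left hF, hh_smul_right hF, haa', hδa', hδa, hδδ]; ring
  have haμδ : hh (a' + μ • δ) (r • δ) = 0 := by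
    rw [hh_add_left hF, hh_smul_left hF, hh_smul_right hF, hh_smul_right hF, hδa, hδδ, mul_zero, mul_zero, add_zero]
  obtain ⟨X1, -, hX1x⟩ := exists_sU hF haμ hrδ haμδ
  have hX1L : X1 ∈ L := by
    rw [hconjU k2 hk2.2.1 0 a' (r • δ) X X1 hXx (by rw [hk2a, Matrix.mulVec_smul, hk2δ]; exact hX1x)]
    exact L.mul_mem (L.mul_mem (hL hk2) hXL) (L.inv_mem (hL hk2))
  set c0 := μ * r ^ q - μ ^ q * r with hc0def
  have hc0 : c0 + c0 ^ q = 0 := by
    rw [hc0def, pow_sub_q hF, mul_pow, mul_pow, pow_q_q hF, pow_q_q hF]; ring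
  have hc0L : uT δ c0 hδδ ∈ L := by
    have : uT δ c0 hδδ = X1 * X⁻¹ := by
      rw [eq_mul_inv_iff_mul_eq]
      refine gl_ext fun x => ?_
      rw [Units.val_mul, ← Matrix.mulVec_mulVec, uT_mulVec, hXx, hX1x]
      simp only [hh_add_left hF, hh_sub_left hF, hh_smul_left hF, hh_smul_right hF, hh_add_right hF, hδa', hδa, hδδ]
      rw [hc0def]
      module
    rw [this]; exact L.mul_mem hX1L (L.inv_mem hXL)
  have hc00 : c0 ≠ 0 := by
    rw [hc0def, hμ, mul_pow, show ω * r * r ^ q - ω ^ q * r ^ q * r = (ω - ω ^ q) * (r * r ^ q) by ring]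
    exact mul_ne_zero (sub_ne_zero.mpr (Ne.symm hω)) (mul_ne_zero hw2b (pow_ne_zero _ hw2b))
  -- transitivity on a half
  have hmove : ∀ x ∈ D 0, x ≠ 0 → x ∉ Submodule.span F {δ} →
      ∃ u ∈ Cfsg.Geo.decompositionStabilizer D ⊓ SUgl n F q, (u : Matrix (Fin n) (Fin n) F) *ᵥ δ = x := by
    intro x hx hx0 hxδ
    have hδd : δ ∉ Submodule.span F {x - δ} := fun h => by
      obtain ⟨c, hc'⟩ := Submodule.mem_span_singleton.mp h
      by_cases hc0 : c = 0
      · exact hδ0 (by rw [← hc', hc0, zero_smul])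
      · refine hxδ (Submodule.mem_span_singleton.mpr ⟨c⁻¹ + 1, ?_⟩)
        rw [add_smul, one_smul]
        conv_lhs => enter [1]; rw [← hc', smul_smul, inv_mul_cancel₀ hc0, one_smul]
        abel
    obtain ⟨d, hd, hd1⟩ := hI.exists_perp_pairing hδd (1 : F)
    obtain ⟨p, hp, w, hw, rfl⟩ := hdec d
    have hval : ∀ y ∈ D 0, hh y w = hh (p + w) y ^ q := fun y hy => by
      rw [hh_conj hF, hh_add_right hF, hts 0 y hy p hp, zero_add]
    have hxw : hh (x - δ) w = 0 := by
      rw [hval _ (Submodule.sub_mem _ hx hδ), show hh (p + w) (x - δ) = 0 from hd _ (Submodule.mem_span_singleton_self _),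
        zero_pow_q hF]
    obtain ⟨u, hu, hux⟩ := hsU 0 1 (by decide) (x - δ) (Submodule.sub_mem _ hx hδ) w hw hxw
    refine ⟨u, hu, ?_⟩
    rw [hux, hts 0 δ hδ _ (Submodule.sub_mem _ hx hδ), zero_smul, sub_zero, hval δ hδ,
      show hh (p + w) δ = 1 from hd1, one_pow, one_smul, add_sub_cancel]
  have hcentre0 : ∀ x ∈ D 0, x ≠ 0 → IsCentre q L x := by
    intro x hx hx0
    have hxx := hts 0 x hx x hx
    refine ⟨hxx, fun c hc => ?_⟩
    by_cases hc' : c = 0
    · have : uT x c hxx = 1 := gl_ext fun y => by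
        rw [uT_mulVec, hc', zero_mul, zero_smul, add_zero, Units.val_one, Matrix.one_mulVec]
      rw [this]; exact L.one_mem
    obtain ⟨r', hr'⟩ := exists_norm hF (c / c0) (by
      rw [div_pow, show c ^ q = -c by linear_combination hc, show c0 ^ q = -c0 by linear_combination hc0, neg_div_neg_eq])
    have hr'0 : r' ≠ 0 := fun h => by rw [h, zero_mul, eq_comm, div_eq_zero_iff] at hr'; exact hr'.elim hc' hc00
    have hy : r' • x ∈ D 0 := (D 0).smul_mem _ hx
    have hy0 : r' • x ≠ 0 := smul_ne_zero hr'0 hx0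
    -- move to the scaled vector, through an independent one if necessary
    obtain ⟨u, hu, huδ⟩ : ∃ u ∈ L, (u : Matrix (Fin n) (Fin n) F) *ᵥ δ = r' • x := by
      by_cases hxδ : r' • x ∈ Submodule.span F {δ}
      · obtain ⟨u1, hu1, hu1δ⟩ := hmove a1 ha1 ha10 (fun h => by
          obtain ⟨t, ht⟩ := Submodule.mem_span_singleton.mp h
          have ht0 : t ≠ 0 := fun h0 => ha10 (by rw [← ht, h0, zero_smul])
          exact hδa1 (Submodule.mem_span_singleton.mpr ⟨t⁻¹, by rw [← ht, smul_smul, inv_mul_cancel₀ ht0, one_smul]⟩))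
        obtain ⟨t, ht⟩ := Submodule.mem_span_singleton.mp hxδ
        have hind1 : t • δ + a1 ∉ Submodule.span F {δ} := fun h => by
          rw [Submodule.add_mem_iff_right _ (Submodule.smul_mem _ _ (Submodule.mem_span_singleton_self δ))] at h
          obtain ⟨s', hs'⟩ := Submodule.mem_span_singleton.mp h
          have hs0 : s' ≠ 0 := fun h0 => ha10 (by rw [← hs', h0, zero_smul])
          exact hδa1 (Submodule.mem_span_singleton.mpr ⟨s'⁻¹, by rw [← hs', smul_smul, inv_mul_cancel₀ hs0, one_smul]⟩)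
        obtain ⟨u2, hu2, hu2δ⟩ := hmove (t • δ + a1) ((D 0).add_mem ((D 0).smul_mem _ hδ) ha1)
          (fun h => hind1 (h ▸ Submodule.zero_mem _)) hind1
        have hd : t • δ ≠ 0 := ht ▸ hy0
        obtain ⟨d, hd', hd1⟩ := hI.exists_perp_pairing (H := Submodule.span F {a1})
          (y := t • δ + a1) (fun h => hd (by
            rw [Submodule.add_mem_iff_left _ (Submodule.mem_span_singleton_self a1)] at h
            obtain ⟨s', hs'⟩ := Submodule.mem_span_singleton.mp h
            have ht0 : t ≠ 0 := fun h0 => hd (by rw [h0, zero_smul])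
            exfalso
            exact hδa1 (Submodule.mem_span_singleton.mpr ⟨t⁻¹ * s', by rw [← smul_smul, hs', smul_smul, inv_mul_cancel₀ ht0, one_smul]⟩)))
          (-1 : F)
        obtain ⟨p, hp, w, hw, rfl⟩ := hdec d
        have hval : ∀ y ∈ D 0, hh y w = hh (p + w) y ^ q := fun y hy => by
          rw [hh_conj hF, hh_add_right hF, hts 0 y hy p hp, zero_add]
        have haw : hh a1 w = 0 := by
          rw [hval a1 ha1, show hh (p + w) a1 = 0 from hd' a1 (Submodule.mem_span_singleton_self a1), zero_pow_q hF]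
        obtain ⟨u3, hu3, hu3x⟩ := hsU 0 1 (by decide) a1 ha1 w hw haw
        refine ⟨u3 * u2, L.mul_mem (hL hu3) (hL hu2), ?_⟩
        rw [Units.val_mul, ← Matrix.mulVec_mulVec, hu2δ, hu3x, hts 0 _ ((D 0).add_mem ((D 0).smul_mem _ hδ) ha1) a1 ha1,
          zero_smul, sub_zero, hval _ ((D 0).add_mem ((D 0).smul_mem _ hδ) ha1),
          show hh (p + w) (t • δ + a1) = -1 from hd1, pow_neg_q hF, one_pow, ← ht]
        module
      · obtain ⟨u, hu, huδ⟩ := hmove _ hy hy0 hxδ
        exact ⟨u, hL hu, huδ⟩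
    have h1 : uT x c hxx = u * uT δ c0 hδδ * u⁻¹ := by
      rw [eq_mul_inv_iff_mul_eq]
      refine gl_ext fun y => ?_
      rw [Units.val_mul, Units.val_mul, ← Matrix.mulVec_mulVec, ← Matrix.mulVec_mulVec, uT_mulVec, uT_mulVec,
        Matrix.mulVec_add, Matrix.mulVec_smul, huδ, ← mem_GU_iff.mp (hLS hu).1 y δ, huδ, hh_smul_right hF, smul_smul]
      congr 2
      rw [eq_div_iff hc00] at hr'
      linear_combination (- hh ((u : Matrix (Fin n) (Fin n) F) *ᵥ y) x) * hr'
    rw [h1]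
    exact L.mul_mem (L.mul_mem hu hc0L) (L.inv_mem hu)
  have hpure : ∀ x, hh x x = 0 → (x ∈ D 0 ∨ x ∈ D 1) → IsCentre q L x := by
    intro x hxx hx
    rcases eq_or_ne x 0 with rfl | hx0
    · refine ⟨hxx, fun c hc => ?_⟩
      have : uT (0 : Fin n → F) c hxx = 1 := gl_ext fun y => by
        rw [uT_mulVec, smul_zero, add_zero, Units.val_one, Matrix.one_mulVec]
      rw [this]; exact L.one_mem
    rcases hx with hx | hx
    · exact hcentre0 x hx hx0
    · have h1 := isCentre_mulVec hF hLS (L.inv_mem hsL) (hcentre0 _ (hs1 x hx) (fun h => hx0 (by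
        have h' := congrArg (((s⁻¹ : GL (Fin n) F) : Matrix (Fin n) (Fin n) F) *ᵥ ·) h
        simpa [Matrix.mulVec_mulVec, ← Units.val_mul] using h')))
      simpa [Matrix.mulVec_mulVec, ← Units.val_mul] using h1
  have htype1 : ∀ a ∈ D 0, ∀ b ∈ D 1, hh (a + b) (a + b) = 0 → hh b a ≠ 0 → IsCentre q L (a + b) := by
    intro a ha b hb hz hne
    have hc : (hh b a)⁻¹ + (hh b a)⁻¹ ^ q = 0 := by
      refine trace_zero_inv hF ?_
      rw [hh_add_left hF, hh_add_right hF, hh_add_right hF, hts 0 a ha a ha, hts 1 b hb b hb] at hz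
      rw [hh_conj hF]
      linear_combination hz
    have h1 := isCentre_shift hF hLS (hpure a (hts 0 a ha a ha) (Or.inl ha)) (hpure b (hts 1 b hb b hb) (Or.inr hb)) hc
    rwa [inv_mul_cancel₀ hne, one_smul, add_comm] at h1
  intro z hzz
  obtain ⟨a, ha, b, hb, rfl⟩ := hdec z
  by_cases hne : hh b a = 0
  swap
  · exact htype1 a ha b hb hzz hne
  by_cases hb0 : b = 0
  · exact hpure _ hzz (Or.inl (by rwa [hb0, add_zero]))
  by_cases ha0 : a = 0
  · exact hpure _ hzz (Or.inr (by rwa [ha0, zero_add]))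
  obtain ⟨d, hd, had⟩ := hpair 0 1 (by decide) a ha ha0 1
  obtain ⟨τ, hτ0, hτ⟩ := exists_trace_zero hF
  have hdv := hpure d (hts 1 d hd d hd) (Or.inr hd)
  have hzd : hh (a + b) d = 1 := by rw [hh_add_left hF, had, hts 1 b hb d hd, add_zero]
  have hmem : b + τ • d ∈ D 1 := (D 1).add_mem hb ((D 1).smul_mem _ hd)
  have hz2 : hh (a + (b + τ • d)) (a + (b + τ • d)) = 0 := by
    have := mem_GU_iff.mp (uT_mem hF d τ (hts 1 d hd d hd) hτ).1 (a + b) (a + b)
    rwa [uT_mulVec, hzd, mul_one, hzz, add_assoc] at this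
  have h1 := htype1 a ha (b + τ • d) hmem hz2 (by
    rw [hh_add_left hF, hh_smul_left hF, hne, zero_add, ← hh_conj hF a d, had, one_pow, mul_one]; exact hτ0)
  have h2 := isCentre_shift hF hLS hdv h1 (trace_zero_neg hF hτ)
  convert h2 using 1
  rw [← add_assoc, hh_add_left hF, hh_smul_left hF, hzd, hts 1 d hd d hd, mul_zero, add_zero]
  module

end Cfsg.Agent.GeomClasses.Unitary
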