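import Cfsg.Agent.GeomClasses.NondegStab
import Cfsg.Agent.GeomClasses.OmegaBridge
import Cfsg.Agent.Forms.Discr

/-! # Non-degenerate subspace stabilisers in `omegaGL` -/

set_option autoImplicit false

namespace Cfsg.Agent.GeomClasses

open Module Cfsg.Agent.Forms

variable {ι : Type} [Fintype ι] [DecidableEq ι] {F : Type*} [Field F]

/-- Two orthogonal isometric halves of even dimension contain a totally singular half. -/
theorem half_singular_of_isometric [Finite F] {Q : QuadraticForm F (ι → F)} {A B : Submodule F (ι → F)}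
    (h : OSplit Q A B) {g : orthGroup Q} (hgA : ∀ x ∈ A, (g : (ι → F) ≃ₗ[F] (ι → F)) x ∈ B)
    (hdim : finrank F A = finrank F B) (hev : Even (finrank F A)) (hpos : 1 ≤ finrank F A) :
    ∃ T : Submodule F (ι → F), (∀ x ∈ T, Q x = 0) ∧ 2 * finrank F T = Fintype.card ι := by
  classical
  have hV := Submodule.finrank_add_eq_of_isCompl h.compl
  rw [finrank_pi] at hV
  by_cases h2 : (2 : F) = 0
  · haveI : CharP F 2 := CharTwo.of_one_ne_zero_of_two_eq_zero one_ne_zero h2
    set φ : (ι → F) →ₗ[F] (ι → F) := LinearMap.id + ((g : (ι → F) ≃ₗ[F] (ι → F)) : (ι → F) →ₗ[F] (ι → F))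
    refine ⟨A.map φ, ?_, ?_⟩
    · rintro _ ⟨a, ha, rfl⟩
      simp only [φ, LinearMap.add_apply, LinearMap.id_coe, id_eq, LinearEquiv.coe_coe]
      rw [QuadraticMap.map_add Q, g.2.2, h.orth a ha _ (hgA a ha), add_zero]
      exact CharTwo.add_self_eq_zero _
    · have hinj : ∀ a ∈ A, φ a = 0 → a = 0 := fun a ha h0 => by
        simp only [φ, LinearMap.add_apply, LinearMap.id_coe, id_eq, LinearEquiv.coe_coe] at h0
        have : a ∈ B := by rw [eq_neg_of_add_eq_zero_left h0]; exact neg_mem (hgA a ha)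
        exact Submodule.disjoint_def.mp h.compl.disjoint a ha this
      have he : finrank F (A.map φ) = finrank F A := by
        rw [← LinearMap.range_domRestrict]
        exact LinearMap.finrank_range_of_inj fun a b hab => Subtype.ext (sub_eq_zero.mp
          (hinj _ (sub_mem a.2 b.2) (by
            rw [map_sub, sub_eq_zero]; exact hab)))
      omega
  · set Bf : LinearMap.BilinForm F (ι → F) := QuadraticMap.polarBilin Q
    have hS : Bf.IsSymm := ⟨fun x y => QuadraticMap.polar_comm (⇑Q) x y⟩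
    have hmapA : A.map ((g : (ι → F) ≃ₗ[F] (ι → F)) : (ι → F) →ₗ[F] (ι → F)) = B :=
      Submodule.eq_of_le_of_finrank_eq (Submodule.map_le_iff_le_comap.mpr fun x hx => hgA x hx)
        (by rw [LinearEquiv.finrank_map_eq]; exact hdim)
    set bA := finBasis F A
    set bB := bA.map (((g : (ι → F) ≃ₗ[F] (ι → F)).submoduleMap A).trans (LinearEquiv.ofEq _ _ hmapA))
    set c := (bA.prod bB).map (Submodule.prodEquivOfIsCompl A B h.compl)
    set G : Matrix (Fin (finrank F A)) (Fin (finrank F A)) F := Matrix.of fun i j => Bf (bA i) (bA j)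
    have hc : LinearMap.BilinForm.toMatrix c Bf = Matrix.fromBlocks G 0 0 G := by
      ext (i | i) (j | j)
      · simp [c, G, LinearMap.BilinForm.toMatrix_apply]
      · simp [c, LinearMap.BilinForm.toMatrix_apply, Bf, h.orth _ (bA i).2 _ (bB j).2]
      · simp [c, LinearMap.BilinForm.toMatrix_apply, Bf, h.symm.orth _ (bB i).2 _ (bA j).2]
      · simp [c, G, bB, LinearMap.BilinForm.toMatrix_apply, Bf]
    have hr : finrank F (ι → F) = 2 * finrank F A := by rw [finrank_pi]; omega
    obtain ⟨X, hX, hiso⟩ := (isotropic_iff (B := Bf) h2 hS h.nondeg hpos hr c).mpr (by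
      rw [hc, Matrix.det_fromBlocks_zero₂₁, hev.neg_one_pow, one_mul]
      exact IsSquare.mul_self _)
    refine ⟨X, fun x hx => ?_, by omega⟩
    have h0 : QuadraticMap.polar (⇑Q) x x = 0 := hiso x hx x hx
    rw [polar_self_two_mul] at h0
    exact (mul_eq_zero.mp h0).resolve_left h2

/-- The stabiliser of a non-degenerate subspace is maximal in `omegaGL`. -/
theorem isMaximalIn_nondeg [Finite F] {Q : QuadraticForm F (ι → F)} (hQ : (QuadraticMap.polarBilin Q).Nondegenerate)
    (hn : 13 ≤ Fintype.card ι) {W : Submodule F (ι → F)} (hW0 : W ≠ ⊥) (hW1 : W ≠ ⊤)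
    (hW : Cfsg.Geo.IsNondegenerateOn (QuadraticMap.polar ⇑Q) W)
    (hex : ∀ U : Submodule F (ι → F), finrank F U = 2 →
      (U = W ∨ U = perp (QuadraticMap.polarBilin Q) W) →
      4 ≤ Nat.card F ∨ ∀ x ∈ U, Q x = 0 → x = 0)
    (hswap : ∀ g : orthGroup Q, 2 * finrank F W = Fintype.card ι →
      (∀ x ∈ W, (g : (ι → F) ≃ₗ[F] (ι → F)) x ∈ perp (QuadraticMap.polarBilin Q) W) → False) :
    Cfsg.Geo.IsMaximalIn (Cfsg.Geo.omegaGL ⇑Q) (Cfsg.Geo.subspaceStabilizer W ⊓ Cfsg.Geo.omegaGL ⇑Q) := by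
  set W' := perp (QuadraticMap.polarBilin Q) W
  have hI := isForm_quadratic Q hQ
  have hdis : W ⊓ W' = ⊥ := (Submodule.eq_bot_iff _).mpr fun w hw => by
    by_contra hw0
    obtain ⟨⟨x, hx, hne⟩, -⟩ := hW w hw.1 hw0
    exact hne (hw.2 x hx)
  have hc : IsCompl W W' := by
    refine ⟨disjoint_iff.mpr hdis, codisjoint_iff.mpr (Submodule.eq_top_of_finrank_eq ?_)⟩
    have h1 := Submodule.finrank_sup_add_finrank_inf_eq W W'
    have h2 : finrank F W' + finrank F W = finrank F (ι → F) := hI.finrank_perp W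
    rw [hdis, finrank_bot] at h1
    omega
  have hs : OSplit Q W W' := ⟨hc, fun a ha b hb => hb a ha, hQ⟩
  have hn' : 13 ≤ finrank F (ι → F) := by rw [finrank_pi]; exact hn
  have hV := Submodule.finrank_add_eq_of_isCompl hc
  rw [finrank_pi] at hV
  have hW'0 : W' ≠ ⊥ := fun h0 => hW1 (by rw [← hc.sup_eq_top, h0, sup_bot_eq])
  have movesW : ∀ g : orthGroup Q, (∃ x ∈ W', (g : (ι → F) ≃ₗ[F] (ι → F)) x ∉ W') →
      ¬ ∀ x ∈ W, (g : (ι → F) ≃ₗ[F] (ι → F)) x ∈ W := fun g ⟨x, hx, hgx⟩ hst => hgx (hs.stable_right hst x hx)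
  refine isMaximalIn_omega Q (mem_stab_iff Q W) ?_ fun M hM g hg _ hgn => ?_
  · rcases le_total (finrank F W') (finrank F W) with hle | hle
    · obtain ⟨g, hg, ⟨x, hx, hgx⟩, -⟩ := exists_moves_split hs (by omega) (by omega) hW'0
      exact ⟨g, hg, fun hst => hgx (hst x hx)⟩
    · obtain ⟨g, hg, h1, -⟩ := exists_moves_split hs.symm (by omega) (by omega) hW0
      exact ⟨g, hg, movesW g h1⟩
  · push Not at hgn
    have notinto : ¬ ∀ x ∈ W, (g : (ι → F) ≃ₗ[F] (ι → F)) x ∈ W' ∧ finrank F W' ≤ finrank F W := fun h => by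
      obtain ⟨w, hw, -⟩ := Submodule.exists_mem_ne_zero_of_ne_bot hW0
      have hle := (h w hw).2
      have hle' : finrank F W ≤ finrank F W' := by
        rw [← LinearEquiv.finrank_map_eq (g : (ι → F) ≃ₗ[F] (ι → F)) W]
        exact Submodule.finrank_mono (Submodule.map_le_iff_le_comap.mpr fun x hx => (h x hx).1)
      exact hswap g (by omega) fun x hx => (h x hx).1
    rcases le_total (finrank F W') (finrank F W) with hle | hle
    · refine nondeg_stab_maximal hs hn' hle (fun h2 => hex W' h2 (Or.inr rfl))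
        (fun r hr h1 _ => hM r hr h1) hg hgn ?_
      by_contra hno
      push Not at hno
      exact notinto fun x hx => ⟨hno x hx, hle⟩
    · refine nondeg_stab_maximal hs.symm hn' hle (fun h2 => hex W h2 (Or.inl rfl))
        (fun r hr _ h2 => hM r hr h2) hg ?_ ?_
      · by_contra hno
        push Not at hno
        obtain ⟨x, hx, hgx⟩ := hgn
        exact hgx (hs.symm.stable_right hno x hx)
      · by_contra hno
        push Not at hno
        have hmap : finrank F W' ≤ finrank F W := by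
          rw [← LinearEquiv.finrank_map_eq (g : (ι → F) ≃ₗ[F] (ι → F)) W']
          exact Submodule.finrank_mono (Submodule.map_le_iff_le_comap.mpr fun x hx => hno x hx)
        have heq : W'.map ((g : (ι → F) ≃ₗ[F] (ι → F)) : (ι → F) →ₗ[F] (ι → F)) = W :=
          Submodule.eq_of_le_of_finrank_eq (Submodule.map_le_iff_le_comap.mpr fun x hx => hno x hx)
            (by rw [LinearEquiv.finrank_map_eq]; omega)
        refine hswap g⁻¹ (by omega) fun x hx => ?_
        rw [← heq] at hx
        obtain ⟨z, hz, rfl⟩ := hx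
        simpa using hz

end Cfsg.Agent.GeomClasses

namespace Cfsg.Agent.GeomClasses

open Module Cfsg.Agent.Forms

variable {ι : Type} [Fintype ι] [DecidableEq ι] {F : Type*} [Field F]

/-- A plane with a non-zero singular vector is of plus type. -/
theorem isPlusTypeOn_of_singular {Q : QuadraticForm F (ι → F)} {U : Submodule F (ι → F)} (hU : finrank F U = 2)
    {x : ι → F} (hx : x ∈ U) (hQx : Q x = 0) (hx0 : x ≠ 0) : Cfsg.Geo.IsPlusTypeOn ⇑Q U :=
  ⟨Submodule.span F {x}, (Submodule.span_singleton_le_iff_mem _ _).mpr hx, fun w hw => by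
    obtain ⟨c, rfl⟩ := Submodule.mem_span_singleton.mp hw
    rw [QuadraticMap.map_smul, hQx, smul_zero], by rw [finrank_span_singleton hx0, hU]⟩

/-- The hypothesis on small planes, from the excluded configuration. -/
theorem plane_hex [Fintype F] {Q : QuadraticForm F (ι → F)} (hQ : (QuadraticMap.polarBilin Q).Nondegenerate)
    {W : Submodule F (ι → F)} (hW : Cfsg.Geo.IsNondegenerateOn (QuadraticMap.polar ⇑Q) W)
    {n : ℕ} (hn : Fintype.card ι = n)
    (hex : ¬ (Fintype.card F ≤ 3 ∧ (∃ U : Submodule F (ι → F), finrank F U = 2 ∧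
      Cfsg.Geo.IsNondegenerateOn (QuadraticMap.polar ⇑Q) U ∧ Cfsg.Geo.IsPlusTypeOn ⇑Q U ∧
      (U = W ∨ (Cfsg.Geo.AreOrthogonalFor (QuadraticMap.polar ⇑Q) U W ∧ finrank F U + finrank F W = n)))))
    (U : Submodule F (ι → F)) (hU : finrank F U = 2) (hor : U = W ∨ U = perp (QuadraticMap.polarBilin Q) W) :
    4 ≤ Nat.card F ∨ ∀ x ∈ U, Q x = 0 → x = 0 := by
  rw [Nat.card_eq_fintype_card]
  by_contra hc
  push Not at hc
  obtain ⟨hq, x, hx, hQx, hx0⟩ := hc
  refine hex ⟨by omega, U, hU, ?_, isPlusTypeOn_of_singular hU hx hQx hx0, ?_⟩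
  · rcases hor with rfl | rfl
    · exact hW
    · have hI := isForm_quadratic Q hQ
      intro w hw hw0
      obtain ⟨d, hd, hwd⟩ := hI.exists_perp_pairing (H := W) (y := w) (fun hwW => by
        obtain ⟨⟨y, hy, hne⟩, -⟩ := hW w hwW hw0
        exact hne (hw y hy)) (1 : F)
      simp only [QuadraticMap.polarBilin_apply_apply] at hd hwd
      exact ⟨⟨d, hd, by rw [QuadraticMap.polar_comm, hwd]; exact one_ne_zero⟩, ⟨d, hd, by rw [hwd]; exact one_ne_zero⟩⟩
  · rcases hor with rfl | rfl
    · exact Or.inl rfl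
    · refine Or.inr ⟨fun u hu v hv => by rw [QuadraticMap.polar_comm]; exact hu v hv, ?_⟩
      have := (isForm_quadratic Q hQ).finrank_perp W
      rw [finrank_pi] at this
      omega

end Cfsg.Agent.GeomClasses
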