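import Cfsg.Agent.GeomClasses.OrthStab

/-! # Stabilisers of non-degenerate subspaces are maximal in the derived orthogonal group -/

set_option autoImplicit false

namespace Cfsg.Agent.GeomClasses

open Module Cfsg.Agent.Forms

variable {F V : Type*} [Field F] [AddCommGroup V] [Module F V] [FiniteDimensional F V]
  {Q : QuadraticForm F V}

set_option quotPrecheck false in
local notation "BQ" => QuadraticMap.polar ⇑Q

local notation "sp" => Submodule.span F

/-- An orthogonal splitting of a non-degenerate space. -/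
structure OSplit (Q : QuadraticForm F V) (A B : Submodule F V) : Prop where
  compl : IsCompl A B
  orth : ∀ a ∈ A, ∀ b ∈ B, QuadraticMap.polar Q a b = 0
  nondeg : (QuadraticMap.polarBilin Q).Nondegenerate

variable {A B : Submodule F V}

theorem OSplit.symm (h : OSplit Q A B) : OSplit Q B A :=
  ⟨h.compl.symm, fun b hb a ha => by rw [QuadraticMap.polar_comm]; exact h.orth a ha b hb, h.nondeg⟩

theorem OSplit.split (h : OSplit Q A B) (x : V) : ∃ a ∈ A, ∃ b ∈ B, x = a + b := by
  have hx : x ∈ A ⊔ B := by rw [h.compl.sup_eq_top]; trivial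
  obtain ⟨a, ha, b, hb, he⟩ := Submodule.mem_sup.mp hx
  exact ⟨a, ha, b, hb, he.symm⟩

theorem OSplit.comp (h : OSplit Q A B) (d : V) : ∃ d0 ∈ A, ∀ x ∈ A, BQ x d = BQ x d0 := by
  obtain ⟨a, ha, b, hb, rfl⟩ := h.split d
  exact ⟨a, ha, fun x hx => by rw [QuadraticMap.polar_add_right, h.orth x hx b hb, add_zero]⟩

theorem OSplit.eq_zero (h : OSplit Q A B) {x : V} (hx : x ∈ A) (h0 : ∀ y ∈ A, BQ x y = 0) : x = 0 := by
  refine h.nondeg.1 x fun y => ?_
  obtain ⟨a, ha, he⟩ := h.comp y
  rw [QuadraticMap.polarBilin_apply_apply, he x hx, h0 a ha]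

theorem OSplit.pairing (h : OSplit Q A B) {S : Submodule F V} (hS : S ≤ A) {u : V} (hu : u ∈ A) (huS : u ∉ S) :
    ∃ d ∈ A, (∀ s ∈ S, BQ s d = 0) ∧ BQ u d = 1 := by
  obtain ⟨d, hd, hud⟩ := (isForm_quadratic Q h.nondeg).exists_perp_pairing huS (1 : F)
  simp only [QuadraticMap.polarBilin_apply_apply] at hd hud
  obtain ⟨d0, hd0, he⟩ := h.comp d
  exact ⟨d0, hd0, fun s hs => by rw [← he s (hS hs)]; exact hd s hs, by rw [← he u hu]; exact hud⟩

theorem OSplit.finrank_inf (h : OSplit Q A B) (S : Submodule F V) :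
    finrank F A ≤ finrank F ↥(perp (QuadraticMap.polarBilin Q) S ⊓ A) + finrank F S := by
  have h1 := Submodule.finrank_sup_add_finrank_inf_eq (perp (QuadraticMap.polarBilin Q) S) A
  have h2 := (isForm_quadratic Q h.nondeg).finrank_perp S
  have h3 := Submodule.finrank_le (perp (QuadraticMap.polarBilin Q) S ⊔ A)
  omega

theorem OSplit.stable_right (h : OSplit Q A B) {g : orthGroup Q} (hA : ∀ x ∈ A, (g : V ≃ₗ[F] V) x ∈ A) :
    ∀ y ∈ B, (g : V ≃ₗ[F] V) y ∈ B := by
  intro y hy
  obtain ⟨a, ha, b, hb, he⟩ := h.split ((g : V ≃ₗ[F] V) y)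
  have hmap : A.map ((g : V ≃ₗ[F] V) : V →ₗ[F] V) = A :=
    Submodule.eq_of_le_of_finrank_eq (Submodule.map_le_iff_le_comap.mpr fun x hx => hA x hx)
      (LinearEquiv.finrank_map_eq _ _)
  have ha0 : a = 0 := h.eq_zero ha fun z hz => by
    rw [← hmap] at hz
    obtain ⟨z', hz', rfl⟩ := hz
    have h1 : BQ ((g : V ≃ₗ[F] V) y) ((g : V ≃ₗ[F] V) z') = 0 := by
      rw [orth_polar, QuadraticMap.polar_comm]; exact h.orth z' hz' y hy
    rw [he, QuadraticMap.polar_add_left] at h1
    have h2 : BQ b ((g : V ≃ₗ[F] V) z') = 0 := by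
      rw [QuadraticMap.polar_comm]; exact h.orth _ (hA z' hz') b hb
    rwa [h2, add_zero] at h1
  rw [he, ha0, zero_add]; exact hb

theorem eichler_stable {x w : V} (hx : Q x = 0) (hw : BQ x w = 0) {S : Submodule F V} (hxS : x ∈ S) (hwS : w ∈ S)
    {y : V} (hy : y ∈ S) : ((eichler Q x w hx hw : orthGroup Q) : V ≃ₗ[F] V) y ∈ S := by
  rw [eichler_apply, eichlerMap_apply]
  exact sub_mem (add_mem hy (S.smul_mem _ hwS)) (S.smul_mem _ hxS)

theorem eichler_fixes {x w : V} (hx : Q x = 0) (hw : BQ x w = 0) {y : V} (h1 : BQ x y = 0) (h2 : BQ w y = 0) :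
    ((eichler Q x w hx hw : orthGroup Q) : V ≃ₗ[F] V) y = y := by
  rw [eichler_apply, eichlerMap_apply, h1, h2]; simp

theorem exists_ne_three [Finite F] (hq : 4 ≤ Nat.card F) (a b c : F) : ∃ t, t ≠ a ∧ t ≠ b ∧ t ≠ c := by
  classical
  have := Fintype.ofFinite F
  rw [Nat.card_eq_fintype_card] at hq
  obtain ⟨t, -, ht⟩ : ∃ t ∈ (Finset.univ : Finset F), t ∉ ({a, b, c} : Finset F) :=
    Finset.exists_mem_notMem_of_card_lt_card (lt_of_le_of_lt Finset.card_le_three (by rw [Finset.card_univ]; omega))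
  simp only [Finset.mem_insert, Finset.mem_singleton, not_or] at ht
  exact ⟨t, ht.1, ht.2.1, ht.2.2⟩

section Finite

variable [Finite F]

/-- An invariant subspace of a non-degenerate space is everything, apart from small planes. -/
theorem invariant_eq (h : OSplit Q B A) (hex : finrank F B = 2 → 4 ≤ Nat.card F ∨ ∀ x ∈ B, Q x = 0 → x = 0)
    {S : Submodule F V} (hS : S ≤ B) {u : V} (hu : u ∈ S) (hu0 : u ≠ 0)
    (hE : ∀ a ∈ B, ∀ b ∈ B, ∀ (ha : Q a = 0) (hab : BQ a b = 0), ∀ y ∈ S,
      ((eichler Q a b ha hab : orthGroup Q) : V ≃ₗ[F] V) y ∈ S)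
    (hR : ∀ v ∈ B, Q v ≠ 0 → ∀ y ∈ S, (reflection Q v : V ≃ₗ[F] V) y ∈ S) : S = B := by
  have huB := hS hu
  have hu1 : finrank F (sp {u}) = 1 := finrank_span_singleton hu0
  have hsp : sp {u} ≤ S := (Submodule.span_singleton_le_iff_mem _ _).mpr hu
  rcases le_or_gt 3 (finrank F B) with h3 | h3
  · obtain ⟨s, hs, hs0, hQs⟩ := exists_singular_mem (Q := Q) h3
    obtain ⟨y, hy, -, hsy⟩ := h.pairing (S := ⊥) bot_le hs (by simpa using hs0)
    refine le_antisymm hS ((le_span_singular hs hQs hy (by rw [hsy]; exact one_ne_zero)).trans (Submodule.span_le.mpr ?_))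
    rintro a ⟨ha, hQa⟩
    by_contra haS
    have haS' : a ∉ S := haS
    -- no non-zero element of `S` is orthogonal to `a`
    have hno : ∀ z ∈ S, BQ z a = 0 → z = 0 := by
      intro z hz hza
      by_contra hz0
      have hzs : z ∉ sp {a} := fun hm => by
        obtain ⟨c, rfl⟩ := Submodule.mem_span_singleton.mp hm
        have hc : c ≠ 0 := fun hc => hz0 (by rw [hc, zero_smul])
        exact haS' (by simpa [smul_smul, inv_mul_cancel₀ hc] using S.smul_mem c⁻¹ hz)
      obtain ⟨b, hb, hab, hzb⟩ := h.pairing (S := sp {a}) ((Submodule.span_singleton_le_iff_mem _ _).mpr ha) (hS hz) hzs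
      have hab' := hab a (Submodule.mem_span_singleton_self a)
      have hm := hE a ha b hb hQa hab' z hz
      rw [eichler_apply, eichlerMap_apply, QuadraticMap.polar_comm _ a z, hza, QuadraticMap.polar_comm _ b z, hzb] at hm
      exact haS' (by simpa using sub_mem hz hm)
    have hua : BQ u a ≠ 0 := fun h0 => hu0 (hno u hu h0)
    obtain ⟨b, ⟨hb, hbB⟩, hba⟩ : ∃ b, b ∈ perp (QuadraticMap.polarBilin Q) (sp {a}) ⊓ B ∧ b ∉ sp {a} := by
      refine SetLike.not_le_iff_exists.mp fun hle : perp (QuadraticMap.polarBilin Q) (sp {a}) ⊓ B ≤ sp {a} => ?_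
      have h1 := Submodule.finrank_mono hle
      have h2 := h.finrank_inf (sp {a})
      have h4 : finrank F (sp {a}) ≤ 1 := (finrank_span_le_card {a}).trans (by simp)
      omega
    have hab : BQ a b = 0 := mem_perp_span_singleton.mp hb
    set w := ((eichler Q a b hQa hab : orthGroup Q) : V ≃ₗ[F] V) u with hw
    have hwS : w ∈ S := hE a ha b hbB hQa hab u hu
    have hwa : BQ w a = BQ u a := by
      have e : ((eichler Q a b hQa hab : orthGroup Q) : V ≃ₗ[F] V) a = a :=
        eichler_fixes hQa hab (by rw [polar_self_two_mul, hQa, mul_zero]) (by rw [QuadraticMap.polar_comm]; exact hab)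
      have h' := orth_polar Q (eichler Q a b hQa hab) u a
      rwa [e] at h'
    have hwu : w - u = 0 := hno _ (sub_mem hwS hu) (by rw [QuadraticMap.polar_sub_left, hwa, sub_self])
    rw [hw, eichler_apply, eichlerMap_apply, add_sub_assoc, add_sub_cancel_left, sub_eq_zero] at hwu
    refine hba (Submodule.mem_span_singleton.mpr ⟨(BQ a u)⁻¹ * (BQ b u + Q b * BQ a u), ?_⟩)
    rw [← smul_smul, ← hwu, smul_smul, inv_mul_cancel₀ (by rw [QuadraticMap.polar_comm]; exact hua), one_smul]
  · have hB1 : 1 ≤ finrank F B := by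
      have := Submodule.finrank_mono (hsp.trans hS); omega
    rcases eq_or_ne (finrank F B) 1 with h1 | h1
    · exact le_antisymm hS ((Submodule.eq_of_le_of_finrank_eq (hsp.trans hS) (by omega)).ge.trans hsp)
    · have h2 : finrank F B = 2 := by omega
      -- a non-singular vector of the plane outside the line and not orthogonal to it
      obtain ⟨v, hv, hQv, hvu⟩ : ∃ v ∈ B, Q v ≠ 0 ∧ BQ v u ≠ 0 ∧ v ∉ sp {u} := by
        obtain ⟨d, hd, -, hud⟩ := h.pairing (S := ⊥) bot_le huB (by simpa using hu0)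
        have outside : ∀ w, w ∉ sp {u} → ∀ t : F, w + t • u ∉ sp {u} := fun w hw t hm =>
          hw (by simpa using sub_mem hm (Submodule.smul_mem _ t (Submodule.mem_span_singleton_self u)))
        have hBv : ∀ (w : V) (t : F), BQ (w + t • u) u = BQ w u + t * (2 * Q u) := fun w t => by
          rw [QuadraticMap.polar_add_left, QuadraticMap.polar_smul_left, polar_self_two_mul, smul_eq_mul]
        have hQv : ∀ (w : V) (t : F), Q (w + t • u) = Q w + t * t * Q u + t * BQ w u := fun w t => by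
          rw [QuadraticMap.map_add Q, QuadraticMap.map_smul, QuadraticMap.polar_smul_right]; rfl
        by_cases hdu : d ∈ sp {u}
        · obtain ⟨c, hc⟩ := Submodule.mem_span_singleton.mp hdu
          have hcu : c * (2 * Q u) = 1 := by
            rw [← hc, QuadraticMap.polar_smul_right, polar_self_two_mul] at hud; exact hud
          have hQu : Q u ≠ 0 := fun h0 => by rw [h0, mul_zero, mul_zero] at hcu; exact zero_ne_one hcu
          have h2u : 2 * Q u ≠ 0 := fun h0 => by rw [h0, mul_zero] at hcu; exact zero_ne_one hcu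
          obtain ⟨w, ⟨hw, hwB⟩, hwu⟩ : ∃ w, w ∈ perp (QuadraticMap.polarBilin Q) (sp {u}) ⊓ B ∧ w ∉ sp {u} := by
            refine SetLike.not_le_iff_exists.mp fun hle : perp (QuadraticMap.polarBilin Q) (sp {u}) ⊓ B ≤ sp {u} => ?_
            have e1 := h.finrank_inf (sp {u})
            have hbot : perp (QuadraticMap.polarBilin Q) (sp {u}) ⊓ B = ⊥ := (Submodule.eq_bot_iff _).mpr fun x hx => by
              obtain ⟨c', rfl⟩ := Submodule.mem_span_singleton.mp (hle hx)
              have hz := mem_perp_span_singleton.mp hx.1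
              simp only [QuadraticMap.polarBilin_apply_apply, QuadraticMap.polar_smul_right, polar_self_two_mul,
                smul_eq_mul] at hz
              rw [(mul_eq_zero.mp hz).resolve_right h2u, zero_smul]
            rw [hbot, finrank_bot] at e1; omega
          have hwu' : BQ w u = 0 := by rw [QuadraticMap.polar_comm]; exact mem_perp_span_singleton.mp hw
          obtain ⟨t, ht0, htQ⟩ : ∃ t : F, t ≠ 0 ∧ Q w + t * t * Q u ≠ 0 := by
            rcases hex h2 with hq | han
            · by_cases hr : ∃ r : F, Q w + r * r * Q u = 0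
              · obtain ⟨r, hr⟩ := hr
                obtain ⟨t, t1, t2, t3⟩ := exists_ne_three hq 0 r (-r)
                refine ⟨t, t1, fun ht => ?_⟩
                have : (t - r) * (t + r) = 0 := mul_right_cancel₀ hQu (by linear_combination ht - hr)
                rcases mul_eq_zero.mp this with h' | h'
                · exact t2 (sub_eq_zero.mp h')
                · exact t3 (eq_neg_of_add_eq_zero_left h')
              · push Not at hr
                exact ⟨1, one_ne_zero, hr 1⟩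
            · refine ⟨1, one_ne_zero, fun h0 => ?_⟩
              have := han (w + (1 : F) • u) (add_mem hwB (B.smul_mem _ huB)) (by rw [hQv, hwu', mul_zero, add_zero, h0])
              exact outside w hwu 1 (by rw [this]; exact zero_mem _)
          exact ⟨w + t • u, add_mem hwB (B.smul_mem _ huB), by rw [hQv, hwu', mul_zero, add_zero]; exact htQ,
            by rw [hBv, hwu', zero_add]; exact mul_ne_zero ht0 h2u, outside w hwu t⟩
        · have hdu' : BQ d u = 1 := by rw [QuadraticMap.polar_comm]; exact hud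
          rcases eq_or_ne (Q d) 0 with hQd | hQd
          · rcases hex h2 with hq | han
            · obtain ⟨t, t1, t2, t3⟩ := exists_ne_three hq 0 (-(Q u)⁻¹) (-(2 * Q u)⁻¹)
              refine ⟨d + t • u, add_mem hd (B.smul_mem _ huB), ?_, ?_, outside d hdu t⟩
              · rw [hQv, hQd, hdu', zero_add, mul_one]
                intro h0
                have h1 : t * (t * Q u + 1) = 0 := by linear_combination h0
                rcases mul_eq_zero.mp h1 with h' | h'
                · exact t1 h'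
                · rcases eq_or_ne (Q u) 0 with hq0 | hq0
                  · rw [hq0, mul_zero, zero_add] at h'; exact one_ne_zero h'
                  · exact t2 (by field_simp; linear_combination h')
              · rw [hBv, hdu']
                intro h0
                rcases eq_or_ne (2 * Q u) 0 with hq0 | hq0
                · rw [hq0, mul_zero, add_zero] at h0; exact one_ne_zero h0
                · refine t3 (?_ : t = -(2 * Q u)⁻¹)
                  rw [eq_neg_iff_add_eq_zero, ← mul_eq_zero_iff_right hq0, add_mul, inv_mul_cancel₀ hq0]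
                  linear_combination h0
            · exact absurd (han d hd hQd) fun h0 => hdu (by rw [h0]; exact zero_mem _)
          · exact ⟨d, hd, hQd, by rw [hdu']; exact one_ne_zero, hdu⟩
      have hm := hR v hv hQv u hu
      rw [Forms.reflection_apply] at hm
      have hvS : v ∈ S := by
        have h4 := S.smul_mem ((Q v)⁻¹ * BQ v u)⁻¹ (sub_mem hu hm)
        rwa [sub_sub_cancel, smul_smul, inv_mul_cancel₀ (mul_ne_zero (inv_ne_zero hQv) hvu.1), one_smul] at h4
      refine Submodule.eq_of_le_of_finrank_le hS ?_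
      have h5 : sp {u} < S := lt_of_le_of_ne hsp fun e => hvu.2 (e ▸ hvS)
      have := Submodule.finrank_lt_finrank_of_lt h5
      omega

variable {M : Subgroup (orthGroup Q)}

/-- A transformation with centre in one part, from a crooked one. -/
theorem seed (h : OSplit Q A B) (hA : 6 ≤ finrank F A)
    (hEA : ∀ a ∈ A, ∀ b ∈ A, Q a = 0 → BQ a b = 0 → EIn Q M a b)
    {x' v'' w' u'' : V} (hx' : x' ∈ A) (hv : v'' ∈ A) (hw' : w' ∈ B) (hu : u'' ∈ B)
    (hm : EIn Q M (x' + w') (v'' + u'')) (hvx : v'' ∉ sp {x'}) :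
    ∃ z ∈ A, z ≠ 0 ∧ Q z = 0 ∧ EIn Q M z w' := by
  have hI := isForm_quadratic Q h.nondeg
  have hsx : sp {x'} ≤ A := (Submodule.span_singleton_le_iff_mem _ _).mpr hx'
  have hfx : finrank F (sp {x'}) ≤ 1 := (finrank_span_le_card {x'}).trans (by simp)
  obtain ⟨a, ha, hQa, hax, hav⟩ := exists_sing_pair h.nondeg (U := A) h.comp hsx (by omega) hv hvx
  have hax' : BQ a x' = 0 := by rw [QuadraticMap.polar_comm]; exact hax x' (Submodule.mem_span_singleton_self x')
  set T := sp {x', v''} ⊔ sp {a}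
  have hT : finrank F T ≤ 3 := by
    have e1 := Submodule.finrank_sup_add_finrank_inf_eq (sp {x', v''}) (sp {a})
    have e2 := finrank_pair_le (F := F) x' v''
    have e3 : finrank F (sp {a}) ≤ 1 := (finrank_span_le_card {a}).trans (by simp)
    change finrank F ↥(sp {x', v''} ⊔ sp {a}) ≤ 3
    omega
  have hK : 3 ≤ finrank F ↥(perp (QuadraticMap.polarBilin Q) T ⊓ A) := by
    have := h.finrank_inf T; omega
  obtain ⟨b, ⟨hbT, hbA⟩, hb0, hQb⟩ := exists_singular_mem (Q := Q) hK
  have hbx : BQ b x' = 0 := by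
    rw [QuadraticMap.polar_comm]; exact hbT x' (Submodule.mem_sup_left (Submodule.subset_span (by simp)))
  have hbv : BQ b v'' = 0 := by
    rw [QuadraticMap.polar_comm]; exact hbT v'' (Submodule.mem_sup_left (Submodule.subset_span (by simp)))
  have hab : BQ a b = 0 := hbT a (Submodule.mem_sup_right (Submodule.mem_span_singleton_self a))
  obtain ⟨_, _, hTm⟩ := hEA a ha b hbA hQa hab
  have e1 : ((eichler Q a b hQa hab : orthGroup Q) : V ≃ₗ[F] V) (x' + w') = x' + w' :=
    eichler_fixes hQa hab (by rw [QuadraticMap.polar_add_right, hax', h.orth a ha w' hw', add_zero])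
      (by rw [QuadraticMap.polar_add_right, hbx, h.orth b hbA w' hw', add_zero])
  have e2 : ((eichler Q a b hQa hab : orthGroup Q) : V ≃ₗ[F] V) (v'' + u'') = (v'' + u'') + BQ a v'' • b := by
    rw [eichler_apply, eichlerMap_apply, QuadraticMap.polar_add_right, QuadraticMap.polar_add_right,
      h.orth a ha u'' hu, h.orth b hbA u'' hu, hbv, hQb]
    simp
  have h1 := eIn_conj hTm hm
  rw [e1, e2] at h1
  have h2 := eIn_add h1 (eIn_neg hm)
  rw [add_neg_eq_iff_eq_add.mpr (add_comm _ _)] at h2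
  set z := BQ a v'' • b
  have hz : z ∈ A := A.smul_mem _ hbA
  have hQz : Q z = 0 := by rw [QuadraticMap.map_smul, hQb, smul_zero]
  have h3 := eIn_add (eIn_swap h2 hQz) (hEA z hz x' hx' hQz (by
    rw [QuadraticMap.polar_smul_left, hbx, smul_zero]))
  rw [show -(x' + w') + x' = -w' by abel] at h3
  exact ⟨z, hz, smul_ne_zero hav hb0, hQz, by simpa using eIn_neg h3⟩

/-- All transformations with centre in a big part, from one. -/
theorem spread (h : OSplit Q A B) (hn : 7 ≤ finrank F V) (hA : 6 ≤ finrank F A)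
    (hex : finrank F B = 2 → 4 ≤ Nat.card F ∨ ∀ x ∈ B, Q x = 0 → x = 0)
    (hHM : ∀ g ∈ commutator (orthGroup Q), (∀ x ∈ A, (g : V ≃ₗ[F] V) x ∈ A) →
      (∀ x ∈ B, (g : V ≃ₗ[F] V) x ∈ B) → g ∈ M)
    {z w' : V} (hz : z ∈ A) (hz0 : z ≠ 0) (hQz : Q z = 0) (hw : w' ∈ B) (hw0 : w' ≠ 0) (hm : EIn Q M z w') :
    ∀ x ∈ A, Q x = 0 → Full Q M x := by
  have hI := isForm_quadratic Q h.nondeg
  have hEA : ∀ a b (ha : Q a = 0) (hab : BQ a b = 0), a ∈ A → b ∈ A → eichler Q a b ha hab ∈ M :=
    fun a b ha hab haA hbA => hHM _ (eichler_mem_comm h.nondeg hn ha hab)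
      (fun x hx => eichler_stable ha hab haA hbA hx) fun x hx => by
        rwa [eichler_fixes ha hab (h.orth a haA x hx) (h.orth b hbA x hx)]
  have move : ∀ u ∈ B, ∀ x y, x ∈ A → y ∈ A → Q x = 0 → Q y = 0 → x ∉ sp {x - y} → EIn Q M x u → EIn Q M y u := by
    intro u hu x y hx hy hQx hQy hind hxu
    have hsle : sp {x - y} ≤ A := (Submodule.span_singleton_le_iff_mem _ _).mpr (sub_mem hx hy)
    have hfd : finrank F (sp {x - y}) ≤ 1 := (finrank_span_le_card {x - y}).trans (by simp)
    obtain ⟨c, hc, hQc, hcd, hcx⟩ := exists_sing_pair h.nondeg (U := A) h.comp hsle (by omega) hx hind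
    have hcy : BQ c x = BQ c y := by
      have := hcd _ (Submodule.mem_span_singleton_self _)
      rw [QuadraticMap.polar_comm, QuadraticMap.polar_sub_right, sub_eq_zero] at this; exact this
    obtain ⟨hcw, hmap⟩ := exists_move hQc (a := x) (b := y) (by rw [hQx, hQy]) hcy hcx
    have hwA : (BQ c x)⁻¹ • (y - x) ∈ A := A.smul_mem _ (sub_mem hy hx)
    have h1 := eIn_conj (hEA c _ hQc hcw hc hwA) hxu
    rwa [eichler_apply, hmap, eichler_fixes hQc hcw (h.orth c hc u hu) (h.orth _ hwA u hu)] at h1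
  have indep : ∀ {x y : V}, x ≠ 0 → y ∉ sp {x} → x ∉ sp {x - y} := by
    intro x y hx hy hm'
    obtain ⟨c, hc⟩ := Submodule.mem_span_singleton.mp hm'
    rcases eq_or_ne c 0 with rfl | hc0
    · exact hx (by rw [← hc, zero_smul])
    · refine hy (Submodule.mem_span_singleton.mpr ⟨1 - c⁻¹, ?_⟩)
      conv_lhs => rw [sub_smul, one_smul]; arg 2; rw [← hc, smul_smul, inv_mul_cancel₀ hc0, one_smul]
      abel
  have allx : ∀ u ∈ B, EIn Q M z u → ∀ x ∈ A, Q x = 0 → EIn Q M x u := by
    intro u hu hzu x hx hQx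
    rcases eq_or_ne x 0 with rfl | hx0
    · refine ⟨map_zero Q, by simp [QuadraticMap.polar], ?_⟩
      convert one_mem M
      exact orth_ext fun y => by simp [eichler_apply, eichlerMap_apply, QuadraticMap.polar]
    by_cases hxz : x ∈ sp {z}
    · obtain ⟨c, hc, hQc, hcz, -, hcz'⟩ : ∃ c ∈ A, Q c = 0 ∧ BQ c z ≠ 0 ∧ True ∧ c ∉ sp {z} := by
        obtain ⟨c, hc, hQc, -, hcz⟩ := exists_sing_pair h.nondeg (U := A) h.comp (S := ⊥) bot_le
          (by simp; omega) hz (by simpa using hz0)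
        refine ⟨c, hc, hQc, hcz, trivial, fun hm' => hcz ?_⟩
        obtain ⟨d, rfl⟩ := Submodule.mem_span_singleton.mp hm'
        rw [QuadraticMap.polar_smul_left, polar_self_two_mul, hQz]; simp
      have h1 := move u hu z c hz hc hQz hQc (indep hz0 hcz') hzu
      refine move u hu c x hc hx hQc hQx (indep (fun h0 => hcz' (by rw [h0]; exact zero_mem _)) fun hm' => ?_) h1
      obtain ⟨d, hd⟩ := Submodule.mem_span_singleton.mp hxz
      obtain ⟨e, he⟩ := Submodule.mem_span_singleton.mp hm'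
      have he0 : e ≠ 0 := fun h0 => hx0 (by rw [← he, h0, zero_smul])
      exact hcz' (Submodule.mem_span_singleton.mpr ⟨e⁻¹ * d, by
        rw [← smul_smul, hd, ← he, smul_smul, inv_mul_cancel₀ he0, one_smul]⟩)
    · exact move u hu z x hz hx hQz hQx (indep hz0 hxz) hzu
  let S : Submodule F V :=
    { carrier := {u | u ∈ B ∧ ∀ x ∈ A, Q x = 0 → EIn Q M x u}
      add_mem' := fun ha hb => ⟨add_mem ha.1 hb.1, fun x hx hQx => eIn_add (ha.2 x hx hQx) (hb.2 x hx hQx)⟩
      zero_mem' := ⟨zero_mem _, fun x _ hQx => eIn_zero hQx⟩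
      smul_mem' := fun c u hu => ⟨B.smul_mem c hu.1, fun x hx hQx => by
        exact (eIn_smul c hQx (h.orth x hx u hu.1)).mp
          (hu.2 _ (A.smul_mem c hx) (by rw [QuadraticMap.map_smul, hQx, smul_zero]))⟩ }
  have hSB : S = B := by
    refine invariant_eq h.symm hex (fun u hu => hu.1) (u := w') ⟨hw, allx w' hw hm⟩ hw0 ?_ ?_
    · intro a ha b hb hQa hab y hy
      have hmem : eichler Q a b hQa hab ∈ M := hHM _ (eichler_mem_comm h.nondeg hn hQa hab)
        (fun x hx => by rwa [eichler_fixes hQa hab (h.symm.orth a ha x hx) (h.symm.orth b hb x hx)])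
        fun x hx => eichler_stable hQa hab ha hb hx
      refine ⟨eichler_stable hQa hab ha hb hy.1, fun x hx hQx => ?_⟩
      have h1 := eIn_conj hmem (hy.2 x hx hQx)
      rwa [eichler_fixes hQa hab (h.symm.orth a ha x hx) (h.symm.orth b hb x hx)] at h1
    · intro v hv hQv y hy
      obtain ⟨s, hs, hs0, hQs⟩ := exists_singular_mem (Q := Q) (W := A) (by omega)
      obtain ⟨a0, ha0, -, hsa⟩ := h.pairing (S := ⊥) bot_le hs (by simpa using hs0)
      set a := a0 + (Q v - Q a0) • s
      have haA : a ∈ A := add_mem ha0 (A.smul_mem _ hs)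
      have hQa : Q a = Q v := by
        simp only [a]
        rw [QuadraticMap.map_add Q, QuadraticMap.map_smul, hQs, QuadraticMap.polar_smul_right,
          QuadraticMap.polar_comm _ a0 s, hsa]
        simp
      set r := reflection Q a * reflection Q v
      have rA : ∀ x ∈ A, (r : V ≃ₗ[F] V) x = (reflection Q a : V ≃ₗ[F] V) x := fun x hx => by
        rw [orth_mul_apply, Forms.reflection_fix (Q := Q) (h.symm.orth v hv x hx)]
      have rAA : ∀ x ∈ A, (reflection Q a : V ≃ₗ[F] V) x ∈ A := fun x hx => by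
        rw [Forms.reflection_apply]; exact sub_mem hx (A.smul_mem _ haA)
      have rvB : ∀ x ∈ B, (reflection Q v : V ≃ₗ[F] V) x ∈ B := fun x hx => by
        rw [Forms.reflection_apply]; exact sub_mem hx (B.smul_mem _ hv)
      have rB : ∀ x ∈ B, (r : V ≃ₗ[F] V) x = (reflection Q v : V ≃ₗ[F] V) x := fun x hx => by
        rw [orth_mul_apply, Forms.reflection_fix (Q := Q) (h.orth a haA _ (rvB x hx))]
      have hrM : r ∈ M := hHM r (reflection_pair_mem h.nondeg hQv hQa.symm)
        (fun x hx => by rw [rA x hx]; exact rAA x hx) fun x hx => by rw [rB x hx]; exact rvB x hx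
      refine ⟨rvB y hy.1, fun x hx hQx => ?_⟩
      have h1 := eIn_conj hrM (hy.2 _ (rAA x hx) (by rw [(reflection Q a).2.2]; exact hQx))
      rwa [rB y hy.1, rA _ (rAA x hx), ← orth_mul_apply, Forms.reflection_mul_self, orth_one_apply] at h1
  intro x hx hQx
  refine ⟨hQx, fun w hxw => ?_⟩
  obtain ⟨a, ha, b, hb, rfl⟩ := h.split w
  rw [QuadraticMap.polar_add_right, h.orth x hx b hb, add_zero] at hxw
  rw [← hSB] at hb
  exact eIn_add ⟨hQx, hxw, hEA x a hQx hxw hx ha⟩ (hb.2 x hx hQx)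

/-- A singular vector sent outside both parts. -/
theorem exists_crooked (h : OSplit Q A B) (hA : 3 ≤ finrank F A) {g : orthGroup Q}
    (h1 : ∃ x ∈ A, (g : V ≃ₗ[F] V) x ∉ A) (h2 : ∃ x ∈ A, (g : V ≃ₗ[F] V) x ∉ B) :
    ∃ x ∈ A, Q x = 0 ∧ (g : V ≃ₗ[F] V) x ∉ A ∧ (g : V ≃ₗ[F] V) x ∉ B := by
  obtain ⟨s, hs, hs0, hQs⟩ := exists_singular_mem (Q := Q) hA
  obtain ⟨y, hy, -, hsy⟩ := h.pairing (S := ⊥) bot_le hs (by simpa using hs0)
  have hspan := le_span_singular hs hQs hy (by rw [hsy]; exact one_ne_zero)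
  have get : ∀ C : Submodule F V, (∃ x ∈ A, (g : V ≃ₗ[F] V) x ∉ C) → ∃ x ∈ A, Q x = 0 ∧ (g : V ≃ₗ[F] V) x ∉ C := by
    rintro C ⟨x, hx, hxC⟩
    by_contra hno
    push Not at hno
    exact hxC ((Submodule.span_le (p := C.comap ((g : V ≃ₗ[F] V) : V →ₗ[F] V))).mpr (fun z hz => hno z hz.1 hz.2) (hspan hx))
  obtain ⟨a, ha, hQa, haA⟩ := get A h1
  obtain ⟨b, hb, hQb, hbB⟩ := get B h2
  by_cases haB : (g : V ≃ₗ[F] V) a ∈ B
  swap; · exact ⟨a, ha, hQa, haA, haB⟩
  by_cases hbA : (g : V ≃ₗ[F] V) b ∈ A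
  swap; · exact ⟨b, hb, hQb, hbA, hbB⟩
  refine ⟨a + b, add_mem ha hb, ?_, fun hm => haA ?_, fun hm => hbB ?_⟩
  · rw [QuadraticMap.map_add Q, hQa, hQb, ← orth_polar Q g, h.symm.orth _ haB _ hbA]; simp
  · rw [map_add] at hm; simpa using sub_mem hm hbA
  · rw [map_add] at hm; simpa using sub_mem hm haB

/-- **The stabiliser of an orthogonal splitting is maximal in the derived group.** -/
theorem nondeg_stab_maximal (h : OSplit Q A B) (hn : 13 ≤ finrank F V) (hle : finrank F B ≤ finrank F A)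
    (hex : finrank F B = 2 → 4 ≤ Nat.card F ∨ ∀ x ∈ B, Q x = 0 → x = 0)
    (hHM : ∀ g ∈ commutator (orthGroup Q), (∀ x ∈ A, (g : V ≃ₗ[F] V) x ∈ A) →
      (∀ x ∈ B, (g : V ≃ₗ[F] V) x ∈ B) → g ∈ M)
    {g : orthGroup Q} (hg : g ∈ M)
    (h1 : ∃ x ∈ A, (g : V ≃ₗ[F] V) x ∉ A) (h2 : ∃ x ∈ A, (g : V ≃ₗ[F] V) x ∉ B) :
    commutator (orthGroup Q) ≤ M := by
  have hV := Submodule.finrank_add_eq_of_isCompl h.compl
  have hn7 : 7 ≤ finrank F V := by omega
  have hEA : ∀ a ∈ A, ∀ b ∈ A, Q a = 0 → BQ a b = 0 → EIn Q M a b := fun a ha b hb hQa hab =>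
    ⟨hQa, hab, hHM _ (eichler_mem_comm h.nondeg hn7 hQa hab) (fun x hx => eichler_stable hQa hab ha hb hx)
      fun x hx => by rwa [eichler_fixes hQa hab (h.orth a ha x hx) (h.orth b hb x hx)]⟩
  have hEB : ∀ a ∈ B, ∀ b ∈ B, Q a = 0 → BQ a b = 0 → EIn Q M a b := fun a ha b hb hQa hab =>
    ⟨hQa, hab, hHM _ (eichler_mem_comm h.nondeg hn7 hQa hab)
      (fun x hx => by rwa [eichler_fixes hQa hab (h.symm.orth a ha x hx) (h.symm.orth b hb x hx)])
      fun x hx => eichler_stable hQa hab ha hb hx⟩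
  obtain ⟨x, hx, hQx, hxA, hxB⟩ := exists_crooked h (by omega) h1 h2
  obtain ⟨x', hx', w', hw', hgx⟩ := h.split ((g : V ≃ₗ[F] V) x)
  have hx'0 : x' ≠ 0 := fun h0 => hxB (by rw [hgx, h0, zero_add]; exact hw')
  have hw'0 : w' ≠ 0 := fun h0 => hxA (by rw [hgx, h0, add_zero]; exact hx')
  -- full centres in a big part give everything
  have fin : ∀ {C D : Submodule F V}, OSplit Q C D → 3 ≤ finrank F C → (∀ y ∈ C, Q y = 0 → Full Q M y) →
      commutator (orthGroup Q) ≤ M := by
    intro C D hC h3 hf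
    obtain ⟨s, hs, hs0, hQs⟩ := exists_singular_mem (Q := Q) h3
    obtain ⟨a, ha, hQa, -, has⟩ := exists_sing_pair h.nondeg (U := C) hC.comp (S := ⊥) bot_le
      (by simpa using h3) hs (by simpa using hs0)
    exact exists_full_pair_top h.nondeg hn7 (hf a ha hQa) (hf s hs hQs) has
  have seeded : ∀ v ∈ A, BQ x v = 0 → ∀ v'' ∈ A, ∀ u'' ∈ B, (g : V ≃ₗ[F] V) v = v'' + u'' →
      EIn Q M (x' + w') (v'' + u'') := fun v hv hxv v'' _ u'' _ he => by
    have := eIn_conj hg (hEA x hx v hv hQx hxv)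
    rwa [hgx, he] at this
  by_cases hU : ∃ v ∈ A, BQ x v = 0 ∧ ∃ v'' ∈ A, ∃ u'' ∈ B, (g : V ≃ₗ[F] V) v = v'' + u'' ∧ v'' ∉ sp {x'}
  · obtain ⟨v, hv, hxv, v'', hv'', u'', hu'', he, hout⟩ := hU
    obtain ⟨z, hz, hz0, hQz, hzm⟩ := seed h (by omega) hEA hx' hv'' hw' hu''
      (seeded v hv hxv v'' hv'' u'' hu'' he) hout
    exact fin h (by omega) (spread h hn7 (by omega) hex hHM hz hz0 hQz hw' hw'0 hzm)
  push Not at hU
  -- the image of the hyperplane of the big part is nearly inside the small one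
  set K := perp (QuadraticMap.polarBilin Q) (sp {x}) ⊓ A
  have hK : finrank F A ≤ finrank F K + 1 := by
    have := h.finrank_inf (sp {x})
    have h1 : finrank F (sp {x}) ≤ 1 := (finrank_span_le_card {x}).trans (by simp)
    change finrank F A ≤ finrank F ↥(perp (QuadraticMap.polarBilin Q) (sp {x}) ⊓ A) + 1
    omega
  have hgK : ∀ C : Submodule F V, K.map ((g : V ≃ₗ[F] V) : V →ₗ[F] V) ≤ C → finrank F K ≤ finrank F C := fun C hC => by
    have := Submodule.finrank_mono hC
    rwa [LinearEquiv.finrank_map_eq] at this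
  have himg : ∀ v ∈ K, ∀ a ∈ A, ∀ b ∈ B, (g : V ≃ₗ[F] V) v = a + b → a ∈ sp {x'} := fun v hv a ha b hb he =>
    hU v hv.2 (mem_perp_span_singleton.mp hv.1) a ha b hb he
  have hB6 : 6 ≤ finrank F B := by
    have h1 := hgK (sp {x'} ⊔ B) (Submodule.map_le_iff_le_comap.mpr fun v hv => by
      obtain ⟨a, ha, b, hb, he⟩ := h.split ((g : V ≃ₗ[F] V) v)
      rw [Submodule.mem_comap, LinearEquiv.coe_coe, he]
      exact add_mem (Submodule.mem_sup_left (himg v hv a ha b hb he)) (Submodule.mem_sup_right hb))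
    have h2 := Submodule.finrank_sup_add_finrank_inf_eq (sp {x'}) B
    have h3 : finrank F (sp {x'}) ≤ 1 := (finrank_span_le_card {x'}).trans (by simp)
    omega
  obtain ⟨v, hv, u'', hu'', v'', hv'', he, hout⟩ : ∃ v ∈ K, ∃ u'' ∈ B, ∃ v'' ∈ A,
      (g : V ≃ₗ[F] V) v = v'' + u'' ∧ u'' ∉ sp {w'} := by
    by_contra hno
    push Not at hno
    have h1 := hgK (sp {x'} ⊔ sp {w'}) (Submodule.map_le_iff_le_comap.mpr fun v hv => by
      obtain ⟨a, ha, b, hb, he⟩ := h.split ((g : V ≃ₗ[F] V) v)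
      rw [Submodule.mem_comap, LinearEquiv.coe_coe, he]
      exact add_mem (Submodule.mem_sup_left (himg v hv a ha b hb he)) (Submodule.mem_sup_right (hno v hv b hb a ha he)))
    have h2 := Submodule.finrank_sup_add_finrank_inf_eq (sp {x'}) (sp {w'})
    have h3 : finrank F (sp {x'}) ≤ 1 := (finrank_span_le_card {x'}).trans (by simp)
    have h4 : finrank F (sp {w'}) ≤ 1 := (finrank_span_le_card {w'}).trans (by simp)
    omega
  have hsd := seeded v hv.2 (mem_perp_span_singleton.mp hv.1) v'' hv'' u'' hu'' he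
  rw [add_comm x' w', add_comm v'' u''] at hsd
  obtain ⟨z, hz, hz0, hQz, hzm⟩ := seed h.symm hB6 hEB hw' hu'' hx' hv'' hsd hout
  exact fin h.symm (by omega) (spread h.symm hn7 hB6 (fun h2 => absurd h2 (by omega))
    (fun r hr hrB hrA => hHM r hr hrA hrB) hz hz0 hQz hx' hx'0 hzm)

/-- Some element of the derived group moves the big part of a splitting. -/
theorem exists_moves_split (h : OSplit Q A B) (hn : 7 ≤ finrank F V) (hA : 3 ≤ finrank F A) (hB : B ≠ ⊥) :
    ∃ g ∈ commutator (orthGroup Q), (∃ x ∈ A, (g : V ≃ₗ[F] V) x ∉ A) ∧ ∃ x ∈ A, (g : V ≃ₗ[F] V) x ∉ B := by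
  obtain ⟨s, hs, hs0, hQs⟩ := exists_singular_mem (Q := Q) hA
  obtain ⟨y, hy, -, hsy⟩ := h.pairing (S := ⊥) bot_le hs (by simpa using hs0)
  obtain ⟨w, hw, hw0⟩ := Submodule.exists_mem_ne_zero_of_ne_bot hB
  have hsw := h.orth s hs w hw
  refine ⟨eichler Q s w hQs hsw, eichler_mem_comm h.nondeg hn hQs hsw, ?_⟩
  have hy0 : y ≠ 0 := fun h0 => by simp [h0, QuadraticMap.polar] at hsy
  have he : ((eichler Q s w hQs hsw : orthGroup Q) : V ≃ₗ[F] V) y = (y - (Q w) • s) + w := by
    rw [eichler_apply, eichlerMap_apply, hsy, h.symm.orth w hw y hy]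
    simp; abel
  have hmem : y - Q w • s ∈ A := sub_mem hy (A.smul_mem _ hs)
  refine ⟨⟨y, hy, fun hm => hw0 ?_⟩, ⟨y, hy, fun hm => ?_⟩⟩ <;> rw [he] at hm
  · exact Submodule.disjoint_def.mp h.compl.disjoint w (by simpa using sub_mem hm hmem) hw
  · have h0 := Submodule.disjoint_def.mp h.compl.disjoint _ hmem ((Submodule.add_mem_iff_left _ hw).mp hm)
    have h1 : BQ s (y - Q w • s) = 0 := by rw [h0]; simp [QuadraticMap.polar]
    rw [QuadraticMap.polar_sub_right, QuadraticMap.polar_smul_right, polar_self_two_mul, hQs, hsy] at h1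
    simp at h1

end Finite

end Cfsg.Agent.GeomClasses
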