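import Cfsg.Agent.GeomClasses.OmegaBridge
import Cfsg.Agent.Forms.InvolTwoOrthClass
import Cfsg.Agent.Forms.FieldReduction
import Cfsg.Agent.S2616
import Cfsg.Agent.S0289
import Cfsg.Agent.S0290

/-!
Elements of prime order in orthogonal groups in characteristic two and fixed nonsingular points.
-/

set_option autoImplicit false

namespace Cfsg.Agent.GeomClasses.NonsingPoint

open Matrix Cfsg.Agent.Forms

section General

variable {ι : Type} [Fintype ι] [DecidableEq ι] {F : Type*} [Field F] [Fintype F] [CharP F 2]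
variable (Q : QuadraticForm F (ι → F))

theorem exists_orth {x : GL ι F} (hx : ∀ v, Q ((x : Matrix ι ι F) *ᵥ v) = Q v) :
    ∃ g : orthGroup Q, orthToGL Q g = x :=
  ⟨isometryEquiv Q ⟨x, mem_isometryGroup_iff.2 hx⟩, by simp [orthToGL]⟩

variable {Q} (hQ : (QuadraticMap.polarBilin Q).Nondegenerate) (hn : 5 ≤ Fintype.card ι)
include hQ hn

theorem generated : Subgroup.closure (reflectionSet Q) = ⊤ :=
  closure_reflectionSet_char_two hQ (Or.inr (Or.inl (by rw [Module.finrank_pi]; omega)))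

theorem comm_iff (g : orthGroup Q) : g ∈ commutator (orthGroup Q) ↔ dickson g = 0 :=
  (commutator_index_two_of_gen two_eq_zero_of_charTwo hQ (generated hQ hn)
    (by rw [Module.finrank_pi]; omega)).2 g

theorem mem_omega_of_stab {x : GL ι F} (hx : ∀ v, Q ((x : Matrix ι ι F) *ᵥ v) = Q v)
    {U : Submodule F (ι → F)} (hU : ∀ w ∈ U, Q w = 0) (hd : 2 * Module.finrank F U = Fintype.card ι)
    (hxU : ∀ u ∈ U, (x : Matrix ι ι F) *ᵥ u ∈ U) : x ∈ Cfsg.Geo.omegaGL ⇑Q := by
  obtain ⟨g, rfl⟩ := exists_orth Q hx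
  rw [omegaGL_eq_map]
  refine Subgroup.mem_map_of_mem _ ((comm_iff hQ hn g).2 ?_)
  exact dickson_eq_zero_of_stab hQ hU (by rw [Module.finrank_pi]; exact hd) g
    fun u hu => by rw [← orthToGL_mulVec]; exact hxU u hu

theorem mem_omega_of_odd {x : GL ι F} (hx : ∀ v, Q ((x : Matrix ι ι F) *ᵥ v) = Q v)
    {r : ℕ} (hr : Odd r) (hxr : x ^ r = 1) : x ∈ Cfsg.Geo.omegaGL ⇑Q := by
  obtain ⟨g, rfl⟩ := exists_orth Q hx
  rw [omegaGL_eq_map]
  refine Subgroup.mem_map_of_mem _ ((comm_iff hQ hn g).2 ?_)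
  have hinj : Function.Injective (orthToGL Q) :=
    fun a b h => (isometryEquiv Q).symm.injective (Subtype.ext h)
  have hg : g ^ r = 1 := hinj (by rw [map_pow, hxr, map_one])
  have h := congrArg (dicksonHom hQ (generated hQ hn)) hg
  rw [map_pow, map_one] at h
  have h' : (r : ZMod 2) * dickson g = 0 := by
    have := congrArg Multiplicative.toAdd h
    simpa [dicksonHom, nsmul_eq_mul] using this
  rw [show (r : ZMod 2) = 1 from by
    obtain ⟨k, rfl⟩ := hr
    push_cast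
    rw [show (2 : ZMod 2) = 0 from rfl, zero_mul, zero_add], one_mul] at h'
  exact h'

/-- An involution in `Ω` fixes a nonsingular vector unless its fixed space is a half of even dimension. -/
theorem exists_fixed_involution {x : GL ι F} (hxΩ : x ∈ Cfsg.Geo.omegaGL ⇑Q) {z : F}
    (hsq : ((x ^ 2 : GL ι F) : Matrix ι ι F) = z • 1) {d w : ℕ} (hd : Fintype.card ι = 2 * d)
    (hw : ∀ U : Submodule F (ι → F), (∀ u ∈ U, Q u = 0) → Module.finrank F U ≤ w)
    (hodd : w < d ∨ (w = d ∧ Odd d)) : ∃ v, Q v ≠ 0 ∧ (x : Matrix ι ι F) *ᵥ v = v := by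
  rw [omegaGL_eq_map] at hxΩ
  obtain ⟨g, hg, rfl⟩ := Subgroup.mem_map.1 hxΩ
  have hd0 := (comm_iff hQ hn g).1 hg
  haveI : Nonempty ι := Fintype.card_pos_iff.1 (by omega)
  obtain ⟨u, hu⟩ := exists_nonsingular (V := ι → F) Q hQ
  have hsq' : ∀ v, (g : (ι → F) ≃ₗ[F] (ι → F)) ((g : (ι → F) ≃ₗ[F] (ι → F)) v) = z • v := by
    intro v
    rw [← orthToGL_mulVec, ← orthToGL_mulVec, mulVec_mulVec, ← Units.val_mul, ← pow_two, hsq,
      smul_mulVec, one_mulVec]
  have hz : z = 1 := by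
    have h := congrArg Q (hsq' u)
    rw [g.2.2, g.2.2, QuadraticMap.map_smul, smul_eq_mul] at h
    have hz2 : z ^ 2 = 1 ^ 2 := by rw [sq, one_pow]; exact mul_right_cancel₀ hu (by rw [one_mul]; exact h.symm)
    have h3 : (z + 1) ^ 2 = 0 := by rw [CharTwo.add_sq, hz2, one_pow, CharTwo.add_self_eq_zero]
    exact CharTwo.add_eq_zero.1 (pow_eq_zero_iff two_ne_zero |>.1 h3)
  subst hz
  by_contra hc
  push_neg at hc
  set n := ((g : (ι → F) ≃ₗ[F] (ι → F)) : (ι → F) →ₗ[F] (ι → F)) - LinearMap.id with hn'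
  have hker : ∀ v ∈ LinearMap.ker n, Q v = 0 := fun v hv => by
    by_contra h
    exact hc v h (by rw [orthToGL_mulVec]; exact (mem_fix_iff g v).1 hv)
  have hrk : LinearMap.range n ≤ LinearMap.ker n := by
    rintro _ ⟨v, rfl⟩
    refine (mem_fix_iff g _).2 ?_
    simp only [hn', LinearMap.sub_apply, LinearEquiv.coe_coe, LinearMap.id_apply, map_sub, hsq', one_smul]
    rw [CharTwo.sub_eq_add, CharTwo.sub_eq_add, add_comm]
  have h1 := Submodule.finrank_mono hrk
  have h2 := LinearMap.finrank_range_add_finrank_ker n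
  have h3 := hw _ hker
  rw [Module.finrank_pi, hd] at h2
  rcases hodd with h | ⟨rfl, hodd⟩
  · omega
  · have h4 : Module.finrank F (LinearMap.ker n) = w := by omega
    rw [dickson, ← hn', h4, Module.finrank_pi, hd, show 2 * w - w = w by omega,
      ZMod.natCast_eq_zero_iff_even] at hd0
    exact Nat.not_even_iff_odd.2 hodd hd0

omit hQ hn

theorem line_iff {x : GL ι F} (hx : ∀ v, Q ((x : Matrix ι ι F) *ᵥ v) = Q v) :
    (∃ W : Submodule F (ι → F), (Module.finrank F W = 1 ∧ ∃ v ∈ W, Q v ≠ 0) ∧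
      W.map (Matrix.toLin' (x : Matrix ι ι F)) ≤ W) ↔ ∃ v, Q v ≠ 0 ∧ (x : Matrix ι ι F) *ᵥ v = v := by
  constructor
  · rintro ⟨W, ⟨hW, v, hv, hQv⟩, hxW⟩
    have hmem := hxW ⟨v, hv, Matrix.toLin'_apply _ _⟩
    have hv0 : (⟨v, hv⟩ : W) ≠ 0 := fun e => hQv (by rw [show v = 0 from congrArg Subtype.val e, QuadraticMap.map_zero])
    obtain ⟨c, hc⟩ := (finrank_eq_one_iff_of_nonzero' _ hv0).1 hW ⟨_, hmem⟩
    have hc' : c • v = (x : Matrix ι ι F) *ᵥ v := congrArg Subtype.val hc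
    refine ⟨v, hQv, ?_⟩
    have h := congrArg Q hc'
    rw [hx, QuadraticMap.map_smul, smul_eq_mul] at h
    have hc2 : c * c = 1 := mul_right_cancel₀ hQv (h.trans (one_mul _).symm)
    have h3 : (c + 1) ^ 2 = 0 := by rw [CharTwo.add_sq, sq, hc2, one_pow, CharTwo.add_self_eq_zero]
    rw [← hc', CharTwo.add_eq_zero.1 (pow_eq_zero_iff two_ne_zero |>.1 h3), one_smul]
  · rintro ⟨v, hQv, hv⟩
    have hv0 : v ≠ 0 := fun e => hQv (by rw [e, QuadraticMap.map_zero])
    refine ⟨Submodule.span F {v}, ⟨finrank_span_singleton hv0, v, Submodule.mem_span_singleton_self v, hQv⟩, ?_⟩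
    rw [Submodule.map_span, Set.image_singleton, Matrix.toLin'_apply, hv]

theorem not_scalar (hns : ∃ u, Q u ≠ 0) {x : GL ι F} (hx : ∀ v, Q ((x : Matrix ι ι F) *ᵥ v) = Q v)
    (hfix : ∀ v, (x : Matrix ι ι F) *ᵥ v = v → Q v = 0) (z : F) : (x : Matrix ι ι F) ≠ z • 1 := by
  intro h
  obtain ⟨u, hu⟩ := hns
  have h1 := hx u
  rw [h, smul_mulVec, one_mulVec, QuadraticMap.map_smul, smul_eq_mul] at h1
  have hc2 : z * z = 1 := mul_right_cancel₀ hu (h1.trans (one_mul _).symm)
  have h3 : (z + 1) ^ 2 = 0 := by rw [CharTwo.add_sq, sq, hc2, one_pow, CharTwo.add_self_eq_zero]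
  refine hu (hfix u ?_)
  rw [h, CharTwo.add_eq_zero.1 (pow_eq_zero_iff two_ne_zero |>.1 h3), one_smul, one_mulVec]

variable (Q)

/-- The nonsingular points correspond to the vectors of value one. -/
theorem card_lines : Nat.card {W : Submodule F (ι → F) // Module.finrank F W = 1 ∧ ∃ v ∈ W, Q v ≠ 0} =
    Nat.card {v : ι → F // Q v = 1} := by
  refine (Nat.card_congr (Equiv.ofBijective (fun v : {v : ι → F // Q v = 1} =>
    (⟨Submodule.span F {v.1}, finrank_span_singleton (fun e => zero_ne_one (α := F) (by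
      rw [← v.2, e, QuadraticMap.map_zero])), v.1, Submodule.mem_span_singleton_self _, by
      rw [v.2]; exact one_ne_zero⟩ :
      {W : Submodule F (ι → F) // Module.finrank F W = 1 ∧ ∃ v ∈ W, Q v ≠ 0})) ⟨?_, ?_⟩)).symm
  · rintro ⟨v, hv⟩ ⟨w, hw⟩ h
    have hmem : v ∈ Submodule.span F {w} := by
      have h' : Submodule.span F {v} = Submodule.span F {w} := congrArg Subtype.val h
      rw [← h']
      exact Submodule.mem_span_singleton_self v
    obtain ⟨c, rfl⟩ := Submodule.mem_span_singleton.1 hmem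
    rw [QuadraticMap.map_smul, hw, smul_eq_mul, mul_one] at hv
    have h3 : (c + 1) ^ 2 = 0 := by rw [CharTwo.add_sq, sq, hv, one_pow, CharTwo.add_self_eq_zero]
    simp [CharTwo.add_eq_zero.1 (pow_eq_zero_iff two_ne_zero |>.1 h3)]
  · rintro ⟨W, hW, v, hv, hQv⟩
    obtain ⟨s, hs⟩ := exists_sq_of_two_eq_zero (CharTwo.two_eq_zero (R := F)) (Q v)⁻¹
    have h1 : Q (s • v) = 1 := by
      rw [QuadraticMap.map_smul, smul_eq_mul, ← sq, hs, inv_mul_cancel₀ hQv]
    refine ⟨⟨s • v, h1⟩, Subtype.ext ?_⟩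
    refine Submodule.eq_of_le_of_finrank_eq ((Submodule.span_singleton_le_iff_mem _ _).2 (W.smul_mem _ hv)) ?_
    rw [hW]
    exact finrank_span_singleton (fun e => zero_ne_one (α := F) (by rw [← h1, show s • v = 0 from e, QuadraticMap.map_zero]))

theorem card_unit {q : ℕ} (hq : Fintype.card F = q) :
    (q - 1) * Nat.card {v : ι → F // Q v = 1} + Nat.card {v : ι → F // Q v = 0} = q ^ Fintype.card ι := by
  classical
  have e : {v : ι → F // Q v ≠ 0} ≃ Fˣ × {v : ι → F // Q v = 1} := by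
    refine (Equiv.ofBijective (fun p : Fˣ × {v : ι → F // Q v = 1} =>
      (⟨(p.1 : F) • p.2.1, by
        rw [QuadraticMap.map_smul, p.2.2, smul_eq_mul, mul_one]; exact mul_ne_zero p.1.ne_zero p.1.ne_zero⟩ :
        {v : ι → F // Q v ≠ 0})) ⟨?_, ?_⟩).symm
    · rintro ⟨c, v, hv⟩ ⟨c', w, hw⟩ h
      have hcv : (c : F) • v = (c' : F) • w := congrArg Subtype.val h
      have h' := congrArg Q hcv
      rw [QuadraticMap.map_smul, QuadraticMap.map_smul, hv, hw, smul_eq_mul, smul_eq_mul, mul_one, mul_one] at h'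
      have h3 : ((c : F) + c') ^ 2 = 0 := by rw [CharTwo.add_sq, sq, sq, h', CharTwo.add_self_eq_zero]
      have hcc : (c : F) = c' := CharTwo.add_eq_zero.1 (pow_eq_zero_iff two_ne_zero |>.1 h3)
      obtain rfl := Units.ext hcc
      simp [smul_right_injective (ι → F) c.ne_zero hcv]
    · rintro ⟨v, hv⟩
      obtain ⟨s, hs⟩ := exists_sq_of_two_eq_zero (CharTwo.two_eq_zero (R := F)) (Q v)
      have hs0 : s ≠ 0 := fun e => hv (by rw [← hs, e, zero_pow two_ne_zero])
      refine ⟨(Units.mk0 s hs0, ⟨s⁻¹ • v, ?_⟩), Subtype.ext (by simp [smul_smul, hs0])⟩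
      rw [QuadraticMap.map_smul, smul_eq_mul, ← hs]
      field_simp
  have h1 : Nat.card Fˣ = q - 1 := by
    rw [Nat.card_units, Nat.card_eq_fintype_card, hq]
  have h2 := Nat.card_congr e
  rw [Nat.card_prod, h1] at h2
  have h3 := Nat.card_congr (Equiv.sumCompl (fun v : ι → F => Q v = 0))
  rw [Nat.card_sum, Nat.card_fun, Nat.card_eq_fintype_card (α := F), hq, Nat.card_eq_fintype_card (α := ι)] at h3
  rw [← h2, add_comm]
  exact h3

end General

/-- The image of the general linear group stabilising the two halves of a hyperbolic space. -/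
def diagHom (d : ℕ) (F : Type*) [Field F] : GL (Fin d) F →* GL (Fin d ⊕ Fin d) F :=
  MonoidHom.toHomUnits
    { toFun := fun g => fromBlocks (g : Matrix (Fin d) (Fin d) F) 0 0
        ((g⁻¹ : GL (Fin d) F) : Matrix (Fin d) (Fin d) F)ᵀ
      map_one' := by simp [fromBlocks_one]
      map_mul' := fun g h => by simp [fromBlocks_multiply, _root_.mul_inv_rev, transpose_mul] }

theorem diagHom_mulVec {d : ℕ} {F : Type*} [Field F] (g : GL (Fin d) F) (u w : Fin d → F) :
    (diagHom d F g : Matrix (Fin d ⊕ Fin d) (Fin d ⊕ Fin d) F) *ᵥ Sum.elim u w =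
      Sum.elim ((g : Matrix (Fin d) (Fin d) F) *ᵥ u)
        (((g⁻¹ : GL (Fin d) F) : Matrix (Fin d) (Fin d) F)ᵀ *ᵥ w) := by
  simp [diagHom, fromBlocks_mulVec]

/-- An element of order `r` dividing `q ^ d - 1` without fixed vectors. -/
theorem exists_plus_element_core {F : Type*} [Field F] [Fintype F] [CharP F 2] {q : ℕ} (hq : Fintype.card F = q)
    {d : ℕ} (hd : 2 ≤ d) {r : ℕ} (hr : r.Prime) (hodd : Odd r) (hdvd : r ∣ q ^ d - 1) :
    ∃ x : GL _ F, ((3 ≤ d → x ∈ Cfsg.Geo.omegaGL ⇑(qPlus d F)) ∧ ∀ v, qPlus d F ((x : Matrix _ _ F) *ᵥ v) = qPlus d F v) ∧ x ^ r = 1 ∧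
      ∀ v, (x : Matrix (Fin d ⊕ Fin d) (Fin d ⊕ Fin d) F) *ᵥ v = v → v = 0 := by
  classical
  haveI : Fact (Nat.Prime 2) := ⟨Nat.prime_two⟩
  haveI : NeZero d := ⟨by omega⟩
  haveI : Fact r.Prime := ⟨hr⟩
  let K := FiniteField.Extension F 2 d
  haveI : Finite K := Module.finite_of_finite F
  haveI : Fintype K := Fintype.ofFinite K
  have hK : Module.finrank F K = d := FiniteField.finrank_extension F 2 d
  obtain ⟨ζ, hζ⟩ := exists_prime_orderOf_dvd_card' (G := Kˣ) r (by
    rw [Nat.card_units, Nat.card_eq_fintype_card, Module.card_eq_pow_finrank (K := F), hK, hq]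
    exact hdvd)
  let b := Module.finBasisOfFinrankEq F K hK
  let g : GL (Fin d) F := Units.map (Algebra.leftMulMatrix b).toMonoidHom ζ
  have hgr : g ^ r = 1 := by rw [← map_pow, ← hζ, pow_orderOf_eq_one, map_one]
  have hgfix : ∀ u, (g : Matrix (Fin d) (Fin d) F) *ᵥ u = u → u = 0 := by
    intro u hu
    obtain ⟨y, rfl⟩ := b.equivFun.surjective u
    have h := Algebra.leftMulMatrix_mulVec_repr b (ζ : K) y
    simp only [Module.Basis.equivFun_apply] at hu ⊢
    have h' : b.repr ((ζ : K) * y) = b.repr y := DFunLike.coe_injective (h.symm.trans hu)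
    have h2 : ((ζ : K) - 1) * y = 0 := by rw [sub_mul, one_mul, b.repr.injective h', sub_self]
    rcases mul_eq_zero.1 h2 with h3 | h3
    · have h4 : ζ = 1 := Units.ext (by rw [Units.val_one]; exact sub_eq_zero.1 h3)
      rw [h4, orderOf_one] at hζ
      exact absurd hζ.symm hr.one_lt.ne'
    · simp [h3]
  have hgT : ∀ w, ((g⁻¹ : GL (Fin d) F) : Matrix (Fin d) (Fin d) F)ᵀ *ᵥ w = w → w = 0 := by
    intro w hw
    have hw' : (g : Matrix (Fin d) (Fin d) F)ᵀ *ᵥ w = w := by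
      conv_lhs => rw [← hw, mulVec_mulVec, ← transpose_mul, ← Units.val_mul, inv_mul_cancel,
        Units.val_one, transpose_one, one_mulVec]
    have hsur : Function.Surjective fun u => (g : Matrix (Fin d) (Fin d) F) *ᵥ u - u := by
      have hinj : Function.Injective fun u => (g : Matrix (Fin d) (Fin d) F) *ᵥ u - u := fun a c h => by
        refine sub_eq_zero.1 (hgfix _ ?_)
        rw [mulVec_sub]
        simp only at h
        linear_combination (norm := module) h
      exact Finite.injective_iff_surjective.1 hinj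
    refine dotProduct_eq_zero _ fun y => ?_
    obtain ⟨u, rfl⟩ := hsur y
    rw [dotProduct_sub, sub_eq_zero, dotProduct_mulVec, ← mulVec_transpose, hw']
  have hdecomp : ∀ v : Fin d ⊕ Fin d → F, v = Sum.elim (v ∘ Sum.inl) (v ∘ Sum.inr) :=
    fun v => (Sum.elim_comp_inl_inr v).symm
  have hpres : ∀ v, qPlus d F ((diagHom d F g : Matrix (Fin d ⊕ Fin d) (Fin d ⊕ Fin d) F) *ᵥ v) = qPlus d F v := by
    intro v
    rw [hdecomp v, diagHom_mulVec]
    simp only [coe_qPlus, Cfsg.quadFormPlus, Sum.elim_inl, Sum.elim_inr]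
    show (g : Matrix (Fin d) (Fin d) F) *ᵥ (v ∘ Sum.inl) ⬝ᵥ
      ((g⁻¹ : GL (Fin d) F) : Matrix (Fin d) (Fin d) F)ᵀ *ᵥ (v ∘ Sum.inr) = (v ∘ Sum.inl) ⬝ᵥ (v ∘ Sum.inr)
    rw [dotProduct_mulVec, vecMul_transpose, mulVec_mulVec, ← Units.val_mul, inv_mul_cancel,
      Units.val_one, one_mulVec]
  refine ⟨diagHom d F g, ?_, by rw [← map_pow, hgr, map_one], fun v hv => ?_⟩
  · exact ⟨fun hd3 => mem_omega_of_odd qPlus_nondegenerate (by simp; omega) hpres hodd (by rw [← map_pow, hgr, map_one]), hpres⟩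
  · rw [hdecomp v, diagHom_mulVec] at hv
    have h1 : (g : Matrix (Fin d) (Fin d) F) *ᵥ (v ∘ Sum.inl) = v ∘ Sum.inl :=
      funext fun i => congrFun hv (Sum.inl i)
    have h2 : ((g⁻¹ : GL (Fin d) F) : Matrix (Fin d) (Fin d) F)ᵀ *ᵥ (v ∘ Sum.inr) = v ∘ Sum.inr :=
      funext fun i => congrFun hv (Sum.inr i)
    rw [hdecomp v, hgfix _ h1, hgT _ h2]
    ext (i | i) <;> rfl

theorem exists_plus_element {F : Type*} [Field F] [Fintype F] [CharP F 2] {q : ℕ} (hq : Fintype.card F = q)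
    {d : ℕ} (hd : 3 ≤ d) {r : ℕ} (hr : r.Prime) (hodd : Odd r) (hdvd : r ∣ q ^ d - 1) :
    ∃ x ∈ Cfsg.Geo.omegaGL ⇑(qPlus d F), x ^ r = 1 ∧
      ∀ v, (x : Matrix (Fin d ⊕ Fin d) (Fin d ⊕ Fin d) F) *ᵥ v = v → v = 0 := by
  obtain ⟨x, ⟨hx, -⟩, h⟩ := exists_plus_element_core hq (d := d) (by omega) hr hodd hdvd
  exact ⟨x, hx hd, h⟩


/-- An involution in `Ω⁺` of dimension divisible by four whose fixed space is totally singular. -/
theorem exists_plus_involution_core {F : Type*} [Field F] [Fintype F] [CharP F 2] {d : ℕ} (hd : 2 ≤ d)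
    (he : Even d) :
    ∃ x : GL _ F, ((3 ≤ d → x ∈ Cfsg.Geo.omegaGL ⇑(qPlus d F)) ∧ ∀ v, qPlus d F ((x : Matrix _ _ F) *ᵥ v) = qPlus d F v) ∧ x ^ 2 = 1 ∧
      ∀ v, (x : Matrix (Fin d ⊕ Fin d) (Fin d ⊕ Fin d) F) *ᵥ v = v → qPlus d F v = 0 := by
  classical
  have hdm : d % 2 = 0 := Nat.even_iff.1 he
  let π : Fin d → Fin d := fun i => ⟨if (i : ℕ) % 2 = 0 then i + 1 else i - 1, by
    have := i.2
    split_ifs with h <;> omega⟩
  have hπ : ∀ i, π (π i) = i := fun i => by
    ext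
    simp only [π]
    split_ifs <;> omega
  have hπne : ∀ i, π i ≠ i := fun i h => by
    have := congrArg Fin.val h
    simp only [π] at this
    split_ifs at this <;> omega
  let P : Matrix (Fin d) (Fin d) F := (1 : Matrix (Fin d) (Fin d) F).submatrix π id
  have hP : ∀ w i, (P *ᵥ w) i = w (π i) := fun w i => by
    simp [P, mulVec, dotProduct, one_apply, Finset.sum_ite_eq]
  let M : Matrix (Fin d ⊕ Fin d) (Fin d ⊕ Fin d) F := fromBlocks 1 P 0 1
  have hMM : M * M = 1 := by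
    simp [M, fromBlocks_multiply, CharTwo.add_self_eq_zero, ← fromBlocks_one]
    ext i j
    simp [CharTwo.add_self_eq_zero]
  let x : GL (Fin d ⊕ Fin d) F := ⟨M, M, hMM, hMM⟩
  have hxv : ∀ v, (x : Matrix (Fin d ⊕ Fin d) (Fin d ⊕ Fin d) F) *ᵥ v =
      Sum.elim (fun i => v (Sum.inl i) + v (Sum.inr (π i))) (v ∘ Sum.inr) := by
    intro v
    show M *ᵥ v = _
    simp only [M, fromBlocks_mulVec, one_mulVec, zero_mulVec, zero_add]
    congr 1
    funext i
    simp [hP]
  have hpres : ∀ v, qPlus d F ((x : Matrix (Fin d ⊕ Fin d) (Fin d ⊕ Fin d) F) *ᵥ v) = qPlus d F v := by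
    intro v
    rw [hxv]
    simp only [coe_qPlus, Cfsg.quadFormPlus, Sum.elim_inl, Sum.elim_inr, Function.comp_apply, add_mul,
      Finset.sum_add_distrib, add_eq_left]
    refine Finset.sum_involution (fun i _ => π i) (fun i _ => ?_) (fun i _ _ => hπne i)
      (fun i _ => Finset.mem_univ _) (fun i _ => hπ i)
    rw [hπ, mul_comm, CharTwo.add_self_eq_zero]
  refine ⟨x, ?_, Units.ext (by rw [pow_two]; exact hMM), fun v hv => ?_⟩
  · refine ⟨fun hd3 => ?_, hpres⟩
    refine mem_omega_of_stab qPlus_nondegenerate (by simp; omega) hpres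
      (U := coreSub F (Sum.inl : Fin d → Fin d ⊕ Fin d)) (qPlus_core d).zero ?_ fun u hu => ?_
    · rw [coreSub, finrank_comap_equiv _ Sum.inl_injective]; simp; omega
    · rw [mem_coreSub] at hu ⊢
      rintro (i | i) hi
      · exact absurd ⟨i, rfl⟩ hi
      · rw [hxv]; exact hu _ (by simp)
  · rw [hxv] at hv
    simp only [coe_qPlus, Cfsg.quadFormPlus]
    refine Finset.sum_eq_zero fun i _ => ?_
    have h := congrFun hv (Sum.inl (π i))
    simp only [Sum.elim_inl, hπ, add_eq_left] at h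
    rw [h, mul_zero]

theorem exists_plus_involution {F : Type*} [Field F] [Fintype F] [CharP F 2] {d : ℕ} (hd : 3 ≤ d)
    (he : Even d) :
    ∃ x ∈ Cfsg.Geo.omegaGL ⇑(qPlus d F), x ^ 2 = 1 ∧
      ∀ v, (x : Matrix (Fin d ⊕ Fin d) (Fin d ⊕ Fin d) F) *ᵥ v = v → qPlus d F v = 0 := by
  obtain ⟨x, ⟨hx, -⟩, h⟩ := exists_plus_involution_core (F := F) (d := d) (by omega) he
  exact ⟨x, hx hd, h⟩


/-- Anisotropic planes are isometric. -/
theorem exists_binary_equiv {F : Type*} [Field F] [Fintype F] [CharP F 2] {a b a' b' : F}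
    (h : ∀ z₁ z₂ : F, z₁ ^ 2 + a * z₁ * z₂ + b * z₂ ^ 2 = 0 → z₁ = 0 ∧ z₂ = 0)
    (h' : ∀ z₁ z₂ : F, z₁ ^ 2 + a' * z₁ * z₂ + b' * z₂ ^ 2 = 0 → z₁ = 0 ∧ z₂ = 0) :
    ∃ e : (Fin 2 → F) ≃ₗ[F] (Fin 2 → F), ∀ z, (e z 0) ^ 2 + a * e z 0 * e z 1 + b * (e z 1) ^ 2 =
      z 0 ^ 2 + a' * z 0 * z 1 + b' * z 1 ^ 2 := by
  classical
  haveI : Fact (Nat.Prime 2) := ⟨Nat.prime_two⟩
  let K := FiniteField.Extension F 2 2
  haveI : Finite K := Module.finite_of_finite F
  haveI : Fintype K := Fintype.ofFinite K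
  have hd : Module.finrank F K = 2 := FiniteField.finrank_extension F 2 2
  have hK : Fintype.card K = Fintype.card F ^ 2 := by rw [Module.card_eq_pow_finrank (K := F), hd]
  have key : ∀ a b : F, (∀ z₁ z₂ : F, z₁ ^ 2 + a * z₁ * z₂ + b * z₂ ^ 2 = 0 → z₁ = 0 ∧ z₂ = 0) →
      ∃ L : (Fin 2 → F) ≃ₗ[F] K, ∀ z, algebraMap F K (z 0 ^ 2 + a * z 0 * z 1 + b * z 1 ^ 2) =
        L z * L z ^ Fintype.card F := by
    intro a b hab
    obtain ⟨ω, -, hsum, hprod⟩ := exists_trace_norm_root hK rfl hab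
    let L : (Fin 2 → F) →ₗ[F] K := (LinearMap.proj 0).smulRight (1 : K) + (LinearMap.proj 1).smulRight ω
    have hL : ∀ z, L z * L z ^ Fintype.card F =
        algebraMap F K (z 0 ^ 2 + a * z 0 * z 1 + b * z 1 ^ 2) := by
      intro z
      have hadd : ∀ u v : K, (u + v) ^ Fintype.card F = u ^ Fintype.card F + v ^ Fintype.card F := fun u v => by
        simpa using (frobQ hK).map_add u v
      simp only [L, LinearMap.add_apply, LinearMap.smulRight_apply, LinearMap.proj_apply, Algebra.smul_def,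
        mul_one, hadd, mul_pow, algebraMap_pow_q rfl, map_add, map_mul, map_pow, ← hsum, ← hprod]
      ring
    refine ⟨LinearEquiv.ofInjectiveOfFinrankEq L ?_ (by simp [hd]), fun z => (hL z).symm⟩
    refine (injective_iff_map_eq_zero _).2 fun z hz => ?_
    have h0 := hL z
    rw [hz, zero_mul, eq_comm, map_eq_zero] at h0
    obtain ⟨h1, h2⟩ := hab _ _ h0
    funext i
    fin_cases i <;> [exact h1; exact h2]
  obtain ⟨L, hL⟩ := key a b h
  obtain ⟨L', hL'⟩ := key a' b' h'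
  refine ⟨L'.trans L.symm, fun z => (algebraMap F K).injective ?_⟩
  rw [hL, hL']
  simp

theorem aniso_of_forall {F : Type*} [Field F] {ζ : F} (hζ : ∀ t : F, t ^ 2 + t + ζ ≠ 0) (z₁ z₂ : F)
    (h : z₁ ^ 2 + 1 * z₁ * z₂ + ζ * z₂ ^ 2 = 0) : z₁ = 0 ∧ z₂ = 0 := by
  by_cases h2 : z₂ = 0
  · subst h2
    exact ⟨by simpa using h, rfl⟩
  · exact absurd (by field_simp; linear_combination h) (hζ (z₁ / z₂))

/-- The two models. -/
theorem exists_model {F : Type*} [Field F] [Fintype F] [CharP F 2]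
    {V : Type*} [AddCommGroup V] [Module F V] [FiniteDimensional F V] (Q : QuadraticForm F V)
    (hQ : (QuadraticMap.polarBilin Q).Nondegenerate) {d : ℕ} (hd : 1 ≤ d) (hV : Module.finrank F V = 2 * d) :
    (∃ e : (Fin d ⊕ Fin d → F) ≃ₗ[F] V, ∀ v, Q (e v) = qPlus d F v) ∨
      (∀ a b : F, (∀ z₁ z₂ : F, z₁ ^ 2 + a * z₁ * z₂ + b * z₂ ^ 2 = 0 → z₁ = 0 ∧ z₂ = 0) →
        ∃ e : ((Fin (d - 1) ⊕ Fin (d - 1)) ⊕ Fin 2 → F) ≃ₗ[F] V, ∀ v, Q (e v) = qMinus (d - 1) F a b v) := by
  classical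
  rcases Cfsg.Agent.S2616.result hd hV Q hQ with ⟨B, h1, h2, h3⟩ | ⟨B, ζ, hζ, h1, h2, h3, h4, h5, h6, h7⟩
  · left
    have hform : ∀ x, Q x = qPlus d F (B.equivFun x) := by
      refine KnownB.map_eq_of_basis Q B _ (fun i => ?_) fun i j => ?_
      · rcases i with i | i <;> simp [h1, Cfsg.quadFormPlus, Pi.single_apply]
      · have hc : ∀ i j, QuadraticMap.polar (⇑Q) (B (Sum.inr i)) (B (Sum.inl j)) = if j = i then 1 else 0 :=
          fun i j => by rw [QuadraticMap.polar_comm, h2]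
        rcases i with i | i <;> rcases j with j | j
        on_goal 1 => rw [(h3 i j).1]
        on_goal 2 => rw [h2]
        on_goal 3 => rw [hc]
        on_goal 4 => rw [(h3 i j).2]
        all_goals simp [QuadraticMap.polar, Cfsg.quadFormPlus, Pi.single_apply, mul_add, add_mul,
            Finset.sum_add_distrib, eq_comm]
    exact ⟨B.equivFun.symm, fun v => by rw [hform, LinearEquiv.apply_symm_apply]⟩
  · refine Or.inr fun a b hab => ?_
    have hform : ∀ x, Q x = qMinus (d - 1) F 1 ζ (B.equivFun x) := by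
      refine KnownB.map_eq_of_basis Q B _ (fun i => ?_) fun i j => ?_
      · rcases i with (i | i) | i
        · simp [h1, Cfsg.quadFormMinus, Pi.single_apply]
        · simp [h1, Cfsg.quadFormMinus, Pi.single_apply]
        · fin_cases i <;> simp [h5, h7, Cfsg.quadFormMinus, Pi.single_apply]
      · have hc : ∀ i j, QuadraticMap.polar (⇑Q) (B (Sum.inl (Sum.inr i))) (B (Sum.inl (Sum.inl j))) =
            if j = i then 1 else 0 := fun i j => by rw [QuadraticMap.polar_comm, h2]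
        have hc4 : ∀ i (k : Fin 2), QuadraticMap.polar (⇑Q) (B (Sum.inr k)) (B (Sum.inl (Sum.inl i))) = 0 ∧
            QuadraticMap.polar (⇑Q) (B (Sum.inr k)) (B (Sum.inl (Sum.inr i))) = 0 := fun i k =>
          ⟨by rw [QuadraticMap.polar_comm, (h4 i k).1], by rw [QuadraticMap.polar_comm, (h4 i k).2]⟩
        have h6' : QuadraticMap.polar (⇑Q) (B (Sum.inr 1)) (B (Sum.inr 0)) = 1 := by
          rw [QuadraticMap.polar_comm, h6]
        have hs : ∀ k : Fin 2, QuadraticMap.polar (⇑Q) (B (Sum.inr k)) (B (Sum.inr k)) = 0 := fun k => by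
          rw [polar_self_two_mul, CharTwo.two_eq_zero, zero_mul]
        rcases i with (i | i) | i <;> rcases j with (j | j) | j
        all_goals rw [polar_qMinus_charTwo]
        on_goal 1 => rw [(h3 i j).1]
        on_goal 2 => rw [h2]
        on_goal 3 => rw [(h4 i j).1]
        on_goal 4 => rw [hc]
        on_goal 5 => rw [(h3 i j).2]
        on_goal 6 => rw [(h4 i j).2]
        on_goal 7 => rw [(hc4 j i).1]
        on_goal 8 => rw [(hc4 j i).2]
        on_goal 9 => fin_cases i <;> fin_cases j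
        all_goals simp [h6, h6', hs, Pi.single_apply, CharTwo.two_eq_zero, CharTwo.add_self_eq_zero, eq_comm]
    obtain ⟨ψ, hψ⟩ := exists_binary_equiv (aniso_of_forall hζ) hab
    let split : ((Fin (d - 1) ⊕ Fin (d - 1)) ⊕ Fin 2 → F) ≃ₗ[F] ((Fin (d - 1) ⊕ Fin (d - 1) → F) × (Fin 2 → F)) :=
      LinearEquiv.sumArrowLequivProdArrow _ _ F F
    refine ⟨(split.trans ((LinearEquiv.refl F _).prodCongr ψ)).trans (split.symm.trans B.equivFun.symm), fun v => ?_⟩
    rw [hform]
    simp only [LinearEquiv.trans_apply, LinearEquiv.apply_symm_apply, coe_qMinus, Cfsg.quadFormMinus]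
    simp [split]
    have h := hψ (fun k => v (Sum.inr k))
    rw [one_mul] at h
    exact h

/-- Non-degenerate forms with the number of zeros of minus type are of minus type. -/
theorem exists_minus_equiv {F : Type*} [Field F] [Fintype F] [CharP F 2] {q : ℕ} (hq : Fintype.card F = q)
    {V : Type*} [AddCommGroup V] [Module F V] [FiniteDimensional F V] (Q : QuadraticForm F V)
    (hQ : (QuadraticMap.polarBilin Q).Nondegenerate) {d : ℕ} (hd : 1 ≤ d) (hV : Module.finrank F V = 2 * d)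
    (hZ : Nat.card {v : V // Q v = 0} = q ^ (2 * d - 1) + q ^ (d - 1) - q ^ d) {a b : F}
    (hab : ∀ z₁ z₂ : F, z₁ ^ 2 + a * z₁ * z₂ + b * z₂ ^ 2 = 0 → z₁ = 0 ∧ z₂ = 0) :
    ∃ e : ((Fin (d - 1) ⊕ Fin (d - 1)) ⊕ Fin 2 → F) ≃ₗ[F] V, ∀ v, Q (e v) = qMinus (d - 1) F a b v := by
  refine (exists_model Q hQ hd hV).elim (fun ⟨e, he⟩ => ?_) fun h => h a b hab
  exfalso
  have e' := Nat.card_congr (Equiv.subtypeEquiv e.toEquiv
    (p := fun v => Cfsg.quadFormPlus d F v = 0) (q := fun v => Q v = 0) fun v => by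
      rw [← coe_qPlus, ← he]; rfl)
  rw [hZ, Cfsg.Agent.S0289.result hq d hd] at e'
  have hq2 : 2 ≤ q := hq ▸ Fintype.one_lt_card
  have hlt : q ^ (d - 1) < q ^ d := Nat.pow_lt_pow_right (by omega) (by omega)
  have hle : q ^ d ≤ q ^ (2 * d - 1) := Nat.pow_le_pow_right (by omega) (by omega)
  omega

/-- An element of order `r` dividing `q ^ d + 1` without fixed vectors. -/
theorem exists_minus_element_core {F : Type*} [Field F] [Fintype F] [CharP F 2] {q : ℕ} (hq : Fintype.card F = q)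
    {d : ℕ} (hd : 2 ≤ d) {r : ℕ} (hr : r.Prime) (hodd : Odd r) (hdvd : r ∣ q ^ d + 1) {a b : F}
    (hab : ∀ z₁ z₂ : F, z₁ ^ 2 + a * z₁ * z₂ + b * z₂ ^ 2 = 0 → z₁ = 0 ∧ z₂ = 0) :
    ∃ x : GL _ F, ((3 ≤ d → x ∈ Cfsg.Geo.omegaGL ⇑(qMinus (d - 1) F a b)) ∧ ∀ v, qMinus (d - 1) F a b ((x : Matrix _ _ F) *ᵥ v) = qMinus (d - 1) F a b v) ∧ x ^ r = 1 ∧
      ∀ v, (x : Matrix ((Fin (d - 1) ⊕ Fin (d - 1)) ⊕ Fin 2) ((Fin (d - 1) ⊕ Fin (d - 1)) ⊕ Fin 2) F) *ᵥ v = v → v = 0 := by
  classical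
  haveI : Fact (Nat.Prime 2) := ⟨Nat.prime_two⟩
  haveI : NeZero d := ⟨by omega⟩
  haveI : Fact r.Prime := ⟨hr⟩
  let K := FiniteField.Extension F 2 d
  haveI : Finite K := Module.finite_of_finite F
  haveI : Fintype K := Fintype.ofFinite K
  haveI : CharP K 2 := charP_of_injective_algebraMap (algebraMap F K).injective 2
  have hd' : Module.finrank F K = d := FiniteField.finrank_extension F 2 d
  have hcK : Fintype.card K = q ^ d := by rw [Module.card_eq_pow_finrank (K := F), hd', hq]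
  obtain ⟨ζ, hζ⟩ : ∃ ζ : K, ∀ t : K, t ^ 2 + t + ζ ≠ 0 := by
    by_contra hc
    push_neg at hc
    have hsur : Function.Surjective fun t : K => t ^ 2 + t := fun y => by
      obtain ⟨t, ht⟩ := hc y
      exact ⟨t, CharTwo.add_eq_zero.1 ht⟩
    have := (Finite.injective_iff_surjective.2 hsur) (a₁ := 0) (a₂ := 1)
      (by simp [CharTwo.add_self_eq_zero])
    exact zero_ne_one this
  have haniso := aniso_of_forall hζ
  obtain ⟨g, hg⟩ := exists_prime_orderOf_dvd_card'
    (G := Cfsg.isometryGroup K (Cfsg.quadFormMinus 0 K 1 ζ)) r (by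
      rw [card_isometryGroup_minus 0 hcK 1 ζ haniso]
      exact Dvd.dvd.mul_right (Dvd.dvd.mul_left (by simpa using hdvd) _) _)
  let N := qMinus 0 K 1 ζ
  let I := (Fin 0 ⊕ Fin 0) ⊕ Fin 2
  let G : Matrix I I K := ((g : GL I K) : Matrix I I K)
  have hN : ∀ v : I → K, N v = v (Sum.inr 0) ^ 2 + v (Sum.inr 0) * v (Sum.inr 1) + ζ * v (Sum.inr 1) ^ 2 :=
    fun v => by simp [N, Cfsg.quadFormMinus]
  have hg1 : ∀ v, N (G *ᵥ v) = N v := by
    have := mem_isometryGroup_iff.1 g.2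
    simpa [N, G] using this
  have hgr : (g : GL I K) ^ r = 1 := by
    rw [← Subgroup.coe_pow, ← hg, pow_orderOf_eq_one, Subgroup.coe_one]
  have hne : (g : GL I K) ≠ 1 := fun h => by
    rw [show g = 1 from Subtype.ext h, orderOf_one] at hg
    exact hr.one_lt.ne hg
  have hfix : ∀ v, G *ᵥ v = v → v = 0 := by
    intro v hv
    by_contra hv0
    have hpol : ∀ u : I → K, QuadraticMap.polar N v u =
        v (Sum.inr 0) * u (Sum.inr 1) + v (Sum.inr 1) * u (Sum.inr 0) := fun u => by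
      simp only [QuadraticMap.polar, hN, Pi.add_apply]
      linear_combination (v (Sum.inr 0) * u (Sum.inr 0) + ζ * v (Sum.inr 1) * u (Sum.inr 1)) * (CharTwo.two_eq_zero (R := K))
    have hline : ∀ u : I → K, QuadraticMap.polar N v u = 0 → G *ᵥ u = u := by
      intro u hu
      rw [hpol] at hu
      have hmul : ∀ i, v i • u = u i • v := by
        have key : v (Sum.inr 0) * u (Sum.inr 1) = u (Sum.inr 0) * v (Sum.inr 1) := by
          rw [CharTwo.add_eq_zero.1 hu]; ring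
        intro i
        funext j
        rcases i with (i | i) | i <;> first | exact i.elim0 | skip
        rcases j with (j | j) | j <;> first | exact j.elim0 | skip
        have h01 : ∀ i j : Fin 2, v (Sum.inr i) * u (Sum.inr j) = u (Sum.inr i) * v (Sum.inr j) :=
          Fin.forall_fin_two.2 ⟨Fin.forall_fin_two.2 ⟨mul_comm _ _, key⟩,
            Fin.forall_fin_two.2 ⟨(mul_comm _ _).trans (key.symm.trans (mul_comm _ _)), mul_comm _ _⟩⟩
        exact h01 i j
      obtain ⟨i, hi⟩ : ∃ i, v i ≠ 0 := Function.ne_iff.1 hv0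
      have h := congrArg (G *ᵥ ·) (hmul i)
      simp only [mulVec_smul, hv] at h
      rw [← hmul i] at h
      exact smul_right_injective _ hi h
    refine hne (Units.ext ?_)
    have hsq : ∀ w, G *ᵥ (G *ᵥ w) = w := by
      intro w
      have h1 : QuadraticMap.polar N v (G *ᵥ w) = QuadraticMap.polar N v w := by
        nth_rw 1 [← hv]
        simp only [QuadraticMap.polar, ← mulVec_add, hg1]
      have h2 := hline (G *ᵥ w - w) (by rw [QuadraticMap.polar_sub_right, h1, sub_self])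
      rw [mulVec_sub] at h2
      funext j
      have h3 := congrFun h2 j
      simp only [Pi.sub_apply] at h3
      linear_combination h3 + ((G *ᵥ w) j - w j) * (CharTwo.two_eq_zero (R := K))
    have h2 : (g : GL I K) ^ 2 = 1 := by
      refine Units.ext (matrix_ext_mulVec fun w => ?_)
      rw [pow_two, Units.val_mul, ← mulVec_mulVec, Units.val_one, one_mulVec]
      exact hsq w
    obtain ⟨k, rfl⟩ := hodd
    rw [pow_succ, pow_mul, h2, one_pow, one_mul] at hgr
    rw [hgr]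
  -- the trace form
  haveI : FiniteDimensional F (I → K) := Module.Finite.pi
  let Q : QuadraticForm F (I → K) := (Algebra.trace F K).compQuadraticMap (N.restrictScalars (S := F))
  have hQ' : ∀ v, Q v = Algebra.trace F K (N v) := fun v => rfl
  have hpol : ∀ u v, QuadraticMap.polar Q u v = Algebra.trace F K (QuadraticMap.polar N u v) := by
    intro u v
    simp only [QuadraticMap.polar, hQ', map_sub]
  obtain ⟨t₁, ht₁⟩ := Algebra.trace_surjective F K 1
  have hNnd : (QuadraticMap.polarBilin N).Nondegenerate := qMinus_nondegenerate 1 ζ (disc_ne_zero haniso)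
  have hQnd : (QuadraticMap.polarBilin Q).Nondegenerate := by
    have key : ∀ u, (∀ v, QuadraticMap.polar Q u v = 0) → u = 0 := by
      intro u hu
      refine hNnd.1 u fun v => ?_
      by_contra hc
      have h := hu ((t₁ / QuadraticMap.polar N u v) • v)
      have hc' : QuadraticMap.polar (⇑N) u v ≠ 0 := hc
      rw [hpol, QuadraticMap.polar_smul_right, smul_eq_mul, div_mul_cancel₀ _ hc', ht₁] at h
      exact one_ne_zero h
    exact ⟨key, fun v hv => key v fun u => by rw [QuadraticMap.polar_comm]; exact hv u⟩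
  have hdim : Module.finrank F (I → K) = 2 * d := by
    rw [Module.finrank_pi_fintype]; simp [hd', I]
  have hZ : Nat.card {v : I → K // Q v = 0} = q ^ (2 * d - 1) + q ^ (d - 1) - q ^ d := by
    let T := LinearMap.ker (Algebra.trace F K)
    have hT : Nat.card T = q ^ (d - 1) := by
      have h := LinearMap.finrank_range_add_finrank_ker (Algebra.trace F K)
      rw [LinearMap.range_eq_top.2 (Algebra.trace_surjective F K), finrank_top, Module.finrank_self, hd'] at h
      haveI : Fintype T := Fintype.ofFinite T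
      rw [Nat.card_eq_fintype_card, Module.card_eq_pow_finrank (K := F), hq]
      congr 1
      change 1 + Module.finrank F T = d at h
      omega
    have hA := card_unit N hcK
    have hone : Nat.card {v : I → K // N v = 0} = 1 := by
      refine Nat.card_eq_one_iff_exists.2 ⟨⟨0, QuadraticMap.map_zero N⟩, fun v => Subtype.ext ?_⟩
      obtain ⟨h0, h1⟩ := haniso (v.1 (Sum.inr 0)) (v.1 (Sum.inr 1)) (by
        have := v.2; rw [hN] at this; linear_combination this)
      funext i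
      rcases i with (i | i) | i <;> first | exact i.elim0 | skip
      fin_cases i <;> [exact h0; exact h1]
    have hqd : 2 ≤ q ^ d := hcK ▸ Fintype.one_lt_card
    have hU : Nat.card {v : I → K // N v = 1} = q ^ d + 1 := by
      rw [hone, show Fintype.card I = 2 from rfl] at hA
      obtain ⟨A, hA'⟩ : ∃ A, q ^ d = A + 1 := ⟨q ^ d - 1, by omega⟩
      rw [hA'] at hA ⊢
      simp only [Nat.add_sub_cancel] at hA
      refine Nat.eq_of_mul_eq_mul_left (n := A) (by omega) ?_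
      have : A * Nat.card {v : I → K // N v = 1} + 1 = A * (A + 1 + 1) + 1 := hA.trans (by ring)
      omega
    have hfib : ∀ c : K, Nat.card {v : I → K // N v = c} = if c = 0 then 1 else q ^ d + 1 := by
      intro c
      split_ifs with hc
      · subst hc; exact hone
      · obtain ⟨s, hs⟩ := exists_sq_of_two_eq_zero (CharTwo.two_eq_zero (R := K)) c
        have hs0 : s ≠ 0 := fun e => hc (by rw [← hs, e, zero_pow two_ne_zero])
        rw [← hU]
        refine Nat.card_congr (Equiv.subtypeEquiv (MulAction.toPerm (Units.mk0 s hs0)).symm fun v => ?_)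
        rw [MulAction.toPerm_symm_apply, Units.smul_def, Units.val_inv_eq_inv_val, Units.val_mk0,
          QuadraticMap.map_smul, smul_eq_mul, ← hs]
        constructor
        · intro h
          rw [h, show s⁻¹ * s⁻¹ * s ^ 2 = (s⁻¹ * s) * (s⁻¹ * s) by ring, inv_mul_cancel₀ hs0, one_mul]
        · intro h
          calc N v = (s * s⁻¹) * (s * s⁻¹) * N v := by rw [mul_inv_cancel₀ hs0, one_mul, one_mul]
            _ = s ^ 2 * (s⁻¹ * s⁻¹ * N v) := by ring
            _ = s ^ 2 := by rw [h, mul_one]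
    have heq : Nat.card {v : I → K // Q v = 0} = Nat.card (Σ c : T, {v : I → K // N v = (c : K)}) :=
      Nat.card_congr
        { toFun := fun v => ⟨⟨N v.1, LinearMap.mem_ker.2 (by rw [← hQ']; exact v.2)⟩, ⟨v.1, rfl⟩⟩
          invFun := fun p => ⟨p.2.1, by rw [hQ', p.2.2]; exact LinearMap.mem_ker.1 p.1.2⟩
          left_inv := fun v => rfl
          right_inv := by rintro ⟨⟨c, hc⟩, v, hv⟩; simp only at hv; subst hv; rfl }
    haveI : Fintype T := Fintype.ofFinite T
    rw [heq, Nat.card_sigma, Finset.sum_congr rfl (fun (c : T) _ => hfib (c : K)),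
      ← Finset.add_sum_erase _ _ (Finset.mem_univ (0 : T)), if_pos (by simp),
      Finset.sum_congr rfl (g := fun _ : T => q ^ d + 1) (fun (c : T) hc => if_neg (fun h : (c : K) = 0 => Finset.ne_of_mem_erase hc (Subtype.ext h))),
      Finset.sum_const, Finset.card_erase_of_mem (Finset.mem_univ _), Finset.card_univ,
      ← Nat.card_eq_fintype_card, hT, smul_eq_mul]
    have e1 : q ^ (d - 1) * q ^ d = q ^ (2 * d - 1) := by rw [← pow_add]; congr 1; omega
    have hq2 : 2 ≤ q := by rw [← hq]; exact Fintype.one_lt_card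
    have hle : q ^ d ≤ q ^ (2 * d - 1) := Nat.pow_le_pow_right (by omega) (by omega)
    have h1 : 1 ≤ q ^ (d - 1) := Nat.one_le_pow _ _ (by omega)
    obtain ⟨A, hA'⟩ : ∃ A, q ^ (d - 1) = A + 1 := ⟨q ^ (d - 1) - 1, by omega⟩
    rw [hA'] at e1 ⊢
    rw [Nat.add_sub_cancel]
    rw [add_mul, one_mul] at e1
    rw [mul_add, mul_one]
    omega
  obtain ⟨e, he⟩ := exists_minus_equiv hq Q hQnd (by omega) hdim hZ hab
  let gl : (I → K) ≃ₗ[F] (I → K) := (glEquiv I K (g : GL I K)).restrictScalars F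
  let x := (glEquiv _ F).symm ((e.trans gl).trans e.symm)
  have hx : ∀ v, (x : Matrix _ _ F) *ᵥ v = e.symm (G *ᵥ e v) := fun v => by
    rw [glEquiv_symm_mulVec]; rfl
  have hxr : x ^ r = 1 := by
    refine Units.ext (matrix_ext_mulVec fun v => ?_)
    have hj : ∀ j : ℕ, ((x ^ j : GL _ F) : Matrix _ _ F) *ᵥ v =
        e.symm ((((g : GL I K) ^ j : GL I K) : Matrix I I K) *ᵥ e v) := by
      intro j
      induction j with
      | zero => simp
      | succ j ih =>
        rw [pow_succ', Units.val_mul, ← mulVec_mulVec, ih, hx, e.apply_symm_apply, pow_succ',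
          Units.val_mul, ← mulVec_mulVec]
    rw [hj, hgr]
    simp
  refine ⟨x, ?_, hxr, fun v hv => ?_⟩
  · have hpres : ∀ v, qMinus (d - 1) F a b ((x : Matrix _ _ F) *ᵥ v) = qMinus (d - 1) F a b v := fun v => by
      rw [hx, ← he, e.apply_symm_apply, hQ', hg1, ← hQ', he]
    exact ⟨fun hd3 => mem_omega_of_odd (qMinus_nondegenerate a b (disc_ne_zero hab)) (by simp; omega) hpres hodd hxr, hpres⟩
  · rw [hx] at hv
    have h : G *ᵥ e v = e v := by
      have := congrArg e hv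
      rwa [e.apply_symm_apply] at this
    exact e.injective (by rw [hfix _ h, map_zero])

theorem exists_minus_element {F : Type*} [Field F] [Fintype F] [CharP F 2] {q : ℕ} (hq : Fintype.card F = q)
    {d : ℕ} (hd : 3 ≤ d) {r : ℕ} (hr : r.Prime) (hodd : Odd r) (hdvd : r ∣ q ^ d + 1) {a b : F}
    (hab : ∀ z₁ z₂ : F, z₁ ^ 2 + a * z₁ * z₂ + b * z₂ ^ 2 = 0 → z₁ = 0 ∧ z₂ = 0) :
    ∃ x ∈ Cfsg.Geo.omegaGL ⇑(qMinus (d - 1) F a b), x ^ r = 1 ∧
      ∀ v, (x : Matrix ((Fin (d - 1) ⊕ Fin (d - 1)) ⊕ Fin 2) ((Fin (d - 1) ⊕ Fin (d - 1)) ⊕ Fin 2) F) *ᵥ v = v → v = 0 := by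
  obtain ⟨x, ⟨hx, -⟩, h⟩ := exists_minus_element_core hq (d := d) (by omega) hr hodd hdvd hab
  exact ⟨x, hx hd, h⟩

end Cfsg.Agent.GeomClasses.NonsingPoint

namespace Cfsg.Agent.GeomClasses.NonsingPoint

open Matrix Cfsg.Agent.Forms

theorem card_points_plus {F : Type*} [Field F] [Fintype F] [CharP F 2] {q : ℕ} (hq : Fintype.card F = q)
    {d : ℕ} (hd : 1 ≤ d) :
    Nat.card {W : Submodule F (Fin d ⊕ Fin d → F) // Module.finrank F W = 1 ∧
      ∃ v ∈ W, qPlus d F v ≠ 0} = q ^ (d - 1) * (q ^ d - 1) := by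
  have h := card_unit (qPlus d F) hq
  have hZ := Cfsg.Agent.S0289.result hq d hd
  rw [← coe_qPlus] at hZ
  rw [hZ] at h
  rw [card_lines]
  obtain ⟨k, rfl⟩ : ∃ k, d = k + 1 := ⟨d - 1, by omega⟩
  have hq2 : 2 ≤ q := by rw [← hq]; exact Fintype.one_lt_card
  obtain ⟨B, rfl⟩ : ∃ B, q = B + 1 := ⟨q - 1, by omega⟩
  simp only [Fintype.card_sum, Fintype.card_fin, Nat.add_sub_cancel, show 2 * (k + 1) - 1 = k + k + 1 by omega,
    pow_succ, pow_add, show k + 1 + (k + 1) = k + k + 1 + 1 by ring] at h ⊢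
  set A := (B + 1) ^ k with hA
  have hA1 : 1 ≤ A := Nat.one_le_pow _ _ (by omega)
  set U := Nat.card {v : Fin (k + 1) ⊕ Fin (k + 1) → F // qPlus (k + 1) F v = 1}
  obtain ⟨C, hC⟩ : ∃ C, A * (B + 1) = C + 1 := ⟨A * (B + 1) - 1, by
    have := Nat.mul_pos (show 0 < A by omega) (show 0 < B + 1 by omega); omega⟩
  rw [hC, Nat.add_sub_cancel]
  have hsub : A * A * (B + 1) + A * (B + 1) - A + A = A * A * (B + 1) + A * (B + 1) :=
    Nat.sub_add_cancel (le_add_of_le_of_nonneg ((Nat.le_mul_of_pos_right A (by omega)).trans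
      (Nat.le_mul_of_pos_right (A * A) (by omega))) (Nat.zero_le _))
  refine Nat.eq_of_mul_eq_mul_left (n := B) (by omega) ?_
  nlinarith [h, hsub, hC]

theorem card_points_minus {F : Type*} [Field F] [Fintype F] [CharP F 2] {q : ℕ} (hq : Fintype.card F = q)
    {d : ℕ} (hd : 1 ≤ d) {a b : F} (hab : ∀ z₁ z₂ : F, z₁ ^ 2 + a * z₁ * z₂ + b * z₂ ^ 2 = 0 → z₁ = 0 ∧ z₂ = 0) :
    Nat.card {W : Submodule F ((Fin (d - 1) ⊕ Fin (d - 1)) ⊕ Fin 2 → F) // Module.finrank F W = 1 ∧
      ∃ v ∈ W, qMinus (d - 1) F a b v ≠ 0} = q ^ (d - 1) * (q ^ d + 1) := by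
  have h := card_unit (qMinus (d - 1) F a b) hq
  have hZ := Cfsg.Agent.S0290.result hq d hd a b hab
  rw [← coe_qMinus] at hZ
  rw [hZ] at h
  rw [card_lines]
  obtain ⟨k, rfl⟩ : ∃ k, d = k + 1 := ⟨d - 1, by omega⟩
  have hq2 : 2 ≤ q := by rw [← hq]; exact Fintype.one_lt_card
  obtain ⟨B, rfl⟩ : ∃ B, q = B + 1 := ⟨q - 1, by omega⟩
  simp only [Fintype.card_sum, Fintype.card_fin, Nat.add_sub_cancel, show 2 * (k + 1) - 1 = k + k + 1 by omega,
    pow_succ, pow_add] at h ⊢
  set A := (B + 1) ^ k with hA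
  have hA1 : 1 ≤ A := Nat.one_le_pow _ _ (by omega)
  set U := Nat.card {v : (Fin k ⊕ Fin k) ⊕ Fin 2 → F // qMinus k F a b v = 1}
  have hsub : A * A * (B + 1) + A - A * (B + 1) + A * (B + 1) = A * A * (B + 1) + A :=
    Nat.sub_add_cancel ((Nat.mul_le_mul_right (B + 1) (Nat.le_mul_self A)).trans (Nat.le_add_right _ _))
  refine Nat.eq_of_mul_eq_mul_left (n := B) (by omega) ?_
  nlinarith [h, hsub]

end Cfsg.Agent.GeomClasses.NonsingPoint
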