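import Cfsg.Agent.GeomClasses.NondegStab

/-! # Orthogonal decompositions into isometric blocks (odd characteristic): basic tools -/

set_option autoImplicit false

namespace Cfsg.Agent.GeomClasses

open Module Cfsg.Agent.Forms

variable {F V : Type*} [Field F] [AddCommGroup V] [Module F V] [FiniteDimensional F V]
  {Q : QuadraticForm F V}

set_option quotPrecheck false in
local notation "BQ" => QuadraticMap.polar ⇑Q

local notation "sp" => Submodule.span F

/-- Pairwise orthogonal, pairwise isometric blocks spanning a non-degenerate space. -/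
structure OBlocks (Q : QuadraticForm F V) {t : ℕ} (k : ℕ) (D : Fin t → Submodule F V) : Prop where
  top : iSup D = ⊤
  dim : ∀ i, finrank F (D i) = k
  orth : ∀ i j, i ≠ j → ∀ a ∈ D i, ∀ b ∈ D j, QuadraticMap.polar Q a b = 0
  nondeg : (QuadraticMap.polarBilin Q).Nondegenerate
  iso : ∀ i j, ∃ φ : D i ≃ₗ[F] D j, ∀ w : D i, Q ((φ w : D j) : V) = Q (w : V)

variable {t k : ℕ} {D : Fin t → Submodule F V}

theorem OBlocks.split (h : OBlocks Q k D) (i : Fin t) : OSplit Q (D i) (perp (QuadraticMap.polarBilin Q) (D i)) := by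
  have hI := isForm_quadratic Q h.nondeg
  refine ⟨?_, fun a ha b hb => hb a ha, h.nondeg⟩
  have hdis : D i ⊓ perp (QuadraticMap.polarBilin Q) (D i) = ⊥ := (Submodule.eq_bot_iff _).mpr fun x hx => by
    refine h.nondeg.1 x fun y => ?_
    have hy : y ∈ iSup D := by rw [h.top]; trivial
    induction hy using Submodule.iSup_induction' with
    | mem j z hz =>
      rcases eq_or_ne i j with rfl | hij
      · rw [QuadraticMap.polarBilin_apply_apply, QuadraticMap.polar_comm]; exact hx.2 z hz
      · exact h.orth i j hij x hx.1 z hz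
    | zero => simp
    | add a b _ _ ha hb => rw [map_add, ha, hb, add_zero]
  refine ⟨disjoint_iff.mpr hdis, codisjoint_iff.mpr (Submodule.eq_top_of_finrank_eq ?_)⟩
  have h1 := Submodule.finrank_sup_add_finrank_inf_eq (D i) (perp (QuadraticMap.polarBilin Q) (D i))
  have h2 := hI.finrank_perp (D i)
  rw [hdis, finrank_bot] at h1
  omega

/-- The component in a block. -/
noncomputable def OBlocks.comp (h : OBlocks Q k D) (i : Fin t) : V →ₗ[F] V :=
  (D i).projection (perp (QuadraticMap.polarBilin Q) (D i)) (h.split i).compl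

theorem OBlocks.comp_mem (h : OBlocks Q k D) (i : Fin t) (x : V) : h.comp i x ∈ D i :=
  Submodule.projection_apply_mem _ _

theorem OBlocks.comp_self (h : OBlocks Q k D) {i : Fin t} {x : V} (hx : x ∈ D i) : h.comp i x = x :=
  Submodule.projection_apply_of_mem_left _ hx

theorem OBlocks.comp_other (h : OBlocks Q k D) {i j : Fin t} (hij : i ≠ j) {x : V} (hx : x ∈ D j) :
    h.comp i x = 0 :=
  (Submodule.projection_apply_eq_zero_iff _).mpr fun a ha => h.orth i j hij a ha x hx

theorem OBlocks.polar_comp (h : OBlocks Q k D) {i : Fin t} {u : V} (hu : u ∈ D i) (x : V) :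
    BQ u (h.comp i x) = BQ u x := by
  have h1 : BQ u (x - h.comp i x) = 0 := (Submodule.sub_projection_mem (h.split i).compl x) u hu
  rw [QuadraticMap.polar_sub_right, sub_eq_zero] at h1
  exact h1.symm

theorem OBlocks.sum_comp (h : OBlocks Q k D) (x : V) : ∑ i, h.comp i x = x := by
  refine sub_eq_zero.mp (h.nondeg.1 _ fun y => ?_)
  have hy : y ∈ iSup D := by rw [h.top]; trivial
  induction hy using Submodule.iSup_induction' with
  | mem j z hz =>
    rw [QuadraticMap.polarBilin_apply_apply, QuadraticMap.polar_comm, QuadraticMap.polar_sub_right,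
      ← QuadraticMap.polarBilin_apply_apply, map_sum, Finset.sum_eq_single j, QuadraticMap.polarBilin_apply_apply,
      h.polar_comp hz, sub_self]
    · intro l _ hlj
      exact h.orth j l (Ne.symm hlj) z hz _ (h.comp_mem l x)
    · simp
  | zero => simp
  | add a b _ _ ha hb => rw [map_add, ha, hb, add_zero]

theorem OBlocks.exists_comp_ne (h : OBlocks Q k D) {i : Fin t} {x : V} (hx : x ∉ D i) :
    ∃ j, j ≠ i ∧ h.comp j x ≠ 0 := by
  by_contra hno
  push Not at hno
  refine hx ?_
  rw [← h.sum_comp x, Finset.sum_eq_single i (fun j _ hj => hno j hj) (by simp)]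
  exact h.comp_mem i x

theorem OBlocks.map_sum (h : OBlocks Q k D) (f : Fin t → V) (hf : ∀ i, f i ∈ D i) (s : Finset (Fin t)) :
    Q (∑ i ∈ s, f i) = ∑ i ∈ s, Q (f i) := by
  classical
  induction s using Finset.induction_on with
  | empty => simp
  | insert a s ha ih =>
    rw [Finset.sum_insert ha, Finset.sum_insert ha, QuadraticMap.map_add Q, ih,
      ← QuadraticMap.polarBilin_apply_apply, _root_.map_sum,
      Finset.sum_eq_zero (f := fun l => (QuadraticMap.polarBilin Q (f a)) (f l))
        fun l hl => h.orth a l (fun e => ha (e ▸ hl)) _ (hf a) _ (hf l), add_zero]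

/-- The elements permuting the blocks. -/
def BlockPerm (g : orthGroup Q) (D : Fin t → Submodule F V) : Prop :=
  ∀ i, ∃ j, ∀ x ∈ D i, (g : V ≃ₗ[F] V) x ∈ D j

section Finite

variable [Finite F]

theorem OBlocks.eichler_perm (h : OBlocks Q k D) {i : Fin t} {y c : V} (hy : y ∈ D i) (hc : c ∈ D i)
    (hQy : Q y = 0) (hyc : BQ y c = 0) : BlockPerm (eichler Q y c hQy hyc) D := by
  intro j
  refine ⟨j, fun x hx => ?_⟩
  rcases eq_or_ne i j with rfl | hij
  · exact eichler_stable hQy hyc hy hc hx
  · rwa [eichler_fixes hQy hyc (h.orth i j hij y hy x hx) (h.orth i j hij c hc x hx)]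

/-- Singular vectors of a block pairing with a given one. -/
theorem OBlocks.sing_pair (h : OBlocks Q k D) (hk : 3 ≤ k) {i : Fin t} {u : V} (hu : u ∈ D i) (hu0 : u ≠ 0) :
    ∃ a ∈ D i, Q a = 0 ∧ BQ a u ≠ 0 := by
  obtain ⟨a, ha, hQa, -, hau⟩ := exists_sing_pair h.nondeg (U := D i) (h.split i).comp (S := ⊥) bot_le
    (by rw [finrank_bot, h.dim]; omega) hu (by simpa using hu0)
  exact ⟨a, ha, hQa, hau⟩

/-- A totally singular subspace of a non-degenerate part has at most half its dimension. -/
theorem two_mul_ts_le {A B S : Submodule F V} (h : OSplit Q A B) (hS : S ≤ A) (hts : ∀ x ∈ S, Q x = 0) :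
    2 * finrank F S ≤ finrank F A := by
  have hI := isForm_quadratic Q h.nondeg
  have hV := Submodule.finrank_add_eq_of_isCompl h.compl
  have h1 : S ≤ perp (QuadraticMap.polarBilin Q) (S ⊔ B) := fun y hy x hx => by
    obtain ⟨a, ha, b, hb, rfl⟩ := Submodule.mem_sup.mp hx
    rw [QuadraticMap.polarBilin_apply_apply, QuadraticMap.polar_add_left, polar_ts hts ha hy,
      h.symm.orth b hb y (hS hy), add_zero]
  have h2 := Submodule.finrank_mono h1
  have h3 := hI.finrank_perp (S ⊔ B)
  have h4 := Submodule.finrank_sup_add_finrank_inf_eq S B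
  have h5 : S ⊓ B = ⊥ := eq_bot_iff.mpr ((inf_le_inf_right B hS).trans h.compl.inf_eq_bot.le)
  rw [h5, finrank_bot] at h4
  omega

/-- A non-singular vector of a block perpendicular to a singular one. -/
theorem OBlocks.exists_nonsing_perp (h : OBlocks Q k D) (hk : 3 ≤ k) {i : Fin t} (y : V) :
    ∃ c ∈ D i, BQ y c = 0 ∧ Q c ≠ 0 := by
  by_contra hno
  push Not at hno
  have h1 := two_mul_ts_le (h.split i) (S := perp (QuadraticMap.polarBilin Q) (sp {y}) ⊓ D i) inf_le_right
    fun x hx => hno x hx.2 (mem_perp_span_singleton.mp hx.1)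
  have h2 := (h.split i).finrank_inf (sp {y})
  have h3 : finrank F (sp {y}) ≤ 1 := (finrank_span_le_card {y}).trans (by simp)
  rw [h.dim] at h1 h2
  omega

/-- Two singular vectors of a block have a common singular neighbour. -/
theorem OBlocks.sing_common (h : OBlocks Q k D) (hk : 3 ≤ k) {i : Fin t} {a b : V} (ha : a ∈ D i) (hb : b ∈ D i)
    (hQa : Q a = 0) (hQb : Q b = 0) (ha0 : a ≠ 0) (hb0 : b ≠ 0) :
    ∃ z ∈ D i, Q z = 0 ∧ BQ z a ≠ 0 ∧ BQ z b ≠ 0 := by
  by_cases hab : BQ a b = 0
  · obtain ⟨f, hf, hQf, hfa⟩ := h.sing_pair hk ha ha0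
    obtain ⟨g, hg, hQg, hgb⟩ := h.sing_pair hk hb hb0
    by_cases h1 : BQ f b = 0
    swap; · exact ⟨f, hf, hQf, hfa, h1⟩
    by_cases h2 : BQ g a = 0
    swap; · exact ⟨g, hg, hQg, h2, hgb⟩
    by_cases hfg : BQ f g = 0
    · refine ⟨f + g, add_mem hf hg, ?_, ?_, ?_⟩
      · rw [QuadraticMap.map_add Q, hQf, hQg, hfg, add_zero, add_zero]
      · rwa [QuadraticMap.polar_add_left, h2, add_zero]
      · rwa [QuadraticMap.polar_add_left, h1, zero_add]
    · set μ := -BQ f g * (BQ g b)⁻¹
      refine ⟨f + g + μ • b, add_mem (add_mem hf hg) ((D i).smul_mem _ hb), ?_, ?_, ?_⟩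
      · rw [QuadraticMap.map_add Q, QuadraticMap.map_add Q, QuadraticMap.map_smul, hQf, hQg, hQb,
          QuadraticMap.polar_smul_right, QuadraticMap.polar_add_left, h1]
        simp only [μ, smul_eq_mul, mul_zero, zero_add, add_zero]
        rw [mul_assoc, inv_mul_cancel₀ hgb, mul_one, add_neg_cancel]
      · rw [QuadraticMap.polar_add_left, QuadraticMap.polar_add_left, QuadraticMap.polar_smul_left, h2,
          QuadraticMap.polar_comm _ b a, hab, smul_zero, add_zero, add_zero]
        exact hfa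
      · rw [QuadraticMap.polar_add_left, QuadraticMap.polar_add_left, QuadraticMap.polar_smul_left, h1,
          polar_self_two_mul, hQb, mul_zero, smul_zero, add_zero, zero_add]
        exact hgb
  · obtain ⟨c, hc, hac, hQc⟩ := h.exists_nonsing_perp hk (i := i) a
    refine ⟨((eichler Q a c hQa hac : orthGroup Q) : V ≃ₗ[F] V) b, eichler_stable hQa hac ha hc hb, ?_, ?_, ?_⟩
    · rw [(eichler Q a c hQa hac).2.2]; exact hQb
    · have e : ((eichler Q a c hQa hac : orthGroup Q) : V ≃ₗ[F] V) a = a :=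
        eichler_fixes hQa hac (by rw [polar_self_two_mul, hQa, mul_zero]) (by rw [QuadraticMap.polar_comm]; exact hac)
      have h' := orth_polar Q (eichler Q a c hQa hac) b a
      rw [e] at h'
      rw [h', QuadraticMap.polar_comm]
      exact hab
    · rw [eichler_apply, eichlerMap_apply, QuadraticMap.polar_sub_left, QuadraticMap.polar_add_left,
        QuadraticMap.polar_smul_left, QuadraticMap.polar_smul_left, polar_self_two_mul, hQb, smul_eq_mul, smul_eq_mul]
      rw [show (2 : F) * 0 + BQ a b * BQ c b - (BQ c b + Q c * BQ a b) * BQ a b = -(Q c * (BQ a b * BQ a b)) by ring]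
      exact neg_ne_zero.mpr (mul_ne_zero hQc (mul_ne_zero hab hab))

/-- Every element agrees modulo the derived group with a product of reflections inside a block. -/
theorem OBlocks.exists_correction (h : OBlocks Q k D) (hk : 3 ≤ k) (hn : 5 ≤ finrank F V) (m : Fin t) (g : orthGroup Q) :
    ∃ r : orthGroup Q, g * r ∈ commutator (orthGroup Q) ∧
      ∀ j, ∀ x ∈ D j, (r : V ≃ₗ[F] V) x ∈ D j := by
  have hgen := closure_reflectionSet Q h.nondeg (Or.inr (Or.inr (by omega)))
  have hg : g ∈ Subgroup.closure (reflectionSet Q) := hgen ▸ Subgroup.mem_top g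
  induction hg using Subgroup.closure_induction with
  | mem g hg =>
    obtain ⟨v, hv, rfl⟩ := hg
    obtain ⟨s, hs, hs0, hQs⟩ := exists_singular_mem (Q := Q) (W := D m) (by rw [h.dim]; exact hk)
    obtain ⟨a0, ha0, -, hsa⟩ := (h.split m).pairing (S := ⊥) bot_le hs (by simpa using hs0)
    set a := a0 + (Q v - Q a0) • s
    have ha : a ∈ D m := add_mem ha0 ((D m).smul_mem _ hs)
    have hQa : Q a = Q v := by
      simp only [a]
      rw [QuadraticMap.map_add Q, QuadraticMap.map_smul, hQs, QuadraticMap.polar_smul_right,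
        QuadraticMap.polar_comm _ a0 s, hsa]
      simp
    refine ⟨reflection Q a, reflection_pair_mem h.nondeg (by rw [hQa]; exact hv) hQa, fun j x hx => ?_⟩
    rcases eq_or_ne m j with rfl | hmj
    · rw [Forms.reflection_apply]; exact sub_mem hx ((D m).smul_mem _ ha)
    · rwa [Forms.reflection_fix (Q := Q) (h.orth m j hmj a ha x hx)]
  | one => exact ⟨1, by rw [one_mul]; exact one_mem _, fun j x hx => by simpa using hx⟩
  | mul a b _ _ iha ihb =>
    obtain ⟨ra, hra, hra'⟩ := iha
    obtain ⟨rb, hrb, hrb'⟩ := ihb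
    have hN : (commutator (orthGroup Q)).Normal := inferInstance
    refine ⟨rb * ra, ?_, fun j x hx => by rw [orth_mul_apply]; exact hrb' j _ (hra' j x hx)⟩
    have h1 := hN.conj_mem _ hrb a
    rw [show a * b * (rb * ra) = (a * (b * rb) * a⁻¹) * (a * ra) by group]
    exact mul_mem h1 hra
  | inv a _ iha =>
    obtain ⟨r, hr, hr'⟩ := iha
    have hN : (commutator (orthGroup Q)).Normal := inferInstance
    refine ⟨r⁻¹, ?_, fun j x hx => ?_⟩
    · rw [show a⁻¹ * r⁻¹ = a⁻¹ * (a * r)⁻¹ * a⁻¹⁻¹ by group]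
      exact hN.conj_mem _ (inv_mem hr) _
    · have hmap : (D j).map ((r : V ≃ₗ[F] V) : V →ₗ[F] V) = D j :=
        Submodule.eq_of_le_of_finrank_eq (Submodule.map_le_iff_le_comap.mpr fun y hy => hr' j y hy)
          (LinearEquiv.finrank_map_eq _ _)
      rw [← hmap] at hx
      obtain ⟨z, hz, rfl⟩ := hx
      simpa using hz

/-- An element of the derived group interchanging two blocks and fixing the others. -/
theorem OBlocks.exists_transposition (h : OBlocks Q k D) (hk : 3 ≤ k) (hn : 5 ≤ finrank F V) {a b : Fin t} (hab : a ≠ b) :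
    ∃ g ∈ commutator (orthGroup Q), ∀ j, ∀ x ∈ D j, (g : V ≃ₗ[F] V) x ∈ D (Equiv.swap a b j) := by
  obtain ⟨φ, hφ⟩ := h.iso a b
  set pa : V →ₗ[F] D a := (D a).projectionOnto _ (h.split a).compl
  set pb : V →ₗ[F] D b := (D b).projectionOnto _ (h.split b).compl
  set f : V →ₗ[F] V := LinearMap.id + ((D b).subtype ∘ₗ φ.toLinearMap ∘ₗ pa - (D a).subtype ∘ₗ pa) +
    ((D a).subtype ∘ₗ φ.symm.toLinearMap ∘ₗ pb - (D b).subtype ∘ₗ pb) with hfdef
  have hf : ∀ x, f x = x + ((φ (pa x) : V) - (pa x : V)) + ((φ.symm (pb x) : V) - (pb x : V)) := fun x => rfl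
  have pa_self : ∀ x : D a, pa x = x := fun x => Submodule.projectionOnto_apply_left _ x
  have pb_self : ∀ x : D b, pb x = x := fun x => Submodule.projectionOnto_apply_left _ x
  have pa_zero : ∀ {j}, a ≠ j → ∀ x ∈ D j, pa x = 0 := fun {j} hj x hx =>
    (Submodule.projectionOnto_apply_eq_zero_iff _).mpr fun u hu => h.orth a j hj u hu x hx
  have pb_zero : ∀ {j}, b ≠ j → ∀ x ∈ D j, pb x = 0 := fun {j} hj x hx =>
    (Submodule.projectionOnto_apply_eq_zero_iff _).mpr fun u hu => h.orth b j hj u hu x hx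
  have onA : ∀ x : D a, f (x : V) = φ x := fun x => by
    rw [hf, pa_self, pb_zero hab.symm _ x.2, map_zero]; simp
  have onB : ∀ x : D b, f (x : V) = φ.symm x := fun x => by
    rw [hf, pb_self, pa_zero hab _ x.2, map_zero]; simp
  have onC : ∀ {j}, a ≠ j → b ≠ j → ∀ x ∈ D j, f x = x := fun {j} h1 h2 x hx => by
    rw [hf, pa_zero h1 x hx, pb_zero h2 x hx, map_zero, map_zero]; simp
  have hinv : Function.Involutive f := fun x => by
    have hx : x ∈ iSup D := by rw [h.top]; trivial
    induction hx using Submodule.iSup_induction' with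
    | mem j z hz =>
      rcases eq_or_ne a j with rfl | h1
      · have e := onA ⟨z, hz⟩
        simp only at e
        rw [e, onB, LinearEquiv.symm_apply_apply]
      rcases eq_or_ne b j with rfl | h2
      · have e := onB ⟨z, hz⟩
        simp only at e
        rw [e, onA, LinearEquiv.apply_symm_apply]
      rw [onC h1 h2 z hz, onC h1 h2 z hz]
    | zero => simp
    | add u v _ _ hu hv => rw [map_add, map_add, hu, hv]
  have hmem : ∀ j, ∀ x ∈ D j, f x ∈ D (Equiv.swap a b j) := by
    intro j x hx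
    rcases eq_or_ne a j with rfl | h1
    · have e := onA ⟨x, hx⟩
      simp only at e
      rw [e, Equiv.swap_apply_left]; exact (φ ⟨x, hx⟩).2
    rcases eq_or_ne b j with rfl | h2
    · have e := onB ⟨x, hx⟩
      simp only at e
      rw [e, Equiv.swap_apply_right]; exact (φ.symm ⟨x, hx⟩).2
    rw [onC h1 h2 x hx, Equiv.swap_apply_of_ne_of_ne h1.symm h2.symm]; exact hx
  have hQf : ∀ x, Q (f x) = Q x := by
    intro x
    conv_lhs => rw [← h.sum_comp x, _root_.map_sum]
    conv_rhs => rw [← h.sum_comp x, h.map_sum _ fun j => h.comp_mem j x]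
    rw [← Equiv.sum_comp (Equiv.swap a b) (fun j => f (h.comp j x)),
      h.map_sum _ fun j => by simpa using hmem _ _ (h.comp_mem (Equiv.swap a b j) x),
      Equiv.sum_comp (Equiv.swap a b) (fun j => Q (f (h.comp j x)))]
    refine Finset.sum_congr rfl fun j _ => ?_
    rcases eq_or_ne a j with rfl | h1
    · have e := onA ⟨_, h.comp_mem a x⟩
      simp only at e
      rw [e, hφ]
    rcases eq_or_ne b j with rfl | h2
    · have e := onB ⟨_, h.comp_mem b x⟩
      simp only at e
      rw [e, ← hφ, LinearEquiv.apply_symm_apply]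
    rw [onC h1 h2 _ (h.comp_mem j x)]
  set g0 : orthGroup Q := ⟨LinearEquiv.ofInvolutive f hinv, (orth_mem_iff Q _).2 hQf⟩
  obtain ⟨r, hr, hr'⟩ := h.exists_correction hk hn a g0
  exact ⟨g0 * r, hr, fun j x hx => hmem j _ (hr' j x hx)⟩

end Finite

end Cfsg.Agent.GeomClasses
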