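import Cfsg.Agent.GeomClasses.OrthSeed
import Cfsg.Agent.Forms.Spinor

/-! # Orthogonal imprimitive subgroups: the seed always exists -/

set_option autoImplicit false

namespace Cfsg.Agent.GeomClasses

open Module Cfsg.Agent.Forms

variable {F V : Type*} [Field F] [AddCommGroup V] [Module F V] [FiniteDimensional F V]
  {Q : QuadraticForm F V}

set_option quotPrecheck false in
local notation "BQ" => QuadraticMap.polar ⇑Q

local notation "sp" => Submodule.span F

variable {t k : ℕ} {D : Fin t → Submodule F V} {M : Subgroup (orthGroup Q)} [Finite F] (h : OBlocks Q k D)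
include h

/-- A hyperbolic pair and a perpendicular vector with a common value in each block of dimension three. -/
theorem exists_triples (h2 : (2 : F) ≠ 0) (hk : k = 3) (i0 : Fin t) :
    ∃ κ : F, κ ≠ 0 ∧ ∀ i, ∃ y ∈ D i, ∃ f ∈ D i, ∃ c ∈ D i,
      Q y = 0 ∧ Q f = 0 ∧ BQ y f = 1 ∧ BQ y c = 0 ∧ BQ f c = 0 ∧ Q c = κ := by
  obtain ⟨y, hy, hy0, hQy⟩ := exists_singular_mem (Q := Q) (W := D i0) (by rw [h.dim, hk])
  obtain ⟨d, hd, -, hyd⟩ := (h.split i0).pairing (S := ⊥) bot_le hy (by simpa using hy0)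
  set f := d - Q d • y with hfdef
  have hf : f ∈ D i0 := sub_mem hd ((D i0).smul_mem _ hy)
  have hQf : Q f = 0 := by
    rw [hfdef, sub_eq_add_neg, ← neg_smul, QuadraticMap.map_add Q, QuadraticMap.map_smul, hQy,
      QuadraticMap.polar_smul_right, QuadraticMap.polar_comm _ d y, hyd]
    simp
  have hyf : BQ y f = 1 := by
    rw [hfdef, QuadraticMap.polar_sub_right, QuadraticMap.polar_smul_right, hyd, polar_self_two_mul, hQy]; simp
  obtain ⟨c, hc, hc0⟩ : ∃ c, c ∈ perp (QuadraticMap.polarBilin Q) (sp {y, f}) ⊓ D i0 ∧ c ∉ (⊥ : Submodule F V) := by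
    refine SetLike.not_le_iff_exists.mp fun hle : perp (QuadraticMap.polarBilin Q) (sp {y, f}) ⊓ D i0 ≤ ⊥ => ?_
    have h1 := (h.split i0).finrank_inf (sp {y, f})
    have h3 := finrank_pair_le (F := F) y f
    rw [le_bot_iff.mp hle, finrank_bot, h.dim] at h1
    omega
  have hyc : BQ y c = 0 := hc.1 y (Submodule.subset_span (by simp))
  have hfc : BQ f c = 0 := hc.1 f (Submodule.subset_span (by simp))
  have hQc : Q c ≠ 0 := by
    intro hQc
    -- the three vectors would span a totally degenerate block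
    have hli : LinearIndependent F ![y, f, c] := by
      rw [Fintype.linearIndependent_iff]
      intro g hg
      rw [Fin.sum_univ_three] at hg
      simp only [Matrix.cons_val] at hg
      have e1 := congrArg (QuadraticMap.polarBilin Q y) hg
      have e2 := congrArg (QuadraticMap.polarBilin Q f) hg
      simp [map_add, map_smul, polar_self_two_mul, hQy, hQf, hyf, hyc,
        hfc, QuadraticMap.polar_comm _ f y] at e1 e2
      rw [e1, e2, zero_smul, zero_smul, zero_add, zero_add, smul_eq_zero] at hg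
      intro i
      fin_cases i
      · exact e2
      · exact e1
      · exact hg.resolve_right (by simpa using hc0)
    have hsp : sp (Set.range ![y, f, c]) = D i0 := Submodule.eq_of_le_of_finrank_eq
      (Submodule.span_le.mpr (by rintro _ ⟨i, rfl⟩; fin_cases i <;> simp [hy, hf, hc.2]))
      (by rw [finrank_span_eq_card hli, h.dim, hk]; simp)
    refine (by simpa using hc0 : c ≠ 0) ((h.split i0).eq_zero hc.2 fun z hz => ?_)
    rw [← hsp] at hz
    induction hz using Submodule.span_induction with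
    | mem z hz =>
      obtain ⟨i, rfl⟩ := hz
      fin_cases i <;> simp [QuadraticMap.polar_comm _ c y, QuadraticMap.polar_comm _ c f, hyc, hfc, polar_self_two_mul, hQc]
    | zero => simp [QuadraticMap.polar]
    | add a b _ _ ha hb => rw [QuadraticMap.polar_add_right, ha, hb, add_zero]
    | smul a z _ ha => rw [QuadraticMap.polar_smul_right, ha, smul_zero]
  refine ⟨Q c, hQc, fun i => ?_⟩
  obtain ⟨φ, hφ⟩ := h.iso i0 i
  have hpol : ∀ u v : D i0, BQ (φ u : V) (φ v : V) = BQ (u : V) (v : V) := fun u v => by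
    unfold QuadraticMap.polar
    rw [← Submodule.coe_add, ← map_add, hφ, hφ, hφ, Submodule.coe_add]
  exact ⟨φ ⟨y, hy⟩, (φ _).2, φ ⟨f, hf⟩, (φ _).2, φ ⟨c, hc.2⟩, (φ _).2, by rw [hφ]; exact hQy,
    by rw [hφ]; exact hQf, by rw [hpol]; exact hyf, by rw [hpol]; exact hyc, by rw [hpol]; exact hfc, hφ _⟩

/-- A vector with no singular perpendicular vector has value in the other square class. -/
theorem ell_class (h2 : (2 : F) ≠ 0) (hk : k = 3) {i : Fin t} {u y f c : V} (hu : u ∈ D i) (hy : y ∈ D i) (hf : f ∈ D i)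
    (hc : c ∈ D i) (hQy : Q y = 0) (hQf : Q f = 0) (hyf : BQ y f = 1) (hyc : BQ y c = 0) (hfc : BQ f c = 0)
    (hQc : Q c ≠ 0) (hQu : Q u ≠ 0) (hell : ∀ z ∈ D i, Q z = 0 → BQ z u = 0 → z = 0) :
    ¬ IsSquare (Q u / Q c) := by
  rintro ⟨s, hs⟩
  have hli : LinearIndependent F ![y, f, c] := by
    rw [Fintype.linearIndependent_iff]
    intro g hg
    rw [Fin.sum_univ_three] at hg
    simp only [Matrix.cons_val] at hg
    have e1 := congrArg (QuadraticMap.polarBilin Q y) hg
    have e2 := congrArg (QuadraticMap.polarBilin Q f) hg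
    simp [map_add, map_smul, polar_self_two_mul, hQy, hQf, hyf, hyc,
      hfc, QuadraticMap.polar_comm _ f y] at e1 e2
    rw [e1, e2, zero_smul, zero_smul, zero_add, zero_add, smul_eq_zero] at hg
    intro i
    fin_cases i
    · exact e2
    · exact e1
    · exact hg.resolve_right (fun e => hQc (by rw [e, map_zero]))
  have hsp : sp (Set.range ![y, f, c]) = D i := Submodule.eq_of_le_of_finrank_eq
    (Submodule.span_le.mpr (by rintro _ ⟨j, rfl⟩; fin_cases j <;> simp [hy, hf, hc]))
    (by rw [finrank_span_eq_card hli, h.dim, hk]; simp)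
  obtain ⟨g, hg⟩ := (Submodule.mem_span_range_iff_exists_fun F).mp (hsp.ge hu)
  rw [Fin.sum_univ_three] at hg
  simp only [Matrix.cons_val] at hg
  set a := g 0
  set b := g 1
  set d := g 2
  have hQu' : Q u = a * b + d * d * Q c := by
    rw [← hg]
    simp [QuadraticMap.map_add Q, QuadraticMap.map_smul, QuadraticMap.polar_smul_left,
      QuadraticMap.polar_smul_right, QuadraticMap.polar_add_left, hQy, hQf, hyf, hyc, hfc]
    try ring
  have hyu : BQ y u = b := by
    rw [← hg]
    simp [QuadraticMap.polar_add_right, QuadraticMap.polar_smul_right, polar_self_two_mul, hQy, hyf, hyc]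
  have hfu : BQ f u = a := by
    rw [← hg]
    simp [QuadraticMap.polar_add_right, QuadraticMap.polar_smul_right, polar_self_two_mul, hQf,
      QuadraticMap.polar_comm _ f y, hyf, hfc]
  have hcu : BQ c u = 2 * d * Q c := by
    rw [← hg]
    simp [QuadraticMap.polar_add_right, QuadraticMap.polar_smul_right, polar_self_two_mul,
      QuadraticMap.polar_comm _ c y, QuadraticMap.polar_comm _ c f, hyc, hfc]
    ring
  rcases eq_or_ne b 0 with hb | hb
  · have := hell y hy hQy (by rw [hyu, hb])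
    rw [this] at hyf
    simp [QuadraticMap.polar] at hyf
  · set m := (d + s) / b with hm
    set z := (-(m * m) * Q c) • y + f + m • c with hzdef
    have hz : z ∈ D i := add_mem (add_mem ((D i).smul_mem _ hy) hf) ((D i).smul_mem _ hc)
    have hQz : Q z = 0 := by
      simp [hzdef, QuadraticMap.map_add Q, QuadraticMap.map_smul, QuadraticMap.polar_smul_left,
        QuadraticMap.polar_smul_right, QuadraticMap.polar_add_left, hQy, hQf, hyf, hyc, hfc]
      try ring
    have hs' : Q u = s * s * Q c := by rw [← hs, div_mul_cancel₀ _ hQc]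
    have hzu : BQ z u = 0 := by
      rw [hzdef, QuadraticMap.polar_add_left, QuadraticMap.polar_add_left, QuadraticMap.polar_smul_left,
        QuadraticMap.polar_smul_left, hyu, hfu, hcu, smul_eq_mul, smul_eq_mul, hm]
      field_simp
      linear_combination (hs'.symm.trans hQu').symm
    have := hell z hz hQz hzu
    have e := congrArg (QuadraticMap.polarBilin Q y) this
    rw [hzdef] at e
    simp [map_add, map_smul, polar_self_two_mul, hQy, hyf, hyc] at e

/-- Products of Eichler transformations over several blocks. -/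
theorem exists_multi (hE : BlockE Q M D) {y c : Fin t → V} {κ : F} (hy : ∀ i, y i ∈ D i) (hc : ∀ i, c i ∈ D i)
    (hQy : ∀ i, Q (y i) = 0) (hyc : ∀ i, BQ (y i) (c i) = 0) (hκ : ∀ i, Q (c i) = κ) (ρ : Fin t → F)
    (S : Finset (Fin t)) :
    ∃ T ∈ M, ∀ z, (T : V ≃ₗ[F] V) z = z + ∑ i ∈ S,
      ((ρ i * BQ (y i) z) • c i - (ρ i * BQ (c i) z + ρ i * ρ i * κ * BQ (y i) z) • y i) := by
  classical
  induction S using Finset.induction_on with
  | empty => exact ⟨1, one_mem _, fun z => by simp⟩
  | insert a S ha ih =>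
    obtain ⟨T, hT, hTz⟩ := ih
    have hρc : BQ (y a) (ρ a • c a) = 0 := by rw [QuadraticMap.polar_smul_right, hyc, smul_zero]
    obtain ⟨_, _, hm⟩ := hE a (y a) (hy a) (ρ a • c a) ((D a).smul_mem _ (hc a)) (hQy a) hρc
    refine ⟨eichler Q (y a) (ρ a • c a) (hQy a) hρc * T, mul_mem hm hT, fun z => ?_⟩
    have hfix : ∀ u ∈ D a, BQ u (∑ i ∈ S,
        ((ρ i * BQ (y i) z) • c i - (ρ i * BQ (c i) z + ρ i * ρ i * κ * BQ (y i) z) • y i)) = 0 := fun u hu => by
      rw [← QuadraticMap.polarBilin_apply_apply, map_sum]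
      exact Finset.sum_eq_zero fun i hi => h.orth a i (fun e => ha (e ▸ hi)) u hu _
        (sub_mem ((D i).smul_mem _ (hc i)) ((D i).smul_mem _ (hy i)))
    rw [orth_mul_apply, hTz, map_add, Finset.sum_insert ha,
      eichler_fixes (hQy a) hρc (hfix _ (hy a)) (hfix _ ((D a).smul_mem _ (hc a))),
      eichler_apply, eichlerMap_apply, QuadraticMap.polar_smul_left, QuadraticMap.map_smul, hκ]
    simp only [smul_eq_mul]
    module

/-- **A seed exists.** -/
theorem exists_seed (h2 : (2 : F) ≠ 0) (hE : BlockE Q M D) (hk : 3 ≤ k) (hq : 5 ≤ Nat.card F ∨ 5 ≤ k)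
    {x w : V} (hx : ∀ i, x ∉ D i) (hQx : Q x = 0) (hQw : Q w ≠ 0) (hw : ∀ σ : F, EIn Q M x (σ • w)) :
    Seed Q M D := by
  classical
  have : Fintype F := Fintype.ofFinite F
  by_contra hno
  -- no component has a singular perpendicular vector off its line
  have notgood : ∀ i, ∀ y ∈ D i, Q y = 0 → BQ y (h.comp i x) = 0 → y ≠ 0 → h.comp i x ∈ sp {y} := by
    intro i y hy hQy hyx hy0
    by_contra hu
    obtain ⟨c, hc, hyc, hcx, hne⟩ := exists_good_c h h2 hk hq (w := w) hy hu
    exact hno (seed_good h hE h2 (hx i) hw hy hy0 hQy hc hyc (by rwa [h.polar_comp hy] at hyx) hcx (fun _ => hQw) hne)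
  have hw1 : EIn Q M x w := by simpa using hw 1
  -- singular components carry the second vector inside their line
  have fixed : ∀ j, Q (h.comp j x) = 0 → Q (h.comp j w) = 0 := by
    intro j hQj
    by_contra hQwj
    have hwj0 : h.comp j w ≠ 0 := fun e => hQwj (by rw [e, map_zero])
    rcases eq_or_ne (h.comp j x) 0 with hx0 | hx0
    · obtain ⟨y, hy, hQy, hyw⟩ := h.sing_pair hk (h.comp_mem j w) hwj0
      obtain ⟨c, hc, hyc, hQc⟩ := h.exists_nonsing_perp hk (i := j) y
      have hy0 : y ≠ 0 := fun e => by simp [e, QuadraticMap.polar] at hyw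
      exact hno (seed_fix h hE h2 (hx j) hw1 hy hy0 hQy hc hyc (by rw [← h.polar_comp hy, hx0]; simp [QuadraticMap.polar])
        (by rw [← h.polar_comp hc, hx0]; simp [QuadraticMap.polar]) (Or.inl ⟨by rwa [← h.polar_comp hy], hQc⟩))
    · set y := h.comp j x
      have hy : y ∈ D j := h.comp_mem j x
      have hyx : BQ y x = 0 := by rw [← h.polar_comp hy, polar_self_two_mul, hQj, mul_zero]
      by_cases hβ : BQ y w = 0
      · have hnsp : h.comp j w ∉ sp {y} := fun hm => hQwj (by
          obtain ⟨e, he⟩ := Submodule.mem_span_singleton.mp hm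
          rw [← he, QuadraticMap.map_smul, hQj, smul_zero])
        obtain ⟨c, hc, hyc, hwc⟩ := (h.split j).pairing (S := sp {y}) ((Submodule.span_singleton_le_iff_mem _ _).mpr hy)
          (h.comp_mem j w) hnsp
        have hyc' := hyc y (Submodule.mem_span_singleton_self y)
        exact hno (seed_fix h hE h2 (hx j) hw1 hy hx0 hQj hc hyc' hyx
          (by rw [← h.polar_comp hc, QuadraticMap.polar_comm]; exact hyc') (Or.inr ⟨hβ, by
            rw [← h.polar_comp hc, QuadraticMap.polar_comm, hwc]; exact one_ne_zero⟩))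
      · obtain ⟨c, hc, hyc, hQc⟩ := h.exists_nonsing_perp hk (i := j) y
        exact hno (seed_fix h hE h2 (hx j) hw1 hy hx0 hQj hc hyc hyx
          (by rw [← h.polar_comp hc, QuadraticMap.polar_comm]; exact hyc) (Or.inl ⟨hβ, hQc⟩))
  set S0 := Finset.univ.filter fun i => Q (h.comp i x) ≠ 0
  have hS0 : S0.Nonempty := by
    by_contra he
    rw [Finset.not_nonempty_iff_eq_empty, Finset.filter_eq_empty_iff] at he
    refine hQw ?_
    rw [← h.sum_comp w, h.map_sum _ fun i => h.comp_mem i w]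
    exact Finset.sum_eq_zero fun i _ => fixed i (by simpa using he (Finset.mem_univ i))
  have hell : ∀ i ∈ S0, ∀ z ∈ D i, Q z = 0 → BQ z (h.comp i x) = 0 → z = 0 := by
    intro i hi z hz hQz hzx
    by_contra hz0
    obtain ⟨e, he⟩ := Submodule.mem_span_singleton.mp (notgood i z hz hQz hzx hz0)
    exact (Finset.mem_filter.mp hi).2 (by rw [← he, QuadraticMap.map_smul, hQz, smul_zero])
  have hk3 : k = 3 := by
    obtain ⟨i, hi⟩ := hS0
    by_contra hne
    have e1 := (h.split i).finrank_inf (sp {h.comp i x})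
    have e3 : finrank F (sp {h.comp i x}) ≤ 1 := (finrank_span_le_card {h.comp i x}).trans (by simp)
    rw [h.dim] at e1
    obtain ⟨z, ⟨hzp, hz⟩, hz0, hQz⟩ := exists_singular_mem (Q := Q)
      (W := perp (QuadraticMap.polarBilin Q) (sp {h.comp i x}) ⊓ D i) (by omega)
    exact hz0 (hell i hi z hz hQz (by rw [QuadraticMap.polar_comm]; exact mem_perp_span_singleton.mp hzp))
  have hq5 : 5 ≤ Nat.card F := hq.resolve_right (by omega)
  obtain ⟨κ, hκ0, htr⟩ := exists_triples h h2 hk3 hS0.choose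
  choose y0 hy0 f0 hf0 c0 hc0 hQy0 hQf0 hyf0 hyc0 hfc0 hQc0 using htr
  have hclass : ∀ i ∈ S0, ¬ IsSquare (Q (h.comp i x) / κ) := fun i hi => by
    rw [← hQc0 i]
    exact ell_class h h2 hk3 (h.comp_mem i x) (hy0 i) (hf0 i) (hc0 i) (hQy0 i) (hQf0 i) (hyf0 i) (hyc0 i) (hfc0 i)
      (hQc0 i ▸ hκ0) (Finset.mem_filter.mp hi).2 (hell i hi)
  have hy : ∀ i, ∃ y ∈ D i, Q y = 0 ∧ BQ y (c0 i) = 0 ∧ (i ∈ S0 → BQ y x ≠ 0) := by
    intro i
    by_cases hyx : BQ (y0 i) x = 0
    · refine ⟨f0 i, hf0 i, hQf0 i, hfc0 i, fun hi hfx => ?_⟩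
      have := hell i hi (y0 i) (hy0 i) (hQy0 i) (by rw [h.polar_comp (hy0 i)]; exact hyx)
      have h1 := hyf0 i
      rw [this] at h1
      simp [QuadraticMap.polar] at h1
    · exact ⟨y0 i, hy0 i, hQy0 i, hyc0 i, fun _ => hyx⟩
  choose y hyD hQy hyc hyx using hy
  -- weights on two or three blocks with vanishing sum of squares
  obtain ⟨S, e, hSS, hS2, he0, hesum⟩ : ∃ (S : Finset (Fin t)) (e : Fin t → F), S ⊆ S0 ∧ 2 ≤ S.card ∧
      (∀ i ∈ S, e i ≠ 0) ∧ ∑ i ∈ S, e i * e i = 0 := by
    have hQsum : ∑ i ∈ S0, Q (h.comp i x) = 0 := by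
      rw [Finset.sum_filter_ne_zero, ← h.map_sum _ fun i => h.comp_mem i x, h.sum_comp, hQx]
    obtain ⟨i, hi⟩ := hS0
    obtain ⟨l, hl, hli⟩ : ∃ l ∈ S0, l ≠ i := by
      by_contra hone
      push Not at hone
      rw [Finset.sum_eq_single i (fun l hl hne => absurd (hone l hl) hne) (fun h' => absurd hi h')] at hQsum
      exact (Finset.mem_filter.mp hi).2 hQsum
    by_cases hsq : ∃ ι : F, ι * ι = -1
    · obtain ⟨ι, hι⟩ := hsq
      refine ⟨{i, l}, fun j => if j = i then 1 else ι, by simp [Finset.insert_subset_iff, hi, hl],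
        by rw [Finset.card_pair (Ne.symm hli)], fun j _ => ?_, ?_⟩
      · dsimp only; split
        · exact one_ne_zero
        · intro e0; rw [e0, mul_zero] at hι; exact neg_ne_zero.mpr one_ne_zero hι.symm
      · rw [Finset.sum_pair (Ne.symm hli)]; simp [hli, hι]
    · push Not at hsq
      obtain ⟨m, hm, hmi, hml⟩ : ∃ m ∈ S0, m ≠ i ∧ m ≠ l := by
        by_contra htwo
        push Not at htwo
        have hsub : S0 = {i, l} := by
          refine Finset.Subset.antisymm (fun m hm => ?_) (by simp [Finset.insert_subset_iff, hi, hl])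
          simp only [Finset.mem_insert, Finset.mem_singleton]
          by_cases hmi : m = i
          · exact Or.inl hmi
          · exact Or.inr (htwo m hm hmi)
        rw [hsub, Finset.sum_pair (Ne.symm hli)] at hQsum
        have hl0 : Q (h.comp l x) / κ ≠ 0 := div_ne_zero (Finset.mem_filter.mp hl).2 hκ0
        obtain ⟨r, hr⟩ := (isSquare_div_nonsquare h2 (hclass i hi) hl0).mpr (hclass l hl)
        refine hsq r ?_
        rw [← hr, div_div_div_cancel_right₀ hκ0, eq_neg_of_add_eq_zero_left hQsum, neg_div,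
          div_self (Finset.mem_filter.mp hl).2]
      obtain ⟨X, Y, hXY⟩ := Forms.exists_sq_add_sq_eq (one_ne_zero (α := F)) (one_ne_zero (α := F)) (-1 : F)
      refine ⟨{i, l, m}, fun j => if j = i then 1 else if j = l then X else Y, by simp [Finset.insert_subset_iff, hi, hl, hm],
        ?_, fun j _ => ?_, ?_⟩
      · rw [Finset.card_insert_of_notMem (by simp [Ne.symm hli, Ne.symm hmi]), Finset.card_pair (Ne.symm hml)]
        norm_num
      · dsimp only; split_ifs
        · exact one_ne_zero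
        · intro e0; exact hsq Y (by rw [e0] at hXY; linear_combination hXY)
        · intro e0; exact hsq X (by rw [e0] at hXY; linear_combination hXY)
      · rw [Finset.sum_insert (by simp [Ne.symm hli, Ne.symm hmi]), Finset.sum_pair (Ne.symm hml)]
        simp only [if_true, hli, hmi, hml, if_false]
        linear_combination hXY
  -- normalise and choose the scale
  set ρ1 : Fin t → F := fun i => e i / BQ (y i) x
  set Sg0 := κ * ∑ i ∈ S, ρ1 i * ρ1 i * (BQ (y i) w * BQ (y i) w)
  obtain ⟨lam, hlam, hτ⟩ : ∃ lam : F, lam ≠ 0 ∧ 2 * Q w ≠ lam * lam * Sg0 := by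
    by_cases h1 : 2 * Q w = 1 * 1 * Sg0
    · obtain ⟨r, r0, r1, r2⟩ := exists_ne_three (F := F) (by omega) 0 1 (-1)
      refine ⟨r, r0, fun hr => ?_⟩
      have hSg : Sg0 ≠ 0 := fun e0 => mul_ne_zero h2 hQw (by rw [h1, e0, mul_zero])
      rcases mul_self_eq_one_iff.mp (mul_right_cancel₀ hSg (show r * r * Sg0 = 1 * Sg0 by rw [← hr, h1, one_mul])) with e' | e'
      · exact r1 e'
      · exact r2 e'
    · exact ⟨1, one_ne_zero, h1⟩
  have main : ∀ ρ : Fin t → F, (∀ i ∈ S, ρ i * ρ i = lam * lam * (ρ1 i * ρ1 i)) →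
      ∀ T ∈ M, (∀ z, (T : V ≃ₗ[F] V) z = z + ∑ i ∈ S,
        ((ρ i * BQ (y i) z) • c0 i - (ρ i * BQ (c0 i) z + ρ i * ρ i * κ * BQ (y i) z) • y i)) →
      (BQ w ((T : V ≃ₗ[F] V) x) = 0 → BQ x ((T : V ≃ₗ[F] V) w) = 0) → False := by
    intro ρ hρ T hTm hT hcases
    have hρ0 : ∀ i ∈ S, ρ i ≠ 0 := fun i hi e0 => by
      have h' := hρ i hi
      rw [e0, mul_zero, eq_comm] at h'
      exact mul_ne_zero (mul_self_ne_zero.mpr hlam)
        (mul_self_ne_zero.mpr (div_ne_zero (he0 i hi) (hyx i (hSS hi)))) h'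
    set P : V → Fin t → V := fun z i =>
      (ρ i * BQ (y i) z) • c0 i - (ρ i * BQ (c0 i) z + ρ i * ρ i * κ * BQ (y i) z) • y i
    set δ := ∑ i ∈ S, P x i
    have hPD : ∀ z i, P z i ∈ D i := fun z i => sub_mem ((D i).smul_mem _ (hc0 i)) ((D i).smul_mem _ (hyD i))
    have hTx : (T : V ≃ₗ[F] V) x = x + δ := hT x
    have hsq : ∑ i ∈ S, ρ i * ρ i * (BQ (y i) x * BQ (y i) x) = 0 := by
      calc _ = ∑ i ∈ S, lam * lam * (e i * e i) := Finset.sum_congr rfl fun i hi => by
            rw [hρ i hi]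
            have hne := hyx i (hSS hi)
            simp only [ρ1]
            field_simp
        _ = _ := by rw [← Finset.mul_sum, hesum, mul_zero]
    have hQP : ∀ i, Q (P x i) = ρ i * ρ i * (BQ (y i) x * BQ (y i) x) * κ := fun i => by
      simp only [P, sub_eq_add_neg, ← neg_smul]
      rw [QuadraticMap.map_add Q, QuadraticMap.map_smul, QuadraticMap.map_smul, hQy, QuadraticMap.polar_smul_left,
        QuadraticMap.polar_smul_right, QuadraticMap.polar_comm _ (c0 i) (y i), hyc, hQc0]
      simp only [smul_eq_mul]; ring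
    have hQδ : Q δ = 0 := by
      rw [h.map_sum _ (hPD x), Finset.sum_congr rfl fun i _ => hQP i, ← Finset.sum_mul, hsq, zero_mul]
    have hxδ : BQ x δ = 0 := by
      have hQT : Q (x + δ) = 0 := by rw [← hTx, T.2.2]; exact hQx
      rwa [QuadraticMap.map_add Q, hQx, hQδ, zero_add, zero_add] at hQT
    have hcomp : ∀ i ∈ S, h.comp i δ = P x i := fun i hi => by
      rw [map_sum, Finset.sum_eq_single i (fun l _ hl => h.comp_other (Ne.symm hl) (hPD x l)) (fun h' => absurd hi h'),
        h.comp_self (hPD x i)]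
    have hδD : ∀ j, δ ∉ D j := fun j hj => by
      obtain ⟨l, hl, hlj⟩ : ∃ l ∈ S, l ≠ j := Finset.exists_mem_ne (by omega) j
      have h1 := hcomp l hl
      rw [h.comp_other hlj hj] at h1
      have h2' := hQP l
      rw [← h1, map_zero, eq_comm] at h2'
      exact mul_ne_zero (mul_ne_zero (mul_self_ne_zero.mpr (hρ0 l hl))
        (mul_self_ne_zero.mpr (hyx l (hSS hl)))) hκ0 h2'
    obtain ⟨i, hi⟩ := Finset.card_pos.mp (by omega : 0 < S.card)
    have hyδ : BQ (y i) δ = 0 := by
      rw [← h.polar_comp (hyD i), hcomp i hi]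
      simp [P, QuadraticMap.polar_sub_right, QuadraticMap.polar_smul_right, hyc, polar_self_two_mul, hQy]
    have hcδ : BQ (c0 i) δ = ρ i * BQ (y i) x * (2 * κ) := by
      rw [← h.polar_comp (hc0 i), hcomp i hi]
      simp [P, QuadraticMap.polar_sub_right, QuadraticMap.polar_smul_right, polar_self_two_mul, hQc0,
        QuadraticMap.polar_comm _ (c0 i) (y i), hyc]
    have hcδ0 : BQ (c0 i) δ ≠ 0 := by
      rw [hcδ]; exact mul_ne_zero (mul_ne_zero (hρ0 i hi) (hyx i (hSS hi))) (mul_ne_zero h2 hκ0)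
    have hy0i : y i ≠ 0 := fun e0 => hyx i (hSS hi) (by rw [e0]; simp [QuadraticMap.polar])
    by_cases hμ : BQ w ((T : V ≃ₗ[F] V) x) = 0
    · have hν := hcases hμ
      have hT2 : BQ w ((T : V ≃ₗ[F] V) w) = 2 * Q w - lam * lam * Sg0 := by
        simp only [Sg0]
        rw [hT, QuadraticMap.polar_add_right, polar_self_two_mul, ← QuadraticMap.polarBilin_apply_apply, map_sum,
          Finset.mul_sum, Finset.mul_sum, sub_eq_add_neg, ← Finset.sum_neg_distrib]
        refine congrArg _ (Finset.sum_congr rfl fun l hl => ?_)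
        simp only [QuadraticMap.polarBilin_apply_apply, P, QuadraticMap.polar_sub_right, QuadraticMap.polar_smul_right,
          QuadraticMap.polar_comm _ w (c0 l), QuadraticMap.polar_comm _ w (y l), smul_eq_mul]
        linear_combination (-κ * (BQ (y l) w * BQ (y l) w)) * hρ l hl
      obtain ⟨_, hxw, hm1⟩ := hw1
      have h1 := eIn_conj hTm ⟨hQx, hxw, hm1⟩
      have h3 := eIn_conj hm1 h1
      have e1 : ((eichler Q x w hQx hxw : orthGroup Q) : V ≃ₗ[F] V) ((T : V ≃ₗ[F] V) x) = (T : V ≃ₗ[F] V) x :=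
        eichler_fixes hQx hxw (by rw [hTx, QuadraticMap.polar_add_right, hxδ, polar_self_two_mul, hQx]; simp) hμ
      set τ := 2 * Q w - lam * lam * Sg0
      have e2 : ((eichler Q x w hQx hxw : orthGroup Q) : V ≃ₗ[F] V) ((T : V ≃ₗ[F] V) w) =
          (T : V ≃ₗ[F] V) w - τ • x := by
        rw [eichler_apply, eichlerMap_apply, hν, hT2]; simp
      rw [e1, e2] at h3
      have h4 := eIn_add h3 (eIn_neg h1)
      rw [show (T : V ≃ₗ[F] V) w - τ • x + -(T : V ≃ₗ[F] V) w = -(τ • x) by abel, hTx] at h4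
      have hτ0 : τ ≠ 0 := sub_ne_zero.mpr hτ
      -- every multiple
      have hall : ∀ σ : F, EIn Q M δ ((σ * τ) • x) := fun σ => by
        have hσ := hw σ
        have g1 := eIn_conj hTm hσ
        obtain ⟨_, hσw, hmσ⟩ := hσ
        have g3 := eIn_conj hm1 g1
        rw [map_smul, map_smul, e1, e2] at g3
        rw [map_smul] at g1
        have g4 := eIn_add g3 (eIn_neg g1)
        rw [show σ • ((T : V ≃ₗ[F] V) w - τ • x) + -(σ • (T : V ≃ₗ[F] V) w) = (-(σ * τ)) • x by module, hTx] at g4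
        have g5 := eIn_swap g4 (by rw [QuadraticMap.map_smul, hQx, smul_zero])
        have g6 := (eIn_smul (-(σ * τ)) hQx (by
          rw [QuadraticMap.polar_neg_right, QuadraticMap.polar_add_right, polar_self_two_mul, hQx, hxδ]; simp)).mp g5
        have g7 := eIn_add g6 (eIn_self hQx (-(σ * τ)))
        rw [show -(σ * τ) • -(x + δ) + -(σ * τ) • x = (σ * τ) • δ by module] at g7
        have g8 := eIn_swap g7 (by rw [QuadraticMap.map_smul, hQδ, smul_zero])
        have g9 := (eIn_smul (σ * τ) hQδ (by rw [QuadraticMap.polar_neg_right, QuadraticMap.polar_comm, hxδ, neg_zero])).mp g8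
        have := eIn_neg g9
        rw [show -((σ * τ) • -x) = (σ * τ) • x by module] at this
        exact this
      have hall' : ∀ σ : F, EIn Q M δ (σ • x) := fun σ => by
        simpa [mul_assoc, inv_mul_cancel₀ hτ0] using hall (σ * τ⁻¹)
      refine hno (seed_good h hE h2 (hδD i) hall' (hyD i) hy0i (hQy i) (hc0 i) (hyc i) hyδ hcδ0
        (fun h0 => absurd h0 (hyx i (hSS hi))) fun hne => ?_)
      rw [hQx, hQc0]
      exact (mul_ne_zero hκ0 (mul_ne_zero hne hne)).symm
    · set μ := BQ w ((T : V ≃ₗ[F] V) x)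
      obtain ⟨_, hxs, hms⟩ := hw μ⁻¹
      have e1 : ((eichler Q x (μ⁻¹ • w) hQx hxs : orthGroup Q) : V ≃ₗ[F] V) ((T : V ≃ₗ[F] V) x) = δ := by
        rw [eichler_apply, eichlerMap_apply,
          show BQ x ((T : V ≃ₗ[F] V) x) = 0 by rw [hTx, QuadraticMap.polar_add_right, hxδ, polar_self_two_mul, hQx]; simp,
          QuadraticMap.polar_smul_left, show BQ w ((T : V ≃ₗ[F] V) x) = μ from rfl, smul_eq_mul, inv_mul_cancel₀ hμ, hTx]
        simp
      set Z := ((eichler Q x (μ⁻¹ • w) hQx hxs : orthGroup Q) : V ≃ₗ[F] V) ((T : V ≃ₗ[F] V) w)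
      have hall : ∀ σ : F, EIn Q M δ (σ • Z) := fun σ => by
        have g1 := eIn_conj hms (eIn_conj hTm (hw σ))
        rwa [e1, map_smul, map_smul] at g1
      have hQZ : Q Z = Q w := by
        simp only [Z]; rw [(eichler Q x (μ⁻¹ • w) hQx hxs).2.2, T.2.2]
      obtain ⟨c, hc, hyc', hcδ', hne⟩ := exists_good_c h h2 hk hq (x := δ) (w := Z) (hyD i) (fun hm => hcδ0 (by
        rw [hcomp i hi] at hm
        obtain ⟨r, hr⟩ := Submodule.mem_span_singleton.mp hm
        rw [← h.polar_comp (hc0 i), hcomp i hi, ← hr, QuadraticMap.polar_smul_right, QuadraticMap.polar_comm, hyc, smul_zero]))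
      exact hno (seed_good h hE h2 (hδD i) hall (hyD i) hy0i (hQy i) hc hyc' hyδ hcδ'
        (fun _ => by rw [hQZ]; exact hQw) hne)
  obtain ⟨T, hT, hTz⟩ := exists_multi h hE hyD hc0 hQy hyc hQc0 (fun i => lam * ρ1 i) S
  obtain ⟨T', hT', hTz'⟩ := exists_multi h hE hyD hc0 hQy hyc hQc0 (fun i => -(lam * ρ1 i)) S
  by_cases hμ' : BQ w ((T' : V ≃ₗ[F] V) x) = 0
  · refine main _ (fun i _ => by ring) T hT hTz fun _ => ?_
    -- the two transformations are inverse to each other
    have hinv : (T : V ≃ₗ[F] V) ((T' : V ≃ₗ[F] V) x) = x := by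
      rw [hTz', hTz, add_assoc, add_eq_left, ← Finset.sum_add_distrib]
      refine Finset.sum_eq_zero fun i hi => ?_
      have hs : ∀ u ∈ D i, BQ u (x + ∑ l ∈ S, ((-(lam * ρ1 l) * BQ (y l) x) • c0 l -
          (-(lam * ρ1 l) * BQ (c0 l) x + -(lam * ρ1 l) * -(lam * ρ1 l) * κ * BQ (y l) x) • y l)) =
          BQ u x + BQ u ((-(lam * ρ1 i) * BQ (y i) x) • c0 i -
          (-(lam * ρ1 i) * BQ (c0 i) x + -(lam * ρ1 i) * -(lam * ρ1 i) * κ * BQ (y i) x) • y i) := fun u hu => by
        rw [QuadraticMap.polar_add_right]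
        refine congrArg (BQ u x + ·) ((map_sum (QuadraticMap.polarBilin Q u) _ S).trans (Finset.sum_eq_single i ?_ ?_))
        · intro l _ hl
          exact h.orth i l (Ne.symm hl) u hu _ (sub_mem ((D l).smul_mem _ (hc0 l)) ((D l).smul_mem _ (hyD l)))
        · exact fun h' => absurd hi h'
      rw [hs _ (hyD i), hs _ (hc0 i)]
      simp only [QuadraticMap.polar_sub_right, QuadraticMap.polar_smul_right, hyc, polar_self_two_mul, hQy, hQc0,
        QuadraticMap.polar_comm _ (c0 i) (y i), smul_eq_mul, mul_zero, sub_zero, add_zero]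
      module
    have := orth_polar Q T ((T' : V ≃ₗ[F] V) x) w
    rw [hinv] at this
    rw [this, QuadraticMap.polar_comm]; exact hμ'
  · exact main _ (fun i _ => by ring) T' hT' hTz' fun e0 => absurd e0 hμ'

end Cfsg.Agent.GeomClasses
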