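import Cfsg.Agent.GeomClasses.TensorTwo
import Cfsg.Agent.GeomClasses.OrthTools

/-! # Tensor decompositions Sp₂ ⊗ Sp in characteristic two, over two elements -/

set_option autoImplicit false

namespace Cfsg.Agent.GeomClasses

open Matrix
open scoped Kronecker

variable {F : Type*} [Field F] {ι : Type} [Fintype ι] [DecidableEq ι] {k : ℕ}

/-- A vector of `F² ⊗ W` by its two components. -/
def pairVec (x y : Fin k → F) : Fin 2 × Fin k → F := fun a => if a.1 = 0 then x a.2 else y a.2

theorem kron_one_pairVec (M : Matrix (Fin 2) (Fin 2) F) (x y : Fin k → F) :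
    (M ⊗ₖ (1 : Matrix (Fin k) (Fin k) F)) *ᵥ pairVec x y =
      pairVec (M 0 0 • x + M 0 1 • y) (M 1 0 • x + M 1 1 • y) := by
  ext ⟨i, j⟩
  simp only [Matrix.mulVec, dotProduct, Matrix.kroneckerMap_apply, Fintype.sum_prod_type, Fin.sum_univ_two,
    Matrix.one_apply, mul_ite, mul_one, mul_zero, ite_mul, zero_mul, Finset.sum_ite_eq, Finset.mem_univ, if_true,
    pairVec]
  fin_cases i <;> simp

theorem exists_hyperbolic_pair {f : (Fin k → F) → (Fin k → F) → F} (hf : Cfsg.Geo.IsSymplecticForm f) (hk : 3 ≤ k) :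
    ∃ p q r s, f p q = 1 ∧ f r s = 1 ∧ f p r = 0 ∧ f q r = 0 ∧ f p s = 0 ∧ f q s = 0 := by
  have zr : ∀ v, f v 0 = 0 := fun v => by simpa using hf.bilinear.smul_right 0 v 0
  have pick : ∀ v, v ≠ 0 → ∃ w, f v w = 1 := by
    intro v hv
    obtain ⟨-, x, hx⟩ := hf.nondegenerate v hv
    exact ⟨(f v x)⁻¹ • x, by rw [hf.bilinear.smul_right, inv_mul_cancel₀ hx]⟩
  obtain ⟨p, q, hpq⟩ : ∃ p q, f p q = 1 := by
    haveI : Nonempty (Fin k) := ⟨⟨0, by omega⟩⟩
    obtain ⟨p, hp⟩ := exists_ne (0 : Fin k → F)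
    exact ⟨p, pick p hp⟩
  let L : (Fin k → F) →ₗ[F] F × F :=
    { toFun := fun v => (f p v, f q v)
      map_add' := fun a b => by simp [hf.bilinear.add_right]
      map_smul' := fun c a => by simp [hf.bilinear.smul_right] }
  obtain ⟨r, hr, hr0⟩ : ∃ r ∈ LinearMap.ker L, r ≠ 0 := by
    refine (Submodule.ne_bot_iff _).mp fun h => ?_
    have := L.finrank_range_add_finrank_ker
    have h2 := Submodule.finrank_le (LinearMap.range L)
    rw [h, finrank_bot, Module.finrank_pi, Fintype.card_fin] at this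
    rw [Module.finrank_prod, Module.finrank_self] at h2
    omega
  rw [LinearMap.mem_ker, Prod.ext_iff] at hr
  have hpr : f p r = 0 := hr.1
  have hqr : f q r = 0 := hr.2
  obtain ⟨y, hy⟩ := pick r hr0
  have hqp : f q p = -1 := by rw [hf.skew, hpq]
  refine ⟨p, q, r, y + (-f p y) • q + f q y • p, hpq, ?_, hpr, hqr, ?_, ?_⟩
  · rw [hf.bilinear.add_right, hf.bilinear.add_right, hf.bilinear.smul_right, hf.bilinear.smul_right, hy, hf.skew r q,
      hqr, hf.skew r p, hpr]
    ring
  · rw [hf.bilinear.add_right, hf.bilinear.add_right, hf.bilinear.smul_right, hf.bilinear.smul_right, hpq, hf.alternating]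
    ring
  · rw [hf.bilinear.add_right, hf.bilinear.add_right, hf.bilinear.smul_right, hf.bilinear.smul_right, hqp, hf.alternating]
    ring

variable [Fintype F]

theorem exists_between_tensor_two_orth (hq : Fintype.card F = 2) (Q : QuadraticForm F (ι → F))
    (e : ι ≃ Fin 2 × Fin k) (hk : 3 ≤ k) (P : GL ι F)
    {f₁ : (Fin 2 → F) → (Fin 2 → F) → F} {f₂ : (Fin k → F) → (Fin k → F) → F}
    (hf₁ : Cfsg.Geo.IsSymplecticForm f₁) (hf₂ : Cfsg.Geo.IsSymplecticForm f₂)
    (hT : Cfsg.Geo.IsTensorFormStructure id (QuadraticMap.polar ⇑Q) f₁ f₂ e P)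
    (hpure : ∀ (x₁ : Fin 2 → F) (x₂ : Fin k → F),
      Q ((P : Matrix ι ι F) *ᵥ ((fun a : Fin 2 × Fin k => x₁ a.1 * x₂ a.2) ∘ e)) = 0) :
    ∃ K : Subgroup (GL ι F), Cfsg.Geo.tensorProductSubgroup 2 k e P ⊓ Cfsg.Geo.omegaGL ⇑Q < K ∧
      K < Cfsg.Geo.omegaGL ⇑Q := by
  classical
  have h2 := two_eq_zero' (F := F) hq
  have hneg : ∀ a : F, -a = a := fun a => by linear_combination (-a) * h2
  let φ : GL (Fin 2 × Fin k) F ≃* GL ι F := (Cfsg.Geo.glReindex e.symm).trans (MulAut.conj P)
  let Φ : (Fin 2 × Fin k → F) →ₗ[F] (ι → F) := (Matrix.mulVecLin (P : Matrix ι ι F)).comp (LinearMap.funLeft F F e)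
  have hΦinj : Function.Injective Φ := by
    intro a b h
    have h' := congrArg ((P⁻¹ : GL ι F) : Matrix ι ι F).mulVec h
    simp only [Φ, LinearMap.comp_apply, Matrix.mulVecLin_apply, Matrix.mulVec_mulVec, ← Units.val_mul,
      inv_mul_cancel, Units.val_one, Matrix.one_mulVec] at h'
    ext x
    simpa [LinearMap.funLeft_apply] using congrFun h' (e.symm x)
  have hφ : ∀ (g : GL (Fin 2 × Fin k) F) z, (φ g : Matrix ι ι F) *ᵥ Φ z = Φ ((g : Matrix _ _ F) *ᵥ z) := by
    intro g z
    show ((P * Cfsg.Geo.glReindex e.symm g * P⁻¹ : GL ι F) : Matrix ι ι F) *ᵥ ((P : Matrix ι ι F) *ᵥ (z ∘ e)) =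
      (P : Matrix ι ι F) *ᵥ (((g : Matrix _ _ F) *ᵥ z) ∘ e)
    rw [Units.val_mul, Units.val_mul, Matrix.mulVec_mulVec, mul_assoc, ← Units.val_mul P⁻¹ P, inv_mul_cancel, Units.val_one,
      mul_one, ← Matrix.mulVec_mulVec]
    congr 1
    show ((g : Matrix _ _ F).submatrix e e) *ᵥ (z ∘ e) = _
    rw [Matrix.submatrix_mulVec_equiv]
    simp [Function.comp_assoc]
  -- the form on components
  obtain ⟨c, hc, hform⟩ := hT
  have hB : ∀ x y x' y', QuadraticMap.polar Q (Φ (pairVec x y)) (Φ (pairVec x' y')) = f₂ x y' + f₂ y x' := by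
    intro x y x' y'
    show QuadraticMap.polar Q ((P : Matrix ι ι F) *ᵥ (pairVec x y ∘ e)) ((P : Matrix ι ι F) *ᵥ (pairVec x' y' ∘ e)) = _
    rw [hform]
    have hg : ∀ u v : Fin k → F, ∑ a, ∑ b, u a * Cfsg.Geo.gramMatrix f₂ a b * v b = f₂ u v := by
      intro u v
      let B : (Fin k → F) →ₗ[F] (Fin k → F) →ₗ[F] F := LinearMap.mk₂ F f₂ hf₂.bilinear.add_left
        (fun c m n => by rw [hf₂.bilinear.smul_left, smul_eq_mul]) hf₂.bilinear.add_right
        (fun c m n => by rw [hf₂.bilinear.smul_right, smul_eq_mul])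
      have he : ∀ u : Fin k → F, u = ∑ a, u a • (Pi.single a (1 : F) : Fin k → F) := fun u => by
        ext j; simp [Pi.single_apply]
      show _ = B u v
      conv_rhs => rw [he u, he v]
      rw [LinearMap.map_sum₂]
      refine Finset.sum_congr rfl fun a _ => ?_
      rw [map_sum]
      refine Finset.sum_congr rfl fun b _ => ?_
      simp only [B, map_smul, LinearMap.smul_apply, smul_eq_mul, LinearMap.mk₂_apply, Cfsg.Geo.gramMatrix]
      ring
    have hne : f₁ (Pi.single 0 1) (Pi.single 1 1) ≠ 0 := by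
      intro h0
      obtain ⟨-, x, hx⟩ := hf₁.nondegenerate (Pi.single 0 1) (by simp)
      apply hx
      have hx' : x = x 0 • (Pi.single 0 (1 : F) : Fin 2 → F) + x 1 • (Pi.single 1 (1 : F) : Fin 2 → F) := by
        ext j; fin_cases j <;> simp
      rw [hx', hf₁.bilinear.add_right, hf₁.bilinear.smul_right, hf₁.bilinear.smul_right, hf₁.alternating, h0]
      ring
    have hc1 : c = 1 := (two_elems hq c).resolve_left hc
    have hf01 : f₁ (Pi.single 0 1) (Pi.single 1 1) = 1 := (two_elems hq _).resolve_left hne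
    have hf10 : f₁ (Pi.single 1 1) (Pi.single 0 1) = 1 := by rw [hf₁.skew, hf01, hneg]
    rw [hc1, one_mul, ← hg x y', ← hg y x']
    simp only [Cfsg.Geo.formOfGram, Fintype.sum_prod_type, Fin.sum_univ_two, Matrix.kroneckerMap_apply, pairVec, id_eq,
      if_true, Fin.isValue, one_ne_zero, if_false]
    simp only [Cfsg.Geo.gramMatrix, hf₁.alternating, hf01, hf10, zero_mul, mul_zero, one_mul, zero_add, add_zero,
      Finset.sum_add_distrib, Finset.sum_const_zero]
  have hQ : ∀ x y, Q (Φ (pairVec x y)) = f₂ x y := by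
    intro x y
    have h0 : ∀ x, Q (Φ (pairVec x 0)) = 0 := by
      intro x
      have := hpure (Pi.single 0 1) x
      show Q ((P : Matrix ι ι F) *ᵥ (pairVec x 0 ∘ e)) = 0
      rwa [show pairVec x 0 = fun a : Fin 2 × Fin k => (Pi.single 0 1 : Fin 2 → F) a.1 * x a.2 by
        ext ⟨i, j⟩; fin_cases i <;> simp [pairVec]]
    have h1 : ∀ y, Q (Φ (pairVec 0 y)) = 0 := by
      intro y
      have := hpure (Pi.single 1 1) y
      show Q ((P : Matrix ι ι F) *ᵥ (pairVec 0 y ∘ e)) = 0
      rwa [show pairVec 0 y = fun a : Fin 2 × Fin k => (Pi.single 1 1 : Fin 2 → F) a.1 * y a.2 by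
        ext ⟨i, j⟩; fin_cases i <;> simp [pairVec]]
    have hs : pairVec x y = pairVec x 0 + pairVec (k := k) (F := F) 0 y := by
      ext ⟨i, j⟩; fin_cases i <;> simp [pairVec]
    have hz : f₂ (0 : Fin k → F) 0 = 0 := hf₂.alternating 0
    rw [hs, map_add, QuadraticMap.map_add (⇑Q), h0, h1, hB, hz]
    ring
  obtain ⟨p, q, r, s, hpq, hrs, hpr, hqr, hps, hqs⟩ := exists_hyperbolic_pair hf₂ hk
  have za : ∀ v, f₂ v 0 = 0 := fun v => by simpa using hf₂.bilinear.smul_right 0 v 0
  have sk : ∀ a b, f₂ a b = f₂ b a := fun a b => by rw [hf₂.skew, hneg]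
  have al := hf₂.alternating
  have ar := hf₂.bilinear.add_right
  have ad := hf₂.bilinear.add_left
  have zb : ∀ v, f₂ 0 v = 0 := fun v => by rw [sk, za]
  -- the action of a product of two reflections
  have hh : ∀ a b : ι → F, Q a = 1 → Q b = 1 → QuadraticMap.polar Q a b = 1 → ∀ x,
      (reflComm Q a b : Matrix ι ι F) *ᵥ x =
        x + QuadraticMap.polar Q a x • (a + b) + QuadraticMap.polar Q b x • b := by
    intro a b ha hb hab x
    have hba : QuadraticMap.polar Q b a = 1 := by rw [QuadraticMap.polar_comm, hab]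
    have haa : QuadraticMap.polar Q a a = 0 := by rw [Cfsg.Agent.Forms.polar_self_two_mul, h2, zero_mul]
    have hbb : QuadraticMap.polar Q b b = 0 := by rw [Cfsg.Agent.Forms.polar_self_two_mul, h2, zero_mul]
    simp only [reflComm_mulVec, reflGL_mulVec, ha, hb, inv_one, one_mul, QuadraticMap.polar_sub_right,
      QuadraticMap.polar_smul_right, smul_eq_mul, hab, hba, haa, hbb]
    ext i
    simp only [Pi.sub_apply, Pi.add_apply, Pi.smul_apply, smul_eq_mul]
    linear_combination (-2 * QuadraticMap.polar Q b x * b i + 2 * QuadraticMap.polar Q b x * a i - 2 * QuadraticMap.polar Q a x * a i) * h2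
  set C := φ (triGL k hq) with hC
  have hCact : ∀ x y, (C : Matrix ι ι F) *ᵥ Φ (pairVec x y) = Φ (pairVec y (x + y)) := by
    intro x y
    rw [hC, hφ, triGL_val, kron_one_pairVec]
    simp [triMat]
  have hpair : ∀ z, ∃ x y, z = Φ (pairVec x y) := by
    intro z
    have hsurj : Function.Surjective Φ := fun w => ⟨fun b => (((P⁻¹ : GL ι F) : Matrix ι ι F) *ᵥ w) (e.symm b), by
      show (P : Matrix ι ι F) *ᵥ ((fun b => (((P⁻¹ : GL ι F) : Matrix ι ι F) *ᵥ w) (e.symm b)) ∘ e) = w
      rw [show ((fun b => (((P⁻¹ : GL ι F) : Matrix ι ι F) *ᵥ w) (e.symm b)) ∘ e) = ((P⁻¹ : GL ι F) : Matrix ι ι F) *ᵥ w by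
        ext; simp, Matrix.mulVec_mulVec, ← Units.val_mul, mul_inv_cancel, Units.val_one, Matrix.one_mulVec]⟩
    obtain ⟨w, rfl⟩ := hsurj z
    exact ⟨fun j => w (0, j), fun j => w (1, j), by congr 1; ext ⟨i, j⟩; fin_cases i <;> simp [pairVec]⟩
  refine ⟨Subgroup.normalizer (Subgroup.zpowers C : Set (GL ι F)) ⊓ Cfsg.Geo.omegaGL ⇑Q,
    lt_of_le_of_ne ?_ (fun heq => ?_), lt_of_le_of_ne inf_le_right (fun heq => ?_)⟩
  · refine inf_le_inf_right _ ?_
    rintro g hg
    have : g ∈ (Cfsg.Geo.kroneckerSubgroup 2 k F).map φ.toMonoidHom := by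
      rw [Cfsg.Geo.tensorProductSubgroup, Subgroup.map_map] at hg
      exact hg
    obtain ⟨g0, ⟨a, b, hab⟩, rfl⟩ := this
    have ha : (a : Matrix (Fin 2) (Fin 2) F).det ≠ 0 := (Matrix.isUnits_det_units a).ne_zero
    have hconj : φ g0 * C * (φ g0)⁻¹ ∈ Subgroup.zpowers C := by
      rcases gl_two_conj hq _ ha with h | h
      · have : g0 * triGL k hq = triGL k hq * g0 := by
          refine Units.ext ?_
          rw [Units.val_mul, Units.val_mul, hab, triGL_val, ← Matrix.mul_kronecker_mul, ← Matrix.mul_kronecker_mul, h, mul_one, one_mul]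
        rw [hC, ← map_mul, this, map_mul, mul_inv_cancel_right]
        exact Subgroup.mem_zpowers _
      · have : g0 * triGL k hq = triGL k hq * triGL k hq * g0 := by
          refine Units.ext ?_
          rw [Units.val_mul, Units.val_mul, Units.val_mul, hab, triGL_val, ← Matrix.mul_kronecker_mul,
            ← Matrix.mul_kronecker_mul, ← Matrix.mul_kronecker_mul, h, mul_one, one_mul, one_mul]
        rw [hC, ← map_mul, this, map_mul, map_mul, mul_inv_cancel_right]
        exact Subgroup.mul_mem _ (Subgroup.mem_zpowers _) (Subgroup.mem_zpowers _)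
    refine Subgroup.mem_normalizer_fintype fun x hx => ?_
    obtain ⟨n, rfl⟩ := Subgroup.mem_zpowers_iff.mp hx
    rw [← conj_zpow]
    exact Subgroup.zpow_mem _ hconj n
  · let a := Φ (pairVec p q)
    let b := Φ (pairVec q (p + q))
    have ha : Q a = 1 := by rw [hQ, hpq]
    have hb : Q b = 1 := by rw [hQ, ar, al, sk q p, hpq, add_zero]
    have hab : QuadraticMap.polar Q a b = 1 := by
      rw [hB, ar, al, al, hpq, zero_add, add_zero]
    have hmem : reflComm Q a b ∈ Subgroup.normalizer (Subgroup.zpowers C : Set (GL ι F)) ⊓ Cfsg.Geo.omegaGL ⇑Q := by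
      refine ⟨Subgroup.mem_normalizer_fintype fun x hx => ?_, reflComm_mem Q a b⟩
      have hcm : Commute (reflComm Q a b) C := by
        refine Units.ext (Matrix.ext_iff_mulVec.mpr fun z => ?_)
        obtain ⟨x, y, rfl⟩ := hpair z
        rw [Units.val_mul, Units.val_mul, ← Matrix.mulVec_mulVec, ← Matrix.mulVec_mulVec, hCact, hh a b ha hb hab,
          hh a b ha hb hab]
        simp only [a, b, hB, ← map_add, ← map_smul]
        have : ∀ (u v : Fin k → F) (c : F), c • pairVec u v = pairVec (c • u) (c • v) := fun u v c => by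
          ext ⟨i, j⟩; fin_cases i <;> simp [pairVec]
        have hadd : ∀ (u v u' v' : Fin k → F), pairVec u v + pairVec u' v' = pairVec (u + u') (v + v') := fun u v u' v' => by
          ext ⟨i, j⟩; fin_cases i <;> simp [pairVec]
        simp only [this, hadd, hCact]
        congr 1
        ext ⟨i, j⟩
        simp only [pairVec, Pi.add_apply, Pi.smul_apply, smul_eq_mul, ar, ad]
        have h3 : (3 : F) = 1 := by linear_combination h2
        have h4 : (4 : F) = 0 := by linear_combination (2 : F) * h2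
        have h5 : (5 : F) = 1 := by linear_combination (2 : F) * h2
        fin_cases i <;>
        · simp
          ring_nf
          simp [h2, h3, h4, h5]
      obtain ⟨n, rfl⟩ := Subgroup.mem_zpowers_iff.mp hx
      rw [(hcm.zpow_right n).eq, mul_inv_cancel_right]
      exact Subgroup.zpow_mem _ (Subgroup.mem_zpowers C) n
    rw [← heq] at hmem
    obtain ⟨g0, ⟨A, G, hAG⟩, hg0⟩ := (show reflComm Q a b ∈ (Cfsg.Geo.kroneckerSubgroup 2 k F).map φ.toMonoidHom by
      have := hmem.1
      rw [Cfsg.Geo.tensorProductSubgroup, Subgroup.map_map] at this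
      exact this)
    have himg : ∀ u : Fin k → F, (reflComm Q a b : Matrix ι ι F) *ᵥ Φ (pairVec u 0) =
        Φ (pairVec ((A : Matrix (Fin 2) (Fin 2) F) 0 0 • ((G : Matrix (Fin k) (Fin k) F) *ᵥ u))
          ((A : Matrix (Fin 2) (Fin 2) F) 1 0 • ((G : Matrix (Fin k) (Fin k) F) *ᵥ u))) := by
      intro u
      rw [← hg0]
      show (φ g0 : Matrix ι ι F) *ᵥ _ = _
      rw [hφ, hAG]
      congr 1
      ext ⟨i, j⟩
      simp only [Matrix.mulVec, dotProduct, Matrix.kroneckerMap_apply, Fintype.sum_prod_type, Fin.sum_univ_two, pairVec,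
        if_true, Fin.isValue, one_ne_zero, if_false, Pi.zero_apply, mul_zero, Finset.sum_const_zero, add_zero,
        Pi.smul_apply, smul_eq_mul, Finset.mul_sum]
      fin_cases i <;> simp [mul_assoc]
    have hr0 : r ≠ 0 := fun h => by rw [h, zb] at hrs; exact zero_ne_one hrs
    have hq0 : q ≠ 0 := fun h => by rw [h, za] at hpq; exact zero_ne_one hpq
    have h1 := himg r
    rw [hh a b ha hb hab] at h1
    simp only [a, b, hB, za, ad, sk r p, sk r q, hpr, hqr, add_zero, zero_add] at h1
    have h2' := himg p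
    rw [hh a b ha hb hab] at h2'
    simp only [a, b, hB, za, ad, al, sk q p, hpq, add_zero, zero_add] at h2'
    simp only [add_zero, zero_add, zero_smul, one_smul] at h1 h2'
    have e1 := congrFun (hΦinj h1)
    simp only [← map_add] at h2'
    have e2 := congrFun (hΦinj h2')
    rcases two_elems hq ((A : Matrix (Fin 2) (Fin 2) F) 0 0) with h | h
    · apply hr0
      ext j
      simpa [pairVec, h] using e1 (0, j)
    · rcases two_elems hq ((A : Matrix (Fin 2) (Fin 2) F) 1 0) with h' | h'
      · apply hq0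
        ext j
        have := e2 (1, j)
        simp [pairVec, h'] at this
        show q j = 0
        linear_combination this + (-(p j)) * h2 - (q j) * h2
      · apply hr0
        ext j
        have e1' := e1 (0, j); have e1'' := e1 (1, j)
        simp [pairVec, h, h'] at e1' e1''
        simp [← e1'] at e1''
        simp [e1'']
  · let a := Φ (pairVec p q)
    let b := Φ (pairVec (q + r) (p + q))
    have ha : Q a = 1 := by rw [hQ, hpq]
    have hb : Q b = 1 := by rw [hQ, ad, ar, ar, al, sk q p, hpq, sk r p, hpr, sk r q, hqr]; ring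
    have hab : QuadraticMap.polar Q a b = 1 := by
      rw [hB, ar, ar, al, al, hpq, hqr]; ring
    have hmem := reflComm_mem Q a b
    rw [← heq] at hmem
    set g := reflComm Q a b with hg
    have hX := ((Subgroup.mem_normalizer_iff.mp hmem.1) C).mp (Subgroup.mem_zpowers C)
    obtain ⟨X, hX', hXC⟩ : ∃ X ∈ Subgroup.zpowers C, g * C = X * g := ⟨_, hX, by group⟩
    have hXs : (X : Matrix ι ι F) *ᵥ Φ (pairVec s 0) = Φ (pairVec s 0) ∨
        (X : Matrix ι ι F) *ᵥ Φ (pairVec s 0) = Φ (pairVec 0 s) ∨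
        (X : Matrix ι ι F) *ᵥ Φ (pairVec s 0) = Φ (pairVec s s) := by
      obtain ⟨n, rfl⟩ := Subgroup.mem_zpowers_iff.mp hX'
      have h0 : C ^ n ∈ (Subgroup.zpowers (triGL k hq)).map φ.toMonoidHom :=
        ⟨triGL k hq ^ n, Subgroup.zpow_mem _ (Subgroup.mem_zpowers _) n, map_zpow _ _ _⟩
      obtain ⟨y, hy, hyn⟩ := h0
      rw [← hyn]
      rcases zpowers_triGL k hq hy with rfl | rfl | rfl
      · left; rw [map_one, Units.val_one, Matrix.one_mulVec]
      · right; left
        show (C : Matrix ι ι F) *ᵥ _ = _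
        rw [hCact, add_zero]
      · right; right
        have hcs : (C : Matrix ι ι F) *ᵥ Φ (pairVec s s) = Φ (pairVec s 0) := by
          rw [hCact]; congr 2; ext j; simp; linear_combination (s j) * h2
        rw [← hcs, map_inv, Matrix.mulVec_mulVec]
        show (((C⁻¹ : GL ι F) : Matrix ι ι F) * (C : Matrix ι ι F)) *ᵥ _ = _
        rw [← Units.val_mul, inv_mul_cancel, Units.val_one, Matrix.one_mulVec]
    have key := congrArg (fun u : GL ι F => (u : Matrix ι ι F) *ᵥ Φ (pairVec s 0)) hXC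
    simp only [Units.val_mul, ← Matrix.mulVec_mulVec, hg] at key
    rw [hCact, hh a b ha hb hab, hh a b ha hb hab] at key
    simp only [a, b, hB, za, ar, ad, al, hps, hqs, hrs, sk q p, hpq, sk r p, hpr, sk r q, hqr, add_zero, zero_add,
      zero_smul, one_smul] at key
    simp only [← map_add] at key
    have hps' : p + q ≠ 0 := fun h => by
      have := congrArg (f₂ p) h
      rw [ar, al, hpq, za, zero_add] at this
      exact one_ne_zero this
    have hs' : p + q ≠ s := fun h => by
      have := congrArg (f₂ p) h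
      rw [ar, al, hpq, hps, zero_add] at this
      exact one_ne_zero this
    rcases hXs with h | h | h <;> rw [h] at key <;> have e2 := fun j => congrFun (hΦinj key) (1, j) <;>
      simp [pairVec] at e2
    · apply hs'; ext j; have := e2 j; simp; linear_combination this - (s j) * h2
    · apply hps'; ext j; have := e2 j; simp; linear_combination this
    · apply hps'; ext j; have := e2 j; simp; linear_combination this

end Cfsg.Agent.GeomClasses
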