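import Cfsg.Agent.GeomClasses.Basic

/-! # Tensor products with a two-dimensional factor over two elements -/

set_option autoImplicit false

namespace Cfsg.Agent.GeomClasses

open Matrix
open scoped Kronecker

variable {F : Type*} [Field F] [Fintype F]

theorem two_elems (hq : Fintype.card F = 2) (x : F) : x = 0 ∨ x = 1 := by
  rcases eq_or_ne x 0 with h | h
  · exact Or.inl h
  · right; simpa [hq] using FiniteField.pow_card_sub_one_eq_one x h

theorem two_eq_zero' (hq : Fintype.card F = 2) : (2 : F) = 0 := by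
  have h0 : (Fintype.card F : F) = 0 := Nat.cast_card_eq_zero F
  rw [hq] at h0; exact_mod_cast h0

theorem one_add_one_eq (hq : Fintype.card F = 2) : (1 : F) + 1 = 0 := by linear_combination two_eq_zero' hq

/-- The element of order three of `GL₂`. -/
def triMat : Matrix (Fin 2) (Fin 2) F := !![0, 1; 1, 1]

theorem triMat_cube (hq : Fintype.card F = 2) : (triMat : Matrix (Fin 2) (Fin 2) F) * (triMat * triMat) = 1 := by
  ext i j; fin_cases i <;> fin_cases j <;> simp [triMat, one_add_one_eq hq]

theorem gl_two_conj (hq : Fintype.card F = 2) (g : Matrix (Fin 2) (Fin 2) F) (hg : g.det ≠ 0) :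
    g * triMat = triMat * g ∨ g * triMat = triMat * triMat * g := by
  rw [Matrix.det_fin_two] at hg
  rw [← Matrix.ext_iff, ← Matrix.ext_iff]
  simp only [Fin.forall_fin_two, Matrix.mul_apply, Fin.sum_univ_two, triMat, Matrix.of_apply, Matrix.cons_val',
    Matrix.cons_val_zero, Matrix.cons_val_one, Matrix.cons_val_fin_one, Matrix.empty_val']
  rcases two_elems hq (g 0 0) with a | a <;> rcases two_elems hq (g 0 1) with b | b <;>
    rcases two_elems hq (g 1 0) with c | c <;> rcases two_elems hq (g 1 1) with d | d <;>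
    simp [a, b, c, d, one_add_one_eq hq] at hg ⊢

variable (k : ℕ)

/-- The element of order three acting on the first tensor factor. -/
def triGL (hq : Fintype.card F = 2) : GL (Fin 2 × Fin k) F where
  val := triMat ⊗ₖ 1
  inv := (triMat * triMat) ⊗ₖ 1
  val_inv := by rw [← Matrix.mul_kronecker_mul, triMat_cube hq, one_mul, Matrix.one_kronecker_one]
  inv_val := by rw [← Matrix.mul_kronecker_mul, mul_assoc, triMat_cube hq, one_mul, Matrix.one_kronecker_one]

theorem triGL_val (hq : Fintype.card F = 2) :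
    (triGL k hq : Matrix (Fin 2 × Fin k) (Fin 2 × Fin k) F) = triMat ⊗ₖ 1 := rfl

theorem zpowers_triGL (hq : Fintype.card F = 2) {x : GL (Fin 2 × Fin k) F} (hx : x ∈ Subgroup.zpowers (triGL k hq)) :
    x = 1 ∨ x = triGL k hq ∨ x = (triGL k hq)⁻¹ := by
  obtain ⟨n, rfl⟩ := Subgroup.mem_zpowers_iff.mp hx
  have h3 : (triGL k hq) ^ (3 : ℤ) = 1 := by
    rw [show (3 : ℤ) = ((3 : ℕ) : ℤ) from rfl, zpow_natCast, pow_succ, pow_two]
    refine Units.ext ?_
    rw [Units.val_mul, Units.val_mul, triGL_val, Units.val_one, ← Matrix.mul_kronecker_mul, ← Matrix.mul_kronecker_mul,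
      mul_assoc, triMat_cube hq, one_mul, one_mul, Matrix.one_kronecker_one]
  rw [← Int.mul_ediv_add_emod n 3, _root_.zpow_add, _root_.zpow_mul, h3, _root_.one_zpow, one_mul]
  rcases (show n % 3 = 0 ∨ n % 3 = 1 ∨ n % 3 = 2 by omega) with h | h | h <;> rw [h]
  · exact Or.inl (_root_.zpow_zero _)
  · exact Or.inr (Or.inl (_root_.zpow_one _))
  · exact Or.inr (Or.inr (by rw [show (2 : ℤ) = 3 + (-1) from rfl, _root_.zpow_add, h3, one_mul, _root_.zpow_neg_one]))

theorem exists_between_tensor_two (hq : Fintype.card F = 2) (hk : 2 ≤ k) :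
    ∃ K : Subgroup (GL (Fin 2 × Fin k) F), Cfsg.Geo.kroneckerSubgroup 2 k F < K ∧ K < ⊤ := by
  classical
  set C := triGL (F := F) k hq
  let i0 : Fin k := ⟨0, by omega⟩
  let i1 : Fin k := ⟨1, by omega⟩
  have h01 : i0 ≠ i1 := by simp [i0, i1]
  refine ⟨Subgroup.normalizer (Subgroup.zpowers C : Set (GL (Fin 2 × Fin k) F)), ?_, ?_⟩
  · refine SetLike.lt_iff_le_and_exists.mpr ⟨?_, ?_⟩
    · intro g hg
      obtain ⟨a, b, hab⟩ := hg
      have ha : (a : Matrix (Fin 2) (Fin 2) F).det ≠ 0 := (Matrix.isUnits_det_units a).ne_zero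
      have hconj : g * C * g⁻¹ ∈ Subgroup.zpowers C := by
        rcases gl_two_conj hq _ ha with h | h
        · have : g * C = C * g := by
            refine Units.ext ?_
            rw [Units.val_mul, Units.val_mul, hab, triGL_val, ← Matrix.mul_kronecker_mul, ← Matrix.mul_kronecker_mul, h, mul_one, one_mul]
          rw [this, mul_inv_cancel_right]
          exact Subgroup.mem_zpowers C
        · have : g * C = C * C * g := by
            refine Units.ext ?_
            rw [Units.val_mul, Units.val_mul, Units.val_mul, hab, triGL_val, ← Matrix.mul_kronecker_mul,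
              ← Matrix.mul_kronecker_mul, ← Matrix.mul_kronecker_mul, h, mul_one, one_mul, one_mul]
          rw [this, mul_inv_cancel_right]
          exact Subgroup.mul_mem _ (Subgroup.mem_zpowers C) (Subgroup.mem_zpowers C)
      refine Subgroup.mem_normalizer_fintype fun x hx => ?_
      obtain ⟨n, rfl⟩ := Subgroup.mem_zpowers_iff.mp hx
      rw [← conj_zpow]
      exact Subgroup.zpow_mem _ hconj n
    · let E : Matrix (Fin 2 × Fin k) (Fin 2 × Fin k) F := triMat ⊗ₖ Matrix.single i0 i1 1
      have hE : E * E = 0 := by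
        simp only [E, ← Matrix.mul_kronecker_mul, Matrix.single_mul_single_of_ne _ _ _ _ h01.symm, Matrix.kronecker_zero]
      let u : GL (Fin 2 × Fin k) F := ⟨1 + E, 1 - E,
        by rw [add_mul, mul_sub, mul_sub, one_mul, mul_one, one_mul, hE, sub_zero, sub_add_cancel],
        by rw [sub_mul, mul_add, mul_add, one_mul, mul_one, one_mul, hE, add_zero, add_sub_cancel_right]⟩
      refine ⟨u, Subgroup.mem_normalizer_fintype fun x hx => ?_, fun hu => ?_⟩
      · have hc : Commute u C := by
          refine Units.ext ?_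
          show (1 + E) * (triMat ⊗ₖ 1) = (triMat ⊗ₖ 1) * (1 + E)
          rw [add_mul, mul_add, one_mul, mul_one]
          simp only [E, ← Matrix.mul_kronecker_mul, mul_one, one_mul]
        obtain ⟨n, rfl⟩ := Subgroup.mem_zpowers_iff.mp hx
        rw [(hc.zpow_right n).eq, mul_inv_cancel_right]
        exact Subgroup.zpow_mem _ (Subgroup.mem_zpowers C) n
      · obtain ⟨a, b, hab⟩ := hu
        change 1 + E = _ at hab
        have e1 := congrFun (congrFun hab (0, i0)) (0, i0)
        have e2 := congrFun (congrFun hab (0, i0)) (1, i1)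
        have e3 := congrFun (congrFun hab (0, i0)) (0, i1)
        simp [E, triMat, h01, Matrix.one_apply, Matrix.single_apply] at e1 e2 e3
        rcases e3 with h | h
        · rw [h, zero_mul] at e1; exact one_ne_zero e1
        · rw [h, mul_zero] at e2; exact one_ne_zero e2
  · rw [lt_top_iff_ne_top]
    intro htop
    let E : Matrix (Fin 2 × Fin k) (Fin 2 × Fin k) F := (Matrix.single (0 : Fin 2) 0 1) ⊗ₖ Matrix.single i0 i1 1
    have hE : E * E = 0 := by
      simp only [E, ← Matrix.mul_kronecker_mul, Matrix.single_mul_single_of_ne _ _ _ _ h01.symm, Matrix.kronecker_zero]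
    let u : GL (Fin 2 × Fin k) F := ⟨1 + E, 1 - E,
      by rw [add_mul, mul_sub, mul_sub, one_mul, mul_one, one_mul, hE, sub_zero, sub_add_cancel],
      by rw [sub_mul, mul_add, mul_add, one_mul, mul_one, one_mul, hE, add_zero, add_sub_cancel_right]⟩
    have hu : u ∈ Subgroup.normalizer (Subgroup.zpowers C : Set (GL (Fin 2 × Fin k) F)) := htop ▸ Subgroup.mem_top u
    have hX := ((Subgroup.mem_normalizer_iff.mp hu) C).mp (Subgroup.mem_zpowers C)
    have key : ∀ M : Matrix (Fin 2) (Fin 2) F, ((u * C : GL (Fin 2 × Fin k) F) : Matrix _ _ F) = (M ⊗ₖ 1) * (1 + E) →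
        False := by
      intro M hM
      rw [Units.val_mul] at hM
      change (1 + E) * (triMat ⊗ₖ 1) = _ at hM
      rw [add_mul, mul_add, one_mul, mul_one] at hM
      simp only [E, ← Matrix.mul_kronecker_mul, mul_one, one_mul] at hM
      have e2 := congrFun (congrFun hM (0, i0)) (1, i1)
      simp [triMat, Matrix.one_apply, Matrix.single_apply, Matrix.mul_apply, Fin.sum_univ_two, h01] at e2
    rcases zpowers_triGL k hq hX with h | h | h
    all_goals
      have hh := congrArg (· * u) h
      simp only [inv_mul_cancel_right, one_mul] at hh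
    · exact key 1 (by rw [hh, Matrix.one_kronecker_one, one_mul])
    · exact key triMat (by rw [hh]; rfl)
    · exact key (triMat * triMat) (by rw [hh]; rfl)

theorem exists_between_tensorProduct {n : ℕ} (hq : Fintype.card F = 2) (e : Fin n ≃ Fin 2 × Fin k) (hk : 2 ≤ k)
    (P : GL (Fin n) F) : ∃ K : Subgroup (GL (Fin n) F),
      Cfsg.Geo.tensorProductSubgroup 2 k e P ⊓ Cfsg.Geo.specialLinear (Fin n) F < K ∧
      K < Cfsg.Geo.specialLinear (Fin n) F := by
  have hSL : Cfsg.Geo.specialLinear (Fin n) F = ⊤ := by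
    rw [eq_top_iff]
    intro g _
    rw [mem_specialLinear_iff]
    exact (two_elems hq _).resolve_left (Matrix.isUnits_det_units g).ne_zero
  rw [hSL, inf_top_eq]
  obtain ⟨K, h1, h2⟩ := exists_between_tensor_two k hq hk
  let φ : GL (Fin 2 × Fin k) F ≃* GL (Fin n) F := (Cfsg.Geo.glReindex e.symm).trans (MulAut.conj P)
  have he : Cfsg.Geo.tensorProductSubgroup 2 k e P = φ.mapSubgroup (Cfsg.Geo.kroneckerSubgroup 2 k F) := by
    rw [Cfsg.Geo.tensorProductSubgroup, Subgroup.map_map]; rfl
  refine ⟨φ.mapSubgroup K, he ▸ (φ.mapSubgroup.lt_iff_lt).mpr h1, ?_⟩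
  rw [← φ.mapSubgroup.map_top]
  exact (φ.mapSubgroup.lt_iff_lt).mpr h2

end Cfsg.Agent.GeomClasses
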