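import Cfsg.Agent.GeomClasses.OrthElliptic

/-! # Orthogonal imprimitive subgroups are maximal (blocks of dimension at least three) -/

set_option autoImplicit false

namespace Cfsg.Agent.GeomClasses

open Module Cfsg.Agent.Forms

variable {F V : Type*} [Field F] [AddCommGroup V] [Module F V] [FiniteDimensional F V]
  {Q : QuadraticForm F V}

set_option quotPrecheck false in
local notation "BQ" => QuadraticMap.polar ⇑Q

local notation "sp" => Submodule.span F

variable {t k : ℕ} {D : Fin t → Submodule F V} {M : Subgroup (orthGroup Q)}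

/-- All transformations with centre in one block and second vector in another. -/
def Conn (Q : QuadraticForm F V) (M : Subgroup (orthGroup Q)) (A B : Submodule F V) : Prop :=
  ∀ y ∈ A, Q y = 0 → ∀ u ∈ B, EIn Q M y u

variable [Finite F] (h : OBlocks Q k D) (hE : BlockE Q M D) (h2 : (2 : F) ≠ 0) (hk : 3 ≤ k)
include h hE h2 hk

/-- From one root element between two blocks to all transformations between them. -/
theorem conn_fill {i j : Fin t} (hij : i ≠ j) {y y' : V} (hy : y ∈ D i) (hQy : Q y = 0) (hy' : y' ∈ D j)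
    (hy'0 : y' ≠ 0) (hQy' : Q y' = 0) (hs : ∀ s : F, EIn Q M y (s • y')) : ∀ u ∈ D j, EIn Q M y u := by
  -- singular vectors of the block
  have hsing : ∀ b ∈ D j, Q b = 0 → ∀ s : F, EIn Q M y (s • b) := by
    intro b hb hQb
    rcases eq_or_ne b 0 with rfl | hb0
    · intro s; rw [smul_zero]; exact eIn_zero hQy
    obtain ⟨z, hz, hQz, hza, hzb⟩ := h.sing_common hk hy' hb hQy' hQb hy'0 hb0
    set a := (BQ z b * (BQ z y')⁻¹) • y' with ha
    have haD : a ∈ D j := (D j).smul_mem _ hy'
    have he : BQ z a = BQ z b := by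
      rw [ha, QuadraticMap.polar_smul_right, smul_eq_mul, mul_assoc, inv_mul_cancel₀ hza, mul_one]
    obtain ⟨hzw, hmap⟩ := exists_move hQz (a := a) (b := b) (by rw [ha, QuadraticMap.map_smul, hQy', hQb, smul_zero])
      he (he ▸ hzb)
    have hwD : (BQ z a)⁻¹ • (b - a) ∈ D j := (D j).smul_mem _ (sub_mem hb haD)
    obtain ⟨_, _, hm⟩ := hE j z hz _ hwD hQz hzw
    intro s
    have h1 := eIn_conj hm (hs (s * (BQ z b * (BQ z y')⁻¹)))
    rw [← smul_smul, ← ha, map_smul, eichler_apply (y := a), hmap] at h1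
    rwa [eichler_fixes hQz hzw (h.orth j i hij.symm z hz y hy) (h.orth j i hij.symm _ hwD y hy)] at h1
  intro u hu
  obtain ⟨g, hg, hyg⟩ : ∃ g, g ∈ D j ∧ BQ y' g ≠ 0 := by
    obtain ⟨g, hg, -, hyg⟩ := (h.split j).pairing (S := ⊥) bot_le hy' (by simpa using hy'0)
    exact ⟨g, hg, by rw [hyg]; exact one_ne_zero⟩
  have hspan := le_span_singular hy' hQy' hg hyg hu
  have key : ∀ s : F, EIn Q M y (s • u) := by
    clear hu
    induction hspan using Submodule.span_induction with
    | mem z hz => exact hsing z hz.1 hz.2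
    | zero => intro s; rw [smul_zero]; exact eIn_zero hQy
    | add a b _ _ ha hb => intro s; rw [smul_add]; exact eIn_add (ha s) (hb s)
    | smul c a _ ha => intro s; rw [smul_smul]; exact ha (s * c)
  simpa using key 1

/-- From a seed to two blocks connected in both directions. -/
theorem exists_conn (hseed : Seed Q M D) : ∃ i j, i ≠ j ∧ Conn Q M (D i) (D j) := by
  obtain ⟨i, y, hy, hy0, hQy, z, hz, hm⟩ := hseed
  obtain ⟨j, hji, hzj⟩ := h.exists_comp_ne hz
  obtain ⟨y', hy', hQy', hy'z⟩ := h.sing_pair hk (h.comp_mem j z) hzj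
  rw [h.polar_comp hy'] at hy'z
  have hy'0 : y' ≠ 0 := fun e => by simp [e, QuadraticMap.polar] at hy'z
  obtain ⟨c, hc, hyc, hQc⟩ := h.exists_nonsing_perp hk (i := j) y'
  set β := BQ y' z
  set K := -(2 * Q c * β) with hK
  have hK0 : K ≠ 0 := neg_ne_zero.mpr (mul_ne_zero (mul_ne_zero h2 hQc) hy'z)
  have hsq : ∀ ρ : F, EIn Q M y ((ρ * ρ * K) • y') := by
    intro ρ
    have one : ∀ r : F, EIn Q M y ((r * β) • c - (r * BQ c z + r * r * Q c * β) • y') := by
      intro r
      have hrc : BQ y' (r • c) = 0 := by rw [QuadraticMap.polar_smul_right, hyc, smul_zero]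
      obtain ⟨_, _, hT⟩ := hE j y' hy' (r • c) ((D j).smul_mem _ hc) hQy' hrc
      have h1 := eIn_add (eIn_conj hT hm) (eIn_neg (by
        have e : ((eichler Q y' (r • c) hQy' hrc : orthGroup Q) : V ≃ₗ[F] V) y = y :=
          eichler_fixes hQy' hrc (h.orth j i hji y' hy' y hy) (h.orth j i hji _ ((D j).smul_mem _ hc) y hy)
        rw [e]; exact hm))
      rw [eichler_fixes hQy' hrc (h.orth j i hji y' hy' y hy) (h.orth j i hji _ ((D j).smul_mem _ hc) y hy),
        eichler_apply, eichlerMap_apply, QuadraticMap.polar_smul_left, QuadraticMap.map_smul] at h1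
      convert h1 using 1
      simp only [smul_eq_mul, β]
      module
    have := eIn_add (one ρ) (one (-ρ))
    convert this using 1
    simp only [K]
    module
  have hall : ∀ s : F, EIn Q M y (s • y') := by
    intro s
    obtain ⟨a, b, hab⟩ := Forms.exists_sq_add_sq_eq (one_ne_zero (α := F)) (one_ne_zero (α := F)) (s / K)
    have := eIn_add (hsq a) (hsq b)
    rw [← add_smul] at this
    convert this using 2
    rw [← add_mul]
    field_simp at hab ⊢
    linear_combination -hab
  have hfill := conn_fill h hE h2 hk (Ne.symm hji) hy hQy hy' hy'0 hQy' hall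
  refine ⟨j, i, hji, fun b hb hQb u hu => ?_⟩
  rcases eq_or_ne b 0 with rfl | hb0
  · refine ⟨map_zero Q, by simp [QuadraticMap.polar], ?_⟩
    convert one_mem M
    exact orth_ext fun z => by simp [eichler_apply, eichlerMap_apply, QuadraticMap.polar]
  refine conn_fill h hE h2 hk hji hb hQb hy hy0 hQy (fun s => ?_) u hu
  have h1 := eIn_swap (hfill ((-s) • b) ((D j).smul_mem _ hb)) (by rw [QuadraticMap.map_smul, hQb, smul_zero])
  have h2' := (eIn_smul (-s) hQb (by rw [QuadraticMap.polar_neg_right, h.orth j i hji b hb y hy, neg_zero])).mp h1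
  rwa [smul_neg, neg_smul, neg_neg] at h2'

omit hE in
/-- **Imprimitive orthogonal subgroups are maximal in the derived group.** -/
theorem blocks_maximal (hq : 5 ≤ Nat.card F ∨ 5 ≤ k) (hn : 7 ≤ finrank F V)
    (hHM : ∀ g ∈ commutator (orthGroup Q), BlockPerm g D → g ∈ M)
    {g : orthGroup Q} (hg : g ∈ M) (hgP : ¬ BlockPerm g D) : commutator (orthGroup Q) ≤ M := by
  classical
  have hE : BlockE Q M D := fun i y hy c hc hQy hyc =>
    ⟨hQy, hyc, hHM _ (eichler_mem_comm h.nondeg hn hQy hyc) (h.eichler_perm hy hc hQy hyc)⟩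
  have ht : Nonempty (Fin t) := by
    by_contra he
    rw [not_nonempty_iff] at he
    exact hgP fun i => he.elim i
  -- a singular vector of a block with crooked image
  obtain ⟨p, b, hb, hb0, hQb, hgb⟩ : ∃ p, ∃ b ∈ D p, b ≠ 0 ∧ Q b = 0 ∧ ∀ i, (g : V ≃ₗ[F] V) b ∉ D i := by
    by_contra hno
    push Not at hno
    refine hgP fun i => ?_
    obtain ⟨b, hb, hb0, hQb⟩ := exists_singular_mem (Q := Q) (W := D i) (by rw [h.dim]; exact hk)
    obtain ⟨j, hj⟩ := hno i b hb hb0 hQb
    refine ⟨j, fun u hu => ?_⟩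
    have near : ∀ a c, a ∈ D i → c ∈ D i → Q c = 0 → BQ c a ≠ 0 → (g : V ≃ₗ[F] V) a ∈ D j → (g : V ≃ₗ[F] V) c ∈ D j := by
      intro a c ha hc hQc hca hga
      obtain ⟨l, hl⟩ := hno i c hc (fun e => by simp [e, QuadraticMap.polar] at hca) hQc
      rcases eq_or_ne l j with rfl | hlj
      · exact hl
      · rw [← orth_polar Q g] at hca
        exact absurd (h.orth l j hlj _ hl _ hga) hca
    obtain ⟨d, hd, -, hbd⟩ := (h.split i).pairing (S := ⊥) bot_le hb (by simpa using hb0)
    have hspan := le_span_singular hb hQb hd (by rw [hbd]; exact one_ne_zero) hu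
    clear hu
    induction hspan using Submodule.span_induction with
    | mem z hz =>
      rcases eq_or_ne z 0 with rfl | hz0
      · simp
      obtain ⟨w, hw, hQw, hwb, hwz⟩ := h.sing_common hk hb hz.1 hQb hz.2 hb0 hz0
      exact near w z hw hz.1 hz.2 (by rw [QuadraticMap.polar_comm]; exact hwz) (near b w hb hw hQw hwb hj)
    | zero => simp
    | add a c _ _ ha hc => rw [map_add]; exact add_mem ha hc
    | smul r a _ ha => rw [map_smul]; exact (D j).smul_mem r ha
  obtain ⟨c, hc, hbc, hQc⟩ := h.exists_nonsing_perp hk (i := p) b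
  have hseed : Seed Q M D := exists_seed h h2 hE hk hq hgb (by rw [g.2.2]; exact hQb)
    (w := (g : V ≃ₗ[F] V) c) (by rw [g.2.2]; exact hQc) fun σ => by
      rw [← map_smul]
      exact eIn_conj hg (hE p b hb (σ • c) ((D p).smul_mem _ hc) hQb (by
        rw [QuadraticMap.polar_smul_right, hbc, smul_zero]))
  obtain ⟨i0, j0, hij0, hconn⟩ := exists_conn h hE h2 hk hseed
  have hmove : ∀ {a b : Fin t} (c d : Fin t), Conn Q M (D a) (D b) → c ≠ d →
      Conn Q M (D (Equiv.swap c d a)) (D (Equiv.swap c d b)) := by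
    intro a b c d hab hcd
    obtain ⟨s, hs, hsD⟩ := h.exists_transposition hk (by omega) hcd
    have hsM : s ∈ M := hHM s hs fun l => ⟨_, hsD l⟩
    have hsurj : ∀ l, ∀ z ∈ D (Equiv.swap c d l), ∃ z' ∈ D l, (s : V ≃ₗ[F] V) z' = z := by
      intro l z hz
      have hmap : (D l).map ((s : V ≃ₗ[F] V) : V →ₗ[F] V) = D (Equiv.swap c d l) :=
        Submodule.eq_of_le_of_finrank_eq (Submodule.map_le_iff_le_comap.mpr fun w hw => hsD l w hw)
          (by rw [LinearEquiv.finrank_map_eq, h.dim, h.dim])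
      rw [← hmap] at hz
      obtain ⟨z', hz', rfl⟩ := hz
      exact ⟨z', hz', rfl⟩
    intro y hy hQy u hu
    obtain ⟨y', hy', rfl⟩ := hsurj a y hy
    obtain ⟨u', hu', rfl⟩ := hsurj b u hu
    rw [s.2.2] at hQy
    exact eIn_conj hsM (hab y' hy' hQy u' hu')
  have hallpairs : ∀ a b, a ≠ b → Conn Q M (D a) (D b) := by
    intro a b hab
    have h1 : ∃ j, j ≠ a ∧ Conn Q M (D a) (D j) := by
      rcases eq_or_ne i0 a with rfl | ha
      · exact ⟨j0, hij0.symm, hconn⟩
      · refine ⟨Equiv.swap i0 a j0, fun e => hij0.symm ((Equiv.swap i0 a).injective (by rw [e, Equiv.swap_apply_left])), ?_⟩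
        have := hmove i0 a hconn ha
        rwa [Equiv.swap_apply_left] at this
    obtain ⟨j, hja, hj⟩ := h1
    rcases eq_or_ne j b with rfl | hjb
    · exact hj
    · have := hmove j b hj hjb
      rwa [Equiv.swap_apply_of_ne_of_ne hja.symm hab, Equiv.swap_apply_left] at this
  have hfull : ∀ i, ∀ y ∈ D i, Q y = 0 → Full Q M y := by
    intro i y hy hQy
    refine ⟨hQy, fun w hyw => ?_⟩
    rw [← h.sum_comp w]
    refine Finset.sum_induction _ (fun u => EIn Q M y u) (fun a b => eIn_add) (eIn_zero hQy) fun l _ => ?_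
    rcases eq_or_ne i l with rfl | hil
    · exact hE i y hy _ (h.comp_mem i w) hQy (by rwa [h.polar_comp hy])
    · exact hallpairs i l hil y hy hQy _ (h.comp_mem l w)
  obtain ⟨a, ha, hQa, hab⟩ := h.sing_pair hk hb hb0
  exact exists_full_pair_top h.nondeg hn (hfull p a ha hQa) (hfull p b hb hQb) hab

omit hE in
/-- Some element of the derived group moves a block. -/
theorem exists_not_blockPerm (hn : 7 ≤ finrank F V) (ht : 2 ≤ t) :
    ∃ g ∈ commutator (orthGroup Q), ¬ BlockPerm g D := by
  set i : Fin t := ⟨0, by omega⟩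
  set j : Fin t := ⟨1, by omega⟩
  have hij : i ≠ j := by simp [i, j]
  obtain ⟨s, hs, hs0, hQs⟩ := exists_singular_mem (Q := Q) (W := D i) (by rw [h.dim]; exact hk)
  obtain ⟨y, hy, -, hsy⟩ := (h.split i).pairing (S := ⊥) bot_le hs (by simpa using hs0)
  obtain ⟨w, hw, hw0, -⟩ := exists_singular_mem (Q := Q) (W := D j) (by rw [h.dim]; exact hk)
  have hsw := h.orth i j hij s hs w hw
  refine ⟨eichler Q s w hQs hsw, eichler_mem_comm h.nondeg hn hQs hsw, fun hP => ?_⟩
  obtain ⟨l, hl⟩ := hP i
  have hfix : ((eichler Q s w hQs hsw : orthGroup Q) : V ≃ₗ[F] V) s = s :=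
    eichler_fixes hQs hsw (by rw [polar_self_two_mul, hQs, mul_zero]) (by rw [QuadraticMap.polar_comm]; exact hsw)
  have h1 := hl s hs
  rw [hfix] at h1
  have hli : l = i := by
    by_contra hli
    exact hs0 (by rw [← h.comp_self hs, h.comp_other (Ne.symm hli) h1])
  subst hli
  have h3 := hl y hy
  rw [eichler_apply, eichlerMap_apply, hsy, one_smul, h.orth j i hij.symm w hw y hy] at h3
  have hwi : w ∈ D i := by
    simpa using sub_mem (add_mem h3 ((D i).smul_mem (0 + Q w * 1) hs)) hy
  exact hw0 (by rw [← h.comp_self hw, h.comp_other hij.symm hwi])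

end Cfsg.Agent.GeomClasses
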