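import Cfsg.Agent.GeomClasses.OrthImprimitive
import Cfsg.Agent.GeomClasses.OmegaBridge
import Cfsg.Agent.GeomClasses.DecompTools

/-! # Orthogonal imprimitive subgroups in `omegaGL` -/

set_option autoImplicit false

namespace Cfsg.Agent.GeomClasses

open Module Cfsg.Agent.Forms

variable {ι : Type} [Fintype ι] [DecidableEq ι] {F : Type*} [Field F]

/-- The stabiliser of an orthogonal decomposition into isometric blocks is maximal in `omegaGL`. -/
theorem isMaximalIn_blocks [Finite F] {Q : QuadraticForm F (ι → F)} (hQ : (QuadraticMap.polarBilin Q).Nondegenerate)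
    (h2 : (2 : F) ≠ 0) (hn : 7 ≤ Fintype.card ι) {t k : ℕ} {D : Fin t → Submodule F (ι → F)}
    (hD : Cfsg.Geo.IsOrthogonalMDecomposition ⇑Q k D) (hk : 3 ≤ k) (hq : 5 ≤ Nat.card F ∨ 5 ≤ k) :
    Cfsg.Geo.IsMaximalIn (Cfsg.Geo.omegaGL ⇑Q) (Cfsg.Geo.decompositionStabilizer D ⊓ Cfsg.Geo.omegaGL ⇑Q) := by
  have hd := hD.decomp.decomp
  have h : OBlocks Q k D := ⟨hd.iSup_eq_top, hd.finrank_eq, fun i j hij => hD.decomp.orthogonal i j hij, hQ, fun i j =>
    let ⟨e, he⟩ := hD.isometric i j; ⟨e, he⟩⟩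
  have hn' : 7 ≤ finrank F (ι → F) := by rw [finrank_pi]; exact hn
  refine isMaximalIn_omega Q (P := fun g => BlockPerm g D) (fun g => ?_) ?_ fun M hM g hg _ hgn => ?_
  · constructor
    · rintro ⟨σ, hσ⟩ i
      exact ⟨σ i, fun x hx => by rw [← hσ i, ← orthToGL_mulVec]; exact ⟨x, hx, by simp⟩⟩
    · intro hp
      refine mem_decomp_of_forall hd fun i => ?_
      obtain ⟨j, hj⟩ := hp i
      exact ⟨j, fun x hx => by rw [orthToGL_mulVec]; exact hj x hx⟩
  · exact exists_not_blockPerm h h2 hk hn' hd.two_le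
  · exact blocks_maximal h h2 hk hq hn' hM hg hgn

end Cfsg.Agent.GeomClasses
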