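import Cfsg.Agent.GeomClasses.OrthTools
import Cfsg.Agent.GeomClasses.SympInSL
import Cfsg.Agent.Forms.Siegel

/-! # Orthogonal similarity groups are maximal in special linear groups (odd characteristic) -/

set_option autoImplicit false

namespace Cfsg.Agent.GeomClasses

open Matrix Cfsg.Agent.Forms

variable {ι : Type} [Fintype ι] [DecidableEq ι] {F : Type*} [Field F]

local notation "sp" => Submodule.span F

theorem finrank_sup_span_le (S : Submodule F (ι → F)) (u : ι → F) :
    Module.finrank F ↥(S ⊔ sp {u}) ≤ Module.finrank F S + 1 := by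
  have h1 := Submodule.finrank_sup_add_finrank_inf_eq S (sp {u})
  have h2 : Module.finrank F (sp {u}) ≤ 1 := (finrank_span_le_card {u}).trans (by simp)
  omega

theorem finrank_span_one_le (u : ι → F) : Module.finrank F (sp {u}) ≤ 1 :=
  (finrank_span_le_card {u}).trans (by simp)

section

variable [Fintype F] {Q : QuadraticForm F (ι → F)} (hQ : (QuadraticMap.polarBilin Q).Nondegenerate)
  (h2 : (2 : F) ≠ 0)
include hQ h2

set_option quotPrecheck false in
local notation "BQ" => QuadraticMap.polar ⇑Q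

omit [Fintype F] [Fintype ι] [DecidableEq ι] h2 hQ in
theorem q_line (x z : ι → F) (a : F) : Q (x + a • z) = Q x + a * a * Q z + a * BQ x z := by
  rw [QuadraticMap.map_add Q, QuadraticMap.map_smul, QuadraticMap.polar_smul_right]; rfl

omit [Fintype F] h2 hQ in
theorem mem_perpQ {S : Submodule F (ι → F)} {v : ι → F} :
    v ∈ perp (QuadraticMap.polarBilin Q) S ↔ ∀ x ∈ S, BQ x v = 0 := Iff.rfl

omit h2 in
/-- A singular vector perpendicular to a small subspace and outside it. -/
theorem exists_singular_out {S : Submodule F (ι → F)} (hS : 2 * Module.finrank F S + 3 ≤ Fintype.card ι) :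
    ∃ e, Q e = 0 ∧ (∀ x ∈ S, BQ x e = 0) ∧ e ∉ S := by
  obtain ⟨Z, hZ⟩ := Submodule.exists_isCompl S
  have hdim : 3 ≤ Module.finrank F ↥(perp (QuadraticMap.polarBilin Q) S ⊓ Z) := by
    have h1 := Submodule.finrank_sup_add_finrank_inf_eq (perp (QuadraticMap.polarBilin Q) S) Z
    have h3 := (isForm_quadratic Q hQ).finrank_perp S
    have h4 := Submodule.finrank_add_eq_of_isCompl hZ
    have h5 := Submodule.finrank_le (perp (QuadraticMap.polarBilin Q) S ⊔ Z)
    rw [Module.finrank_pi] at h3 h4 h5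
    omega
  obtain ⟨e, he, he0, hQe⟩ := exists_singular_mem (Q := Q) hdim
  exact ⟨e, hQe, (mem_perpQ).mp he.1, fun h => he0 (Submodule.disjoint_def.mp hZ.disjoint e h he.2)⟩

omit h2 in
/-- Every value is taken on the perpendicular space of a small subspace. -/
theorem exists_value_perp {S : Submodule F (ι → F)} (hS : 2 * Module.finrank F S + 3 ≤ Fintype.card ι) (c : F) :
    ∃ u, Q u = c ∧ (∀ x ∈ S, BQ x u = 0) ∧ u ∉ S := by
  obtain ⟨e, hQe, he, heS⟩ := exists_singular_out hQ hS
  obtain ⟨d, hd, hed⟩ := (isForm_quadratic Q hQ).exists_perp_pairing heS (1 : F)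
  simp only [QuadraticMap.polarBilin_apply_apply] at hd hed
  refine ⟨d + (c - Q d) • e, ?_, fun x hx => ?_, fun h => ?_⟩
  · rw [q_line, hQe, QuadraticMap.polar_comm (⇑Q) d e, hed]; ring
  · rw [QuadraticMap.polar_add_right, QuadraticMap.polar_smul_right, hd x hx, he x hx, smul_zero, add_zero]
  · have h1 := he _ h
    rw [QuadraticMap.polar_add_left, QuadraticMap.polar_smul_left, QuadraticMap.polar_comm (⇑Q) d e, hed,
      polar_self_two_mul, hQe, mul_zero, smul_zero, add_zero] at h1
    exact one_ne_zero h1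

omit [Fintype F] hQ in
theorem det_reflGL {v : ι → F} (hv : Q v ≠ 0) : ((reflGL Q v : GL ι F) : Matrix ι ι F).det = -1 := by
  have h : ((reflGL Q v : GL ι F) : Matrix ι ι F) =
      1 + vecMulVec v (funVec ((-(Q v)⁻¹) • QuadraticMap.polarBilin Q v)) := by
    refine Matrix.ext_iff_mulVec.mpr fun x => ?_
    rw [reflGL_mulVec, Matrix.add_mulVec, Matrix.one_mulVec, Matrix.vecMulVec_mulVec, op_smul_eq_smul, funVec_dot]
    simp only [LinearMap.smul_apply, QuadraticMap.polarBilin_apply_apply, smul_eq_mul]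
    module
  rw [h, Matrix.vecMulVec_eq Unit, Matrix.det_one_add_replicateCol_mul_replicateRow, funVec_dot]
  simp only [LinearMap.smul_apply, QuadraticMap.polarBilin_apply_apply, smul_eq_mul, polar_self_two_mul]
  field_simp
  ring

/-- The product of two reflections. -/
noncomputable def rot (Q : QuadraticForm F (ι → F)) (x y : ι → F) : GL ι F := (reflGL Q x : GL ι F) * (reflGL Q y : GL ι F)

omit [Fintype F] hQ h2 in
theorem rot_mulVec (x y z : ι → F) : (rot Q x y : Matrix ι ι F) *ᵥ z =
    (z - ((Q y)⁻¹ * BQ y z) • y) - ((Q x)⁻¹ * BQ x (z - ((Q y)⁻¹ * BQ y z) • y)) • x := by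
  rw [rot, Units.val_mul, ← Matrix.mulVec_mulVec, reflGL_mulVec, reflGL_mulVec]

omit [Fintype F] hQ in
theorem rot_mem {x y : ι → F} (hx : Q x ≠ 0) (hy : Q y ≠ 0) :
    rot Q x y ∈ Cfsg.Geo.quadSimilarityGroup ⇑Q ⊓ Cfsg.Geo.specialLinear ι F := by
  refine ⟨⟨1, fun v => ?_⟩, mem_specialLinear_iff.mpr ?_⟩
  · rw [rot, Units.val_mul, ← Matrix.mulVec_mulVec, mem_isometryGroup_iff.mp (reflGL Q x).2,
      mem_isometryGroup_iff.mp (reflGL Q y).2, Units.val_one, one_mul]
  · rw [rot, Units.val_mul, Matrix.det_mul, det_reflGL h2 hx, det_reflGL h2 hy]; ring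

omit [Fintype F] hQ h2 in
theorem refl_fix {v z : ι → F} (h : BQ v z = 0) : ((reflGL Q v : GL ι F) : Matrix ι ι F) *ᵥ z = z := by
  rw [reflGL_mulVec, h, mul_zero, zero_smul, sub_zero]

omit [Fintype F] hQ h2 in
theorem refl_map {a b : ι → F} (hN : Q a = Q b) (hd : Q (b - a) ≠ 0) :
    ((reflGL Q (b - a) : GL ι F) : Matrix ι ι F) *ᵥ a = b := by
  have hexp : Q (b - a) = Q b + Q a - BQ b a := by
    rw [sub_eq_add_neg, QuadraticMap.map_add Q, QuadraticMap.map_neg, QuadraticMap.polar_neg_right]; ring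
  have h1 : BQ (b - a) a = -Q (b - a) := by
    rw [QuadraticMap.polar_sub_left, polar_self_two_mul, hexp, ← hN]; ring
  rw [reflGL_mulVec, h1, mul_neg, inv_mul_cancel₀ hd, neg_one_smul, sub_neg_eq_add, add_sub_cancel]

/-- Moving a vector while fixing a small subspace pointwise. -/
theorem exists_rot_map {S : Submodule F (ι → F)} (hS : 2 * Module.finrank F S + 9 ≤ Fintype.card ι) {a b : ι → F}
    (ha : ∀ x ∈ S, BQ x a = 0) (hb : ∀ x ∈ S, BQ x b = 0) (haS : a ∉ S) (hbS : b ∉ S) (hN : Q a = Q b) :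
    ∃ k ∈ Cfsg.Geo.quadSimilarityGroup ⇑Q ⊓ Cfsg.Geo.specialLinear ι F,
      (∀ u v, BQ ((k : Matrix ι ι F) *ᵥ u) ((k : Matrix ι ι F) *ᵥ v) = BQ u v) ∧
      (∀ x ∈ S, (k : Matrix ι ι F) *ᵥ x = x) ∧ (k : Matrix ι ι F) *ᵥ a = b := by
  have hiso : ∀ x y : ι → F, ∀ u v, BQ ((rot Q x y : Matrix ι ι F) *ᵥ u) ((rot Q x y : Matrix ι ι F) *ᵥ v) = BQ u v := by
    intro x y u v
    have h : ∀ w, Q ((rot Q x y : Matrix ι ι F) *ᵥ w) = Q w := fun w => by
      rw [rot, Units.val_mul, ← Matrix.mulVec_mulVec, mem_isometryGroup_iff.mp (reflGL Q x).2,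
        mem_isometryGroup_iff.mp (reflGL Q y).2]
    simp only [QuadraticMap.polar, ← Matrix.mulVec_add, h]
  have step : ∀ a b, (∀ x ∈ S, BQ x a = 0) → (∀ x ∈ S, BQ x b = 0) → Q a = Q b → Q (b - a) ≠ 0 →
      ∃ k ∈ Cfsg.Geo.quadSimilarityGroup ⇑Q ⊓ Cfsg.Geo.specialLinear ι F,
        (∀ u v, BQ ((k : Matrix ι ι F) *ᵥ u) ((k : Matrix ι ι F) *ᵥ v) = BQ u v) ∧
        (∀ x ∈ S, (k : Matrix ι ι F) *ᵥ x = x) ∧ (k : Matrix ι ι F) *ᵥ a = b := by
    intro a b ha hb hN hd
    obtain ⟨e, hQe, he, -⟩ := exists_value_perp hQ (S := S ⊔ sp {b})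
      (by have := finrank_sup_span_le S b; omega) (1 : F)
    have he' : ∀ x ∈ S, BQ e x = 0 := fun x hx => by rw [QuadraticMap.polar_comm, he x (Submodule.mem_sup_left hx)]
    refine ⟨rot Q e (b - a), rot_mem h2 (by rw [hQe]; exact one_ne_zero) hd, hiso _ _, fun x hx => ?_, ?_⟩
    · rw [rot, Units.val_mul, ← Matrix.mulVec_mulVec, refl_fix (v := b - a)
        (by rw [QuadraticMap.polar_comm, QuadraticMap.polar_sub_right, ha x hx, hb x hx, sub_zero]),
        refl_fix (he' x hx)]
    · rw [rot, Units.val_mul, ← Matrix.mulVec_mulVec, refl_map hN hd, refl_fix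
        (by rw [QuadraticMap.polar_comm, he b (Submodule.mem_sup_right (Submodule.mem_span_singleton_self b))])]
  by_cases hd : Q (b - a) = 0
  swap
  · exact step a b ha hb hN hd
  by_cases hQa : Q a = 0
  · -- through a singular vector paired with both
    have hab : BQ a b = 0 := by
      rw [sub_eq_add_neg, QuadraticMap.map_add Q, QuadraticMap.map_neg, QuadraticMap.polar_neg_right, ← hN, hQa,
        zero_add, zero_add, neg_eq_zero] at hd
      rw [QuadraticMap.polar_comm, hd]
    obtain ⟨d, hd', hda, hdb⟩ : ∃ d, (∀ x ∈ S, BQ x d = 0) ∧ BQ a d ≠ 0 ∧ BQ b d ≠ 0 := by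
      obtain ⟨p, hp, hpa⟩ := (isForm_quadratic Q hQ).exists_perp_pairing haS (1 : F)
      obtain ⟨r, hr, hrb⟩ := (isForm_quadratic Q hQ).exists_perp_pairing hbS (1 : F)
      simp only [QuadraticMap.polarBilin_apply_apply] at hp hpa hr hrb
      by_cases h1 : BQ b p = 0
      · by_cases h3 : BQ a r = 0
        · exact ⟨p + r, fun x hx => by rw [QuadraticMap.polar_add_right, hp x hx, hr x hx, add_zero],
            by rw [QuadraticMap.polar_add_right, hpa, h3, add_zero]; exact one_ne_zero,
            by rw [QuadraticMap.polar_add_right, h1, hrb, zero_add]; exact one_ne_zero⟩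
        · exact ⟨r, hr, h3, by rw [hrb]; exact one_ne_zero⟩
      · exact ⟨p, hp, by rw [hpa]; exact one_ne_zero, h1⟩
    set t := -(Q d) / BQ a d with ht
    obtain ⟨c, hQc, hcS, hac, hbc⟩ : ∃ c, Q c = 0 ∧ (∀ x ∈ S, BQ x c = 0) ∧ BQ a c ≠ 0 ∧ BQ b c ≠ 0 := by
      refine ⟨d + t • a, ?_, fun x hx => ?_, ?_, ?_⟩
      · rw [q_line, hQa, QuadraticMap.polar_comm (⇑Q) d a, ht, div_mul_cancel₀ _ hda]; ring
      · rw [QuadraticMap.polar_add_right, QuadraticMap.polar_smul_right, hd' x hx, ha x hx, smul_zero, add_zero]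
      · rw [QuadraticMap.polar_add_right, QuadraticMap.polar_smul_right, polar_self_two_mul, hQa, mul_zero, smul_zero,
          add_zero]
        exact hda
      · rw [QuadraticMap.polar_add_right, QuadraticMap.polar_smul_right, QuadraticMap.polar_comm (⇑Q) b a, hab,
          smul_zero, add_zero]
        exact hdb
    have hne : ∀ u v : ι → F, Q u = 0 → Q v = 0 → BQ u v ≠ 0 → Q (v - u) ≠ 0 := fun u v hu hv huv h => huv (by
      rw [sub_eq_add_neg, QuadraticMap.map_add Q, QuadraticMap.map_neg, QuadraticMap.polar_neg_right, hu, hv,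
        zero_add, zero_add, neg_eq_zero] at h
      rw [QuadraticMap.polar_comm, h])
    obtain ⟨k1, hk1, hi1, hf1, hm1⟩ := step a c ha hcS (hQa.trans hQc.symm) (hne a c hQa hQc hac)
    obtain ⟨k2, hk2, hi2, hf2, hm2⟩ := step c b hcS hb (by rw [hQc, ← hN, hQa])
      (hne c b hQc (hN.symm.trans hQa) (by rw [QuadraticMap.polar_comm]; exact hbc))
    refine ⟨k2 * k1, mul_mem hk2 hk1, fun u v => ?_, fun x hx => ?_, ?_⟩
    · simp only [Units.val_mul, ← Matrix.mulVec_mulVec, hi2, hi1]
    · rw [Units.val_mul, ← Matrix.mulVec_mulVec, hf1 x hx, hf2 x hx]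
    · rw [Units.val_mul, ← Matrix.mulVec_mulVec, hm1, hm2]
  · -- through the opposite vector
    have hsum : Q (b + a) ≠ 0 := by
      intro h
      have h1 : Q (b + a) + Q (b - a) = 4 * Q a := by
        rw [sub_eq_add_neg, QuadraticMap.map_add Q, QuadraticMap.map_add Q b (-a), QuadraticMap.map_neg,
          QuadraticMap.polar_neg_right, ← hN]; ring
      rw [h, hd, add_zero] at h1
      exact mul_ne_zero (mul_ne_zero h2 h2) hQa (by linear_combination -h1)
    refine ⟨rot Q b (b + a), rot_mem h2 (by rw [← hN]; exact hQa) hsum, hiso _ _, fun x hx => ?_, ?_⟩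
    · rw [rot, Units.val_mul, ← Matrix.mulVec_mulVec, refl_fix (v := b + a)
        (by rw [QuadraticMap.polar_comm, QuadraticMap.polar_add_right, ha x hx, hb x hx, add_zero]),
        refl_fix (by rw [QuadraticMap.polar_comm, hb x hx])]
    · have h1 : ((reflGL Q (b + a) : GL ι F) : Matrix ι ι F) *ᵥ a = -b := by
        have := refl_map (Q := Q) (a := a) (b := -b) (by rw [QuadraticMap.map_neg]; exact hN)
          (by rw [show -b - a = -(b + a) by abel, QuadraticMap.map_neg]; exact hsum)
        rw [reflGL_mulVec] at this ⊢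
        rw [show -b - a = -(b + a) by abel, QuadraticMap.map_neg, QuadraticMap.polar_neg_left, mul_neg, neg_smul,
          smul_neg, neg_neg] at this
        exact this
      have hQb : Q b ≠ 0 := by rw [← hN]; exact hQa
      rw [rot, Units.val_mul, ← Matrix.mulVec_mulVec, h1, Matrix.mulVec_neg, reflGL_mulVec, polar_self_two_mul,
        show (Q b)⁻¹ * (2 * Q b) = 2 by field_simp]
      module

omit [Fintype F] hQ h2 in
theorem gl_cancel (g : GL ι F) (x : ι → F) :
    (g : Matrix ι ι F) *ᵥ (((g⁻¹ : GL ι F) : Matrix ι ι F) *ᵥ x) = x ∧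
      ((g⁻¹ : GL ι F) : Matrix ι ι F) *ᵥ ((g : Matrix ι ι F) *ᵥ x) = x := by
  simp [Matrix.mulVec_mulVec, ← Units.val_mul]

omit h2 in
theorem span_aniso (hn : 7 ≤ Fintype.card ι) {E : Submodule F (ι → F)} (hE : ∀ x, Q x ≠ 0 → x ∈ E) (x : ι → F) :
    x ∈ E := by
  by_cases hx : Q x = 0
  swap
  · exact hE x hx
  obtain ⟨u, hu, hux, -⟩ := exists_value_perp hQ (S := sp {x}) (by have := finrank_span_one_le x; omega) (1 : F)
  have h1 : Q (x + u) ≠ 0 := by
    rw [QuadraticMap.map_add Q, hx, hu, hux x (Submodule.mem_span_singleton_self x), add_zero, zero_add]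
    exact one_ne_zero
  have := E.sub_mem (hE _ h1) (hE u (by rw [hu]; exact one_ne_zero))
  rwa [add_sub_cancel_right] at this

omit h2 in
theorem mem_of_singular {u : ι → F} (hn : 9 ≤ Fintype.card ι) (hu : Q u ≠ 0) (h2' : (2 : F) ≠ 0)
    {M : Submodule F (ι → F)} (hM : ∀ a, BQ u a = 0 → Q a = 0 → a ∈ M) {x : ι → F} (hx : BQ u x = 0) : x ∈ M := by
  by_cases hQx : Q x = 0
  · exact hM x hx hQx
  obtain ⟨d, hd, hdS, -⟩ := exists_value_perp hQ (S := sp {u} ⊔ sp {x})
    (by have := finrank_span_one_le u; have := finrank_sup_span_le (sp {u}) x; omega) (-(Q x))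
  have hdu : BQ u d = 0 := hdS u (Submodule.mem_sup_left (Submodule.mem_span_singleton_self u))
  have hdx : BQ x d = 0 := hdS x (Submodule.mem_sup_right (Submodule.mem_span_singleton_self x))
  have h1 := hM (x + d) (by rw [QuadraticMap.polar_add_right, hx, hdu, add_zero])
    (by rw [QuadraticMap.map_add Q, hd, hdx, add_neg_cancel, add_zero])
  have h3 := hM (x - d) (by rw [QuadraticMap.polar_sub_right, hx, hdu, sub_zero])
    (by rw [sub_eq_add_neg, QuadraticMap.map_add Q, QuadraticMap.map_neg, QuadraticMap.polar_neg_right, hd, hdx,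
      neg_zero, add_neg_cancel, add_zero])
  have h4 := M.smul_mem (2 : F)⁻¹ (M.add_mem h1 h3)
  rwa [show x + d + (x - d) = (2 : F) • x by module, smul_smul, inv_mul_cancel₀ h2', one_smul] at h4

theorem isMaximalIn_orth_sl (hn : 13 ≤ Fintype.card ι) :
    Cfsg.Geo.IsMaximalIn (Cfsg.Geo.specialLinear ι F)
      (Cfsg.Geo.quadSimilarityGroup ⇑Q ⊓ Cfsg.Geo.specialLinear ι F) := by
  classical
  have hI := isForm_quadratic Q hQ
  have hι : Nontrivial ι := Fintype.one_lt_card_iff_nontrivial.mp (by omega)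
  have hb0 : Module.finrank F (⊥ : Submodule F (ι → F)) = 0 := finrank_bot F _
  let T : (v w : ι → F) → BQ w v = 0 → GL ι F := fun v w h => fT (QuadraticMap.polarBilin Q w) v h
  have hT : ∀ v w h x, (T v w h : Matrix ι ι F) *ᵥ x = x + BQ w x • v := fun v w h x => fT_mulVec _ _ _ _
  refine ⟨lt_of_le_of_ne inf_le_right fun h => ?_, fun L hL hLS => ?_⟩
  · obtain ⟨v, hv, -, -⟩ := exists_value_perp hQ (S := (⊥ : Submodule F (ι → F))) (by omega) (1 : F)
    obtain ⟨w, hw, hwv, -⟩ := exists_value_perp hQ (S := sp {v}) (by have := finrank_span_one_le v; omega) (1 : F)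
    have h0 : BQ w v = 0 := by
      rw [QuadraticMap.polar_comm]; exact hwv v (Submodule.mem_span_singleton_self v)
    have h1 : T v w h0 ∈ Cfsg.Geo.quadSimilarityGroup ⇑Q ⊓ Cfsg.Geo.specialLinear ι F :=
      h.symm ▸ fT_mem_specialLinear _ _ _
    obtain ⟨c, hc⟩ := h1.1
    have h3 := hc v
    have h4 := hc w
    rw [hT, h0, zero_smul, add_zero, hv, mul_one] at h3
    rw [hT, q_line, hv, hw, h0, ← h3, one_mul, polar_self_two_mul, hw, mul_zero, add_zero, mul_one, mul_one] at h4
    exact mul_ne_zero h2 h2 (by linear_combination h4)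
  by_cases hle : L ≤ Cfsg.Geo.quadSimilarityGroup ⇑Q
  · exact Or.inl (le_antisymm (le_inf hle hLS) hL)
  obtain ⟨g, hg, hg'⟩ := SetLike.not_le_iff_exists.mp hle
  refine Or.inr (le_antisymm hLS ?_)
  let Pr : (ι → F) → (ι → F) → Prop := fun v w => ∃ h : BQ w v = 0, T v w h ∈ L
  have hconj : ∀ k ∈ L, (∀ u v, BQ ((k : Matrix ι ι F) *ᵥ u) ((k : Matrix ι ι F) *ᵥ v) = BQ u v) → ∀ v w, Pr v w →
      Pr ((k : Matrix ι ι F) *ᵥ v) ((k : Matrix ι ι F) *ᵥ w) := by
    rintro k hk hkQ v w ⟨h, hvw⟩
    refine ⟨by rw [hkQ, h], ?_⟩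
    rw [show T _ _ _ = k * T v w h * k⁻¹ by
      rw [eq_mul_inv_iff_mul_eq]
      refine gl_ext fun x => ?_
      rw [Units.val_mul, Units.val_mul, ← Matrix.mulVec_mulVec, ← Matrix.mulVec_mulVec, hT, hT, hkQ,
        Matrix.mulVec_add, Matrix.mulVec_smul]]
    exact L.mul_mem (L.mul_mem hk hvw) (L.inv_mem hk)
  have hconjAll : ∀ k ∈ L, ∀ v w, v ≠ 0 → w ≠ 0 → Pr v w →
      ∃ v' w', v' = (k : Matrix ι ι F) *ᵥ v ∧ w' ≠ 0 ∧ Pr v' w' := by
    rintro k hk v w hv hw ⟨h, hvw⟩
    obtain ⟨w', hw'⟩ := hI.exists_right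
      ((QuadraticMap.polarBilin Q w).comp (Matrix.toLin' ((k⁻¹ : GL ι F) : Matrix ι ι F)))
    have hw'' : ∀ x, BQ w' x = BQ w (((k⁻¹ : GL ι F) : Matrix ι ι F) *ᵥ x) := fun x => by
      rw [QuadraticMap.polar_comm]; exact (hw' x).trans (by simp)
    have h0 : BQ w' ((k : Matrix ι ι F) *ᵥ v) = 0 := by rw [hw'', (gl_cancel k v).2, h]
    refine ⟨_, w', rfl, fun h' => hw ?_, h0, ?_⟩
    · refine hI.nondeg w fun x => ?_
      show BQ w x = 0
      have h1 := hw'' ((k : Matrix ι ι F) *ᵥ x)
      rw [(gl_cancel k x).2, h'] at h1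
      rw [← h1, QuadraticMap.polar_zero_left]
    · rw [show T _ _ h0 = k * T v w h * k⁻¹ from gl_ext fun x => by
        rw [Units.val_mul, Units.val_mul, ← Matrix.mulVec_mulVec, ← Matrix.mulVec_mulVec, hT, hT, hw'',
          Matrix.mulVec_add, Matrix.mulVec_smul, (gl_cancel k x).1]]
      exact L.mul_mem (L.mul_mem hk hvw) (L.inv_mem hk)
  have haddR : ∀ v w w', Pr v w → Pr v w' → Pr v (w + w') := by
    rintro v w w' ⟨h, h1⟩ ⟨h', h3⟩
    refine ⟨by rw [QuadraticMap.polar_add_left, h, h', add_zero], ?_⟩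
    rw [show T v (w + w') _ = T v w h * T v w' h' from gl_ext fun x => by
      rw [Units.val_mul, ← Matrix.mulVec_mulVec, hT, hT, hT, QuadraticMap.polar_add_left,
        QuadraticMap.polar_add_right, QuadraticMap.polar_smul_right, h, smul_zero, add_zero]
      module]
    exact L.mul_mem h1 h3
  have haddL : ∀ v v' w, Pr v w → Pr v' w → Pr (v + v') w := by
    rintro v v' w ⟨h, h1⟩ ⟨h', h3⟩
    refine ⟨by rw [QuadraticMap.polar_add_right, h, h', add_zero], ?_⟩
    rw [show T (v + v') w _ = T v w h * T v' w h' from gl_ext fun x => by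
      rw [Units.val_mul, ← Matrix.mulVec_mulVec, hT, hT, hT, QuadraticMap.polar_add_right,
        QuadraticMap.polar_smul_right, h', smul_zero, add_zero]
      module]
    exact L.mul_mem h1 h3
  have hzero : ∀ v, Pr v 0 := fun v => ⟨QuadraticMap.polar_zero_left (Q := Q) v, by
    rw [show T v 0 _ = 1 from gl_ext fun x => by
      rw [hT, QuadraticMap.polar_zero_left, zero_smul, add_zero, Units.val_one, Matrix.one_mulVec]]
    exact L.one_mem⟩
  have hzero' : ∀ w, Pr 0 w := fun w => ⟨QuadraticMap.polar_zero_right (Q := Q) w, by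
    rw [show T 0 w _ = 1 from gl_ext fun x => by rw [hT, smul_zero, add_zero, Units.val_one, Matrix.one_mulVec]]
    exact L.one_mem⟩
  have hnegR : ∀ v w, Pr v w → Pr v (-w) := by
    rintro v w ⟨h, h1⟩
    refine ⟨by rw [QuadraticMap.polar_neg_left, h, neg_zero], ?_⟩
    rw [show T v (-w) _ = (T v w h)⁻¹ from eq_inv_of_mul_eq_one_left (gl_ext fun x => by
      rw [Units.val_mul, ← Matrix.mulVec_mulVec, hT, hT, QuadraticMap.polar_neg_left, QuadraticMap.polar_add_right,
        QuadraticMap.polar_smul_right, h, smul_zero, add_zero, Units.val_one, Matrix.one_mulVec]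
      module)]
    exact L.inv_mem h1
  have hscal : ∀ v w (r : F), r ≠ 0 → Pr v w → Pr (r • v) (r⁻¹ • w) := by
    rintro v w r hr ⟨h, h1⟩
    refine ⟨by rw [QuadraticMap.polar_smul_left, QuadraticMap.polar_smul_right, h, smul_zero, smul_zero], ?_⟩
    rw [show T (r • v) (r⁻¹ • w) _ = T v w h from gl_ext fun x => by
      rw [hT, hT, QuadraticMap.polar_smul_left, smul_eq_mul, smul_smul, mul_comm r⁻¹, mul_assoc, inv_mul_cancel₀ hr,
        mul_one]]
    exact h1
  have hnegL : ∀ v w, Pr v w → Pr (-v) w := by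
    intro v w h
    have h1 := hscal v (-w) (-1) (neg_ne_zero.mpr one_ne_zero) (hnegR v w h)
    rwa [neg_one_smul, inv_neg, inv_one, neg_one_smul, neg_neg] at h1
  have hout : ∀ u a, Q u ≠ 0 → a ≠ 0 → BQ u a = 0 → a ∉ sp {u} := by
    intro u a hu ha0 ha h
    obtain ⟨c, rfl⟩ := Submodule.mem_span_singleton.mp h
    rw [QuadraticMap.polar_smul_right, polar_self_two_mul, smul_eq_mul] at ha
    exact ha0 (by rw [(mul_eq_zero.mp ha).resolve_right (mul_ne_zero h2 hu), zero_smul])
  have hline : ∀ u a, BQ u a = 0 → ∀ x ∈ sp {u}, BQ x a = 0 := by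
    intro u a ha x hx
    obtain ⟨c, rfl⟩ := Submodule.mem_span_singleton.mp hx
    rw [QuadraticMap.polar_smul_left, ha, smul_zero]
  have hfill : ∀ (R : (ι → F) → Prop) (u : ι → F), Q u ≠ 0 →
      (∀ a b, R a → R b → R (a + b)) → R 0 → (∀ a, R a → R (-a)) →
      (∀ k ∈ L, (∀ u v, BQ ((k : Matrix ι ι F) *ᵥ u) ((k : Matrix ι ι F) *ᵥ v) = BQ u v) →
        (k : Matrix ι ι F) *ᵥ u = u → ∀ a, R a → R ((k : Matrix ι ι F) *ᵥ a)) →
      ∀ w, w ≠ 0 → BQ u w = 0 → R w → ∀ x, BQ u x = 0 → R x := by
    intro R u hu hadd h0 hneg hinv w hw0 hwu hw x hx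
    have hmv : ∀ a b, a ≠ 0 → b ≠ 0 → BQ u a = 0 → BQ u b = 0 → Q a = Q b → R a → R b := by
      intro a b ha0 hb0 ha hb hN hR
      obtain ⟨k, hk, hki, hkf, rfl⟩ := exists_rot_map hQ h2 (S := sp {u})
        (by have := finrank_span_one_le u; omega) (hline u a ha) (hline u b hb) (hout u a hu ha0 ha)
        (hout u b hu hb0 hb) hN
      exact hinv k (hL hk) hki (hkf u (Submodule.mem_span_singleton_self u)) a hR
    obtain ⟨d, hdu, hd0, hdd, hd⟩ : ∃ d, BQ u d = 0 ∧ d ≠ 0 ∧ Q d = 0 ∧ R d := by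
      by_cases hQw : Q w = 0
      · exact ⟨w, hwu, hw0, hQw, hw⟩
      obtain ⟨d, hQd, hd, hdS⟩ := exists_singular_out hQ (S := sp {u} ⊔ sp {w})
        (by have := finrank_span_one_le u; have := finrank_sup_span_le (sp {u}) w; omega)
      have hdu : BQ u d = 0 := hd u (Submodule.mem_sup_left (Submodule.mem_span_singleton_self u))
      have hdw : BQ w d = 0 := hd w (Submodule.mem_sup_right (Submodule.mem_span_singleton_self w))
      have hQ1 : Q (w + d) = Q w := by rw [QuadraticMap.map_add Q, hQd, hdw, add_zero, add_zero]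
      have hR := hmv w (w + d) hw0 (fun h => hQw (by rw [← hQ1, h, QuadraticMap.map_zero])) hwu
        (by rw [QuadraticMap.polar_add_right, hwu, hdu, add_zero]) hQ1.symm hw
      have := hadd _ _ hR (hneg w hw)
      rw [add_neg_cancel_comm] at this
      exact ⟨d, hdu, fun h => hdS (h ▸ Submodule.zero_mem _), hQd, this⟩
    have hall : ∀ a, BQ u a = 0 → Q a = 0 → R a := fun a hau haa => by
      rcases eq_or_ne a 0 with rfl | ha0
      · exact h0
      exact hmv d a hd0 ha0 hdu hau (hdd.trans haa.symm) hd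
    let A : AddSubgroup (ι → F) := AddSubgroup.closure {a | BQ u a = 0 ∧ Q a = 0}
    have hAR : ∀ a ∈ A, R a := fun a ha => by
      induction ha using AddSubgroup.closure_induction with
      | mem a ha => exact hall a ha.1 ha.2
      | zero => exact h0
      | add a b _ _ ha hb => exact hadd a b ha hb
      | neg a _ ha => exact hneg a ha
    let M : Submodule F (ι → F) :=
      { A with
        smul_mem' := fun c a ha => by
          induction ha using AddSubgroup.closure_induction with
          | mem a ha => exact AddSubgroup.subset_closure ⟨by rw [QuadraticMap.polar_smul_right, ha.1, smul_zero],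
              by rw [QuadraticMap.map_smul, ha.2, smul_zero]⟩
          | zero => rw [smul_zero]; exact A.zero_mem
          | add a b _ _ ha hb => rw [smul_add]; exact A.add_mem ha hb
          | neg a _ ha => rw [smul_neg]; exact A.neg_mem ha }
    exact hAR x (mem_of_singular hQ (by omega) hu h2 (M := M) (fun a ha haa => AddSubgroup.subset_closure ⟨ha, haa⟩) hx)
  -- a complete anisotropic centre
  have hA : ∀ v w, Q v ≠ 0 → w ≠ 0 → Pr v w → ∀ x y, BQ y x = 0 → Pr x y := by
    intro v w hvv hw0 hvw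
    have h1 : ∀ y, BQ v y = 0 → Pr v y := hfill (Pr v) v hvv (haddR v) (hzero v) (hnegR v)
      (fun k hk hki hku a ha => by have := hconj k hk hki v a ha; rwa [hku] at this) w hw0
      (by rw [QuadraticMap.polar_comm]; exact hvw.1) hvw
    -- all vectors of a given value
    have h3 : ∀ x, Q x = Q v → ∀ y, BQ y x = 0 → Pr x y := by
      intro x hQx y hy
      obtain ⟨k, hk, hki, -, hkx⟩ := exists_rot_map hQ h2 (S := (⊥ : Submodule F (ι → F))) (by omega)
        (a := v) (b := x) (fun z hz => by rw [(Submodule.mem_bot F).mp hz, QuadraticMap.polar_zero_left])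
        (fun z hz => by rw [(Submodule.mem_bot F).mp hz, QuadraticMap.polar_zero_left])
        (fun h => hvv (by rw [(Submodule.mem_bot F).mp h, QuadraticMap.map_zero]))
        (fun h => hvv (by rw [← hQx, (Submodule.mem_bot F).mp h, QuadraticMap.map_zero])) hQx.symm
      have h5 := hki v (((k⁻¹ : GL ι F) : Matrix ι ι F) *ᵥ y)
      rw [hkx, (gl_cancel k y).1, QuadraticMap.polar_comm, hy] at h5
      have h6 := hconj k (hL hk) hki v _ (h1 _ h5.symm)
      rwa [hkx, (gl_cancel k y).1] at h6
    -- every centre is a sum of two vectors of that value and one more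
    intro x y hxy
    obtain ⟨e, hQe, he, heS⟩ := exists_singular_out hQ (S := sp {x} ⊔ sp {y})
      (by have := finrank_span_one_le x; have := finrank_sup_span_le (sp {x}) y; omega)
    have hye : BQ y e = 0 := he y (Submodule.mem_sup_right (Submodule.mem_span_singleton_self y))
    have hxe : BQ x e = 0 := he x (Submodule.mem_sup_left (Submodule.mem_span_singleton_self x))
    obtain ⟨d, hyd, hed, hxd⟩ : ∃ d, BQ y d = 0 ∧ BQ e d = 1 ∧ BQ x d = -(Q x) := by
      obtain ⟨d0, hd0, hed0⟩ := hI.exists_perp_pairing (H := sp {x} ⊔ sp {y}) heS (1 : F)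
      simp only [QuadraticMap.polarBilin_apply_apply] at hd0 hed0
      have hyd0 : BQ y d0 = 0 := hd0 y (Submodule.mem_sup_right (Submodule.mem_span_singleton_self y))
      have hxd0 : BQ x d0 = 0 := hd0 x (Submodule.mem_sup_left (Submodule.mem_span_singleton_self x))
      by_cases hQx : Q x = 0
      · exact ⟨d0, hyd0, hed0, by rw [hxd0, hQx, neg_zero]⟩
      have hxS : x ∉ sp {y} ⊔ sp {e} := by
        intro h
        obtain ⟨p, hp, r, hr, hpr⟩ := Submodule.mem_sup.mp h
        obtain ⟨a, rfl⟩ := Submodule.mem_span_singleton.mp hp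
        obtain ⟨b, rfl⟩ := Submodule.mem_span_singleton.mp hr
        have h1 : a * (2 * Q y) = 0 := by
          have h4 := hxy
          rw [← hpr, QuadraticMap.polar_add_right, QuadraticMap.polar_smul_right, QuadraticMap.polar_smul_right,
            polar_self_two_mul, hye, smul_zero, add_zero] at h4
          exact h4
        apply hQx
        rw [← hpr, q_line, hQe, QuadraticMap.map_smul, QuadraticMap.polar_smul_left, hye, smul_zero, mul_zero,
          mul_zero, add_zero, add_zero, smul_eq_mul]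
        rcases mul_eq_zero.mp h1 with h1 | h1
        · rw [h1, zero_mul, zero_mul]
        · rw [(mul_eq_zero.mp h1).resolve_left h2, mul_zero]
      obtain ⟨p, hp, hxp⟩ := hI.exists_perp_pairing (H := sp {y} ⊔ sp {e}) hxS (-(Q x))
      simp only [QuadraticMap.polarBilin_apply_apply] at hp hxp
      exact ⟨d0 + p,
        by rw [QuadraticMap.polar_add_right, hyd0,
          hp y (Submodule.mem_sup_left (Submodule.mem_span_singleton_self y)), add_zero],
        by rw [QuadraticMap.polar_add_right, hed0,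
          hp e (Submodule.mem_sup_right (Submodule.mem_span_singleton_self e)), add_zero],
        by rw [QuadraticMap.polar_add_right, hxd0, hxp, zero_add]⟩
    have h4 := h3 (x + d + (Q v - Q d) • e)
      (by rw [q_line, hQe, QuadraticMap.polar_add_left, hxe, QuadraticMap.polar_comm (⇑Q) d e, hed,
        QuadraticMap.map_add Q, hxd]; ring)
      y (by rw [QuadraticMap.polar_add_right, QuadraticMap.polar_add_right, QuadraticMap.polar_smul_right, hxy, hyd,
        hye, smul_zero, add_zero, add_zero])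
    have h5 := h3 (d + (Q v - Q d) • e)
      (by rw [q_line, hQe, QuadraticMap.polar_comm (⇑Q) d e, hed]; ring)
      y (by rw [QuadraticMap.polar_add_right, QuadraticMap.polar_smul_right, hyd, hye, smul_zero, add_zero])
    have h6 := haddL _ _ y h4 (hnegL _ y h5)
    convert h6 using 1
    abel
  suffices hall : ∀ x y, BQ y x = 0 → Pr x y by
    refine specialLinear_le_of_fT (fun φ v hφ => ?_) hι
    obtain ⟨z, hz⟩ := hI.exists_right φ
    have hz' : ∀ x, BQ z x = φ x := fun x => by rw [QuadraticMap.polar_comm]; exact hz x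
    obtain ⟨h, h1⟩ := hall v z ((hz' v).trans hφ)
    rwa [show fT φ v hφ = T v z h from gl_ext fun x => by rw [fT_mulVec, hT, hz']]
  -- any transvection gives an anisotropic centre
  have hC : ∀ v w, v ≠ 0 → w ≠ 0 → Pr v w → ∀ x y, BQ y x = 0 → Pr x y := by
    intro v w hv0 hw0 hvw
    by_cases hvv : Q v = 0
    swap
    · exact hA v w hvv hw0 hvw
    have hB : ∀ v w, Q w ≠ 0 → v ≠ 0 → Pr v w → ∀ x y, BQ y x = 0 → Pr x y := by
      intro v w hww hv0 hvw
      obtain ⟨x, hQx, hxw, -⟩ := exists_value_perp hQ (S := sp {w}) (by have := finrank_span_one_le w; omega) (1 : F)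
      refine hA x w (by rw [hQx]; exact one_ne_zero) (fun h => hww (by rw [h, QuadraticMap.map_zero]))
        (hfill (Pr · w) w hww (fun a b => haddL a b w) (hzero' w) (fun a => hnegL a w)
          (fun k hk hki hku a ha => by have := hconj k hk hki a w ha; rwa [hku] at this) v hv0 hvw.1 hvw x
          (hxw w (Submodule.mem_span_singleton_self w)))
    by_cases hww : Q w = 0
    swap
    · exact hB v w hww hv0 hvw
    by_cases hpar : w ∈ sp {v}
    · obtain ⟨c, rfl⟩ := Submodule.mem_span_singleton.mp hpar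
      have hc0 : c ≠ 0 := fun h => hw0 (by rw [h, zero_smul])
      obtain ⟨d, hd⟩ := hI.exists_pairing hv0 (1 : F)
      simp only [QuadraticMap.polarBilin_apply_apply] at hd
      set u := d - Q d • v with hudef
      have hvu : BQ v u = 1 := by
        rw [QuadraticMap.polar_sub_right, QuadraticMap.polar_smul_right, polar_self_two_mul, hvv, mul_zero, smul_zero,
          sub_zero, hd]
      have hQu : Q u = 0 := by
        rw [hudef, sub_eq_add_neg, ← neg_smul, q_line, hvv, QuadraticMap.polar_comm (⇑Q) d v, hd]; ring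
      have hu0 : u ≠ 0 := fun h => by rw [h, QuadraticMap.polar_zero_right] at hvu; exact zero_ne_one hvu
      obtain ⟨k, hk, hki, -, hkx⟩ := exists_rot_map hQ h2 (S := (⊥ : Submodule F (ι → F))) (by omega)
        (a := v) (b := u) (fun z hz => by rw [(Submodule.mem_bot F).mp hz, QuadraticMap.polar_zero_left])
        (fun z hz => by rw [(Submodule.mem_bot F).mp hz, QuadraticMap.polar_zero_left])
        (fun h => hv0 ((Submodule.mem_bot F).mp h)) (fun h => hu0 ((Submodule.mem_bot F).mp h)) (hvv.trans hQu.symm)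
      have h1 := hconj k (hL hk) hki _ _ hvw
      rw [hkx, Matrix.mulVec_smul, hkx] at h1
      obtain ⟨hvw0, hvwL⟩ := hvw
      obtain ⟨v', w', hv', hw', hPr⟩ := hconjAll _ hvwL u (c • u) hu0 (smul_ne_zero hc0 hu0) h1
      refine hA v' w' ?_ hw' hPr
      rw [hv', hT, QuadraticMap.polar_smul_left, hvu, smul_eq_mul, mul_one, q_line, hQu, hvv,
        QuadraticMap.polar_comm (⇑Q) u v, hvu]
      simpa using hc0
    · obtain ⟨d, hd, hdw⟩ := hI.exists_perp_pairing (H := sp {v}) hpar (1 : F)
      simp only [QuadraticMap.polarBilin_apply_apply] at hd hdw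
      set w2 := d - Q d • w with hw2def
      have hvd : BQ v d = 0 := hd v (Submodule.mem_span_singleton_self v)
      have hwv : BQ w v = 0 := hvw.1
      have hQw2 : Q w2 = 0 := by
        rw [hw2def, sub_eq_add_neg, ← neg_smul, q_line, hww, QuadraticMap.polar_comm (⇑Q) d w, hdw]; ring
      have hww2 : BQ w w2 = 1 := by
        rw [QuadraticMap.polar_sub_right, QuadraticMap.polar_smul_right, polar_self_two_mul, hww, mul_zero, smul_zero,
          sub_zero, hdw]
      have hw2v : BQ v w2 = 0 := by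
        rw [QuadraticMap.polar_sub_right, QuadraticMap.polar_smul_right, hvd, QuadraticMap.polar_comm (⇑Q) v w, hwv,
          smul_zero, sub_zero]
      have hw2S : w2 ∉ sp {v} := by
        intro h
        obtain ⟨c, hc⟩ := Submodule.mem_span_singleton.mp h
        rw [← hc, QuadraticMap.polar_smul_right, hwv, smul_zero] at hww2
        exact zero_ne_one hww2
      obtain ⟨k, hk, hki, hkf, hkx⟩ := exists_rot_map hQ h2 (S := sp {v}) (by have := finrank_span_one_le v; omega)
        (hline v w (by rw [QuadraticMap.polar_comm]; exact hwv)) (hline v w2 hw2v) hpar hw2S (hww.trans hQw2.symm)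
      have h1 := hconj k (hL hk) hki v w hvw
      rw [hkf v (Submodule.mem_span_singleton_self v), hkx] at h1
      refine hB v (w + w2) ?_ hv0 (haddR v w w2 hvw h1)
      rw [QuadraticMap.map_add Q, hww, hQw2, hww2, zero_add, zero_add]
      exact one_ne_zero
  -- the adjoint of g
  let G := Matrix.toLin' (g : Matrix ι ι F)
  let G' := Matrix.toLin' ((g⁻¹ : GL ι F) : Matrix ι ι F)
  have hG'G : ∀ x, G' (G x) = x := fun x => by simp only [G, G', Matrix.toLin'_apply]; exact (gl_cancel g x).2
  have hψ : ∀ z, ∃ w, ∀ x, BQ w x = BQ z (G' x) := fun z => by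
    obtain ⟨w, hw⟩ := hI.exists_right ((QuadraticMap.polarBilin Q z).comp G')
    exact ⟨w, fun x => by rw [QuadraticMap.polar_comm]; exact hw x⟩
  choose ψ hψ using hψ
  have huniq : ∀ a b : ι → F, (∀ x, BQ a x = BQ b x) → a = b := fun a b h => by
    refine sub_eq_zero.mp (hI.nondeg (a - b) fun x => ?_)
    show BQ (a - b) x = 0
    rw [QuadraticMap.polar_sub_left, h, sub_self]
  -- the operator measuring the failure of g to be a similarity
  let N : (ι → F) →ₗ[F] (ι → F) :=
    { toFun := fun z => G' (ψ z)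
      map_add' := fun a b => by
        rw [← map_add]; congr 1
        exact huniq _ _ fun x => by
          rw [hψ, QuadraticMap.polar_add_left, QuadraticMap.polar_add_left, hψ, hψ]
      map_smul' := fun c a => by
        rw [RingHom.id_apply, ← map_smul]; congr 1
        exact huniq _ _ fun x => by
          rw [hψ, QuadraticMap.polar_smul_left, QuadraticMap.polar_smul_left, hψ] }
  by_cases hscalar : ∀ x y, Q x ≠ 0 → Q y ≠ 0 → N x ∈ sp {x} ⊔ sp {y} ⊔ sp {N y}
  swap
  · push_neg at hscalar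
    obtain ⟨x₀, y, hx₀, hy, hxy⟩ := hscalar
    set x := ((reflGL Q y : GL ι F) : Matrix ι ι F) *ᵥ x₀ with hxdef
    have hxx : Q x ≠ 0 := by rwa [hxdef, mem_isometryGroup_iff.mp (reflGL Q y).2]
    have hinv : ((reflGL Q y : GL ι F) : Matrix ι ι F) *ᵥ x = x₀ := by
      rw [hxdef, Matrix.mulVec_mulVec, ← Units.val_mul, ← Subgroup.coe_mul]
      rw [show reflGL Q y * reflGL Q y = 1 from mul_eq_one_iff_eq_inv.mpr (reflGL_inv Q y).symm]
      simp
    have hadj : ∀ z, BQ x (((reflGL Q y : GL ι F) : Matrix ι ι F) *ᵥ z) = BQ x₀ z := fun z => by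
      rw [← hinv]
      have hz := mem_isometryGroup_iff.mp (reflGL Q y).2
      conv_rhs => rw [QuadraticMap.polar]
      rw [hinv, QuadraticMap.polar, hxdef, ← Matrix.mulVec_add, hz, hz, hz]
    -- a special element fixing three vectors and moving the fourth
    set S := sp {G x} ⊔ sp {G y} ⊔ sp {ψ y} with hSdef
    have hSdim : Module.finrank F S ≤ 3 := by
      show Module.finrank F ↥(sp {G x} ⊔ sp {G y} ⊔ sp {ψ y}) ≤ 3
      have := finrank_sup_span_le (sp {G x} ⊔ sp {G y}) (ψ y)
      have := finrank_sup_span_le (sp {G x}) (G y)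
      have := finrank_span_one_le (G x)
      omega
    have hbS : ψ x₀ ∉ S := by
      intro h
      apply hxy
      obtain ⟨p, hp, r, hr, hpr⟩ := Submodule.mem_sup.mp h
      obtain ⟨p1, hp1, p2, hp2, rfl⟩ := Submodule.mem_sup.mp hp
      obtain ⟨a1, rfl⟩ := Submodule.mem_span_singleton.mp hp1
      obtain ⟨a2, rfl⟩ := Submodule.mem_span_singleton.mp hp2
      obtain ⟨a3, rfl⟩ := Submodule.mem_span_singleton.mp hr
      show G' (ψ x₀) ∈ _
      rw [← hpr]
      simp only [map_add, map_smul, hG'G]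
      have hx : x ∈ sp {x₀} ⊔ sp {y} := by
        rw [hxdef, reflGL_mulVec]
        exact sub_mem (Submodule.mem_sup_left (Submodule.mem_span_singleton_self x₀))
          (Submodule.smul_mem _ _ (Submodule.mem_sup_right (Submodule.mem_span_singleton_self y)))
      exact add_mem (add_mem (Submodule.smul_mem _ _ (Submodule.mem_sup_left hx))
        (Submodule.smul_mem _ _ (Submodule.mem_sup_left (Submodule.mem_sup_right (Submodule.mem_span_singleton_self y)))))
        (Submodule.smul_mem _ _ (Submodule.mem_sup_right (Submodule.mem_span_singleton_self _)))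
    obtain ⟨d, hd, hbd⟩ := hI.exists_perp_pairing hbS (1 : F)
    simp only [QuadraticMap.polarBilin_apply_apply] at hd hbd
    have hSb : 2 * Module.finrank F ↥(S ⊔ sp {ψ x₀}) + 3 ≤ Fintype.card ι := by
      have := finrank_sup_span_le S (ψ x₀)
      omega
    obtain ⟨z, hQz, hz, -⟩ := exists_value_perp hQ hSb (1 : F)
    obtain ⟨p, hpS, hpb, hQp⟩ : ∃ p, (∀ a ∈ S, BQ a p = 0) ∧ BQ (ψ x₀) p = 1 ∧ Q p ≠ 0 := by
      by_cases hQd : Q d = 0
      · have hzS : ∀ a ∈ S, BQ a z = 0 := fun a ha => hz a (Submodule.mem_sup_left ha)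
        have hzb : BQ (ψ x₀) z = 0 := hz _ (Submodule.mem_sup_right (Submodule.mem_span_singleton_self _))
        by_cases hdz : BQ d z = -1
        · refine ⟨d - z, fun a ha => by rw [QuadraticMap.polar_sub_right, hd a ha, hzS a ha, sub_zero],
            by rw [QuadraticMap.polar_sub_right, hbd, hzb, sub_zero], ?_⟩
          rw [sub_eq_add_neg, QuadraticMap.map_add Q, QuadraticMap.map_neg, QuadraticMap.polar_neg_right, hQd, hQz, hdz]
          intro h; exact h2 (by linear_combination h)
        · refine ⟨d + z, fun a ha => by rw [QuadraticMap.polar_add_right, hd a ha, hzS a ha, add_zero],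
            by rw [QuadraticMap.polar_add_right, hbd, hzb, add_zero], ?_⟩
          rw [QuadraticMap.map_add Q, hQd, hQz]
          intro h; exact hdz (by linear_combination h)
      · exact ⟨d, hd, hbd, hQd⟩
    obtain ⟨r, hQr, hr, -⟩ := exists_value_perp hQ (S := S ⊔ sp {ψ x₀})
      (by have := finrank_sup_span_le S (ψ x₀); omega) (1 : F)
    have hk := hL (rot_mem h2 hQp (show Q r ≠ 0 by rw [hQr]; exact one_ne_zero))
    set k := rot Q p r with hkdef
    have hkS : ∀ a ∈ S, (k : Matrix ι ι F) *ᵥ a = a := fun a ha => by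
      rw [hkdef, rot, Units.val_mul, ← Matrix.mulVec_mulVec,
        refl_fix (v := r) (by rw [QuadraticMap.polar_comm, hr a (Submodule.mem_sup_left ha)]),
        refl_fix (v := p) (by rw [QuadraticMap.polar_comm, hpS a ha])]
    have hkb : (k : Matrix ι ι F) *ᵥ ψ x₀ = ψ x₀ - (Q p)⁻¹ • p := by
      rw [hkdef, rot, Units.val_mul, ← Matrix.mulVec_mulVec,
        refl_fix (v := r) (by rw [QuadraticMap.polar_comm, hr _ (Submodule.mem_sup_right (Submodule.mem_span_singleton_self _))]),
        reflGL_mulVec, QuadraticMap.polar_comm (⇑Q) p, hpb, mul_one]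
    have hki : ∀ u v, BQ ((k : Matrix ι ι F) *ᵥ u) ((k : Matrix ι ι F) *ᵥ v) = BQ u v := fun u v => by
      have h : ∀ w, Q ((k : Matrix ι ι F) *ᵥ w) = Q w := fun w => by
        rw [hkdef, rot, Units.val_mul, ← Matrix.mulVec_mulVec, mem_isometryGroup_iff.mp (reflGL Q p).2,
          mem_isometryGroup_iff.mp (reflGL Q r).2]
      simp only [QuadraticMap.polar, ← Matrix.mulVec_add, h]
    -- the conjugate rotation
    set U := g * rot Q x y * g⁻¹ with hUdef
    have hU : ∀ z, (U : Matrix ι ι F) *ᵥ z =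
        z - ((Q y)⁻¹ * BQ (ψ y) z) • G y - ((Q x)⁻¹ * BQ (ψ x₀) z) • G x := fun z => by
      have h1 := rot_mulVec (Q := Q) x y (((g⁻¹ : GL ι F) : Matrix ι ι F) *ᵥ z)
      rw [show ∀ t, t - ((Q y)⁻¹ * BQ y t) • y = ((reflGL Q y : GL ι F) : Matrix ι ι F) *ᵥ t from
        fun t => (reflGL_mulVec Q y t).symm, hadj] at h1
      rw [hUdef, Units.val_mul, Units.val_mul, ← Matrix.mulVec_mulVec, ← Matrix.mulVec_mulVec, h1, reflGL_mulVec,
        hψ, hψ]
      simp only [G, G', Matrix.toLin'_apply, Matrix.mulVec_sub, Matrix.mulVec_smul]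
      rw [(gl_cancel g z).1]
    have hUL : U ∈ L := L.mul_mem (L.mul_mem hg (hL (rot_mem h2 hxx hy))) (L.inv_mem hg)
    clear_value U k
    have hGx : G x ≠ 0 := fun h => hxx (by rw [← hG'G x, h, map_zero, QuadraticMap.map_zero])
    -- k U k⁻¹ = T U
    set c := (Q x)⁻¹ * (Q p)⁻¹ with hcdef
    have hw0 : BQ (c • p) (G x) = 0 := by
      rw [QuadraticMap.polar_smul_left, QuadraticMap.polar_comm,
        hpS _ (Submodule.mem_sup_left (Submodule.mem_sup_left (Submodule.mem_span_singleton_self _))), smul_zero]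
    have hw1 : BQ (c • p) (G y) = 0 := by
      rw [QuadraticMap.polar_smul_left, QuadraticMap.polar_comm,
        hpS _ (Submodule.mem_sup_left (Submodule.mem_sup_right (Submodule.mem_span_singleton_self _))), smul_zero]
    have hTU : k * U = T (G x) (c • p) hw0 * U * k := gl_ext fun z => by
      rw [Units.val_mul, Units.val_mul, Units.val_mul, ← Matrix.mulVec_mulVec, ← Matrix.mulVec_mulVec,
        ← Matrix.mulVec_mulVec, hU, hU, hT]
      have e1 : BQ (ψ y) ((k : Matrix ι ι F) *ᵥ z) = BQ (ψ y) z := by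
        conv_lhs => rw [← hkS _ (Submodule.mem_sup_right (Submodule.mem_span_singleton_self (ψ y))), hki]
      have e2 : BQ (ψ x₀) ((k : Matrix ι ι F) *ᵥ z) = BQ (ψ x₀) z + (Q p)⁻¹ * BQ p ((k : Matrix ι ι F) *ᵥ z) := by
        have := hki (ψ x₀) z
        rw [hkb, QuadraticMap.polar_sub_left, QuadraticMap.polar_smul_left, smul_eq_mul] at this
        linear_combination this
      rw [e1, e2, Matrix.mulVec_sub, Matrix.mulVec_sub, Matrix.mulVec_smul, Matrix.mulVec_smul,
        hkS _ (Submodule.mem_sup_left (Submodule.mem_sup_left (Submodule.mem_span_singleton_self _))),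
        hkS _ (Submodule.mem_sup_left (Submodule.mem_sup_right (Submodule.mem_span_singleton_self _))),
        QuadraticMap.polar_sub_right, QuadraticMap.polar_sub_right, QuadraticMap.polar_smul_right,
        QuadraticMap.polar_smul_right, hw0, hw1, smul_zero, smul_zero, sub_zero, sub_zero, QuadraticMap.polar_smul_left,
        smul_eq_mul, hcdef]
      module
    refine hC (G x) (c • p) hGx (smul_ne_zero (mul_ne_zero (inv_ne_zero hxx) (inv_ne_zero hQp))
      fun h => hQp (by rw [h, QuadraticMap.map_zero])) ⟨hw0, ?_⟩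
    rw [show T (G x) (c • p) hw0 = k * U * k⁻¹ * U⁻¹ by rw [hTU]; group]
    exact L.mul_mem (L.mul_mem (L.mul_mem hk hUL) (L.inv_mem hk)) (L.inv_mem hUL)
  -- otherwise the operator is a scalar
  exfalso
  have hEfull : ∀ y, Q y ≠ 0 → ∃ l : F, ∀ v, N v - l • v ∈ sp {y} ⊔ sp {N y} := by
    intro y hy
    set T := sp {y} ⊔ sp {N y} with hTdef
    have hTdim : Module.finrank F T ≤ 2 := by
      show Module.finrank F ↥(sp {y} ⊔ sp {N y}) ≤ 2
      have := finrank_sup_span_le (sp {y}) (N y)
      have := finrank_span_one_le y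
      omega
    have hsplit : ∀ x, Q x ≠ 0 → ∃ a : F, N x - a • x ∈ T := by
      intro x hx
      have h1 := hscalar x y hx hy
      rw [sup_assoc] at h1
      obtain ⟨p, hp, t, ht, hpt⟩ := Submodule.mem_sup.mp h1
      obtain ⟨a, rfl⟩ := Submodule.mem_span_singleton.mp hp
      refine ⟨a, ?_⟩
      rw [← hpt, add_sub_cancel_left]
      exact ht
    obtain ⟨x0, hQx0, -, hx0T⟩ := exists_value_perp hQ (S := T) (by omega) (1 : F)
    have hx0 : Q x0 ≠ 0 := by rw [hQx0]; exact one_ne_zero
    obtain ⟨l, hl⟩ := hsplit x0 hx0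
    let E : Submodule F (ι → F) := T.comap (N - l • LinearMap.id)
    have hEmem : ∀ v, v ∈ E ↔ N v - l • v ∈ T := fun v => Iff.rfl
    refine ⟨l, fun v => (hEmem v).mp (span_aniso hQ (by omega) (E := E) (fun x hx => ?_) v)⟩
    have hpair : ∀ x v, Q x ≠ 0 → v ∈ E → x ∉ T → v ∉ T ⊔ sp {x} → BQ x v ≠ 0 → x ∈ E := by
      intro x v hx hv hxT hvT hxv
      obtain ⟨a, ha⟩ := hsplit x hx
      obtain ⟨ε, hε, hε0⟩ : ∃ ε : F, Q (x + ε • v) ≠ 0 ∧ ε ≠ 0 := by
        by_cases h : Q (x + (1 : F) • v) = 0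
        · refine ⟨-1, fun h' => mul_ne_zero h2 hxv ?_, neg_ne_zero.mpr one_ne_zero⟩
          rw [q_line] at h h'
          linear_combination h - h'
        · exact ⟨1, h, one_ne_zero⟩
      obtain ⟨b, hb⟩ := hsplit _ hε
      have h3 : (a - b) • x + (ε * (l - b)) • v ∈ T := by
        have h4 := T.add_mem (T.sub_mem hb ha) (T.smul_mem (-ε) hv)
        convert h4 using 1
        show _ = N (x + ε • v) - b • (x + ε • v) - (N x - a • x) + (-ε) • (N v - l • v)
        rw [map_add, map_smul]
        module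
      have hlb : l - b = 0 := by
        by_contra hne
        have h4 : (ε * (l - b)) • v ∈ T ⊔ sp {x} := by
          have h5 := (T ⊔ sp {x}).sub_mem (Submodule.mem_sup_left h3)
            (Submodule.smul_mem _ (a - b) (Submodule.mem_sup_right (Submodule.mem_span_singleton_self x)))
          rwa [add_sub_cancel_left] at h5
        rw [Submodule.smul_mem_iff _ (mul_ne_zero hε0 hne)] at h4
        exact hvT h4
      rw [hlb, mul_zero, zero_smul, add_zero] at h3
      have hab : a - b = 0 := by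
        by_contra hne
        rw [Submodule.smul_mem_iff _ hne] at h3
        exact hxT h3
      rw [hEmem, show l = a by linear_combination hlb - hab]
      exact ha
    by_cases hxT : x ∈ T
    · obtain ⟨a, ha⟩ := hsplit x hx
      rw [hEmem, show N x - l • x = (N x - a • x) + (a - l) • x by module]
      exact T.add_mem ha (T.smul_mem _ hxT)
    by_cases hxx0 : x ∈ sp {x0}
    · obtain ⟨c, rfl⟩ := Submodule.mem_span_singleton.mp hxx0
      exact E.smul_mem c ((hEmem x0).mpr hl)
    set S := T ⊔ sp {x0} ⊔ sp {x}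
    have hSdim : 2 * Module.finrank F S + 3 ≤ Fintype.card ι := by
      show 2 * Module.finrank F ↥(T ⊔ sp {x0} ⊔ sp {x}) + 3 ≤ _
      have := finrank_sup_span_le (T ⊔ sp {x0}) x
      have := finrank_sup_span_le T x0
      omega
    obtain ⟨e, hQe, he, heS⟩ := exists_singular_out hQ hSdim
    have hxS : x ∈ S := Submodule.mem_sup_right (Submodule.mem_span_singleton_self x)
    have hx0S : x0 ∈ S := Submodule.mem_sup_left (Submodule.mem_sup_right (Submodule.mem_span_singleton_self x0))
    obtain ⟨d1, hd1, hxd1⟩ := hI.exists_perp_pairing (H := sp {x0}) hxx0 (1 - BQ x x0)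
    obtain ⟨d2, hd2, hed2⟩ := hI.exists_perp_pairing (H := S) heS (1 - BQ e d1)
    simp only [QuadraticMap.polarBilin_apply_apply] at hd1 hxd1 hd2 hed2
    set d := d1 + d2 with hddef
    have hed : BQ e d = 1 := by rw [hddef, QuadraticMap.polar_add_right, hed2, add_sub_cancel]
    have hx0d : BQ x0 d = 0 := by
      rw [hddef, QuadraticMap.polar_add_right, hd1 x0 (Submodule.mem_span_singleton_self x0), hd2 x0 hx0S, add_zero]
    have hxd : BQ x d = 1 - BQ x x0 := by rw [hddef, QuadraticMap.polar_add_right, hxd1, hd2 x hxS, add_zero]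
    set v := x0 + (d + (-(Q d)) • e) with hvdef
    have hQv : Q v = 1 := by
      rw [hvdef, QuadraticMap.map_add Q, q_line, hQe, QuadraticMap.polar_comm (⇑Q) d e, hed,
        QuadraticMap.polar_add_right, QuadraticMap.polar_smul_right, hx0d, he x0 hx0S, hQx0]
      simp
    have hev : BQ e v = 1 := by
      rw [hvdef, QuadraticMap.polar_add_right, QuadraticMap.polar_add_right, QuadraticMap.polar_smul_right,
        polar_self_two_mul, hQe, QuadraticMap.polar_comm (⇑Q) e x0, he x0 hx0S, hed]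
      simp
    have hvS : v ∉ S := fun h => by
      have h1 := he v h
      rw [QuadraticMap.polar_comm, hev] at h1
      exact one_ne_zero h1
    have hxv : BQ x v = 1 := by
      rw [hvdef, QuadraticMap.polar_add_right, QuadraticMap.polar_add_right, QuadraticMap.polar_smul_right, hxd,
        he x hxS]
      simp
    have hvE : v ∈ E := by
      refine hpair v x0 (by rw [hQv]; exact one_ne_zero) ((hEmem x0).mpr hl)
        (fun h => hvS (Submodule.mem_sup_left (Submodule.mem_sup_left h))) (fun h => ?_) ?_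
      · obtain ⟨t, ht, r, hr, htr⟩ := Submodule.mem_sup.mp h
        obtain ⟨c, rfl⟩ := Submodule.mem_span_singleton.mp hr
        rcases eq_or_ne c 0 with rfl | hc
        · rw [zero_smul, add_zero] at htr; exact hx0T (htr ▸ ht)
        apply hvS
        have h5 : c • v ∈ S := by
          rw [show c • v = x0 - t by rw [← htr]; abel]
          exact S.sub_mem hx0S (Submodule.mem_sup_left (Submodule.mem_sup_left ht))
        rwa [Submodule.smul_mem_iff _ hc] at h5
      · rw [QuadraticMap.polar_comm, hvdef, QuadraticMap.polar_add_right, polar_self_two_mul, hQx0,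
          QuadraticMap.polar_add_right, QuadraticMap.polar_smul_right, hx0d, he x0 hx0S]
        simpa using h2
    refine hpair x v hx hvE hxT (fun h => hvS ?_) (by rw [hxv]; exact one_ne_zero)
    exact (sup_le (le_sup_left.trans le_sup_left) le_sup_right : T ⊔ sp {x} ≤ S) h
  -- a common eigenvalue
  obtain ⟨y, hQy, -, -⟩ := exists_value_perp hQ (S := (⊥ : Submodule F (ι → F))) (by omega) (1 : F)
  obtain ⟨l, hl⟩ := hEfull y (by rw [hQy]; exact one_ne_zero)
  set K := LinearMap.ker (N - l • LinearMap.id) with hKdef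
  have hK : ∀ v, v ∈ K ↔ N v = l • v := fun v => by
    rw [hKdef, LinearMap.mem_ker, LinearMap.sub_apply, sub_eq_zero]; rfl
  set R := perp (QuadraticMap.polarBilin Q) K
  have hR : Module.finrank F R ≤ 2 := by
    have h1 := LinearMap.finrank_range_add_finrank_ker (N - l • LinearMap.id)
    have h3 : LinearMap.range (N - l • LinearMap.id) ≤ sp {y} ⊔ sp {N y} := by
      rintro _ ⟨v, rfl⟩; exact hl v
    have h4 := Submodule.finrank_mono h3
    have h5 := finrank_sup_span_le (sp {y}) (N y)
    have h6 := finrank_span_one_le y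
    have h7 := hI.finrank_perp K
    rw [← hKdef] at h1
    show Module.finrank F ↥(perp (QuadraticMap.polarBilin Q) K) ≤ 2
    omega
  have hRK : ∀ u, (∀ r ∈ R, BQ r u = 0) → u ∈ K := fun u hu => by
    rw [← hI.perp_perp K]; exact hu
  obtain ⟨y1, hQy1, hy1, -⟩ := exists_value_perp hQ (S := R) (by omega) (1 : F)
  obtain ⟨y2, hQy2, hy2, hy2S⟩ := exists_value_perp hQ (S := R ⊔ sp {y1})
    (by have := finrank_sup_span_le R y1; omega) (1 : F)
  have hy2' : ∀ r ∈ R, BQ r y2 = 0 := fun r hr => hy2 r (Submodule.mem_sup_left hr)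
  have hy21 : BQ y1 y2 = 0 := hy2 y1 (Submodule.mem_sup_right (Submodule.mem_span_singleton_self y1))
  have hline1 : ∀ w u, u ∈ K → Q w = 1 → Q u = 1 → w ∈ K → BQ w u = 0 → ∀ v, N v - l • v ∈ sp {w} := by
    intro w u hu hQw hQu hw hwu v
    obtain ⟨l1, hl1⟩ := hEfull w (by rw [hQw]; exact one_ne_zero)
    have hT : sp {w} ⊔ sp {N w} ≤ sp {w} := by
      refine sup_le le_rfl ((Submodule.span_singleton_le_iff_mem _ _).mpr ?_)
      rw [(hK w).mp hw]
      exact Submodule.smul_mem _ _ (Submodule.mem_span_singleton_self w)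
    have h3 := hT (hl1 u)
    rw [(hK u).mp hu, ← sub_smul] at h3
    obtain ⟨c, hc⟩ := Submodule.mem_span_singleton.mp h3
    have h4 := congrArg (fun x => BQ u x) hc
    simp only [QuadraticMap.polar_smul_right, polar_self_two_mul, hQu, QuadraticMap.polar_comm (⇑Q) u w, hwu,
      smul_eq_mul, mul_zero, mul_one] at h4
    have hll : l - l1 = 0 := (mul_eq_zero.mp h4.symm).resolve_right h2
    have h5 := hT (hl1 v)
    rwa [show l1 = l by linear_combination -hll] at h5
  have hN : ∀ v, N v = l • v := by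
    intro v
    obtain ⟨c1, hc1⟩ := Submodule.mem_span_singleton.mp
      (hline1 y1 y2 (hRK y2 hy2') hQy1 hQy2 (hRK y1 hy1) hy21 v)
    obtain ⟨c2, hc2⟩ := Submodule.mem_span_singleton.mp
      (hline1 y2 y1 (hRK y1 hy1) hQy2 hQy1 (hRK y2 hy2') (by rw [QuadraticMap.polar_comm, hy21]) v)
    rcases eq_or_ne c2 0 with rfl | hc
    · rw [zero_smul, eq_comm, sub_eq_zero] at hc2; exact hc2
    · refine absurd (Submodule.mem_sup_right ?_) hy2S
      rw [show y2 = (c2⁻¹ * c1) • y1 by rw [← smul_smul, hc1, ← hc2, smul_smul, inv_mul_cancel₀ hc, one_smul]]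
      exact Submodule.smul_mem _ _ (Submodule.mem_span_singleton_self y1)
  have hsim : ∀ z x, BQ z x = l * BQ (G z) (G x) := fun z x => by
    conv_lhs => rw [← hG'G x]
    rw [← hψ z (G x)]
    have h1 : ψ z = l • G z := by
      have h3 : G (G' (ψ z)) = ψ z := by simp only [G, G', Matrix.toLin'_apply]; exact (gl_cancel g _).1
      rw [← h3, show G' (ψ z) = l • z from hN z, map_smul]
    rw [h1, QuadraticMap.polar_smul_left, smul_eq_mul]
  have hl0 : l ≠ 0 := fun h => by
    have h1 := hsim y y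
    rw [h, zero_mul, polar_self_two_mul, hQy, mul_one] at h1
    exact h2 h1
  refine hg' ⟨(Units.mk0 l hl0)⁻¹, fun v => ?_⟩
  rw [Units.val_inv_eq_inv_val, Units.val_mk0]
  have h1 := hsim v v
  rw [polar_self_two_mul, polar_self_two_mul] at h1
  have h3 : Q v = l * Q (G v) := mul_left_cancel₀ h2 (by linear_combination h1)
  rw [h3, ← mul_assoc, inv_mul_cancel₀ hl0, one_mul]
  rfl

end

end Cfsg.Agent.GeomClasses
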