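import Cfsg.Agent.GeomClasses.SympMax
import Cfsg.Agent.Forms.Siegel

/-! # Orthogonal groups are maximal in symplectic groups in characteristic two -/

set_option autoImplicit false

namespace Cfsg.Agent.GeomClasses

open Matrix Cfsg.Agent.Forms

variable {F : Type*} [Field F] [Fintype F] {m : ℕ}

local notation "V" => (Fin m ⊕ Fin m → F)
local notation "BB" => sympB m F

theorem two_eq_zero_of_not_odd (heven : ¬ Odd (Fintype.card F)) : (2 : F) = 0 := by
  have h : ringChar F = 2 := FiniteField.even_card_iff_char_two.mpr (Nat.even_iff.mp (Nat.not_odd_iff_even.mp heven))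
  haveI := ringChar.of_eq h
  exact CharTwo.two_eq_zero

section
variable {Q : QuadraticForm F (Fin m ⊕ Fin m → F)} (h2 : (2 : F) = 0)
  (hpol : ∀ u v, QuadraticMap.polar Q u v = sympB m F u v)
include h2 hpol

omit [Fintype F] h2 in
theorem q_add (x y : V) : Q (x + y) = Q x + Q y + BB x y := by
  rw [← hpol, QuadraticMap.map_add (⇑Q)]

omit [Fintype F] h2 in
theorem q_smul (a : F) (x : V) : Q (a • x) = a * a * Q x := by rw [QuadraticMap.map_smul, smul_eq_mul]

omit [Fintype F] in
theorem spT_mem_orth (z : V) (c : F) (hcz : c * Q z = 1) :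
    spT z c ∈ Cfsg.Geo.quadSimilarityGroup ⇑Q := by
  refine ⟨1, fun x => ?_⟩
  rw [spT_mulVec, q_add hpol, q_smul hpol, map_smul, smul_eq_mul, Units.val_one, one_mul]
  linear_combination (c * BB x z * BB x z) * hcz + (c * BB x z * BB x z) * h2

omit [Fintype F] in
theorem exists_step {u u' : V} (hQ : Q u = Q u') (hne : BB u u' ≠ 0) :
    ∃ h ∈ Cfsg.Geo.quadSimilarityGroup ⇑Q ⊓ Cfsg.spGL m F,
      (h : Matrix (Fin m ⊕ Fin m) (Fin m ⊕ Fin m) F) *ᵥ u = u' := by
  have hd : Q (u' + u) = BB u' u := by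
    rw [q_add hpol, hQ]; linear_combination (Q u') * h2
  have hu'u : BB u' u ≠ 0 := by rw [sympB_skew]; exact neg_ne_zero.mpr hne
  refine ⟨spT (u' + u) (Q (u' + u))⁻¹,
    ⟨spT_mem_orth h2 hpol _ _ (inv_mul_cancel₀ (hd ▸ hu'u)), spT_mem _ _⟩, ?_⟩
  have h1 : (Q (u' + u))⁻¹ * BB u (u' + u) = 1 := by
    rw [map_add (BB u), sympB_self, add_zero, hd, sympB_skew u' u, inv_neg, neg_mul, inv_mul_cancel₀ hne]
    linear_combination (-1 : F) * h2
  rw [spT_mulVec, h1, one_smul, show u + (u' + u) = u' + (2 : F) • u by module, h2, zero_smul, add_zero]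

/-- A singular vector perpendicular to two given vectors and independent of them. -/
theorem exists_singular_perp (hm : 4 ≤ m) (u u' : V) :
    ∃ e, Q e = 0 ∧ BB e u = 0 ∧ BB e u' = 0 ∧ e ∉ Submodule.span F {u} ⊔ Submodule.span F {u'} := by
  set S := Submodule.span F {u} ⊔ Submodule.span F {u'} with hS
  obtain ⟨Z, hZ⟩ := Submodule.exists_isCompl S
  have hS2 : Module.finrank F S ≤ 2 := by
    have h1 := Submodule.finrank_sup_add_finrank_inf_eq (Submodule.span F {u}) (Submodule.span F {u'})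
    have h3 : Module.finrank F (Submodule.span F {u}) ≤ 1 := (finrank_span_le_card {u}).trans (by simp)
    have h4 : Module.finrank F (Submodule.span F {u'}) ≤ 1 := (finrank_span_le_card {u'}).trans (by simp)
    show Module.finrank F ↥(Submodule.span F {u} ⊔ Submodule.span F {u'}) ≤ 2
    omega
  have hdim : 3 ≤ Module.finrank F ↥(perp BB S ⊓ Z) := by
    have h1 := Submodule.finrank_sup_add_finrank_inf_eq (perp BB S) Z
    have h3 := isForm_symp.finrank_perp S
    have h4 := Submodule.finrank_add_eq_of_isCompl hZ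
    have h5 := Submodule.finrank_le (perp BB S ⊔ Z)
    rw [Module.finrank_pi, Fintype.card_sum, Fintype.card_fin] at h3 h4 h5
    omega
  obtain ⟨e, he, he0, hQe⟩ := exists_singular_mem (Q := Q) hdim
  have hp : ∀ x ∈ S, BB x e = 0 := mem_perp.mp he.1
  refine ⟨e, hQe, by rw [sympB_skew, hp u (Submodule.mem_sup_left (Submodule.mem_span_singleton_self u)), neg_zero],
    by rw [sympB_skew, hp u' (Submodule.mem_sup_right (Submodule.mem_span_singleton_self u')), neg_zero], fun h => ?_⟩
  exact he0 (Submodule.disjoint_def.mp hZ.disjoint e h he.2)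

theorem exists_orbit (hm : 4 ≤ m) {u u' : V} (hu : u ≠ 0) (hu' : u' ≠ 0) (hQ : Q u = Q u') :
    ∃ h ∈ Cfsg.Geo.quadSimilarityGroup ⇑Q ⊓ Cfsg.spGL m F,
      (h : Matrix (Fin m ⊕ Fin m) (Fin m ⊕ Fin m) F) *ᵥ u = u' := by
  by_cases hne : BB u u' = 0
  swap
  · exact exists_step h2 hpol hQ hne
  obtain ⟨e, hQe, heu, heu', he⟩ := exists_singular_perp h2 hpol hm u u'
  obtain ⟨a, ha⟩ := isForm_symp.exists_pairing hu (1 : F)
  obtain ⟨b, hb⟩ := isForm_symp.exists_pairing hu' (1 : F)
  obtain ⟨d, hd1, hd2⟩ : ∃ d, BB u d ≠ 0 ∧ BB u' d ≠ 0 := by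
    by_cases h1 : BB u' a = 0
    · by_cases h3 : BB u b = 0
      · exact ⟨a + b, by rw [map_add, ha, h3, add_zero]; exact one_ne_zero,
          by rw [map_add, h1, hb, zero_add]; exact one_ne_zero⟩
      · exact ⟨b, h3, by rw [hb]; exact one_ne_zero⟩
    · exact ⟨a, by rw [ha]; exact one_ne_zero, h1⟩
  obtain ⟨d', hd', hd'e⟩ := isForm_symp.exists_perp_pairing he (1 - BB e d)
  set x := d + d' with hx
  have hux : BB u x = BB u d := by
    rw [hx, map_add, hd' u (Submodule.mem_sup_left (Submodule.mem_span_singleton_self u)), add_zero]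
  have hu'x : BB u' x = BB u' d := by
    rw [hx, map_add, hd' u' (Submodule.mem_sup_right (Submodule.mem_span_singleton_self u')), add_zero]
  have hex : BB e x = 1 := by rw [hx, map_add, hd'e, add_sub_cancel]
  set w := x + (Q u - Q x) • e with hw
  have hxe : BB x e = -1 := by rw [sympB_skew, hex]
  have hQw : Q w = Q u := by
    rw [hw, q_add hpol, q_smul hpol, hQe, map_smul, smul_eq_mul, hxe]
    linear_combination (Q x - Q u) * h2
  have huw : BB u w = BB u d := by
    rw [hw, map_add, map_smul, sympB_skew u e, heu, neg_zero, smul_zero, add_zero, hux]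
  have hu'w : BB u' w = BB u' d := by
    rw [hw, map_add, map_smul, sympB_skew u' e, heu', neg_zero, smul_zero, add_zero, hu'x]
  obtain ⟨g1, hg1, h1⟩ := exists_step h2 hpol hQw.symm (huw ▸ hd1)
  obtain ⟨g2, hg2, h3⟩ := exists_step h2 hpol (hQw.trans hQ) (by rw [sympB_skew, hu'w]; exact neg_ne_zero.mpr hd2)
  exact ⟨g2 * g1, mul_mem hg2 hg1, by rw [Units.val_mul, ← Matrix.mulVec_mulVec, h1, h3]⟩

theorem isMaximalIn_orth (hm : 4 ≤ m) :
    Cfsg.Geo.IsMaximalIn (Cfsg.spGL m F) (Cfsg.Geo.quadSimilarityGroup ⇑Q ⊓ Cfsg.spGL m F) := by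
  classical
  have hsq : ∀ a : F, ∃ r : F, r * r = a := fun a => by
    have hc : ringChar F = 2 := by
      haveI : Fact (Nat.Prime 2) := ⟨Nat.prime_two⟩
      have : CharP F 2 := CharP.charP_iff_prime_eq_zero Nat.prime_two |>.mpr (by exact_mod_cast h2)
      exact ringChar.eq F 2
    obtain ⟨r, hr⟩ := FiniteField.isSquare_of_char_two hc a
    exact ⟨r, hr.symm⟩
  obtain ⟨e, hQe, -, -, he'⟩ := exists_singular_perp h2 hpol hm 0 0
  have he0 : e ≠ 0 := fun h => he' (by rw [h]; exact zero_mem _)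
  obtain ⟨f0, hf0⟩ := isForm_symp.exists_pairing he0 (1 : F)
  set f := f0 + Q f0 • e with hfdef
  have hef : BB e f = 1 := by rw [hfdef, map_add, map_smul, sympB_self, smul_zero, add_zero, hf0]
  have hfe : BB f e = 1 := by rw [sympB_skew, hef]; linear_combination (-1 : F) * h2
  have hQf : Q f = 0 := by
    have : BB f0 e = 1 := by rw [sympB_skew, hf0]; linear_combination (-1 : F) * h2
    rw [hfdef, q_add hpol, q_smul hpol, hQe, map_smul, smul_eq_mul, this]
    linear_combination (Q f0) * h2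
  refine ⟨lt_of_le_of_ne inf_le_right fun h => ?_, fun L hL hLS => ?_⟩
  · have h1 : spT e 1 ∈ Cfsg.Geo.quadSimilarityGroup ⇑Q ⊓ Cfsg.spGL m F := h.symm ▸ spT_mem e 1
    obtain ⟨c, hc⟩ := h1.1
    have h3 := hc f
    rw [spT_mulVec, hfe, one_mul, one_smul, q_add hpol, hQf, hQe, hfe, mul_zero, zero_add, zero_add] at h3
    exact one_ne_zero h3
  by_cases hle : L ≤ Cfsg.Geo.quadSimilarityGroup ⇑Q
  · exact Or.inl (le_antisymm (le_inf hle hLS) hL)
  obtain ⟨g, hg, hg'⟩ := SetLike.not_le_iff_exists.mp hle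
  refine Or.inr (le_antisymm hLS (spGL_le_of_spT ?_))
  have hgS := mem_spGL_iff.mp (hLS hg)
  -- closure properties of the coefficients at a centre
  have hadd : ∀ z c d, spT z c ∈ L → spT z d ∈ L → spT z (c + d) ∈ L := fun z c d hc hd => by
    have : spT z (c + d) = spT z c * spT z d := Units.ext (matrix_ext_mulVec fun x => by
      rw [Units.val_mul, ← Matrix.mulVec_mulVec, spT_mulVec, spT_mulVec, spT_mulVec]
      simp only [map_add, map_smul, LinearMap.add_apply, LinearMap.smul_apply, smul_eq_mul, sympB_self, mul_zero, add_zero]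
      module)
    rw [this]; exact L.mul_mem hc hd
  have hscale : ∀ z c a, spT z (c * a * a) ∈ L → spT (a • z) c ∈ L := fun z c a h => by
    have : spT (a • z) c = spT z (c * a * a) := Units.ext (matrix_ext_mulVec fun x => by
      rw [spT_mulVec, spT_mulVec, map_smul, smul_smul, smul_eq_mul]
      congr 2
      ring)
    rw [this]; exact h
  have hconj : ∀ k ∈ L, ∀ z c, spT z c ∈ L →
      spT ((k : Matrix (Fin m ⊕ Fin m) (Fin m ⊕ Fin m) F) *ᵥ z) c ∈ L := fun k hk z c h => by
    have : spT ((k : Matrix (Fin m ⊕ Fin m) (Fin m ⊕ Fin m) F) *ᵥ z) c = k * spT z c * k⁻¹ := by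
      rw [eq_mul_inv_iff_mul_eq]
      refine Units.ext (matrix_ext_mulVec fun x => ?_)
      rw [Units.val_mul, Units.val_mul, ← Matrix.mulVec_mulVec, ← Matrix.mulVec_mulVec, spT_mulVec, spT_mulVec,
        mem_spGL_iff.mp (hLS hk), Matrix.mulVec_add, Matrix.mulVec_smul]
    rw [this]
    exact L.mul_mem (L.mul_mem hk h) (L.inv_mem hk)
  have horb : ∀ z z' c, z ≠ 0 → z' ≠ 0 → Q z = Q z' → spT z c ∈ L → spT z' c ∈ L := fun z z' c hz hz' hQ h => by
    obtain ⟨k, hk, rfl⟩ := exists_orbit h2 hpol hm hz hz' hQ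
    exact hconj k (hL hk) z c h
  -- a transvection of L outside the orthogonal group
  obtain ⟨z, c, hzne, hz0, hcz, hzc⟩ : ∃ z c, z ≠ 0 ∧ c ≠ 0 ∧ c * Q z ≠ 1 ∧ spT z c ∈ L := by
    have hns : ∃ v, Q v ≠ 0 ∧ Q ((g : Matrix (Fin m ⊕ Fin m) (Fin m ⊕ Fin m) F) *ᵥ v) ≠ Q v := by
      by_contra hc
      push_neg at hc
      refine hg' ⟨1, fun v => ?_⟩
      rw [Units.val_one, one_mul]
      by_cases hv : Q v = 0
      swap
      · exact hc v hv
      obtain ⟨w, hw, hvw⟩ : ∃ w, Q w ≠ 0 ∧ Q (v + w) ≠ 0 := by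
        by_contra hcon
        push_neg at hcon
        have hall : ∀ w ∈ perp BB (Submodule.span F {v}), Q w = 0 := fun w hw => by
          by_contra h0
          have h4 := hcon w h0
          rw [q_add hpol, hv, zero_add, mem_perp.mp hw v (Submodule.mem_span_singleton_self v), add_zero] at h4
          exact h0 h4
        have hPP : perp BB (Submodule.span F {v}) ≤ perp BB (perp BB (Submodule.span F {v})) := fun w hw => by
          rw [mem_perp]
          intro x hx
          have h4 := hall (x + w) (add_mem hx hw)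
          rwa [q_add hpol, hall x hx, hall w hw, add_zero, zero_add] at h4
        have h5 := Submodule.finrank_mono hPP
        have h6 := isForm_symp.finrank_perp (perp BB (Submodule.span F {v}))
        have h7 := isForm_symp.finrank_perp (Submodule.span F {v})
        have h8 : Module.finrank F (Submodule.span F {v}) ≤ 1 := (finrank_span_le_card {v}).trans (by simp)
        rw [Module.finrank_pi, Fintype.card_sum, Fintype.card_fin] at h6 h7
        omega
      have h3 := hc (v + w) hvw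
      rw [Matrix.mulVec_add, q_add hpol, q_add hpol, hgS, hc w hw] at h3
      linear_combination h3
    obtain ⟨v, hv, hgv⟩ := hns
    refine ⟨_, (Q v)⁻¹, fun h0 => hv ?_, inv_ne_zero hv, fun h => hgv ?_, hconj g hg v _ (hL ⟨spT_mem_orth h2 hpol v _ (inv_mul_cancel₀ hv), spT_mem _ _⟩)⟩
    · have h' := congrArg (((g⁻¹ : GL (Fin m ⊕ Fin m) F) : Matrix (Fin m ⊕ Fin m) (Fin m ⊕ Fin m) F) *ᵥ ·) h0
      simp only [Matrix.mulVec_mulVec, ← Units.val_mul, inv_mul_cancel, Units.val_one, Matrix.one_mulVec, Matrix.mulVec_zero] at h'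
      rw [h', QuadraticMap.map_zero]
    · rwa [inv_mul_eq_one₀ hv, eq_comm] at h
  -- a singular centre with a non-zero coefficient
  obtain ⟨s, c', hs0, hQs, hc'0, hsc⟩ : ∃ s c', s ≠ 0 ∧ Q s = 0 ∧ c' ≠ 0 ∧ spT s c' ∈ L := by
    by_cases hQz : Q z = 0
    · exact ⟨z, c, hzne, hQz, hz0, hzc⟩
    obtain ⟨r, hr⟩ := hsq (Q z)
    have hr0 : r ≠ 0 := fun h => hQz (by rw [← hr, h, zero_mul])
    set z1 := r⁻¹ • z with hz1
    have hQz1 : Q z1 = 1 := by rw [hz1, q_smul hpol, ← hr]; field_simp
    have hz10 : z1 ≠ 0 := fun h => by rw [h, QuadraticMap.map_zero] at hQz1; exact zero_ne_one hQz1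
    set c1 := c * (r * r) with hc1
    have hc1L : spT z1 c1 ∈ L := hscale z c1 r⁻¹ (by
      rwa [show c1 * r⁻¹ * r⁻¹ = c by rw [hc1]; field_simp])
    have hc10 : c1 ≠ 0 := mul_ne_zero hz0 (mul_ne_zero hr0 hr0)
    have hc11 : c1 * c1 + c1 ≠ 0 := by
      intro h
      have h' : c1 * (c1 + 1) = 0 := by linear_combination h
      rcases mul_eq_zero.mp h' with h' | h'
      · exact hc10 h'
      · exact hcz (by rw [← hr, ← hc1]; linear_combination h' - h2)
    obtain ⟨b, hb⟩ := hsq (c1 * c1 + c1)⁻¹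
    obtain ⟨e', hQe', he'z, -, he'ns⟩ := exists_singular_perp h2 hpol hm z1 z1
    rw [sup_idem] at he'ns
    obtain ⟨d0, hd0⟩ := isForm_symp.exists_pairing hz10 b
    obtain ⟨d', hd', hd'e⟩ := isForm_symp.exists_perp_pairing he'ns (1 - BB e' d0)
    set d := d0 + d' with hd
    have hzd : BB z1 d = b := by rw [hd, map_add, hd' z1 (Submodule.mem_span_singleton_self z1), add_zero, hd0]
    have hed : BB e' d = 1 := by rw [hd, map_add, hd'e, add_sub_cancel]
    set v := d + (1 - Q d) • e' with hv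
    have hde : BB d e' = -1 := by rw [sympB_skew, hed]
    have hQv : Q v = 1 := by
      rw [hv, q_add hpol, q_smul hpol, hQe', map_smul, smul_eq_mul, hde]
      linear_combination (Q d - 1) * h2
    have hvz : BB v z1 = b := by
      rw [sympB_skew, hv, (BB z1).map_add, (BB z1).map_smul, sympB_skew z1 e', he'z, neg_zero, smul_zero, add_zero, hzd]
      linear_combination (-b) * h2
    have hvL : spT v 1 ∈ L := hL ⟨spT_mem_orth h2 hpol v 1 (by rw [hQv, one_mul]), spT_mem _ _⟩
    have h3 := hconj _ hc1L v 1 hvL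
    rw [spT_mulVec, hvz] at h3
    refine ⟨_, 1, ?_, ?_, one_ne_zero, h3⟩
    · intro h
      have h4 := congrArg (fun x => BB x z1) h
      simp only [map_add, map_smul, LinearMap.add_apply, LinearMap.smul_apply, sympB_self, smul_zero, add_zero, map_zero,
        LinearMap.zero_apply, hvz] at h4
      rw [h4, zero_mul, eq_comm, inv_eq_zero] at hb
      exact hc11 hb
    · rw [q_add hpol, q_smul hpol, hQv, hQz1, map_smul, smul_eq_mul, hvz]
      linear_combination (c1 * c1 + c1) * hb + mul_inv_cancel₀ hc11 + h2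
  -- singular centres are complete
  have hsing : ∀ u, u ≠ 0 → Q u = 0 → ∀ t, spT u t ∈ L := by
    intro u hu hQu t
    obtain ⟨r, hr⟩ := hsq (c' / t)
    by_cases ht : t = 0
    · have : spT u t = 1 := Units.ext (matrix_ext_mulVec fun x => by
        rw [spT_mulVec, ht, zero_mul, zero_smul, add_zero, Units.val_one, Matrix.one_mulVec])
      rw [this]; exact L.one_mem
    have hr0 : r ≠ 0 := fun h => by rw [h, zero_mul, eq_comm, div_eq_zero_iff] at hr; exact hr.elim hc'0 ht
    have h3 : spT (r⁻¹ • u) c' ∈ L :=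
      horb s (r⁻¹ • u) c' hs0 (smul_ne_zero (inv_ne_zero hr0) hu) (by rw [hQs, q_smul hpol, hQu, mul_zero]) hsc
    have h4 := hscale (r⁻¹ • u) t r (by rwa [mul_assoc, hr, mul_div_cancel₀ _ ht])
    rwa [smul_smul, mul_inv_cancel₀ hr0, one_smul] at h4
  intro y t
  by_cases hy : y = 0
  · have : spT y t = 1 := Units.ext (matrix_ext_mulVec fun x => by
      rw [spT_mulVec, hy, smul_zero, add_zero, Units.val_one, Matrix.one_mulVec])
    rw [this]; exact L.one_mem
  by_cases hQy : Q y = 0
  · exact hsing y hy hQy t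
  have h3 := hconj _ (hsing e he0 hQe (Q y)) f t (hsing f (fun h => by rw [h, map_zero] at hef; exact zero_ne_one hef) hQf t)
  rw [spT_mulVec, hfe, mul_one] at h3
  refine horb _ y t ?_ hy ?_ h3
  · intro h
    have h4 := congrArg (fun x => BB e x) h
    simp only [map_add, map_smul, map_zero, sympB_self, smul_zero, add_zero, hef] at h4
    exact one_ne_zero h4
  · rw [q_add hpol, q_smul hpol, hQf, hQe, map_smul, smul_eq_mul, hfe]; ring

end

end Cfsg.Agent.GeomClasses
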