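import Cfsg.Agent.GeomClasses.UnitaryMax
import Cfsg.Agent.GeomClasses.OrthSubfieldMain
import Cfsg.Agent.GeomClasses.SubfieldScaled

/-! # Orthogonal subfield groups are maximal in special unitary groups -/

set_option autoImplicit false
set_option linter.unusedSectionVars false

namespace Cfsg.Agent.GeomClasses.OrthInSU

open Cfsg.Agent.Forms (matrix_ext_mulVec)
open Matrix Cfsg.Agent.GeomClasses Cfsg.Agent.GeomClasses.SubfieldSL Cfsg.Agent.GeomClasses.Unitary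

variable {F : Type*} [Field F] [Fintype F] {q n : ℕ}

local notation "hh" => Cfsg.hermForm n F q
local notation "Vec" => (Fin n → F)
local notation "Mx" => Matrix (Fin n) (Fin n) F

/-- A rational vector of the structure. -/
def RV (F₀ : Subfield F) (P : GL (Fin n) F) (z : Fin n → F) : Prop :=
  Rat' F₀ (((P⁻¹ : GL (Fin n) F) : Matrix (Fin n) (Fin n) F) *ᵥ z)

/-- A rational structure on which the form is symmetric. -/
structure Str (n q : ℕ) (F₀ : Subfield F) (P : GL (Fin n) F) : Prop where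
  hF : Fintype.card F = q ^ 2
  card : Fintype.card F = Nat.card F₀ ^ 2
  dim : 13 ≤ n
  odd : Odd q
  rat : Cfsg.Geo.IsFormRationalStructure (Cfsg.hermForm n F q) F₀ 1 P

variable {F₀ : Subfield F} {P : GL (Fin n) F}

theorem inv_P (P : GL (Fin n) F) (v : Vec) : (P : Mx) *ᵥ (((P⁻¹ : GL (Fin n) F) : Mx) *ᵥ v) = v := by
  rw [Matrix.mulVec_mulVec, ← Units.val_mul, mul_inv_cancel, Units.val_one, Matrix.one_mulVec]

theorem inv_P' (P : GL (Fin n) F) (v : Vec) : ((P⁻¹ : GL (Fin n) F) : Mx) *ᵥ ((P : Mx) *ᵥ v) = v := by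
  rw [Matrix.mulVec_mulVec, ← Units.val_mul, inv_mul_cancel, Units.val_one, Matrix.one_mulVec]

theorem rv_P {u : Vec} (hu : Rat' F₀ u) : RV F₀ P ((P : Mx) *ᵥ u) := by rw [RV, inv_P']; exact hu

theorem rv_add {x y : Vec} (hx : RV F₀ P x) (hy : RV F₀ P y) : RV F₀ P (x + y) := fun i => by
  rw [Matrix.mulVec_add]; exact F₀.add_mem (hx i) (hy i)

theorem rv_sub {x y : Vec} (hx : RV F₀ P x) (hy : RV F₀ P y) : RV F₀ P (x - y) := fun i => by
  rw [Matrix.mulVec_sub]; exact F₀.sub_mem (hx i) (hy i)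

theorem rv_neg {x : Vec} (hx : RV F₀ P x) : RV F₀ P (-x) := fun i => by
  rw [Matrix.mulVec_neg]; exact F₀.neg_mem (hx i)

theorem rv_smul {c : F} {x : Vec} (hc : c ∈ F₀) (hx : RV F₀ P x) : RV F₀ P (c • x) := fun i => by
  rw [Matrix.mulVec_smul]; exact F₀.mul_mem hc (hx i)

variable (S : Str n q F₀ P)
include S

theorem Str.two : (2 : F) ≠ 0 := Ring.two_ne_zero fun h => by
  have h1 := FiniteField.even_card_iff_char_two.mp h
  rw [S.hF] at h1
  have := Nat.odd_iff.mp (S.odd.pow (n := 2))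
  omega

theorem Str.half_mem {a : F} (ha : a ∈ F₀) : a / 2 ∈ F₀ := F₀.div_mem ha (by
  rw [show (2 : F) = 1 + 1 by norm_num]; exact F₀.add_mem F₀.one_mem F₀.one_mem)

theorem Str.fixed_iff {a : F} : a ∈ F₀ ↔ a ^ q = a := by
  have hq : Nat.card F₀ = q := Nat.pow_left_injective two_ne_zero (S.card.symm.trans S.hF)
  exact ⟨fun h => by have := OrthSub.frob_fix h; rwa [OrthSub.frob_apply, hq] at this,
    fun h => OrthSub.mem_of_frob (by rw [OrthSub.frob_apply, hq, h])⟩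

theorem Str.two_pow : (2 : F) ^ q = 2 := S.fixed_iff.mp (by
  rw [show (2 : F) = 1 + 1 by norm_num]; exact F₀.add_mem F₀.one_mem F₀.one_mem)

theorem Str.f_mem {x y : Vec} (hx : RV F₀ P x) (hy : RV F₀ P y) : hh x y ∈ F₀ := by
  have := S.rat _ _ hx hy
  rwa [inv_P, inv_P, one_mul] at this

theorem Str.f_fix {x y : Vec} (hx : RV F₀ P x) (hy : RV F₀ P y) : hh x y ^ q = hh x y :=
  S.fixed_iff.mp (S.f_mem hx hy)

theorem Str.f_comm {x y : Vec} (hx : RV F₀ P x) (hy : RV F₀ P y) : hh y x = hh x y := by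
  rw [← hh_conj S.hF x y, S.f_fix hx hy]

theorem Str.eq_of_rv {x y : Vec} (h : ∀ e, RV F₀ P e → hh e x = hh e y) : x = y := by
  refine sub_eq_zero.mp ((Cfsg.Agent.Forms.isForm_herm (n := n) S.hF).nondeg (x - y) fun v => ?_)
  have h1 : ∀ u : Vec, hh ((P : Mx) *ᵥ u) (x - y) = 0 := fun u => by
    have h2 : (Cfsg.Agent.Forms.hermB n S.hF (x - y)).comp (Matrix.mulVecLin (P : Mx)) = 0 := by
      refine (Pi.basisFun F (Fin n)).ext fun i => ?_
      rw [Pi.basisFun_apply, LinearMap.comp_apply, Matrix.mulVecLin_apply, LinearMap.zero_apply]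
      show hh _ (x - y) = 0
      rw [hh_sub_right S.hF, h _ (rv_P (rat_one i)), sub_self]
    exact LinearMap.congr_fun h2 u
  have := h1 (((P⁻¹ : GL (Fin n) F) : Mx) *ᵥ v)
  rwa [inv_P] at this

/-- The bilinear extension of the rational values of the form. -/
def Str.bil : Vec →ₗ[F] Vec →ₗ[F] F :=
  LinearMap.mk₂ F (fun u v => hh ((P : Mx) *ᵥ u) ((P : Mx) *ᵥ fun i => v i ^ q))
    (fun u u' v => by rw [Matrix.mulVec_add, hh_add_left S.hF])
    (fun c u v => by rw [Matrix.mulVec_smul, hh_smul_left S.hF, smul_eq_mul])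
    (fun u v v' => by
      rw [← hh_add_right S.hF, ← Matrix.mulVec_add]
      congr 2; funext i; exact pow_add_q S.hF _ _)
    (fun c u v => by
      rw [show (fun i => (c • v) i ^ q) = c ^ q • (fun i => v i ^ q) from funext fun i => mul_pow _ _ _,
        Matrix.mulVec_smul, hh_smul_right S.hF, pow_q_q S.hF, smul_eq_mul])

theorem Str.bil_rat (u : Vec) {v : Vec} (hv : Rat' F₀ v) : S.bil u v = hh ((P : Mx) *ᵥ u) ((P : Mx) *ᵥ v) := by
  show hh _ _ = _
  rw [show (fun i => v i ^ q) = v from funext fun i => S.fixed_iff.mp (hv i)]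

theorem Str.bil_comm (u v : Vec) : S.bil u v = S.bil v u := by
  have h : S.bil = S.bil.flip := by
    refine (Pi.basisFun F (Fin n)).ext fun i => (Pi.basisFun F (Fin n)).ext fun j => ?_
    rw [Pi.basisFun_apply, Pi.basisFun_apply, LinearMap.flip_apply, S.bil_rat _ (rat_one j), S.bil_rat _ (rat_one i),
      S.f_comm (rv_P (rat_one j)) (rv_P (rat_one i))]
  exact LinearMap.congr_fun (LinearMap.congr_fun h u) v

theorem Str.polar_bil (u v : Vec) : QuadraticMap.polar (⇑(LinearMap.BilinMap.toQuadraticMap S.bil)) u v = 2 * S.bil u v := by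
  rw [LinearMap.BilinMap.polar_toQuadraticMap, S.bil_comm v u, two_mul]

theorem Str.nondeg : (QuadraticMap.polarBilin (LinearMap.BilinMap.toQuadraticMap S.bil)).Nondegenerate := by
  have hl : ∀ u, (∀ v, QuadraticMap.polarBilin (LinearMap.BilinMap.toQuadraticMap S.bil) u v = 0) → u = 0 := by
    intro u hu
    have h1 : (P : Mx) *ᵥ u = 0 := S.eq_of_rv fun e he => by
      have h2 := hu (((P⁻¹ : GL (Fin n) F) : Mx) *ᵥ e)
      rw [QuadraticMap.polarBilin_apply_apply, S.polar_bil, S.bil_rat _ he, inv_P] at h2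
      rw [hh_comm_zero S.hF ((mul_eq_zero.mp h2).resolve_left S.two), hh_zero_right S.hF]
    have h3 := congrArg ((((P⁻¹ : GL (Fin n) F) : Mx)) *ᵥ ·) h1
    simpa [inv_P'] using h3
  exact ⟨hl, fun v hv => hl v fun u => by
    rw [QuadraticMap.polarBilin_apply_apply, QuadraticMap.polar_comm, ← QuadraticMap.polarBilin_apply_apply]
    exact hv u⟩

theorem Str.ratForm : OrthSub.RatForm (LinearMap.BilinMap.toQuadraticMap S.bil) F₀ := fun v hv => by
  rw [LinearMap.BilinMap.toQuadraticMap_apply, S.bil_rat _ hv]; exact S.f_mem (rv_P hv) (rv_P hv)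

/-- A rational hyperbolic pair orthogonal to a few rational vectors. -/
theorem Str.pair (s : List Vec) (hs : ∀ x ∈ s, RV F₀ P x) (hlen : 2 * s.length + 3 ≤ n) :
    ∃ d d', RV F₀ P d ∧ RV F₀ P d' ∧ hh d d = 0 ∧ hh d' d' = 0 ∧ hh d d' = 1 ∧
      ∀ x ∈ s, hh x d = 0 ∧ hh x d' = 0 := by
  obtain ⟨d, d', hd, hd', hQ, hQ', hdd, hperp⟩ := OrthSub.exists_pair S.nondeg S.ratForm
    (s.map fun x => ((P⁻¹ : GL (Fin n) F) : Mx) *ᵥ x)
    (fun x hx => by obtain ⟨y, hy, rfl⟩ := List.mem_map.mp hx; exact hs y hy)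
    (by rw [List.length_map, Fintype.card_fin]; exact hlen)
  rw [LinearMap.BilinMap.toQuadraticMap_apply, S.bil_rat _ hd] at hQ
  rw [LinearMap.BilinMap.toQuadraticMap_apply, S.bil_rat _ hd'] at hQ'
  rw [S.polar_bil, S.bil_rat _ hd'] at hdd
  have h2 : (2 : F) ∈ F₀ := S.fixed_iff.mpr S.two_pow
  refine ⟨(2 : F) • (P : Mx) *ᵥ d, _, rv_smul h2 (rv_P hd), rv_P hd', ?_, hQ', ?_, fun x hx => ?_⟩
  · rw [hh_smul_left S.hF, hh_smul_right S.hF, hQ, mul_zero, mul_zero]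
  · rw [hh_smul_left S.hF, hdd]
  · obtain ⟨e1, e2⟩ := hperp _ (List.mem_map_of_mem (f := fun x => ((P⁻¹ : GL (Fin n) F) : Mx) *ᵥ x) hx)
    rw [S.polar_bil, S.bil_rat _ hd, inv_P] at e1
    rw [S.polar_bil, S.bil_rat _ hd', inv_P] at e2
    exact ⟨by rw [hh_smul_right S.hF, (mul_eq_zero.mp e1).resolve_left S.two, mul_zero],
      (mul_eq_zero.mp e2).resolve_left S.two⟩

theorem Str.kills (s : List Vec) (hs : ∀ x ∈ s, RV F₀ P x) (hlen : 2 * s.length + 7 ≤ n) (φ : Vec →ₗ[F] F)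
    (hφ : ∀ c, RV F₀ P c → hh c c = 0 → (∀ x ∈ s, hh x c = 0) → φ c = 0) {y : Vec} (hy : RV F₀ P y)
    (hys : ∀ x ∈ s, hh x y = 0) : φ y = 0 := by
  have h := OrthSub.kills S.nondeg S.ratForm (s.map fun x => ((P⁻¹ : GL (Fin n) F) : Mx) *ᵥ x)
    (fun x hx => by obtain ⟨y, hy, rfl⟩ := List.mem_map.mp hx; exact hs y hy)
    (by rw [List.length_map, Fintype.card_fin]; exact hlen) (φ.comp (Matrix.mulVecLin (P : Mx)))
    (fun c hc hQ hperp => by
      rw [LinearMap.BilinMap.toQuadraticMap_apply, S.bil_rat _ hc] at hQ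
      refine hφ _ (rv_P hc) hQ fun x hx => ?_
      have h1 := hperp _ (List.mem_map_of_mem (f := fun x => ((P⁻¹ : GL (Fin n) F) : Mx) *ᵥ x) hx)
      rw [S.polar_bil, S.bil_rat _ hc, inv_P] at h1
      exact (mul_eq_zero.mp h1).resolve_left S.two) hy
    (fun x hx => by
      obtain ⟨z, hz, rfl⟩ := List.mem_map.mp hx
      rw [S.polar_bil, S.bil_rat _ hy, inv_P, inv_P, hys z hz, mul_zero])
  rwa [LinearMap.comp_apply, Matrix.mulVecLin_apply, inv_P] at h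

theorem Str.exists_dual {x : Vec} (hx : x ≠ 0) : ∃ w, RV F₀ P w ∧ hh w w = 0 ∧ hh w x ≠ 0 := by
  by_contra hcon
  push Not at hcon
  refine hx (S.eq_of_rv fun e he => ?_)
  rw [hh_zero_right S.hF]
  exact S.kills [] (by simp) (by simp; have := S.dim; omega) (Cfsg.Agent.Forms.hermB n S.hF x)
    (fun c hc hcc _ => hcon c hc hcc) he (by simp)

theorem Str.exists_both {a b : Vec} (ha : RV F₀ P a) (hb : RV F₀ P b) (ha0 : a ≠ 0) (hb0 : b ≠ 0) :
    ∃ w, RV F₀ P w ∧ hh w w = 0 ∧ hh a w ≠ 0 ∧ hh b w ≠ 0 := by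
  obtain ⟨u, hu, huu, hua⟩ := S.exists_dual ha0
  obtain ⟨v, hv, hvv, hvb⟩ := S.exists_dual hb0
  rw [← S.f_comm hu ha] at hua
  rw [← S.f_comm hv hb] at hvb
  by_cases h1 : hh b u = 0
  swap
  · exact ⟨u, hu, huu, hua, h1⟩
  by_cases h2 : hh a v = 0
  swap
  · exact ⟨v, hv, hvv, h2, hvb⟩
  obtain ⟨e, e', he, he', hee, hee', hp, hperp⟩ := S.pair [a, b, u, v] (by simp [ha, hb, hu, hv])
    (by simp; have := S.dim; omega)
  simp only [List.mem_cons, List.not_mem_nil, or_false, forall_eq_or_imp, forall_eq] at hperp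
  obtain ⟨⟨pa, pa'⟩, ⟨pb, pb'⟩, ⟨pu, pu'⟩, ⟨pv, pv'⟩⟩ := hperp
  refine ⟨u + v + e - hh u v • e', rv_sub (rv_add (rv_add hu hv) he) (rv_smul (S.f_mem hu hv) he'), ?_, ?_, ?_⟩
  · simp only [hh_add_left S.hF, hh_add_right S.hF, hh_sub_left S.hF, hh_sub_right S.hF, hh_smul_left S.hF,
      hh_smul_right S.hF, S.f_fix hu hv, huu, hvv, hee, hee', hp, S.f_comm hu hv, S.f_comm he he',
      hh_comm_zero S.hF pu, hh_comm_zero S.hF pu', hh_comm_zero S.hF pv, hh_comm_zero S.hF pv', pu, pu', pv, pv']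
    ring
  · simp only [hh_sub_right S.hF, hh_add_right S.hF, hh_smul_right S.hF, pa, pa', h2]
    simpa using hua
  · simp only [hh_sub_right S.hF, hh_add_right S.hF, hh_smul_right S.hF, pb, pb', h1]
    simpa using hvb

omit S in
/-- The conjugate vector of the structure. -/
def conjP (q : ℕ) (P : GL (Fin n) F) (u : Fin n → F) : Fin n → F :=
  (P : Matrix (Fin n) (Fin n) F) *ᵥ fun i => ((((P⁻¹ : GL (Fin n) F) : Matrix (Fin n) (Fin n) F)) *ᵥ u) i ^ q

theorem Str.f_conjP {e : Vec} (he : RV F₀ P e) (u : Vec) : hh e (conjP q P u) = hh e u ^ q := by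
  have h := S.bil_comm (((P⁻¹ : GL (Fin n) F) : Mx) *ᵥ e) (((P⁻¹ : GL (Fin n) F) : Mx) *ᵥ u)
  rw [S.bil_rat _ he] at h
  change hh ((P : Mx) *ᵥ _) (conjP q P u) = _ at h
  rw [inv_P, inv_P] at h
  rw [h, hh_conj S.hF]

variable {τ : F} (hτ0 : τ ≠ 0) (hτ : τ + τ ^ q = 0)
include hτ0 hτ

theorem Str.decomp (v : Vec) : ∃ x y, RV F₀ P x ∧ RV F₀ P y ∧ v = x + τ • y := by
  have h2 := S.two
  set v' := ((P⁻¹ : GL (Fin n) F) : Mx) *ᵥ v with hv'
  have hq : τ ^ q = -τ := by linear_combination hτ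
  refine ⟨(P : Mx) *ᵥ fun i => (v' i + v' i ^ q) / 2, (P : Mx) *ᵥ fun i => (v' i - v' i ^ q) / (2 * τ),
    rv_P fun i => S.fixed_iff.mpr ?_, rv_P fun i => S.fixed_iff.mpr ?_, ?_⟩
  · rw [div_pow, pow_add_q S.hF, pow_q_q S.hF, S.two_pow, add_comm]
  · rw [div_pow, pow_sub_q S.hF, pow_q_q S.hF, mul_pow, S.two_pow, hq, mul_neg, div_neg, ← neg_div, neg_sub]
  · rw [← Matrix.mulVec_smul, ← Matrix.mulVec_add]
    conv_lhs => rw [← inv_P P v]
    congr 1
    funext i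
    simp only [Pi.add_apply, Pi.smul_apply, smul_eq_mul, ← hv']
    field_simp
    ring

omit hτ0 hτ

/-- The root element of an orthogonal pair of isotropic vectors belongs to the subgroup. -/
def EMem (L : Subgroup (GL (Fin n) F)) (q : ℕ) (d w : Fin n → F) : Prop :=
  ∃ g ∈ L, ∀ y, (g : Matrix (Fin n) (Fin n) F) *ᵥ y =
    y + Cfsg.hermForm n F q y d • w - Cfsg.hermForm n F q y w • d

variable {L : Subgroup (GL (Fin n) F)}

theorem Str.rat_mem (hH : Cfsg.Geo.subfieldSubgroup F₀ P ⊓ SUgl n F q ≤ L) {g : GL (Fin n) F}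
    (hg : g ∈ SUgl n F q) (hr : ∀ v, RV F₀ P v → RV F₀ P ((g : Mx) *ᵥ v)) : g ∈ L := by
  refine hH (Subgroup.mem_inf.mpr ⟨?_, hg⟩)
  rw [SubfieldScaled.mem_subfieldSubgroup_iff]
  refine Subgroup.mem_sup_left (SubfieldSp.mem_range_of_rat' fun i j => ?_)
  have h := hr _ (rv_P (rat_one j)) i
  rwa [Matrix.mulVec_mulVec, Matrix.mulVec_mulVec, ← Units.val_mul, ← Units.val_mul, Matrix.mulVec_single,
    MulOpposite.op_one, one_smul, Matrix.col_apply] at h

theorem Str.eMem_rat (hH : Cfsg.Geo.subfieldSubgroup F₀ P ⊓ SUgl n F q ≤ L) {d w : Vec} (hd : RV F₀ P d)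
    (hw : RV F₀ P w) (hdd : hh d d = 0) (hww : hh w w = 0) (hdw : hh d w = 0) : EMem L q d w := by
  obtain ⟨τ, hτ0, hτ⟩ := exists_trace_zero S.hF
  have hq : τ⁻¹ ^ q = -τ⁻¹ := by linear_combination trace_zero_inv S.hF hτ
  have hwd := hh_comm_zero S.hF hdw
  have hz : hh (d + τ⁻¹ • w) (d + τ⁻¹ • w) = 0 := by
    simp [hh_add_left S.hF, hh_add_right S.hF, hh_smul_left S.hF, hh_smul_right S.hF, hdd, hww, hdw, hwd]
  set g := uT _ τ hz * uT d (-τ) hdd * uT w τ⁻¹ hww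
  have hact : ∀ y, (g : Mx) *ᵥ y = y + hh y d • w - hh y w • d := fun y => by
    simp only [g, Units.val_mul, ← Matrix.mulVec_mulVec, uT_mulVec, hh_add_left S.hF, hh_add_right S.hF,
      hh_smul_left S.hF, hh_smul_right S.hF, hdd, hww, hdw, hwd, hq]
    match_scalars <;> field_simp <;> ring
  refine ⟨g, S.rat_mem hH (mul_mem (mul_mem (uT_mem S.hF _ _ _ hτ) (uT_mem S.hF _ _ _ (trace_zero_neg S.hF hτ)))
    (uT_mem S.hF _ _ _ (trace_zero_inv S.hF hτ))) fun v hv => ?_, hact⟩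
  rw [hact]
  exact rv_sub (rv_add hv (rv_smul (S.f_mem hv hd) hw)) (rv_smul (S.f_mem hv hw) hd)

theorem Str.eMem_conj (hL : L ≤ SUgl n F q) {g : GL (Fin n) F} (hg : g ∈ L) {d w : Vec} (h : EMem L q d w) :
    EMem L q ((g : Mx) *ᵥ d) ((g : Mx) *ᵥ w) := by
  obtain ⟨E, hE, hact⟩ := h
  refine ⟨g * E * g⁻¹, L.mul_mem (L.mul_mem hg hE) (L.inv_mem hg), fun y => ?_⟩
  obtain ⟨x, rfl⟩ : ∃ x, (g : Mx) *ᵥ x = y := ⟨_, inv_P g y⟩
  rw [Units.val_mul, Units.val_mul, ← Matrix.mulVec_mulVec, ← Matrix.mulVec_mulVec, inv_P' g, hact,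
    Matrix.mulVec_sub, Matrix.mulVec_add, Matrix.mulVec_smul, Matrix.mulVec_smul, mem_GU_iff.mp (hL hg).1,
    mem_GU_iff.mp (hL hg).1]

theorem Str.move_step (hH : Cfsg.Geo.subfieldSubgroup F₀ P ⊓ SUgl n F q ≤ L) {a b : Vec} (ha : RV F₀ P a)
    (hb : RV F₀ P b) (haa : hh a a = 0) (hbb : hh b b = 0) (hab : hh a b ≠ 0) :
    ∃ g ∈ L, (g : Mx) *ᵥ a = b := by
  have h2 := S.two
  have hdim := S.dim
  set η := hh a b with hη
  have hba : hh b a = η := S.f_comm ha hb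
  have hηF : η ∈ F₀ := S.f_mem ha hb
  obtain ⟨e, e', he, he', hee, hee', hp, hperp⟩ := S.pair [a, b] (by simp [ha, hb]) (by simp; omega)
  simp only [List.mem_cons, List.not_mem_nil, or_false, forall_eq_or_imp, forall_eq] at hperp
  obtain ⟨⟨pa, pa'⟩, ⟨pb, pb'⟩⟩ := hperp
  set z := a + b + e - η • e' with hz
  have hzr : RV F₀ P z := rv_sub (rv_add (rv_add ha hb) he) (rv_smul hηF he')
  have haz : hh a z = η := by
    simp [hz, hh_sub_right S.hF, hh_add_right S.hF, hh_smul_right S.hF, pa, pa', haa, ← hη]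
  have hbz : hh b z = η := by
    simp [hz, hh_sub_right S.hF, hh_add_right S.hF, hh_smul_right S.hF, pb, pb', hbb, hba]
  have hza : hh z a = η := by rw [S.f_comm ha hzr, haz]
  have hzb : hh z b = η := by rw [S.f_comm hb hzr, hbz]
  have hzz : hh z z = 0 := by
    simp only [hz, hh_add_left S.hF, hh_add_right S.hF, hh_sub_left S.hF, hh_sub_right S.hF, hh_smul_left S.hF,
      hh_smul_right S.hF, S.fixed_iff.mp hηF, haa, hbb, hee, hee', hp, hba, ← hη, S.f_comm he he',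
      hh_comm_zero S.hF pa, hh_comm_zero S.hF pa', hh_comm_zero S.hF pb, hh_comm_zero S.hF pb', pa, pa', pb, pb']
    ring
  obtain ⟨d, d', hd, hd', hdd, hdd', hp', hperp⟩ := S.pair [z, a, b] (by simp [hzr, ha, hb]) (by simp; omega)
  simp only [List.mem_cons, List.not_mem_nil, or_false, forall_eq_or_imp, forall_eq] at hperp
  obtain ⟨⟨qz, qz'⟩, ⟨qa, qa'⟩, ⟨qb, qb'⟩⟩ := hperp
  set t := η⁻¹ / 2 with ht
  have htF : t ∈ F₀ := S.half_mem (F₀.inv_mem hηF)
  set k := t / 2 with hk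
  have hkF : k ∈ F₀ := S.half_mem htF
  set w₁ := t • (b - a) + (d + k • d') with hw₁
  set w₂ := t • (b - a) - (d + k • d') with hw₂
  have htq := S.fixed_iff.mp htF
  have hkq := S.fixed_iff.mp hkF
  have hw₁r : RV F₀ P w₁ := rv_add (rv_smul htF (rv_sub hb ha)) (rv_add hd (rv_smul hkF hd'))
  have hw₂r : RV F₀ P w₂ := rv_sub (rv_smul htF (rv_sub hb ha)) (rv_add hd (rv_smul hkF hd'))
  have hzw₁ : hh z w₁ = 0 := by
    simp [hw₁, hh_add_right S.hF, hh_sub_right S.hF, hh_smul_right S.hF, hza, hzb, qz, qz']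
  have hzw₂ : hh z w₂ = 0 := by
    simp [hw₂, hh_add_right S.hF, hh_sub_right S.hF, hh_smul_right S.hF, hza, hzb, qz, qz']
  have hw₁₁ : hh w₁ w₁ = 0 := by
    simp only [hw₁, hh_add_left S.hF, hh_add_right S.hF, hh_sub_left S.hF, hh_sub_right S.hF, hh_smul_left S.hF,
      hh_smul_right S.hF, htq, hkq, haa, hbb, hba, ← hη, hdd, hdd', hp', S.f_comm hd hd', qa, qa', qb, qb',
      hh_comm_zero S.hF qa, hh_comm_zero S.hF qa', hh_comm_zero S.hF qb, hh_comm_zero S.hF qb']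
    rw [hk, ht]; field_simp; ring
  have hw₂₂ : hh w₂ w₂ = 0 := by
    simp only [hw₂, hh_add_left S.hF, hh_add_right S.hF, hh_sub_left S.hF, hh_sub_right S.hF, hh_smul_left S.hF,
      hh_smul_right S.hF, htq, hkq, haa, hbb, hba, ← hη, hdd, hdd', hp', S.f_comm hd hd', qa, qa', qb, qb',
      hh_comm_zero S.hF qa, hh_comm_zero S.hF qa', hh_comm_zero S.hF qb, hh_comm_zero S.hF qb']
    rw [hk, ht]; field_simp; ring
  obtain ⟨g₁, hg₁, e₁⟩ := S.eMem_rat hH hzr hw₁r hzz hw₁₁ hzw₁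
  obtain ⟨g₂, hg₂, e₂⟩ := S.eMem_rat hH hzr hw₂r hzz hw₂₂ hzw₂
  have c1 : hh a w₁ = t * η := by
    simp [hw₁, hh_add_right S.hF, hh_sub_right S.hF, hh_smul_right S.hF, htq, qa, qa', haa, ← hη]
  have c2 : hh a w₂ = t * η := by
    simp [hw₂, hh_add_right S.hF, hh_sub_right S.hF, hh_smul_right S.hF, htq, qa, qa', haa, ← hη]
  have c3 : hh w₂ w₁ = -η⁻¹ := by
    simp only [hw₁, hw₂, hh_add_left S.hF, hh_add_right S.hF, hh_sub_left S.hF, hh_sub_right S.hF, hh_smul_left S.hF,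
      hh_smul_right S.hF, htq, hkq, haa, hbb, hba, ← hη, hdd, hdd', hp', S.f_comm hd hd', qa, qa', qb, qb',
      hh_comm_zero S.hF qa, hh_comm_zero S.hF qa', hh_comm_zero S.hF qb, hh_comm_zero S.hF qb']
    rw [hk, ht]; field_simp; ring
  refine ⟨g₁ * g₂, L.mul_mem hg₁ hg₂, ?_⟩
  rw [Units.val_mul, ← Matrix.mulVec_mulVec, e₂, e₁]
  simp only [hh_add_left S.hF, hh_sub_left S.hF, hh_smul_left S.hF, haz, c1, c2, c3, hzw₁, hh_comm_zero S.hF hzw₂, hzz]
  rw [hw₁, hw₂, ht]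
  match_scalars <;> field_simp <;> ring

theorem Str.move (hH : Cfsg.Geo.subfieldSubgroup F₀ P ⊓ SUgl n F q ≤ L) {a b : Vec} (ha : RV F₀ P a)
    (hb : RV F₀ P b) (haa : hh a a = 0) (hbb : hh b b = 0) (ha0 : a ≠ 0) (hb0 : b ≠ 0) :
    ∃ g ∈ L, (g : Mx) *ᵥ a = b := by
  obtain ⟨x, hx, hxx, hax, hbx⟩ := S.exists_both ha hb ha0 hb0
  obtain ⟨g, hg, e⟩ := S.move_step hH ha hx haa hxx hax
  obtain ⟨g', hg', e'⟩ := S.move_step hH hx hb hxx hbb fun h => hbx (hh_comm_zero S.hF h)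
  exact ⟨g' * g, L.mul_mem hg' hg, by rw [Units.val_mul, ← Matrix.mulVec_mulVec, e, e']⟩

theorem Str.centre_of_one (hH : Cfsg.Geo.subfieldSubgroup F₀ P ⊓ SUgl n F q ≤ L) (hL : L ≤ SUgl n F q) {d : Vec}
    (hd : RV F₀ P d) (hd0 : d ≠ 0) (hdd : hh d d = 0) {γ : F} (hγ0 : γ ≠ 0) (hγ : γ + γ ^ q = 0)
    (hm : uT d γ hdd ∈ L) : IsCentre q L d := by
  have hk : ∀ k ∈ F₀, uT d (γ * (k * k)) hdd ∈ L := by
    intro k hkF
    rcases eq_or_ne k 0 with rfl | hk0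
    · convert L.one_mem
      exact Units.ext (matrix_ext_mulVec fun x => by rw [uT_mulVec]; simp)
    have hkk : hh (k • d) (k • d) = 0 := by rw [hh_smul_left S.hF, hh_smul_right S.hF, hdd, mul_zero, mul_zero]
    obtain ⟨g, hg, e⟩ := S.move hH hd (rv_smul hkF hd) hdd hkk hd0 (smul_ne_zero hk0 hd0)
    convert L.mul_mem (L.mul_mem hg hm) (L.inv_mem hg) using 1
    rw [eq_mul_inv_iff_mul_eq]
    refine Units.ext (matrix_ext_mulVec fun x => ?_)
    have h1 := mem_GU_iff.mp (hL hg).1 x d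
    rw [e, hh_smul_right S.hF, S.fixed_iff.mp hkF] at h1
    rw [Units.val_mul, Units.val_mul, ← Matrix.mulVec_mulVec, ← Matrix.mulVec_mulVec, uT_mulVec, uT_mulVec,
      Matrix.mulVec_add, Matrix.mulVec_smul, e, smul_smul, ← h1]
    congr 2
    ring
  refine ⟨hdd, fun c hc => ?_⟩
  have h2 := S.two
  have hμ : c / γ ∈ F₀ := S.fixed_iff.mpr (by
    rw [div_pow, show c ^ q = -c by linear_combination hc, show γ ^ q = -γ by linear_combination hγ, neg_div_neg_eq])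
  convert L.mul_mem (hk _ (S.half_mem (F₀.add_mem hμ F₀.one_mem)))
    (L.inv_mem (hk _ (S.half_mem (F₀.sub_mem hμ F₀.one_mem)))) using 1
  rw [eq_mul_inv_iff_mul_eq]
  refine Units.ext (matrix_ext_mulVec fun x => ?_)
  simp only [Units.val_mul, ← Matrix.mulVec_mulVec, uT_mulVec, hh_add_left S.hF, hh_smul_left S.hF, hdd]
  match_scalars <;> field_simp <;> ring

include hτ0 hτ in
theorem Str.top_of_centres (hL : L ≤ SUgl n F q) (hc : ∀ x, RV F₀ P x → hh x x = 0 → IsCentre q L x) :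
    SUgl n F q ≤ L := by
  have h2 := S.two
  have hdim := S.dim
  have hq : τ ^ q = -τ := by linear_combination hτ
  have hsq : τ * τ ∈ F₀ := S.fixed_iff.mpr (by rw [mul_pow, hq]; ring)
  have hne : ∀ {x y : Vec}, RV F₀ P x → RV F₀ P y → hh x x = 0 → hh y y = 0 → hh x y ≠ 0 →
      IsCentre q L (x + τ • y) := by
    intro x y hx hy hxx hyy hxy
    have := isCentre_shift S.hF hL (hc y hy hyy) (hc x hx hxx) (c := τ / hh x y) (by
      rw [div_pow, S.f_fix hx hy, ← add_div, hτ, zero_div])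
    rwa [div_mul_cancel₀ _ hxy] at this
  have hsing : ∀ {x y : Vec}, RV F₀ P x → RV F₀ P y → hh x x = 0 → hh y y = 0 → IsCentre q L (x + τ • y) := by
    intro x y hx hy hxx hyy
    by_cases hxy : hh x y = 0
    swap
    · exact hne hx hy hxx hyy hxy
    by_cases hx0 : x = 0
    · rw [hx0, zero_add]; exact isCentre_smul S.hF (hc y hy hyy) τ
    by_cases hdep : ∃ k : F, y = k • x
    · obtain ⟨k, hk⟩ := hdep
      rw [hk, smul_smul, show x + (τ * k) • x = (1 + τ * k) • x by rw [add_smul, one_smul]]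
      exact isCentre_smul S.hF (hc x hx hxx) _
    obtain ⟨w, hw, hww, hxw, hyw⟩ : ∃ w, RV F₀ P w ∧ hh w w = 0 ∧ hh x w = 0 ∧ hh y w ≠ 0 := by
      by_contra hcon
      push Not at hcon
      obtain ⟨x', hx', -, hx'x⟩ := S.exists_dual hx0
      refine hdep ⟨hh x' y / hh x' x, S.eq_of_rv fun e he => ?_⟩
      have h1 := S.kills [x] (by simp [hx]) (by simp; omega) (Cfsg.Agent.Forms.hermB n S.hF y)
        (fun c hc hcc h => hh_comm_zero S.hF (hcon c hc hcc (h x (by simp))))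
        (y := e - (hh e x / hh x' x) • x') (rv_sub he (rv_smul (F₀.div_mem (S.f_mem he hx) (S.f_mem hx' hx)) hx'))
        (fun v hv => by
          rw [List.mem_singleton.mp hv]
          refine hh_comm_zero S.hF ?_
          rw [hh_sub_left S.hF, hh_smul_left S.hF, div_mul_cancel₀ _ hx'x, sub_self])
      change hh _ y = 0 at h1
      rw [hh_sub_left S.hF, hh_smul_left S.hF] at h1
      rw [hh_smul_right S.hF, div_pow, S.f_fix hx' hy, S.f_fix hx' hx]
      linear_combination h1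
    set s := -(τ * τ * hh y w) with hs
    have hsF : s ∈ F₀ := F₀.neg_mem (F₀.mul_mem hsq (S.f_mem hy hw))
    have hsq' := S.fixed_iff.mp hsF
    have hwy : hh w y = hh y w := S.f_comm hy hw
    have hcen := hne (rv_add hx (rv_smul hsF hw)) hy
      (by simp [hh_add_left S.hF, hh_add_right S.hF, hh_smul_left S.hF, hh_smul_right S.hF, hxx, hww, hxw,
        hh_comm_zero S.hF hxw]) hyy (by
        rw [hh_add_left S.hF, hh_smul_left S.hF, hxy, zero_add, hwy, hs]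
        exact mul_ne_zero (neg_ne_zero.mpr (mul_ne_zero (mul_ne_zero hτ0 hτ0) hyw)) hyw)
    have hfin := isCentre_shift S.hF hL (hc w hw hww) hcen hτ
    convert hfin using 1
    simp only [hh_add_left S.hF, hh_smul_left S.hF, hww, hxw, hs]
    match_scalars <;> ring
  refine SU_le_of_uT S.hF (by omega) fun v c hv hcc => ?_
  suffices h : IsCentre q L v by obtain ⟨_, h⟩ := h; exact h c hcc
  obtain ⟨x, y, hx, hy, rfl⟩ := S.decomp hτ0 hτ v
  have hnorm : hh x x = τ * τ * hh y y := by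
    have := hv
    simp only [hh_add_left S.hF, hh_add_right S.hF, hh_smul_left S.hF, hh_smul_right S.hF, S.f_comm hx hy, hq] at this
    linear_combination this
  by_cases hxx : hh x x = 0
  · refine hsing hx hy hxx ?_
    rw [hxx] at hnorm
    exact (mul_eq_zero.mp hnorm.symm).resolve_left (mul_ne_zero hτ0 hτ0)
  have hx0 : x ≠ 0 := fun e => hxx (by rw [e, hh_zero_left S.hF])
  have hy0 : y ≠ 0 := fun e => hxx (by rw [hnorm, e, hh_zero_left S.hF, mul_zero])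
  obtain ⟨w, hw, hww, hxw, hyw⟩ := S.exists_both hx hy hx0 hy0
  set t := -(hh x x) / (2 * (τ * τ) * (hh x w * hh y w)) with ht
  have htF : t ∈ F₀ := F₀.div_mem (F₀.neg_mem (S.f_mem hx hx)) (F₀.mul_mem (F₀.mul_mem (S.fixed_iff.mpr S.two_pow) hsq)
    (F₀.mul_mem (S.f_mem hx hw) (S.f_mem hy hw)))
  have htq := S.fixed_iff.mp htF
  set x' := x + (t * (τ * τ) * hh y w) • w with hx'
  set y' := y + (t * hh x w) • w with hy'
  have hx'r : RV F₀ P x' := rv_add hx (rv_smul (F₀.mul_mem (F₀.mul_mem htF hsq) (S.f_mem hy hw)) hw)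
  have hy'r : RV F₀ P y' := rv_add hy (rv_smul (F₀.mul_mem htF (S.f_mem hx hw)) hw)
  have hwx : hh w x = hh x w := S.f_comm hx hw
  have hwy : hh w y = hh y w := S.f_comm hy hw
  have hx'' : hh x' x' = 0 := by
    simp only [hx', hh_add_left S.hF, hh_add_right S.hF, hh_smul_left S.hF, hh_smul_right S.hF, mul_pow, htq, hq,
      S.f_fix hy hw, hww, hwx]
    rw [ht]
    field_simp
    ring
  have hy'' : hh y' y' = 0 := by
    simp only [hy', hh_add_left S.hF, hh_add_right S.hF, hh_smul_left S.hF, hh_smul_right S.hF, mul_pow, htq,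
      S.f_fix hx hw, hww, hwy]
    rw [ht]
    field_simp
    linear_combination (-4 * τ ^ 2 * hh y w ^ 2) * hnorm
  have hcen := hsing hx'r hy'r hx'' hy''
  have htr : -(t * τ) + (-(t * τ)) ^ q = 0 := trace_zero_neg S.hF (by rw [mul_pow, htq, hq]; ring)
  convert isCentre_shift S.hF hL (hc w hw hww) hcen htr using 1
  simp only [hx', hy', hh_add_left S.hF, hh_smul_left S.hF, hww]
  match_scalars <;> ring

theorem Str.all_centres (hH : Cfsg.Geo.subfieldSubgroup F₀ P ⊓ SUgl n F q ≤ L) (hL : L ≤ SUgl n F q) {d : Vec}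
    (hd : RV F₀ P d) (hd0 : d ≠ 0) (hdd : hh d d = 0) (hc : IsCentre q L d) {x : Vec} (hx : RV F₀ P x)
    (hxx : hh x x = 0) : IsCentre q L x := by
  rcases eq_or_ne x 0 with rfl | hx0
  · have := isCentre_smul S.hF hc 0
    rwa [zero_smul] at this
  obtain ⟨g, hg, rfl⟩ := S.move hH hd hx hdd hxx hd0 hx0
  exact isCentre_mulVec S.hF hL hg hc

/-- An element moving a rational isotropic vector off the scaled rational ones gives everything. -/
theorem Str.top_of_unscaled (hH : Cfsg.Geo.subfieldSubgroup F₀ P ⊓ SUgl n F q ≤ L) (hL : L ≤ SUgl n F q)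
    {g : GL (Fin n) F} (hg : g ∈ L) {a : Vec} (ha : RV F₀ P a) (haa : hh a a = 0)
    (hno : ∀ κ : F, conjP q P ((g : Mx) *ᵥ a) ≠ κ • (g : Mx) *ᵥ a) : SUgl n F q ≤ L := by
  have hdim := S.dim
  obtain ⟨τ, hτ0, hτ⟩ := exists_trace_zero S.hF
  have hgU := mem_GU_iff.mp (hL hg).1
  obtain ⟨b, b', hb, -, hbb, -, hbb', hperp⟩ := S.pair [a] (by simp [ha]) (by simp; omega)
  obtain ⟨hab, hab'⟩ := hperp a (by simp)
  set u₁ := (g : Mx) *ᵥ a with hu₁
  set u₂ := (g : Mx) *ᵥ b with hu₂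
  have h11 : hh u₁ u₁ = 0 := by rw [hgU, haa]
  have h12 : hh u₁ u₂ = 0 := by rw [hgU, hab]
  have h21 : hh u₂ u₁ = 0 := hh_comm_zero S.hF h12
  have h22 : hh u₂ u₂ = 0 := by rw [hgU, hbb]
  obtain ⟨e₁, e₂, he₁, he₂, hpr⟩ : ∃ e₁ e₂, RV F₀ P e₁ ∧ RV F₀ P e₂ ∧
      (hh e₁ u₁ * hh e₂ u₁ ^ q) ^ q ≠ hh e₁ u₁ * hh e₂ u₁ ^ q := by
    by_contra hcon
    push Not at hcon
    obtain ⟨w, hw, -, hwu⟩ := S.exists_dual (x := u₁) fun e => hno 0 (by
      rw [e, smul_zero, conjP]; simp only [Matrix.mulVec_zero, Pi.zero_apply, zero_pow_q S.hF]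
      exact Matrix.mulVec_zero _)
    refine hno (hh w u₁ / hh w u₁ ^ q) (S.eq_of_rv fun e he => ?_)
    rw [S.f_conjP he, hh_smul_right S.hF, div_pow, pow_q_q S.hF, eq_comm, div_mul_eq_mul_div,
      div_eq_iff hwu]
    have h1 := hcon e w he hw
    rw [mul_pow, pow_q_q S.hF] at h1
    linear_combination -h1
  obtain ⟨e₀, he₀, hbad⟩ : ∃ e, RV F₀ P e ∧ (hh e u₂ * hh e u₁ ^ q) ^ q ≠ hh e u₂ * hh e u₁ ^ q := by
    by_contra hcon
    push Not at hcon
    set p := hh e₁ u₁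
    set r := hh e₂ u₁
    rw [mul_pow, pow_q_q S.hF] at hpr
    have hadd : ∀ e e', RV F₀ P e → RV F₀ P e' →
        hh e u₂ ^ q * hh e' u₁ + hh e' u₂ ^ q * hh e u₁ = hh e u₂ * hh e' u₁ ^ q + hh e' u₂ * hh e u₁ ^ q := by
      intro e e' he he'
      have h1 := hcon (e + e') (rv_add he he')
      have h2 := hcon e he
      have h3 := hcon e' he'
      simp only [hh_add_left S.hF, pow_add_q S.hF, mul_pow, pow_q_q S.hF] at h1 h2 h3
      linear_combination h1 - h2 - h3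
    have hp0 : p ≠ 0 := fun e => hpr (by rw [e, zero_pow_q S.hF, zero_mul, zero_mul])
    have hr0 : r ≠ 0 := fun e => hpr (by rw [e, zero_pow_q S.hF, mul_zero, mul_zero])
    set l₁ := hh e₁ u₂ / p with hl₁
    set l₂ := hh e₂ u₂ / r with hl₂
    have hfix : ∀ e, RV F₀ P e → hh e u₁ ≠ 0 → (hh e u₂ / hh e u₁) ^ q = hh e u₂ / hh e u₁ := fun e he h0 => by
      have h1 := hcon e he
      rw [mul_pow, pow_q_q S.hF] at h1
      rw [div_pow, div_eq_div_iff (pow_ne_zero _ h0) h0]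
      linear_combination h1
    have f1 : l₁ ^ q = l₁ := hfix e₁ he₁ hp0
    have f2 : l₂ ^ q = l₂ := hfix e₂ he₂ hr0
    have v1 : hh e₁ u₂ = l₁ * p := (div_mul_cancel₀ _ hp0).symm
    have v2 : hh e₂ u₂ = l₂ * r := (div_mul_cancel₀ _ hr0).symm
    have hl : l₁ = l₂ := by
      have h1 := hadd e₁ e₂ he₁ he₂
      rw [v1, v2, mul_pow, mul_pow, f1, f2] at h1
      exact sub_eq_zero.mp ((mul_eq_zero.mp (show (l₁ - l₂) * (p ^ q * r - p * r ^ q) = 0 by
        linear_combination h1)).resolve_right (sub_ne_zero.mpr hpr))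
    have hall : u₂ = l₁ • u₁ := S.eq_of_rv fun e he => by
      have h1 := hadd e e₁ he he₁
      have h2 := hadd e e₂ he he₂
      rw [v1, mul_pow, f1] at h1
      rw [v2, mul_pow, f2, ← hl] at h2
      rw [hh_smul_right S.hF, f1]
      refine sub_eq_zero.mp ((mul_eq_zero.mp (show (hh e u₂ - l₁ * hh e u₁) * (p ^ q * r - p * r ^ q) = 0 by
        linear_combination p * h2 - r * h1)).resolve_right (sub_ne_zero.mpr hpr))
    have hbne : b = l₁ • a := by
      have h1 := congrArg ((((g⁻¹ : GL (Fin n) F) : Mx)) *ᵥ ·) hall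
      simpa [hu₁, hu₂, Matrix.mulVec_smul, inv_P'] using h1
    rw [hbne, hh_smul_left S.hF, hab', mul_zero] at hbb'
    exact zero_ne_one hbb'
  obtain ⟨x₁, y₁, hx₁, hy₁, d₁⟩ := S.decomp hτ0 hτ u₁
  obtain ⟨x₂, y₂, hx₂, hy₂, d₂⟩ := S.decomp hτ0 hτ u₂
  have hker : ∀ e, hh x₁ e = 0 → hh y₁ e = 0 → hh x₂ e = 0 → hh y₂ e = 0 → hh e u₁ = 0 ∧ hh e u₂ = 0 := by
    intro e a1 a2 a3 a4
    constructor <;> [rw [d₁]; rw [d₂]] <;>
      simp [hh_add_right S.hF, hh_smul_right S.hF, hh_comm_zero S.hF, a1, a2, a3, a4]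
  obtain ⟨c, c', hc, hc', hcc, hcc', hcp, hperp⟩ := S.pair [x₁, y₁, x₂, y₂] (by simp [hx₁, hy₁, hx₂, hy₂])
    (by simp; omega)
  simp only [List.mem_cons, List.not_mem_nil, or_false, forall_eq_or_imp, forall_eq] at hperp
  obtain ⟨⟨a1, a1'⟩, ⟨a2, a2'⟩, ⟨a3, a3'⟩, ⟨a4, a4'⟩⟩ := hperp
  obtain ⟨kc1, kc2⟩ := hker c a1 a2 a3 a4
  obtain ⟨kc1', kc2'⟩ := hker c' a1' a2' a3' a4'
  set e₁' := e₀ - hh e₀ c' • c - hh e₀ c • c' with he₁'
  have he₁'r : RV F₀ P e₁' := rv_sub (rv_sub he₀ (rv_smul (S.f_mem he₀ hc') hc)) (rv_smul (S.f_mem he₀ hc) hc')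
  have o1 : hh e₁' c = 0 := by
    simp [he₁', hh_sub_left S.hF, hh_smul_left S.hF, hcc, S.f_comm hc hc', hcp]
  have o2 : hh e₁' c' = 0 := by
    simp [he₁', hh_sub_left S.hF, hh_smul_left S.hF, hcc', hcp]
  set m := hh e₁' e₁' / 2 with hm
  have hmF : m ∈ F₀ := S.half_mem (S.f_mem he₁'r he₁'r)
  set e := e₁' + c - m • c' with he
  have her : RV F₀ P e := rv_sub (rv_add he₁'r hc) (rv_smul hmF hc')
  have hee : hh e e = 0 := by
    simp only [he, hh_add_left S.hF, hh_add_right S.hF, hh_sub_left S.hF, hh_sub_right S.hF, hh_smul_left S.hF,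
      hh_smul_right S.hF, S.fixed_iff.mp hmF, o1, o2, hh_comm_zero S.hF o1, hh_comm_zero S.hF o2, hcc, hcc', hcp,
      S.f_comm hc hc']
    have := S.two
    rw [hm]; field_simp; ring
  set α₀ := hh e u₁ with hα₀
  set β₀ := hh e u₂ with hβ₀
  have hbad' : (β₀ * α₀ ^ q) ^ q ≠ β₀ * α₀ ^ q := by
    rw [hα₀, hβ₀, he, he₁']
    simp only [hh_add_left S.hF, hh_sub_left S.hF, hh_smul_left S.hF, kc1, kc2, kc1', kc2', mul_zero, sub_zero,
      add_zero]
    exact hbad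
  obtain ⟨d, d', hd, -, hdd, -, hdd', hperp⟩ := S.pair [x₁, y₁, x₂, y₂, e] (by simp [hx₁, hy₁, hx₂, hy₂, her])
    (by simp; omega)
  simp only [List.mem_cons, List.not_mem_nil, or_false, forall_eq_or_imp, forall_eq] at hperp
  obtain ⟨⟨b1, -⟩, ⟨b2, -⟩, ⟨b3, -⟩, ⟨b4, -⟩, ⟨hed, -⟩⟩ := hperp
  obtain ⟨du1, du2⟩ := hker d b1 b2 b3 b4
  have hde := hh_comm_zero S.hF hed
  have ud1 := hh_comm_zero S.hF du1
  have ud2 := hh_comm_zero S.hF du2
  have hd0 : d ≠ 0 := fun h => zero_ne_one (α := F) (by rw [← hdd', h, hh_zero_left S.hF])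
  obtain ⟨h, hhL, hact⟩ := S.eMem_rat hH hd her hdd hee hde
  have hhU := mem_GU_iff.mp (hL hhL).1
  have hu : EMem L q u₁ u₂ := S.eMem_conj hL hg (S.eMem_rat hH ha hb haa hbb hab)
  obtain ⟨E', hE', hact'⟩ := S.eMem_conj hL hhL hu
  obtain ⟨E, hE, hactE⟩ := hu
  set α := hh u₁ e with hα
  set β := hh u₂ e with hβ
  have hα' : α₀ = α ^ q := (hh_conj S.hF u₁ e).symm
  have hβ' : β₀ = β ^ q := (hh_conj S.hF u₂ e).symm
  have i1 : (h : Mx) *ᵥ u₁ = u₁ - α • d := by rw [hact, ud1, zero_smul, add_zero]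
  have i2 : (h : Mx) *ᵥ u₂ = u₂ - β • d := by rw [hact, ud2, zero_smul, add_zero]
  have i3 : (h : Mx) *ᵥ d = d := by rw [hact, hdd, hde, zero_smul, zero_smul, add_zero, sub_zero]
  set p := β ^ q • u₁ - α ^ q • u₂ with hp
  set γ := α ^ q * β - β ^ q * α with hγ
  set X := E' * E⁻¹ with hX
  have hXact : ∀ y, (X : Mx) *ᵥ y = y + hh y d • p - hh y p • d + (γ * hh y d) • d := by
    intro y
    obtain ⟨x, rfl⟩ : ∃ x, (E : Mx) *ᵥ x = y := ⟨_, inv_P E y⟩
    rw [hX, Units.val_mul, ← Matrix.mulVec_mulVec, inv_P' E, hact', i1, i2, hactE]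
    simp only [hp, hγ, hh_add_left S.hF, hh_sub_left S.hF, hh_sub_right S.hF, hh_smul_left S.hF, hh_smul_right S.hF,
      pow_q_q S.hF, ud1, ud2, h11, h12, h21, h22]
    module
  set k := hh p e with hk
  have hk' : k = β ^ q * α - α ^ q * β := by
    rw [hk, hp, hh_sub_left S.hF, hh_smul_left S.hF, hh_smul_left S.hF]
  have hdp : hh d p = 0 := by simp [hp, hh_sub_right S.hF, hh_smul_right S.hF, du1, du2]
  have i4 : (h : Mx) *ᵥ p = p - k • d := by
    rw [hact, hh_comm_zero S.hF hdp, zero_smul, add_zero]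
  have hk2 : k ^ q - k ≠ 0 := by
    rw [hk', pow_sub_q S.hF, mul_pow, mul_pow, pow_q_q S.hF β, pow_q_q S.hF α]
    rw [hα', hβ', pow_q_q S.hF α, mul_pow, pow_q_q S.hF β] at hbad'
    intro h0
    exact hbad' ((mul_left_cancel₀ S.two (by linear_combination h0)))
  have hmem : uT d (k ^ q - k) hdd ∈ L := by
    convert L.mul_mem (L.mul_mem (L.mul_mem hhL (L.mul_mem hE' (L.inv_mem hE))) (L.inv_mem hhL))
      (L.inv_mem (L.mul_mem hE' (L.inv_mem hE))) using 1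
    rw [← hX, eq_mul_inv_iff_mul_eq, eq_mul_inv_iff_mul_eq]
    refine Units.ext (matrix_ext_mulVec fun z => ?_)
    have s1 : hh ((h : Mx) *ᵥ z) d = hh z d := by rw [← hhU z d, i3]
    have s2 : hh ((h : Mx) *ᵥ z) p = hh z p + k ^ q * hh z d := by
      have := hhU z p
      rw [i4, hh_sub_right S.hF, hh_smul_right S.hF, s1] at this
      linear_combination this
    simp only [Units.val_mul, ← Matrix.mulVec_mulVec, uT_mulVec, hXact, Matrix.mulVec_add, Matrix.mulVec_sub,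
      Matrix.mulVec_smul, i3, i4, hh_add_left S.hF, hh_sub_left S.hF, hh_smul_left S.hF, s1, s2, hdd,
      hh_comm_zero S.hF hdp]
    module
  have hcen := S.centre_of_one hH hL hd hd0 hdd hk2 (by rw [pow_sub_q S.hF, pow_q_q S.hF]; ring) hmem
  exact S.top_of_centres hτ0 hτ hL fun x hx hxx => S.all_centres hH hL hd hd0 hdd hcen hx hxx

theorem Str.scaled_of_iso {g : GL (Fin n) F} (hgU : ∀ u v, hh ((g : Mx) *ᵥ u) ((g : Mx) *ᵥ v) = hh u v)
    (hall : ∀ a, RV F₀ P a → hh a a = 0 → ∃ κ : F, conjP q P ((g : Mx) *ᵥ a) = κ • (g : Mx) *ᵥ a) :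
    ∃ κ : F, ∀ v, RV F₀ P v → conjP q P ((g : Mx) *ᵥ v) = κ • (g : Mx) *ᵥ v := by
  have hdim := S.dim
  have hconj : ∀ x y : Vec, hh (conjP q P x) (conjP q P y) = hh x y ^ q := fun x y => by
    have h1 := S.bil_comm (fun i => (((P⁻¹ : GL (Fin n) F) : Mx) *ᵥ x) i ^ q) (((P⁻¹ : GL (Fin n) F) : Mx) *ᵥ y)
    change hh (conjP q P x) (conjP q P y) =
      hh ((P : Mx) *ᵥ _) ((P : Mx) *ᵥ fun i => ((((P⁻¹ : GL (Fin n) F) : Mx) *ᵥ x) i ^ q) ^ q) at h1
    rw [h1, show (fun i => ((((P⁻¹ : GL (Fin n) F) : Mx) *ᵥ x) i ^ q) ^ q) = ((P⁻¹ : GL (Fin n) F) : Mx) *ᵥ x from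
      funext fun i => pow_q_q S.hF _, inv_P, inv_P, hh_conj S.hF]
  have hpair : ∀ (a b : Vec) (κ κ' : F), RV F₀ P a → RV F₀ P b → hh a b ≠ 0 → conjP q P ((g : Mx) *ᵥ a) = κ • (g : Mx) *ᵥ a →
      conjP q P ((g : Mx) *ᵥ b) = κ' • (g : Mx) *ᵥ b → κ * κ' ^ q = 1 := by
    intro a b κ κ' ha hb hab h1 h2
    have h3 := hconj ((g : Mx) *ᵥ a) ((g : Mx) *ᵥ b)
    rw [h1, h2, hh_smul_left S.hF, hh_smul_right S.hF, hgU, S.f_fix ha hb] at h3
    exact mul_right_cancel₀ hab (by linear_combination h3)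
  obtain ⟨a₀, a₁, ha₀, -, ha₀₀, -, ha₀', -⟩ := S.pair [] (by simp) (by simp; omega)
  have ha₀0 : a₀ ≠ 0 := fun h => zero_ne_one (α := F) (by rw [← ha₀', h, hh_zero_left S.hF])
  obtain ⟨κ, hκ⟩ := hall a₀ ha₀ ha₀₀
  have hiso : ∀ a, RV F₀ P a → hh a a = 0 → conjP q P ((g : Mx) *ᵥ a) = κ • (g : Mx) *ᵥ a := by
    intro a ha haa
    rcases eq_or_ne a 0 with rfl | ha0
    · simp only [conjP, Matrix.mulVec_zero, Pi.zero_apply, zero_pow_q S.hF, smul_zero]
      exact Matrix.mulVec_zero _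
    obtain ⟨w, hw, hww, hw0, hwa⟩ := S.exists_both ha₀ ha ha₀0 ha0
    obtain ⟨κ₁, hκ₁⟩ := hall w hw hww
    obtain ⟨κ₂, hκ₂⟩ := hall a ha haa
    have h1 := hpair a₀ w κ κ₁ ha₀ hw hw0 hκ hκ₁
    have h2 := hpair a w κ₂ κ₁ ha hw hwa hκ₂ hκ₁
    rw [hκ₂, mul_right_cancel₀ (right_ne_zero_of_mul_eq_one h1) (h2.trans h1.symm)]
  refine ⟨κ, fun v hv => ?_⟩
  set M : Mx := ((P⁻¹ * g * P : GL (Fin n) F) : Mx) with hM
  set M' : Mx := fun i j => M i j ^ q with hM'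
  have hval : ∀ v, RV F₀ P v → conjP q P ((g : Mx) *ᵥ v) =
      (P : Mx) *ᵥ (M' *ᵥ (((P⁻¹ : GL (Fin n) F) : Mx) *ᵥ v)) := by
    intro v hv
    show (P : Mx) *ᵥ _ = _
    congr 1
    funext i
    have he : ((P⁻¹ : GL (Fin n) F) : Mx) *ᵥ ((g : Mx) *ᵥ v) = M *ᵥ (((P⁻¹ : GL (Fin n) F) : Mx) *ᵥ v) := by
      rw [hM, Units.val_mul, Units.val_mul, ← Matrix.mulVec_mulVec, ← Matrix.mulVec_mulVec, inv_P]
    rw [he]
    show (∑ j, M i j * (((P⁻¹ : GL (Fin n) F) : Mx) *ᵥ v) j) ^ q =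
      ∑ j, M i j ^ q * (((P⁻¹ : GL (Fin n) F) : Mx) *ᵥ v) j
    rw [show ∀ s : F, s ^ q = Cfsg.Agent.Forms.frobQ S.hF s from fun _ => rfl, map_sum]
    exact Finset.sum_congr rfl fun j _ => by
      show (M i j * _) ^ q = _
      rw [mul_pow, S.fixed_iff.mp (hv j)]
  funext i
  have h := S.kills [] (by simp) (by simp; omega) ((LinearMap.proj i).comp
    (Matrix.mulVecLin ((P : Mx) * M' * ((P⁻¹ : GL (Fin n) F) : Mx) - κ • (g : Mx))))
    (fun c hc hcc _ => by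
      rw [LinearMap.comp_apply, Matrix.mulVecLin_apply, LinearMap.proj_apply, Matrix.sub_mulVec, Matrix.smul_mulVec,
        ← Matrix.mulVec_mulVec, ← Matrix.mulVec_mulVec, ← hval c hc, hiso c hc hcc, sub_self, Pi.zero_apply])
    hv (by simp)
  rw [LinearMap.comp_apply, Matrix.mulVecLin_apply, LinearMap.proj_apply, Matrix.sub_mulVec, Matrix.smul_mulVec,
    ← Matrix.mulVec_mulVec, ← Matrix.mulVec_mulVec, ← hval v hv, Pi.sub_apply, sub_eq_zero] at h
  exact h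

omit S in
/-- The subfield group is maximal. -/
theorem maximal (S : Str n q F₀ P) :
    Cfsg.Geo.IsMaximalIn (SUgl n F q) (Cfsg.Geo.subfieldSubgroup F₀ P ⊓ SUgl n F q) := by
  have hn := S.dim
  haveI : Nonempty (Fin n) := ⟨⟨0, by omega⟩⟩
  refine ⟨lt_of_le_of_ne inf_le_right fun heq => ?_, fun L hH hL => ?_⟩
  · obtain ⟨τ, hτ0, hτ⟩ := exists_trace_zero S.hF
    obtain ⟨d, d', hd, hd', hdd, -, hp, -⟩ := S.pair [] (by simp) (by simp; omega)
    have hmem := (Subgroup.mem_inf.mp (heq.symm ▸ uT_mem S.hF d τ hdd hτ)).1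
    rw [SubfieldScaled.mem_subfieldSubgroup_iff] at hmem
    obtain ⟨c, hc0, hc⟩ := SubfieldScaled.scaled_of_mem F₀ hmem
    set d₀ := ((P⁻¹ : GL (Fin n) F) : Mx) *ᵥ d
    have hent : ∀ v : Vec, RV F₀ P v → ∀ i,
        c * ((((P⁻¹ : GL (Fin n) F) : Mx) *ᵥ v) i + τ * hh v d * d₀ i) ∈ F₀ := by
      intro v hv i
      have h1 : c * (((P⁻¹ * uT d τ hdd * P : GL (Fin n) F) : Mx) *ᵥ (((P⁻¹ : GL (Fin n) F) : Mx) *ᵥ v)) i ∈ F₀ := by
        rw [Matrix.mulVec, dotProduct, Finset.mul_sum]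
        exact F₀.sum_mem fun k _ => by rw [← mul_assoc]; exact F₀.mul_mem (hc i k) (hv k)
      rw [Units.val_mul, Units.val_mul, ← Matrix.mulVec_mulVec, ← Matrix.mulVec_mulVec, inv_P, uT_mulVec,
        Matrix.mulVec_add, Matrix.mulVec_smul] at h1
      exact h1
    obtain ⟨i, hi⟩ : ∃ i, d₀ i ≠ 0 := Function.ne_iff.mp fun e => zero_ne_one (α := F) (by
      rw [← hp, show d = 0 from (inv_P P d).symm.trans ((congrArg ((P : Mx) *ᵥ ·) e).trans (Matrix.mulVec_zero _)),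
        hh_zero_left S.hF])
    have hcF : c ∈ F₀ := by
      have h1 := F₀.div_mem (hent d hd i) (hd i)
      rwa [hdd, mul_zero, zero_mul, add_zero, mul_div_assoc, div_self hi, mul_one] at h1
    have h2 := F₀.sub_mem (F₀.mul_mem (F₀.inv_mem hcF) (hent d' hd' i)) (hd' i)
    rw [← mul_assoc, inv_mul_cancel₀ hc0, one_mul, add_sub_cancel_left, S.f_comm hd hd', hp, mul_one] at h2
    have h3 := S.fixed_iff.mp (F₀.div_mem h2 (hd i))
    rw [mul_div_assoc, div_self hi, mul_one] at h3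
    exact hτ0 ((mul_eq_zero.mp (show (2 : F) * τ = 0 by linear_combination hτ - h3)).resolve_left S.two)
  · by_cases hall : ∀ g ∈ L, ∀ a, RV F₀ P a → hh a a = 0 →
        ∃ κ : F, conjP q P ((g : Mx) *ᵥ a) = κ • (g : Mx) *ᵥ a
    · refine Or.inl (le_antisymm (le_inf (fun g hg => (SubfieldScaled.mem_subfieldSubgroup_iff F₀ P g).mpr
        (SubfieldScaled.mem_sup_of_images F₀ _ fun v hv i j hj => ?_)) hL) hH)
      obtain ⟨κ, hκ⟩ := S.scaled_of_iso (mem_GU_iff.mp (hL hg).1) (hall g hg)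
      have h1 := congrArg ((((P⁻¹ : GL (Fin n) F) : Mx)) *ᵥ ·) (hκ _ (rv_P hv))
      simp only [conjP, inv_P', Matrix.mulVec_smul] at h1
      set w := ((P⁻¹ * g * P : GL (Fin n) F) : Mx) *ᵥ v with hw
      have hw' : ((P⁻¹ : GL (Fin n) F) : Mx) *ᵥ ((g : Mx) *ᵥ ((P : Mx) *ᵥ v)) = w := by
        rw [hw, Units.val_mul, Units.val_mul, ← Matrix.mulVec_mulVec, ← Matrix.mulVec_mulVec]
      rw [hw'] at h1
      have hi := congrFun h1 i
      have hj' := congrFun h1 j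
      simp only [Pi.smul_apply, smul_eq_mul] at hi hj'
      refine S.fixed_iff.mpr ?_
      rw [div_pow, hi, hj', mul_div_mul_left]
      intro e
      rw [e, zero_mul] at hj'
      exact pow_ne_zero q hj hj'
    · push Not at hall
      obtain ⟨g, hg, a, ha, haa, hno⟩ := hall
      exact Or.inr (le_antisymm hL (S.top_of_unscaled hH hL hg ha haa hno))

end Cfsg.Agent.GeomClasses.OrthInSU
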