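import Mathlib

/-!
Symmetries of short zero-sum sequences modulo 3 and 5.
-/

set_option autoImplicit false

namespace Cfsg.Agent.GeomClasses.OrthPairing

/-- Zero-sum sequences of length three have a symmetry. -/
theorem pairing_three (a : ZMod 3) :
    ∃ f ∈ ([![0, 1, 2], ![0, 2, 1], ![1, 0, 2], ![2, 1, 0]] : List (Fin 3 → Fin 3)),
      (∀ j, f (f j) = j) ∧ ∀ j, (![0, a, -a] : Fin 3 → ZMod 3) j + ![0, a, -a] (f j) = ![0, a, -a] (f 0) := by
  revert a; decide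

set_option maxRecDepth 8000 in
/-- Zero-sum sequences of length five have a symmetry. -/
theorem pairing_five (a b c : ZMod 5) :
    ∃ f ∈ ([![0, 2, 1, 4, 3], ![0, 3, 4, 1, 2], ![0, 4, 3, 2, 1], ![1, 0, 2, 4, 3], ![2, 1, 0, 4, 3], ![3, 2, 1, 0, 4],
        ![4, 2, 1, 3, 0], ![1, 0, 3, 2, 4], ![1, 0, 4, 3, 2], ![3, 1, 4, 0, 2], ![3, 4, 2, 0, 1]] : List (Fin 5 → Fin 5)),
      (∀ j, f (f j) = j) ∧ ∀ j, (![0, a, b, c, -a - b - c] : Fin 5 → ZMod 5) j + ![0, a, b, c, -a - b - c] (f j) =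
        ![0, a, b, c, -a - b - c] (f 0) := by
  revert a b c; decide +kernel

theorem exists_pairing {r : ℕ} (hr : r = 3 ∨ r = 5) (e : Fin r → ZMod r) (h : ∑ j, e j = 0) :
    ∃ f : Fin r → Fin r, (∀ j, f (f j) = j) ∧ ∃ m : ZMod r, ∀ j, e j + e (f j) = m := by
  rcases hr with rfl | rfl
  · obtain ⟨f, -, hf, hs⟩ := pairing_three (e 1 - e 0)
    have key : ∀ j, e j - e 0 = (![0, e 1 - e 0, -(e 1 - e 0)] : Fin 3 → ZMod 3) j := by
      rw [Fin.sum_univ_three] at h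
      have h3 : (3 : ZMod 3) = 0 := by decide
      intro j; fin_cases j <;> simp
      linear_combination h - h3 * e 0
    refine ⟨f, hf, e 0 + e 0 + (e (f 0) - e 0), fun j => ?_⟩
    rw [key (f 0), ← hs j, ← key, ← key]; ring
  · obtain ⟨f, -, hf, hs⟩ := pairing_five (e 1 - e 0) (e 2 - e 0) (e 3 - e 0)
    have key : ∀ j, e j - e 0 =
        (![0, e 1 - e 0, e 2 - e 0, e 3 - e 0, -(e 1 - e 0) - (e 2 - e 0) - (e 3 - e 0)] : Fin 5 → ZMod 5) j := by
      rw [Fin.sum_univ_five] at h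
      have h5 : (5 : ZMod 5) = 0 := by decide
      intro j; fin_cases j <;> simp
      linear_combination h - h5 * e 0
    refine ⟨f, hf, e 0 + e 0 + (e (f 0) - e 0), fun j => ?_⟩
    rw [key (f 0), ← hs j, ← key, ← key]; ring

end Cfsg.Agent.GeomClasses.OrthPairing
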