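import Cfsg.Agent.GeomClasses.PolarPairDerange
import Mathlib.LinearAlgebra.Matrix.Rank

/-!
Elements of odd prime order of `SL_n` conjugate into no symplectic similitude group.
-/

set_option autoImplicit false

namespace Cfsg.Agent.GeomClasses.SympFormDerange

open Matrix Cfsg.Agent.Forms

variable {F : Type*} [Field F] [Fintype F] {n : ℕ}

theorem exists_bilin {f : (Fin n → F) → (Fin n → F) → F} (hf : Cfsg.Geo.IsSymplecticForm f) :
    ∃ B : LinearMap.BilinForm F (Fin n → F), (∀ u v, B u v = f u v) ∧ B.IsAlt ∧ B.Nondegenerate := by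
  refine ⟨LinearMap.mk₂ F f hf.bilinear.add_left hf.bilinear.smul_left
    (fun a b c => hf.bilinear.add_right a b c) (fun c a b => ?_), fun u v => rfl, fun v => hf.alternating v, ?_, ?_⟩
  · rw [hf.skew a, hf.bilinear.smul_left, hf.skew b a]; simp
  · intro u h
    by_contra hu
    obtain ⟨-, v, hv⟩ := hf.nondegenerate u hu
    exact hv (h v)
  · intro u h
    by_contra hu
    obtain ⟨⟨v, hv⟩, -⟩ := hf.nondegenerate u hu
    exact hv (h v)

/-- A prime dividing the index of the similitude group has odd order modulo `q`. -/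
theorem odd_dvd {q : ℕ} (hq : Fintype.card F = q) (he : Even n) (f : (Fin n → F) → (Fin n → F) → F)
    (hf : Cfsg.Geo.IsSymplecticForm f) {r : ℕ} (hr : r.Prime) (hrq : ¬ r ∣ q)
    (hΩ : r ∣ ((Cfsg.Geo.similarityGroup f).comap
      (Matrix.SpecialLinearGroup.toGL : Matrix.SpecialLinearGroup (Fin n) F →* GL (Fin n) F)).index) :
    ∃ j, Odd j ∧ j ≤ n ∧ r ∣ q ^ j - 1 := by
  classical
  obtain ⟨B, hB, hA, hN⟩ := exists_bilin hf
  obtain ⟨m, hm, hcard⟩ := card_isom_alt hq (isForm_alt B hN hA)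
  rw [Module.finrank_pi, Fintype.card_fin] at hm
  let I := isomGroup B (fun _ => (0 : F))
  let S : Subgroup (GL (Fin n) F) := I.comap (glEquiv (Fin n) F).toMonoidHom
  have hScard : Nat.card S = Nat.card I :=
    Nat.card_congr (subgroupEquivOfIff (glEquiv (Fin n) F) S I fun g => Iff.rfl).toEquiv
  let H := Cfsg.Geo.similarityGroup f
  have hSH : S ≤ H := fun g hg => ⟨1, fun u v => by
    rw [Units.val_one, one_mul, ← hB, ← hB]
    exact (hg : glEquiv (Fin n) F g ∈ I).1 u v⟩
  let K := MonoidHom.range (Matrix.SpecialLinearGroup.toGL : Matrix.SpecialLinearGroup (Fin n) F →* GL (Fin n) F)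
  have hK : K.Normal := by
    have : K = (Matrix.GeneralLinearGroup.det : GL (Fin n) F →* Fˣ).ker := by
      ext g
      constructor
      · rintro ⟨s, rfl⟩
        exact Units.ext s.2
      · intro hg
        refine ⟨⟨(g : Matrix (Fin n) (Fin n) F), ?_⟩, Units.ext rfl⟩
        have := congrArg Units.val (MonoidHom.mem_ker.1 hg)
        simpa using this
    rw [this]; infer_instance
  rw [Subgroup.index_comap] at hΩ
  have hdvd : r ∣ S.index := by
    refine hΩ.trans (dvd_trans ?_ (Subgroup.index_dvd_of_le hSH))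
    have h1 := Subgroup.relIndex_mul_index (inf_le_right : H ⊓ K ≤ K)
    have h2 := Subgroup.relIndex_mul_index (inf_le_left : H ⊓ K ≤ H)
    rw [Subgroup.inf_relIndex_right] at h1
    rw [Subgroup.inf_relIndex_left] at h2
    obtain ⟨a, ha⟩ : K.relIndex H ∣ K.index := Subgroup.relIndex_dvd_index_of_normal K H
    have hpos : K.relIndex H ≠ 0 := Subgroup.index_ne_zero_of_finite
    refine Dvd.intro a (mul_left_cancel₀ hpos ?_)
    rw [h2, ← h1, ha]; ring
  have hq1 : 1 < q := hq ▸ Fintype.one_lt_card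
  have hmul := S.index_mul_card
  rw [hScard, hcard, Matrix.card_GL_field, hq, ← Finset.prod_range (fun i => q ^ n - q ^ i)] at hmul
  have hpair : ∀ m : ℕ, ∏ k ∈ Finset.range (2 * m), (q ^ (k + 1) - 1) =
      (∏ i ∈ Finset.range m, (q ^ (2 * i + 1) - 1)) * ∏ i ∈ Finset.range m, (q ^ (2 * (i + 1)) - 1) := by
    intro m
    induction m with
    | zero => simp
    | succ m ih =>
      rw [show 2 * (m + 1) = 2 * m + 1 + 1 by ring, Finset.prod_range_succ, Finset.prod_range_succ,
        Finset.prod_range_succ, Finset.prod_range_succ, ih, show 2 * (m + 1) = 2 * m + 1 + 1 by ring]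
      ring
  have hsplit : ∏ i ∈ Finset.range n, (q ^ n - q ^ i) =
      (∏ i ∈ Finset.range n, q ^ i) * ∏ i ∈ Finset.range n, (q ^ (i + 1) - 1) := by
    rw [← Finset.prod_range_reflect (fun i => q ^ (i + 1) - 1) n, ← Finset.prod_mul_distrib]
    refine Finset.prod_congr rfl fun i hi => ?_
    rw [Finset.mem_range] at hi
    rw [Nat.mul_sub, mul_one, ← pow_add, show i + (n - 1 - i + 1) = n by omega]
  have hne : ∏ i ∈ Finset.range m, (q ^ (2 * (i + 1)) - 1) ≠ 0 := by
    rw [Finset.prod_ne_zero_iff]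
    intro i _
    have := Nat.one_lt_pow (show 2 * (i + 1) ≠ 0 by omega) hq1
    omega
  have hP := hpair m
  rw [← hm] at hP
  rw [hsplit, hP, ← mul_assoc, ← mul_assoc] at hmul
  have h := Nat.eq_of_mul_eq_mul_right (Nat.pos_of_ne_zero hne) hmul
  have hr' : r ∣ (∏ i ∈ Finset.range n, q ^ i) * ∏ i ∈ Finset.range m, (q ^ (2 * i + 1) - 1) :=
    h ▸ Dvd.dvd.mul_right hdvd _
  rcases hr.dvd_mul.1 hr' with h' | h'
  · obtain ⟨i, -, hi⟩ := hr.prime.exists_mem_finset_dvd h'
    exact absurd (hr.dvd_of_dvd_pow hi) hrq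
  · obtain ⟨i, hi, hi'⟩ := hr.prime.exists_mem_finset_dvd h'
    rw [Finset.mem_range] at hi
    exact ⟨2 * i + 1, ⟨i, rfl⟩, by omega, hi'⟩

/-- An element fixing the form, with a single Jordan block of length three, does not exist. -/
theorem no_three_block {f : (Fin n → F) → (Fin n → F) → F} (hf : Cfsg.Geo.IsSymplecticForm f)
    {M : Matrix (Fin n) (Fin n) F} (hM3 : M * (M * M) = 0)
    (hpres : ∀ u v, f ((1 + M) *ᵥ u) ((1 + M) *ᵥ v) = f u v)
    {φ : (Fin n → F) →ₗ[F] F} {a : Fin n → F} (hM2 : ∀ u, M *ᵥ (M *ᵥ u) = φ u • a) (hφ : φ ≠ 0) (ha : a ≠ 0)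
    (h2 : (2 : F) ≠ 0) : False := by
  obtain ⟨B, hB, hA, hN⟩ := exists_bilin hf
  have h : ∀ u v, B (M *ᵥ u) v + B u (M *ᵥ v) + B (M *ᵥ u) (M *ᵥ v) = 0 := by
    intro u v
    have := hpres u v
    rw [← hB, ← hB, Matrix.add_mulVec, Matrix.add_mulVec, Matrix.one_mulVec, Matrix.one_mulVec] at this
    simp only [map_add, LinearMap.add_apply] at this
    linear_combination this
  have hz : ∀ u, M *ᵥ (M *ᵥ (M *ᵥ u)) = 0 := fun u => by
    rw [Matrix.mulVec_mulVec, Matrix.mulVec_mulVec, mul_assoc, hM3, Matrix.zero_mulVec]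
  have key : ∀ u v, B (M *ᵥ (M *ᵥ u)) v = B u (M *ᵥ (M *ᵥ v)) := by
    intro u v
    have e21 := h (M *ᵥ (M *ᵥ u)) (M *ᵥ v)
    have e20 := h (M *ᵥ (M *ᵥ u)) v
    have e11 := h (M *ᵥ u) (M *ᵥ v)
    have e10 := h (M *ᵥ u) v
    have e01 := h u (M *ᵥ v)
    simp only [hz, map_zero, LinearMap.zero_apply, zero_add, add_zero] at e21 e20
    linear_combination e10 - e01 + e11 - 2 * e20 - e21
  have hprod : ∀ u, φ u * B a u = 0 := fun u => by
    have := key u u
    rw [hM2, map_smul, LinearMap.smul_apply, map_smul, ← LinearMap.IsAlt.neg hA a u] at this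
    simp only [smul_eq_mul] at this
    exact (mul_eq_zero.1 (show (2 : F) * (φ u * B a u) = 0 by linear_combination this)).resolve_left h2
  obtain ⟨u, hu⟩ : ∃ u, φ u ≠ 0 := by
    by_contra hc
    exact hφ (LinearMap.ext fun u => by_contra fun hu => hc ⟨u, hu⟩)
  refine ha (hN.1 a fun v => ?_)
  by_contra hv
  have hu' : B a u = 0 := (mul_eq_zero.1 (hprod u)).resolve_left hu
  have hv' : φ v = 0 := (mul_eq_zero.1 (hprod v)).resolve_right hv
  rcases mul_eq_zero.1 (hprod (u + v)) with e | e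
  · rw [map_add, hv', add_zero] at e; exact hu e
  · rw [map_add, hu', zero_add] at e; exact hv e

/-- The multiplier of an element of order dividing `r` has order dividing `r`. -/
theorem multiplier_pow {f : (Fin n → F) → (Fin n → F) → F} (hf : Cfsg.Geo.IsSymplecticForm f) (hn : 1 ≤ n)
    {g : Matrix (Fin n) (Fin n) F} {c : F} (hg : ∀ u v, f (g *ᵥ u) (g *ᵥ v) = c * f u v) {r : ℕ}
    (hr : g ^ r = 1) : c ^ r = 1 := by
  have h : ∀ (k : ℕ) u v, f ((g ^ k) *ᵥ u) ((g ^ k) *ᵥ v) = c ^ k * f u v := by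
    intro k
    induction k with
    | zero => intro u v; simp
    | succ k ih =>
      intro u v
      rw [pow_succ, ← Matrix.mulVec_mulVec, ← Matrix.mulVec_mulVec, ih, hg, pow_succ, mul_assoc]
  let u : Fin n → F := Pi.single ⟨0, hn⟩ 1
  obtain ⟨-, v, hv⟩ := hf.nondegenerate u (fun e => one_ne_zero (α := F) (by simpa [u] using congrFun e ⟨0, hn⟩))
  have := h r u v
  rw [hr, Matrix.one_mulVec, Matrix.one_mulVec] at this
  exact (mul_eq_right₀ hv).1 this.symm

/-- Paired eigenvalues of a similitude have the same multiplicity. -/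
theorem rank_eq {f : (Fin n → F) → (Fin n → F) → F} (hf : Cfsg.Geo.IsSymplecticForm f)
    {g : Matrix (Fin n) (Fin n) F} {c : F} (hg : ∀ u v, f (g *ᵥ u) (g *ᵥ v) = c * f u v) {l : F} (hl : l ≠ 0)
    (hc : c ≠ 0) : (g - l • 1).rank = (g - (c / l) • 1).rank := by
  obtain ⟨B, hB, hA, hN⟩ := exists_bilin hf
  have key : ∀ l : F, l ≠ 0 → (g - (c / l) • 1).rank ≤ (g - l • 1).rank := by
    intro l hl
    have hle : LinearMap.ker (g - l • 1).mulVecLin ≤ perp B (LinearMap.range (g - (c / l) • 1).mulVecLin) := by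
      intro u hu x hx
      obtain ⟨v, rfl⟩ := hx
      have hu' : g *ᵥ u = l • u := by
        simpa [Matrix.sub_mulVec, Matrix.smul_mulVec, sub_eq_zero] using hu
      have h1 := hg v u
      rw [hu', ← hB, ← hB, map_smul, smul_eq_mul] at h1
      simp only [Matrix.mulVecLin_apply, Matrix.sub_mulVec, Matrix.smul_mulVec, Matrix.one_mulVec, map_sub,
        map_smul, LinearMap.sub_apply, LinearMap.smul_apply, smul_eq_mul]
      field_simp
      linear_combination h1
    have h1 := Submodule.finrank_mono hle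
    have h2 := (isForm_alt B hN hA).finrank_perp (LinearMap.range (g - (c / l) • 1).mulVecLin)
    have h3 := LinearMap.finrank_range_add_finrank_ker (g - l • 1).mulVecLin
    simp only [Matrix.rank] at *
    omega
  refine le_antisymm ?_ (key l hl)
  simpa [div_div_cancel₀ hc] using key (c / l) (div_ne_zero hc hl)

theorem rank_conj {g x P Q : Matrix (Fin n) (Fin n) F} (hPQ : P * Q = 1) (hg : g = Q * x * P) (l : F) :
    (g - l • 1).rank = (x - l • 1).rank := by
  have hQP : Q * P = 1 := mul_eq_one_comm.1 hPQ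
  have : g - l • 1 = Q * (x - l • 1) * P := by
    rw [hg, mul_sub, sub_mul, Matrix.mul_smul, mul_one, Matrix.smul_mul, hQP]
  rw [this, Matrix.rank_mul_eq_left_of_isUnit_det _ _ (Matrix.isUnit_det_of_left_inverse hQP),
    Matrix.rank_mul_eq_right_of_isUnit_det _ _ (Matrix.isUnit_det_of_left_inverse hPQ)]

/-- An isometry of finite order prime to the characteristic moves a subspace of even dimension. -/
theorem rank_even {f : (Fin n → F) → (Fin n → F) → F} (hf : Cfsg.Geo.IsSymplecticForm f)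
    {g : Matrix (Fin n) (Fin n) F} (hg : ∀ u v, f (g *ᵥ u) (g *ᵥ v) = f u v) {r : ℕ}
    (hr : g ^ r = 1) (hrF : (r : F) ≠ 0) : Even (g - 1).rank := by
  obtain ⟨B, hB, hA, hN⟩ := exists_bilin hf
  set L := (g - 1).mulVecLin
  have hL : ∀ v, L v = g *ᵥ v - v := fun v => by simp [L, Matrix.sub_mulVec]
  set W := LinearMap.range L
  set K := LinearMap.ker L
  have hdisj : Disjoint W K := by
    refine Submodule.disjoint_def.2 fun y hy hyk => ?_
    obtain ⟨u, rfl⟩ := hy
    have hk : g *ᵥ (L u) = L u := by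
      have : L (L u) = 0 := hyk
      rwa [hL (L u), sub_eq_zero] at this
    have hpow : ∀ k : ℕ, (g ^ k) *ᵥ u = u + k • L u := by
      intro k
      induction k with
      | zero => simp
      | succ k ih => rw [pow_succ', ← Matrix.mulVec_mulVec, ih, Matrix.mulVec_add, Matrix.mulVec_smul, hk, succ_nsmul, hL u]; abel
    have h := hpow r
    rw [hr, Matrix.one_mulVec, left_eq_add, ← Nat.cast_smul_eq_nsmul F] at h
    exact (smul_eq_zero.1 h).resolve_left hrF
  have hco : W ⊔ K = ⊤ := by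
    refine Submodule.eq_top_of_finrank_eq ?_
    have h1 := Submodule.finrank_sup_add_finrank_inf_eq W K
    rw [hdisj.eq_bot, finrank_bot, LinearMap.finrank_range_add_finrank_ker] at h1
    simpa using h1
  let B' : LinearMap.BilinForm F W := B.compl₁₂ W.subtype W.subtype
  have hA' : B'.IsAlt := fun v => hA _
  have horth : ∀ w ∈ W, ∀ k ∈ K, B w k = 0 := by
    rintro _ ⟨u, rfl⟩ k hk
    have hk' : g *ᵥ k = k := by
      have : L k = 0 := hk
      rwa [hL, sub_eq_zero] at this
    rw [hL, map_sub, LinearMap.sub_apply, sub_eq_zero]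
    have := hg u k
    rw [hk', ← hB, ← hB] at this
    exact this
  have hleft : ∀ w : W, (∀ z : W, B' w z = 0) → w = 0 := fun w h => Subtype.ext (hN.1 _ fun v => by
    obtain ⟨a, ha, b, hb, rfl⟩ := Submodule.mem_sup.1 (hco ▸ Submodule.mem_top : v ∈ W ⊔ K)
    rw [map_add, horth w w.2 b hb, add_zero]
    exact h ⟨a, ha⟩)
  have hN' : B'.Nondegenerate := ⟨hleft, fun w h => hleft w fun z => by
    rw [← LinearMap.IsAlt.neg hA' z w, h z, neg_zero]⟩
  obtain ⟨m, hm, -⟩ := card_isom_alt rfl (isForm_alt B' hN' hA')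
  exact ⟨m, hm.trans (two_mul m)⟩

/-- An element of order `r` of `GL_n` moving at most `i` dimensions, `i` the order of `q` modulo `r`. -/
theorem exists_small {q : ℕ} (hq : Fintype.card F = q) {r i : ℕ} [Fact r.Prime] (hrq : ¬ r ∣ q) (hrF : (r : F) ≠ 0)
    (hi : 1 ≤ i) (hin : i ≤ n) (hdvd : r ∣ q ^ i - 1) (hmin : ∀ k, 1 ≤ k → k < i → ¬ r ∣ q ^ k - 1) :
    ∃ x : Matrix (Fin n) (Fin n) F, x ^ r = 1 ∧ (x - 1).rank = i := by
  classical
  obtain ⟨T₀, hT₀⟩ := exists_prime_orderOf_dvd_card' (G := GL (Fin i) F) r (by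
    rw [Matrix.card_GL_field, hq]
    refine dvd_trans ?_ (Finset.dvd_prod_of_mem _ (Finset.mem_univ (⟨0, hi⟩ : Fin i)))
    simpa using hdvd)
  set T := (T₀ : Matrix (Fin i) (Fin i) F)
  have hTr : T ^ r = 1 := by
    rw [← Units.val_pow_eq_pow_val, ← hT₀, pow_orderOf_eq_one, Units.val_one]
  have hT1 : T ≠ 1 := fun h => (Fact.out : r.Prime).one_lt.ne' (by rw [← hT₀, Units.ext (h.trans Units.val_one.symm), orderOf_one])
  let R : (Fin n → F) →ₗ[F] (Fin i → F) := LinearMap.funLeft F F (Fin.castLE hin)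
  let E : (Fin i → F) →ₗ[F] (Fin n → F) := Function.ExtendByZero.linearMap F (Fin.castLE hin)
  have hRE : ∀ a, R (E a) = a := fun a => funext fun k => (Fin.castLE_injective hin).extend_apply _ _ _
  let X : (Fin n → F) →ₗ[F] (Fin n → F) := LinearMap.id + E.comp ((T - 1).mulVecLin.comp R)
  have hX : ∀ v, X v = v + E ((T - 1) *ᵥ R v) := fun v => rfl
  have hXk : ∀ (k : ℕ) v, (X ^ k) v = v + E ((T ^ k - 1) *ᵥ R v) := by
    intro k
    induction k with
    | zero => intro v; simp
    | succ k ih =>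
      intro v
      rw [pow_succ', Module.End.mul_apply, ih, hX, map_add, hRE, add_assoc, ← map_add]
      congr 2
      rw [Matrix.mulVec_add, Matrix.mulVec_mulVec, ← Matrix.add_mulVec, ← Matrix.add_mulVec]
      congr 1
      rw [sub_mul, one_mul, mul_sub, mul_one, ← pow_succ']
      abel
  set x := LinearMap.toMatrix' X
  have hxr : x ^ r = 1 := by
    apply Matrix.toLin'.injective
    rw [Matrix.toLin'_pow, Matrix.toLin'_toMatrix', Matrix.toLin'_one]
    exact LinearMap.ext fun v => by rw [hXk, hTr]; simp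
  refine ⟨x, hxr, ?_⟩
  have hx1 : (x - 1).mulVecLin = E.comp ((T - 1).mulVecLin.comp R) := LinearMap.ext fun v => by
    simp [x, Matrix.sub_mulVec, LinearMap.toMatrix'_mulVec, hX]
  have hle : (x - 1).rank ≤ i := by
    rw [Matrix.rank, hx1]
    calc _ ≤ Module.finrank F (LinearMap.range E) := Submodule.finrank_mono (LinearMap.range_comp_le_range _ _)
      _ ≤ _ := (LinearMap.finrank_range_le E).trans (by simp)
  refine le_antisymm hle (not_lt.1 fun hlt => ?_)
  set W := LinearMap.range (x - 1).mulVecLin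
  have hW : ∀ w ∈ W, X w ∈ W := by
    rintro _ ⟨u, rfl⟩
    refine ⟨X u, ?_⟩
    rw [hx1]
    simp only [LinearMap.comp_apply, Matrix.mulVecLin_apply, hX, map_add, hRE]
  have hXinj : Function.Injective X := fun a c h => by
    have h' := congrArg (X ^ (r - 1)) h
    rw [← Module.End.mul_apply, ← Module.End.mul_apply, ← pow_succ,
      Nat.sub_add_cancel (Fact.out : r.Prime).one_lt.le, hXk, hXk, hTr] at h'
    simpa using h'
  let φ : W ≃ₗ[F] W := LinearEquiv.ofInjectiveEndo (X.restrict hW) (fun a c h =>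
    Subtype.ext (hXinj (congrArg Subtype.val h)))
  have hφ : ∀ (k : ℕ) (a : W), ((φ ^ k) a : Fin n → F) = (X ^ k) (a : Fin n → F) := by
    intro k
    induction k with
    | zero => intro a; rfl
    | succ k ih =>
      intro a
      rw [pow_succ, pow_succ, LinearEquiv.mul_apply, Module.End.mul_apply, ih]
      rfl
  have hone := PolarPairDerange.eq_id_of_pow hq hrq (fun k hk hk' => hmin k hk (hk'.trans_lt hlt)) φ
    (LinearEquiv.ext fun a => Subtype.ext (by rw [hφ, hXk, hTr]; simp))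
  have hfix : ∀ w ∈ W, X w = w := fun w hw => congrArg Subtype.val (LinearEquiv.congr_fun hone ⟨w, hw⟩)
  refine hT1 (Matrix.toLin'.injective (LinearMap.ext fun a => ?_))
  have hd : ∀ v, E ((T - 1) *ᵥ R v) ∈ W := fun v => ⟨v, by rw [hx1]; rfl⟩
  have hpow : ∀ k : ℕ, (X ^ k) (E a) = E a + k • E ((T - 1) *ᵥ a) := by
    intro k
    induction k with
    | zero => simp
    | succ k ih =>
      have hm := hd (E a)
      rw [hRE] at hm
      rw [pow_succ', Module.End.mul_apply, ih, map_add, map_nsmul, hfix _ hm, hX, hRE, succ_nsmul]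
      abel
  have h := hpow r
  rw [hXk, hTr, sub_self, Matrix.zero_mulVec, map_zero, add_zero, left_eq_add, ← Nat.cast_smul_eq_nsmul F,
    smul_eq_zero] at h
  have h' := congrArg R (h.resolve_left hrF)
  rw [hRE, map_zero, Matrix.sub_mulVec, Matrix.one_mulVec, sub_eq_zero] at h'
  simpa using h'

end Cfsg.Agent.GeomClasses.SympFormDerange
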