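import Cfsg.Agent.Forms.QuadBasic
import Cfsg.Agent.GeomClasses.InvolutionBlocks
import Cfsg.Agent.GeomClasses.SympFormDerange

/-!
Elements with scalar square normalising a quadratic extension field inside `M_n`.
-/

set_option autoImplicit false

namespace Cfsg.Agent.GeomClasses.QuadExtInvolution

open Matrix

variable {F : Type*} [Field F] {n : ℕ}

local notation "Mx" => Matrix (Fin n) (Fin n) F

/-- A generator of `K` with a normalised minimal polynomial. -/
theorem exists_gen [Finite F] (hn : 1 ≤ n) {K : Subalgebra F Mx} (hK : Cfsg.Geo.IsFieldSubalgebra 2 K) :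
    ∃ (w : Mx) (c d : F), w ∈ K ∧ w * w = c • w + d • 1 ∧ (∀ t : F, t * t ≠ c * t + d) ∧
      (∀ k ∈ K, ∃ a b : F, k = a • (1 : Mx) + b • w) ∧ ((2 : F) ≠ 0 → c = 0) ∧ ((2 : F) = 0 → c = 1) := by
  classical
  haveI : Nonempty (Fin n) := ⟨⟨0, hn⟩⟩
  obtain ⟨k, hk, hkn⟩ : ∃ k ∈ K, k ∉ (⊥ : Subalgebra F Mx) := by
    refine SetLike.not_le_iff_exists.mp fun hle => ?_
    have := hK.finrank_eq
    rw [le_bot_iff.mp hle, Subalgebra.finrank_bot] at this
    omega
  have hli : LinearIndependent F ![(1 : Mx), k] := by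
    refine LinearIndependent.pair_iff.mpr fun s t h => ?_
    by_cases ht : t = 0
    · refine ⟨?_, ht⟩
      rw [ht, zero_smul, add_zero] at h
      exact (smul_eq_zero.mp h).resolve_right one_ne_zero
    · refine absurd ?_ hkn
      rw [Algebra.mem_bot]
      refine ⟨-(t⁻¹ * s), ?_⟩
      rw [Algebra.algebraMap_eq_smul_one, neg_smul, mul_smul, ← smul_neg, neg_eq_of_add_eq_zero_right h,
        inv_smul_smul₀ ht]
  have hspan : ∀ x ∈ K, ∃ a b : F, x = a • (1 : Mx) + b • k := by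
    intro x hx
    have hle : Submodule.span F (Set.range ![(1 : Mx), k]) ≤ Subalgebra.toSubmodule K := by
      rw [Submodule.span_le]
      rintro _ ⟨i, rfl⟩
      fin_cases i
      · exact K.one_mem
      · exact hk
    have heq := Submodule.eq_of_le_of_finrank_eq hle (by
      rw [finrank_span_eq_card hli, Fintype.card_fin]
      exact hK.finrank_eq.symm)
    have hx' : x ∈ Submodule.span F (Set.range ![(1 : Mx), k]) := heq ▸ hx
    obtain ⟨c, hc⟩ := (Submodule.mem_span_range_iff_exists_fun F).mp hx'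
    exact ⟨c 0, c 1, by rw [← hc, Fin.sum_univ_two]; rfl⟩
  obtain ⟨a, b, hab⟩ := hspan (k * k) (K.mul_mem hk hk)
  have noroot : ∀ t : F, t * t ≠ b * t + a := by
    intro t ht
    have hne : k - t • (1 : Mx) ≠ 0 := fun e => hkn (by
      rw [sub_eq_zero] at e
      rw [e, Algebra.mem_bot]
      exact ⟨t, Algebra.algebraMap_eq_smul_one t⟩)
    obtain ⟨y, hy, hy1⟩ := hK.inv _ (K.sub_mem hk (K.smul_mem K.one_mem t)) hne
    have h0 : (k + (t - b) • (1 : Mx)) * (k - t • (1 : Mx)) = 0 := by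
      simp only [add_mul, mul_sub, smul_mul_assoc, mul_smul_comm, one_mul, mul_one, hab, smul_sub, smul_smul]
      match_scalars <;> first | ring1 | linear_combination -ht | linear_combination ht
    have h1 := congrArg (· * y) h0
    simp only [mul_assoc, hy1, mul_one, zero_mul] at h1
    exact hkn (by
      rw [eq_neg_of_add_eq_zero_left h1, ← neg_smul, Algebra.mem_bot]
      exact ⟨_, Algebra.algebraMap_eq_smul_one _⟩)
  by_cases h2 : (2 : F) = 0
  · haveI : CharP F 2 := CharTwo.of_one_ne_zero_of_two_eq_zero one_ne_zero h2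
    have hb : b ≠ 0 := fun e => by
      haveI := Fintype.ofFinite F
      obtain ⟨t, ht⟩ := FiniteField.isSquare_of_char_two (ringChar.eq F 2) a
      exact noroot t (by rw [e, zero_mul, zero_add, ← ht])
    refine ⟨b⁻¹ • k, 1, b⁻¹ * b⁻¹ * a, K.smul_mem hk _, ?_, fun t ht => noroot (b * t) ?_, fun x hx => ?_,
      fun h => absurd h2 h, fun _ => rfl⟩
    · rw [smul_mul_assoc, mul_smul_comm, smul_smul, hab, one_smul, smul_add, smul_smul, smul_smul,
        show b⁻¹ * b⁻¹ * b = b⁻¹ by field_simp, add_comm]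
    · rw [show b * t * (b * t) = b * b * (t * t) by ring, ht]; field_simp
    · obtain ⟨u, v, h⟩ := hspan x hx
      exact ⟨u, v * b, by rw [h, smul_smul, mul_assoc, mul_inv_cancel₀ hb, mul_one]⟩
  · refine ⟨k - (b / 2) • 1, 0, a + b * b / 4, K.sub_mem hk (K.smul_mem K.one_mem _), ?_,
      fun t ht => noroot (t + b / 2) ?_, fun x hx => ?_, fun _ => rfl, fun h => absurd h h2⟩
    · have h4 : (4 : F) ≠ 0 := by rw [show (4 : F) = 2 * 2 by norm_num]; exact mul_ne_zero h2 h2
      simp only [mul_sub, sub_mul, smul_mul_assoc, mul_smul_comm, one_mul, mul_one, hab]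
      match_scalars <;> field_simp <;> ring
    · have h4 : (4 : F) ≠ 0 := by rw [show (4 : F) = 2 * 2 by norm_num]; exact mul_ne_zero h2 h2
      field_simp at ht ⊢
      linear_combination ht
    · obtain ⟨u, v, h⟩ := hspan x hx
      exact ⟨u + v * (b / 2), v, by rw [h]; module⟩

/-- A criterion for normalising `K`. -/
theorem mem_normalizer {K : Subalgebra F Mx} {w : Mx} (hw : w ∈ K) (hspan : ∀ k ∈ K, ∃ a b : F, k = a • (1 : Mx) + b • w)
    {g : GL (Fin n) F} {ε η : F} (hε : ε ≠ 0) (h : (g : Mx) * w = (ε • w + η • (1 : Mx)) * g) :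
    g ∈ Cfsg.Geo.subalgebraNormalizer K := by
  have hgg : (g : Mx) * ((g⁻¹ : GL (Fin n) F) : Mx) = 1 := by rw [← Units.val_mul, mul_inv_cancel, Units.val_one]
  have himg : ∀ a b : F, (g : Mx) * (a • (1 : Mx) + b • w) * ((g⁻¹ : GL (Fin n) F) : Mx) =
      (a + b * η) • (1 : Mx) + (b * ε) • w := by
    intro a b
    rw [mul_add, Matrix.mul_smul, Matrix.mul_smul, mul_one, h, add_mul, Matrix.smul_mul, Matrix.smul_mul, hgg,
      mul_assoc, hgg, mul_one]
    module
  intro k
  constructor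
  · intro hk
    obtain ⟨a, b, rfl⟩ := hspan k hk
    rw [himg]
    exact K.add_mem (K.smul_mem K.one_mem _) (K.smul_mem hw _)
  · intro hk
    obtain ⟨a, b, hab⟩ := hspan _ hk
    have h2 := himg (a - b / ε * η) (b / ε)
    rw [show a - b / ε * η + b / ε * η = a by ring, div_mul_cancel₀ b hε, ← hab] at h2
    have hgg' : ((g⁻¹ : GL (Fin n) F) : Mx) * (g : Mx) = 1 := by rw [← Units.val_mul, inv_mul_cancel, Units.val_one]
    have h3 := congrArg (fun t => ((g⁻¹ : GL (Fin n) F) : Mx) * t * (g : Mx)) h2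
    simp only [← mul_assoc, hgg', one_mul] at h3
    simp only [mul_assoc, hgg', mul_one] at h3
    rw [← h3]
    exact K.add_mem (K.smul_mem K.one_mem _) (K.smul_mem hw _)

theorem exists_basis {w : Mx} {d : F} (hww : w * w = d • (1 : Mx)) (hd : ∀ t : F, t * t ≠ d) :
    ∃ (m : ℕ) (b : Module.Basis (Fin m × Fin 2) F (Fin n → F)), ∀ p, w *ᵥ b (p, 0) = b (p, 1) ∧ w *ᵥ b (p, 1) = d • b (p, 0) := by
  classical
  have hd0 : d ≠ 0 := fun h => hd 0 (by rw [h, zero_mul])
  have hz : ∀ v, w *ᵥ (w *ᵥ v) = d • v := fun v => by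
    rw [Matrix.mulVec_mulVec, hww, Matrix.smul_mulVec, Matrix.one_mulVec]
  obtain ⟨k, l, b, hb1, hb2⟩ := InvolutionBlocks.exists_pairBasis w.mulVecLin d hd0 hz
  obtain rfl : l = 0 := by
    by_contra hl
    obtain ⟨μ, hμ⟩ := hb2 ⟨0, Nat.pos_of_ne_zero hl⟩
    have h1 := hz (b (Sum.inr ⟨0, Nat.pos_of_ne_zero hl⟩))
    simp only [Matrix.mulVecLin_apply] at hμ
    rw [hμ, Matrix.mulVec_smul, hμ, smul_smul] at h1
    exact hd μ (smul_left_injective F (b.ne_zero _) h1)
  exact ⟨k, b.reindex (Equiv.sumEmpty _ _), fun p => by simpa using hb1 p⟩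

/-- Conjugating a block shape into the normaliser. -/
theorem conj_into {K : Subalgebra F Mx} {w : Mx} {c d : F} (hw : w ∈ K)
    (hspan : ∀ k ∈ K, ∃ a b : F, k = a • (1 : Mx) + b • w) {κ : Type} [Fintype κ] [DecidableEq κ]
    (bw bx : Module.Basis (κ × Fin 2) F (Fin n → F)) (hbw : ∀ p, w *ᵥ bw (p, 0) = bw (p, 1) ∧ w *ᵥ bw (p, 1) = d • bw (p, 0) + c • bw (p, 1))
    (x : Matrix.SpecialLinearGroup (Fin n) F) (G : κ → Matrix (Fin 2) (Fin 2) F)
    (hx : ∀ p k, (x : Mx) *ᵥ bx (p, k) = G p 0 k • bx (p, 0) + G p 1 k • bx (p, 1)) {ε η : F} (hε : ε ≠ 0)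
    (hG : ∀ p, G p * !![0, d; 1, c] = (ε • !![0, d; 1, c] + η • 1) * G p)
    (hdet : ∀ s : F, s ≠ 0 → ∃ C : Mx, C.det = s ∧ C * w = w * C) :
    ∃ P : Matrix.SpecialLinearGroup (Fin n) F, P⁻¹ * x * P ∈ (Cfsg.Geo.subalgebraNormalizer K).comap
      (Matrix.SpecialLinearGroup.toGL : Matrix.SpecialLinearGroup (Fin n) F →* GL (Fin n) F) := by
  classical
  let L : (Fin n → F) ≃ₗ[F] (Fin n → F) := bw.equiv bx (Equiv.refl _)
  let P0 : Mx := LinearMap.toMatrix' (L : (Fin n → F) →ₗ[F] (Fin n → F))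
  let Q0 : Mx := LinearMap.toMatrix' (L.symm : (Fin n → F) →ₗ[F] (Fin n → F))
  have hPQ0 : P0 * Q0 = 1 := by
    rw [← LinearMap.toMatrix'_comp, LinearEquiv.comp_coe, LinearEquiv.symm_trans_self]; simp
  have hQP0 : Q0 * P0 = 1 := mul_eq_one_comm.1 hPQ0
  have hP0 : ∀ i, P0 *ᵥ bw i = bx i := fun i => by simp [P0, L, LinearMap.toMatrix'_mulVec]
  have hQ0 : ∀ i, Q0 *ᵥ bx i = bw i := fun i => by rw [← hP0, Matrix.mulVec_mulVec, hQP0, Matrix.one_mulVec]
  let g : Mx := Q0 * x * P0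
  have hgb : ∀ p k, g *ᵥ bw (p, k) = G p 0 k • bw (p, 0) + G p 1 k • bw (p, 1) := fun p k => by
    simp only [g, ← Matrix.mulVec_mulVec, hP0, hx, Matrix.mulVec_add, Matrix.mulVec_smul, hQ0]
  have hgw : g * w = (ε • w + η • (1 : Mx)) * g := by
    apply Matrix.toLin'.injective
    refine bw.ext fun ⟨p, k⟩ => ?_
    have e := hG p
    have e00 := congrFun (congrFun e 0) 0
    have e01 := congrFun (congrFun e 0) 1
    have e10 := congrFun (congrFun e 1) 0
    have e11 := congrFun (congrFun e 1) 1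
    simp [Matrix.mul_apply, Fin.sum_univ_two] at e00 e01 e10 e11
    simp only [Matrix.toLin'_apply, ← Matrix.mulVec_mulVec, Matrix.add_mulVec, Matrix.smul_mulVec, Matrix.one_mulVec]
    fin_cases k
    · simp only [Fin.zero_eta, (hbw p).1, (hbw p).2, hgb, Matrix.mulVec_add, Matrix.mulVec_smul, smul_add, smul_smul]
      match_scalars
      · linear_combination e00
      · linear_combination e10
    · simp only [Fin.mk_one, (hbw p).1, (hbw p).2, hgb, Matrix.mulVec_add, Matrix.mulVec_smul, smul_add, smul_smul]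
      match_scalars
      · linear_combination e01
      · linear_combination e11
  have hd0 : P0.det ≠ 0 := (Matrix.isUnit_det_of_right_inverse hPQ0).ne_zero
  obtain ⟨C, hC, hCw⟩ := hdet _ (inv_ne_zero hd0)
  obtain ⟨P, hP⟩ : ∃ P : Matrix.SpecialLinearGroup (Fin n) F, (P : Mx) = P0 * C :=
    ⟨⟨P0 * C, by rw [Matrix.det_mul, hC, mul_inv_cancel₀ hd0]⟩, rfl⟩
  refine ⟨P, ?_⟩
  let Cu : GL (Fin n) F := Matrix.GeneralLinearGroup.mkOfDetNeZero C (hC ▸ inv_ne_zero hd0)
  let gu : GL (Fin n) F := Matrix.GeneralLinearGroup.mkOfDetNeZero g (by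
    simp only [g]
    rw [Matrix.det_mul, Matrix.det_mul, x.2, mul_one, ← Matrix.det_mul, hQP0, Matrix.det_one]
    exact one_ne_zero)
  have hval : Matrix.SpecialLinearGroup.toGL (P⁻¹ * x * P) = Cu⁻¹ * gu * Cu := by
    rw [mul_assoc, eq_comm, mul_assoc, inv_mul_eq_iff_eq_mul]
    apply Units.ext
    show g * C = C * ((P⁻¹ * (x * P) : Matrix.SpecialLinearGroup (Fin n) F) : Mx)
    rw [show g * C = Q0 * ((P : Mx) * ((P⁻¹ * (x * P) : Matrix.SpecialLinearGroup (Fin n) F) : Mx)) by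
      rw [← Matrix.SpecialLinearGroup.coe_mul, mul_inv_cancel_left, Matrix.SpecialLinearGroup.coe_mul, hP]
      simp only [g, mul_assoc], hP, mul_assoc, ← mul_assoc Q0, hQP0, one_mul]
  show Matrix.SpecialLinearGroup.toGL (P⁻¹ * x * P) ∈ Cfsg.Geo.subalgebraNormalizer K
  have hCm : Cu ∈ Cfsg.Geo.subalgebraNormalizer K := mem_normalizer hw hspan (g := Cu) one_ne_zero (η := 0)
    (by rw [one_smul, zero_smul, add_zero]; exact hCw)
  rw [hval]
  exact mul_mem (mul_mem (inv_mem hCm) (mem_normalizer hw hspan (g := gu) hε hgw)) hCm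

/-- An element commuting with `w` moves more than one dimension. -/
theorem not_commute {w M : Mx} {c d : F} (hww : w * w = c • w + d • (1 : Mx)) (hno : ∀ t : F, t * t ≠ c * t + d)
    (hM : M.rank = 1) : M * w ≠ w * M := by
  intro h
  have hone : Module.finrank F (LinearMap.range M.mulVecLin) = 1 := hM
  obtain ⟨a, ha, hspan⟩ := finrank_eq_one_iff'.1 hone
  obtain ⟨v, hv⟩ := a.2
  have hmem : w *ᵥ (a : Fin n → F) ∈ LinearMap.range M.mulVecLin := ⟨w *ᵥ v, by
    rw [← hv]; simp only [Matrix.mulVecLin_apply, Matrix.mulVec_mulVec, h]⟩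
  obtain ⟨t, ht⟩ := hspan ⟨_, hmem⟩
  have ht' : t • (a : Fin n → F) = w *ᵥ (a : Fin n → F) := congrArg Subtype.val ht
  have h2 : (w * w) *ᵥ (a : Fin n → F) = (t * t) • (a : Fin n → F) := by
    rw [← Matrix.mulVec_mulVec, ← ht', Matrix.mulVec_smul, ← ht', smul_smul]
  rw [hww, Matrix.add_mulVec, Matrix.smul_mulVec, Matrix.smul_mulVec, Matrix.one_mulVec, ← ht', smul_smul,
    ← add_smul] at h2
  exact hno t (smul_left_injective F (fun e => ha (Subtype.ext e)) h2).symm

theorem rank_mul_le {A B : Mx} : (A * B).rank ≤ A.rank ∧ (A * B).rank ≤ B.rank :=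
  ⟨Matrix.rank_mul_le_left A B, Matrix.rank_mul_le_right A B⟩

theorem rank_add_le (A B : Mx) : (A + B).rank ≤ A.rank + B.rank := by
  refine (Submodule.finrank_mono ?_).trans (Submodule.finrank_add_le_finrank_add_finrank _ _)
  rintro _ ⟨v, rfl⟩
  rw [Matrix.mulVecLin_apply, Matrix.add_mulVec]
  exact Submodule.add_mem_sup ⟨v, rfl⟩ ⟨v, rfl⟩

/-- An element `1 + M` with `M` of rank one normalises no quadratic extension field, in dimension at
least three. -/
theorem no_rank_one [Finite F] (hn : 3 ≤ n) {K : Subalgebra F Mx} (hK : Cfsg.Geo.IsFieldSubalgebra 2 K)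
    {g : GL (Fin n) F} (hg : g ∈ Cfsg.Geo.subalgebraNormalizer K) {l : F} (hl : l ≠ 0)
    (hM : ((g : Mx) - l • 1).rank = 1) : False := by
  classical
  obtain ⟨w, c, d, hw, hww, hno, hspan, hc1, hc2⟩ := exists_gen (by omega) hK
  set M := (g : Mx) - l • 1 with hMd
  have hg' : (g : Mx) = l • 1 + M := by rw [hMd]; abel
  have hgg : ((g⁻¹ : GL (Fin n) F) : Mx) * (g : Mx) = 1 := by rw [← Units.val_mul, inv_mul_cancel, Units.val_one]
  set w' := (g : Mx) * w * ((g⁻¹ : GL (Fin n) F) : Mx) with hw'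
  have hw'K : w' ∈ K := (hg w).1 hw
  have hgw : (g : Mx) * w = w' * g := by rw [hw', mul_assoc, hgg, mul_one]
  have hgg2 : (g : Mx) * ((g⁻¹ : GL (Fin n) F) : Mx) = 1 := by rw [← Units.val_mul, mul_inv_cancel, Units.val_one]
  have hw'2 : w' * w' = c • w' + d • (1 : Mx) := by
    rw [hw']
    calc (g : Mx) * w * ((g⁻¹ : GL (Fin n) F) : Mx) * ((g : Mx) * w * ((g⁻¹ : GL (Fin n) F) : Mx))
        = (g : Mx) * (w * w) * ((g⁻¹ : GL (Fin n) F) : Mx) := by
          simp only [mul_assoc]; rw [← mul_assoc ((g⁻¹ : GL (Fin n) F) : Mx), hgg, one_mul]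
      _ = _ := by rw [hww, mul_add, Matrix.mul_smul, Matrix.mul_smul, mul_one, add_mul, Matrix.smul_mul,
        Matrix.smul_mul, hgg2]
  obtain ⟨D, hD⟩ : ∃ D, D = w' - w := ⟨_, rfl⟩
  have hprod : D * (w' + w - c • (1 : Mx)) = 0 := by
    rw [hD, sub_mul, mul_sub, mul_sub, mul_add, mul_add, Matrix.mul_smul, Matrix.mul_smul, mul_one, mul_one,
      hK.comm w hw w' hw'K, hw'2, hww]
    module
  have hmem : D ∈ K := hD ▸ K.sub_mem hw'K hw
  by_cases hD0 : D = 0
  · refine not_commute hww hno hM ?_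
    rw [hD, sub_eq_zero] at hD0
    rw [hMd, sub_mul, mul_sub, hgw, hD0, Matrix.smul_mul, Matrix.mul_smul, one_mul, mul_one]
  · obtain ⟨y, hy, hy1⟩ := hK.inv D hmem hD0
    have h0 : w' + w - c • (1 : Mx) = 0 := by
      have := congrArg (y * ·) hprod
      simpa [← mul_assoc, hK.comm y hy D hmem, hy1] using this
    -- `g w = (c - w) g`
    have e : w' * M - M * w = l • (w - w') := by
      rw [hg', add_mul, mul_add, Matrix.smul_mul, Matrix.mul_smul, one_mul, mul_one] at hgw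
      rw [smul_sub]
      linear_combination (norm := module) -hgw
    have hu : (l • (w - w')).rank = n := by
      obtain ⟨z, hz, hz1⟩ := hK.inv (l • (w - w')) (K.smul_mem (K.sub_mem hw hw'K) _)
        (smul_ne_zero hl (fun e => hD0 (by rw [hD, ← neg_sub, e, neg_zero])))
      rw [Matrix.rank_of_isUnit _ (IsUnit.of_mul_eq_one z hz1), Fintype.card_fin]
    have hle : (l • (w - w')).rank ≤ 2 := by
      rw [← e, sub_eq_add_neg]
      refine (rank_add_le _ _).trans ?_
      have h1 := (rank_mul_le (A := w') (B := M)).2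
      have h2 : (-(M * w)).rank ≤ M.rank := by
        rw [← Matrix.mul_neg]; exact (rank_mul_le (A := M) (B := -w)).1
      omega
    omega

theorem exists_det_odd [Fintype F] (h2 : (2 : F) ≠ 0) {w : Mx} {d : F} {m : ℕ} (hm : 1 ≤ m) (hd0 : d ≠ 0)
    (b : Module.Basis (Fin m × Fin 2) F (Fin n → F)) (hb : ∀ p, w *ᵥ b (p, 0) = b (p, 1) ∧ w *ᵥ b (p, 1) = d • b (p, 0)) (s : F) :
    ∃ C : Mx, C.det = s ∧ C * w = w * C := by
  classical
  haveI : NeZero (2 : F) := ⟨h2⟩
  obtain ⟨a, e, hae⟩ := Forms.exists_sq_add_sq_eq (one_ne_zero (α := F)) (neg_ne_zero.2 hd0) s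
  let B : Fin m → Matrix (Fin 2) (Fin 2) F := fun p => if p = ⟨0, hm⟩ then !![a, d * e; e, a] else 1
  let bb := b.reindex (Equiv.prodComm _ _)
  let C' : (Fin n → F) →ₗ[F] (Fin n → F) := b.constr F fun i => B i.1 0 i.2 • b (i.1, 0) + B i.1 1 i.2 • b (i.1, 1)
  have hC' : ∀ p k, C' (b (p, k)) = B p 0 k • b (p, 0) + B p 1 k • b (p, 1) := fun p k => b.constr_basis F _ _
  refine ⟨LinearMap.toMatrix' C', ?_, ?_⟩
  · rw [LinearMap.det_toMatrix', ← LinearMap.det_toMatrix bb,
      show LinearMap.toMatrix bb bb C' = Matrix.blockDiagonal B from ?_, Matrix.det_blockDiagonal]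
    · simp [B, apply_ite Matrix.det, Matrix.det_fin_two_of]
      linear_combination hae
    ext ⟨i, p⟩ ⟨j, p'⟩
    rw [LinearMap.toMatrix_apply, show bb (j, p') = b (p', j) by simp [bb], hC']
    fin_cases i <;> simp [bb, Module.Basis.repr_reindex_apply, Finsupp.mapDomain_add, Finsupp.mapDomain_single, Finsupp.single_apply, Matrix.blockDiagonal_apply, eq_comm]
    all_goals (by_cases h : p = p' <;> simp [h])
  · apply Matrix.toLin'.injective
    refine b.ext fun ⟨p, k⟩ => ?_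
    simp only [Matrix.toLin'_apply, ← Matrix.mulVec_mulVec, LinearMap.toMatrix'_mulVec]
    fin_cases k
    · simp only [Fin.zero_eta, (hb p).1, hC', Matrix.mulVec_add, Matrix.mulVec_smul, (hb p).2, smul_smul]
      simp only [B]
      split_ifs <;> simp <;> module
    · simp only [Fin.mk_one, (hb p).2, map_smul, hC', Matrix.mulVec_add, Matrix.mulVec_smul, (hb p).1, smul_smul, smul_add]
      simp only [B]
      split_ifs <;> simp <;> module

end Cfsg.Agent.GeomClasses.QuadExtInvolution
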