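import Cfsg.Agent.Forms.Discr
import Cfsg.Agent.Forms.DiscrModels
import Cfsg.Agent.GeomClasses.OrthTools
import Cfsg.Agent.GeomClasses.QuadExtInvolution
import Cfsg.Agent.GeomClasses.EigenBasisTwo

/-!
Elements of `SL_n` conjugate into the similitude group of a quadratic form, through invariant forms.
-/

set_option autoImplicit false

namespace Cfsg.Agent.GeomClasses.OrthPreserve

open Matrix Module Cfsg.Agent.Forms

variable {F : Type*} [Field F] [Fintype F] {n : ℕ}

local notation "Mx" => Matrix (Fin n) (Fin n) F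

theorem mem_sl {g : GL (Fin n) F} : g ∈ Cfsg.Geo.specialLinear (Fin n) F ↔ (g : Mx).det = 1 := by
  rw [Cfsg.Geo.specialLinear, MonoidHom.mem_ker, Units.ext_iff]
  rfl

theorem core (h2 : (2 : F) ≠ 0) (hn : 1 ≤ n) {Q : QuadraticForm F (Fin n → F)}
    (hQ : (QuadraticMap.polarBilin Q).Nondegenerate) {κ : Type*} [Fintype κ] [DecidableEq κ]
    (b : Basis κ F (Fin n → F)) {M : Matrix κ κ F} (hMs : Mᵀ = M) (hM : M.det ≠ 0) {x : GL (Fin n) F} {m : F} (hm : m ≠ 0)
    (hx : ∀ i j, Matrix.toBilin b M ((x : Mx) *ᵥ b i) ((x : Mx) *ᵥ b j) = m * M i j)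
    (hsq : IsSquare (M.det * (LinearMap.BilinForm.toMatrix (Pi.basisFun F (Fin n)) (QuadraticMap.polarBilin Q)).det))
    (hcent : ∀ s : F, s ≠ 0 → ∃ C : Mx, C.det = s ∧ C * (x : Mx) = (x : Mx) * C) :
    ∃ g ∈ Cfsg.Geo.specialLinear (Fin n) F, g⁻¹ * x * g ∈ Cfsg.Geo.quadSimilarityGroup ⇑Q := by
  classical
  set B := Matrix.toBilin b M with hB
  set A := QuadraticMap.polarBilin Q
  have hBb : ∀ i j, B (b i) (b j) = M i j := fun i j => by
    rw [← LinearMap.BilinForm.toMatrix_apply b B i j, hB, LinearMap.BilinForm.toMatrix_toBilin]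
  have hBS : B.IsSymm := ⟨fun u v => LinearMap.congr_fun (LinearMap.congr_fun (show B = B.flip from
    LinearMap.BilinForm.ext_basis b fun i j => by
      show B (b i) (b j) = B (b j) (b i)
      rw [hBb, hBb, ← Matrix.transpose_apply M i j, hMs]) u) v⟩
  have hBN : B.Nondegenerate := (LinearMap.BilinForm.nondegenerate_iff_det_ne_zero b).2 (by
    rwa [hB, LinearMap.BilinForm.toMatrix_toBilin])
  have hAS : LinearMap.BilinForm.IsSymm A := ⟨fun u v => QuadraticMap.polar_comm _ u v⟩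
  have hdim : Module.finrank F (Fin n → F) = (n - 1) + 1 := by rw [Module.finrank_fin_fun]; omega
  obtain ⟨e, he⟩ := exists_isometry_of_det h2 hBS hBN hAS hQ hdim hdim b (Pi.basisFun F (Fin n)) (by
    rwa [hB, LinearMap.BilinForm.toMatrix_toBilin])
  set E : Mx := LinearMap.toMatrix' (e : (Fin n → F) →ₗ[F] (Fin n → F))
  have hE : ∀ v, E *ᵥ v = e v := fun v => LinearMap.toMatrix'_mulVec _ v
  have hEd : E.det ≠ 0 := by
    rw [LinearMap.det_toMatrix']
    exact (LinearEquiv.isUnit_det' e).ne_zero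
  obtain ⟨C, hCd, hCx⟩ := hcent E.det hEd
  let Eu : GL (Fin n) F := GeneralLinearGroup.mkOfDetNeZero E hEd
  let Cu : GL (Fin n) F := GeneralLinearGroup.mkOfDetNeZero C (hCd ▸ hEd)
  have hcomm : Cu⁻¹ * x * Cu = x := by
    rw [mul_assoc, inv_mul_eq_iff_eq_mul]
    exact Units.ext hCx.symm
  refine ⟨Cu * Eu⁻¹, mem_sl.2 ?_, ?_⟩
  · have h1 : E.det * ((Eu⁻¹ : GL (Fin n) F) : Mx).det = 1 := by
      rw [← Matrix.det_mul, show E = (Eu : Mx) from rfl, ← Units.val_mul, mul_inv_cancel, Units.val_one, Matrix.det_one]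
    rw [Units.val_mul, Matrix.det_mul, show ((Cu : GL (Fin n) F) : Mx) = C from rfl, hCd, h1]
  · rw [show (Cu * Eu⁻¹)⁻¹ * x * (Cu * Eu⁻¹) = Eu * x * Eu⁻¹ by rw [_root_.mul_inv_rev, inv_inv, show Eu * Cu⁻¹ * x * (Cu * Eu⁻¹) =
      Eu * (Cu⁻¹ * x * Cu) * Eu⁻¹ by group, hcomm]]
    have hxB : ∀ u v, B ((x : Mx) *ᵥ u) ((x : Mx) *ᵥ v) = m * B u v := fun u v =>
      LinearMap.congr_fun (LinearMap.congr_fun (show B.comp (Matrix.toLin' (x : Mx)) (Matrix.toLin' (x : Mx)) = m • B from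
        LinearMap.BilinForm.ext_basis b fun i j => by
          simp only [LinearMap.BilinForm.comp_apply, Matrix.toLin'_apply, LinearMap.smul_apply, smul_eq_mul, hBb]
          exact hx i j) u) v
    refine ⟨Units.mk0 m hm, fun v => ?_⟩
    have hpol : ∀ w, A w w = 2 * Q w := fun w => by
      show QuadraticMap.polar Q w w = _
      rw [QuadraticMap.polar_self, nsmul_eq_mul]; norm_num
    set u := ((Eu⁻¹ : GL (Fin n) F) : Mx) *ᵥ v with hu
    have hev : e u = v := by
      rw [← hE, hu, show E = (Eu : Mx) from rfl, Matrix.mulVec_mulVec, ← Units.val_mul, mul_inv_cancel, Units.val_one,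
        Matrix.one_mulVec]
    have h := hxB u u
    rw [← he, ← he, hpol, hpol, hev] at h
    rw [Units.val_mul, Units.val_mul, ← Matrix.mulVec_mulVec, ← Matrix.mulVec_mulVec, ← hu,
      show (Eu : Mx) = E from rfl, hE, Units.val_mk0]
    exact mul_left_cancel₀ h2 (by linear_combination h)

/-- The same, allowing a scalar factor in odd dimension. -/
theorem conj_of_gram (h2 : (2 : F) ≠ 0) (hn : 1 ≤ n) {Q : QuadraticForm F (Fin n → F)}
    (hQ : (QuadraticMap.polarBilin Q).Nondegenerate) {κ : Type*} [Fintype κ] [DecidableEq κ]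
    (b : Basis κ F (Fin n → F)) {M : Matrix κ κ F} (hMs : Mᵀ = M) (hM : M.det ≠ 0) {x : GL (Fin n) F} {m : F} (hm : m ≠ 0)
    (hx : ∀ i j, Matrix.toBilin b M ((x : Mx) *ᵥ b i) ((x : Mx) *ᵥ b j) = m * M i j)
    (hsq : IsSquare (M.det * (LinearMap.BilinForm.toMatrix (Pi.basisFun F (Fin n)) (QuadraticMap.polarBilin Q)).det) ∨ Odd n)
    (hcent : ∀ s : F, s ≠ 0 → ∃ C : Mx, C.det = s ∧ C * (x : Mx) = (x : Mx) * C) :
    ∃ g ∈ Cfsg.Geo.specialLinear (Fin n) F, g⁻¹ * x * g ∈ Cfsg.Geo.quadSimilarityGroup ⇑Q := by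
  classical
  set D := (LinearMap.BilinForm.toMatrix (Pi.basisFun F (Fin n)) (QuadraticMap.polarBilin Q)).det
  have hD : D ≠ 0 := (LinearMap.BilinForm.nondegenerate_iff_det_ne_zero _).1 hQ
  rcases hsq with hsq | hodd
  · exact core h2 hn hQ b hMs hM hm hx hsq hcent
  set μ := M.det * D with hμ
  have hμ0 : μ ≠ 0 := mul_ne_zero hM hD
  have hκ : Fintype.card κ = n := by
    rw [← Module.finrank_eq_card_basis b, Module.finrank_fin_fun]
  refine core h2 hn hQ b (M := μ • M) (by rw [Matrix.transpose_smul, hMs])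
    (by rw [Matrix.det_smul]; exact mul_ne_zero (pow_ne_zero _ hμ0) hM) hm (fun i j => ?_) ?_ hcent
  · rw [map_smul]
    simp only [LinearMap.smul_apply, Matrix.smul_apply, smul_eq_mul, hx]
    ring
  · obtain ⟨k, hk⟩ := hodd
    rw [Matrix.det_smul, hκ, show μ ^ n = μ ^ (2 * k + 1) by rw [hk], mul_assoc, ← hμ, ← pow_succ]
    exact ⟨μ ^ (k + 1), by rw [← pow_add]; congr 1; ring⟩

theorem diag_cent [DecidableEq F] {κ : Type*} [Fintype κ] [DecidableEq κ] [Nonempty κ] (b : Basis κ F (Fin n → F))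
    {x : Mx} {lam : κ → F} (hb : ∀ i, x *ᵥ b i = lam i • b i) (s : F) :
    ∃ C : Mx, C.det = s ∧ C * x = x * C := by
  let i0 : κ := Classical.arbitrary κ
  let w : κ → F := Function.update 1 i0 s
  let C' : (Fin n → F) →ₗ[F] (Fin n → F) := b.constr F fun i => w i • b i
  have hC' : ∀ i, C' (b i) = w i • b i := fun i => b.constr_basis F _ _
  refine ⟨LinearMap.toMatrix' C', ?_, ?_⟩
  · rw [LinearMap.det_toMatrix', ← LinearMap.det_toMatrix b, show LinearMap.toMatrix b b C' = Matrix.diagonal w from ?_,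
      Matrix.det_diagonal]
    · simp [w, Finset.prod_update_of_mem]
    ext i j
    rw [LinearMap.toMatrix_apply, hC', map_smul, Finsupp.smul_apply, b.repr_self, Finsupp.single_apply, Matrix.diagonal_apply]
    by_cases h : i = j
    · subst h; simp
    · simp [h, Ne.symm h]
  · apply Matrix.toLin'.injective
    refine b.ext fun i => ?_
    simp only [Matrix.toLin'_apply, ← Matrix.mulVec_mulVec, LinearMap.toMatrix'_mulVec, hb, hC', map_smul,
      Matrix.mulVec_smul, smul_smul, mul_comm]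

/-- Eigenvalues matched by an involution with constant product, in odd dimension. -/
theorem conj_of_pairing (h2 : (2 : F) ≠ 0) (hodd : Odd n) {Q : QuadraticForm F (Fin n → F)}
    (hQ : (QuadraticMap.polarBilin Q).Nondegenerate) (b : Basis (Fin n) F (Fin n → F)) {x : GL (Fin n) F} {lam : Fin n → F}
    (hb : ∀ i, (x : Mx) *ᵥ b i = lam i • b i) (σ : Fin n → Fin n) (hσ : ∀ i, σ (σ i) = i) {m : F} (hm : m ≠ 0)
    (hpair : ∀ i, lam i * lam (σ i) = m) :
    ∃ g ∈ Cfsg.Geo.specialLinear (Fin n) F, g⁻¹ * x * g ∈ Cfsg.Geo.quadSimilarityGroup ⇑Q := by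
  classical
  have hn : 1 ≤ n := hodd.pos
  haveI : Nonempty (Fin n) := ⟨⟨0, hn⟩⟩
  let M : Mx := fun i j => if σ i = j then 1 else 0
  have hsym : ∀ i j, σ i = j ↔ σ j = i := fun i j => ⟨fun h => by rw [← h, hσ], fun h => by rw [← h, hσ]⟩
  have hMM : M * M = 1 := by
    ext i j
    rw [Matrix.mul_apply, Matrix.one_apply, Finset.sum_eq_single (σ i)]
    · simp [M, hσ]
    · intro l _ hl; simp [M, Ne.symm hl]
    · simp
  refine conj_of_gram h2 hn hQ b (M := M) ?_ ?_ hm (fun i j => ?_) (Or.inr hodd) fun s _ => diag_cent b hb s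
  · ext i j
    show (if σ j = i then (1 : F) else 0) = if σ i = j then 1 else 0
    exact if_congr (hsym j i) rfl rfl
  · intro h
    have := congrArg Matrix.det hMM
    rw [Matrix.det_mul, h, mul_zero, Matrix.det_one] at this
    exact zero_ne_one this
  · rw [hb, hb, LinearMap.BilinForm.smul_left, LinearMap.BilinForm.smul_right,
      ← LinearMap.BilinForm.toMatrix_apply b, LinearMap.BilinForm.toMatrix_toBilin]
    by_cases h : σ i = j
    · subst h; rw [← mul_assoc, hpair]
    · simp [M, h]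

/-- Elements whose square is a scalar. -/
theorem conj_two (h2 : (2 : F) ≠ 0) (hn : 1 ≤ n) {Q : QuadraticForm F (Fin n → F)}
    (hQ : (QuadraticMap.polarBilin Q).Nondegenerate) (x : GL (Fin n) F) {z : F}
    (hz : (x : Mx) * (x : Mx) = z • (1 : Mx)) :
    ∃ g ∈ Cfsg.Geo.specialLinear (Fin n) F, g⁻¹ * x * g ∈ Cfsg.Geo.quadSimilarityGroup ⇑Q := by
  classical
  set D := (LinearMap.BilinForm.toMatrix (Pi.basisFun F (Fin n)) (QuadraticMap.polarBilin Q)).det
  have hD : D ≠ 0 := (LinearMap.BilinForm.nondegenerate_iff_det_ne_zero _).1 hQ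
  have hzv : ∀ v, (x : Mx) *ᵥ ((x : Mx) *ᵥ v) = z • v := fun v => by
    rw [Matrix.mulVec_mulVec, hz, Matrix.smul_mulVec, Matrix.one_mulVec]
  have hz0 : z ≠ 0 := fun h => by
    have h1 := congrArg Matrix.det hz
    haveI : Nonempty (Fin n) := ⟨⟨0, hn⟩⟩
    rw [h, zero_smul, Matrix.det_zero, Matrix.det_mul] at h1
    exact (Matrix.GeneralLinearGroup.det x).ne_zero (mul_self_eq_zero.1 h1)
  by_cases hsq : ∃ c : F, c * c = z
  · obtain ⟨c, rfl⟩ := hsq
    have hc : c ≠ 0 := fun h => hz0 (by rw [h, mul_zero])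
    obtain ⟨a, b, bb, hb1, hb2, -, hab⟩ := EigenBasisTwo.exists_eigen_basis h2 (x : Mx) hc hzv
    let lam : Fin a ⊕ Fin b → F := Sum.elim (fun _ => c) (fun _ => -c)
    have hb : ∀ i, (x : Mx) *ᵥ bb i = lam i • bb i := by rintro (i | i) <;> simp [lam, hb1, hb2]
    haveI : Nonempty (Fin a ⊕ Fin b) := Fintype.card_pos_iff.1 (by simp; omega)
    let w : Fin a ⊕ Fin b → F := Function.update 1 (Classical.arbitrary _) D
    have hdet : (Matrix.diagonal w).det = D := by simp [w, Matrix.det_diagonal, Finset.prod_update_of_mem]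
    refine conj_of_gram h2 hn hQ bb (Matrix.diagonal_transpose w) (hdet ▸ hD) hz0 (fun i j => ?_)
      (Or.inl (hdet ▸ ⟨D, rfl⟩)) fun s _ => diag_cent bb hb s
    rw [hb, hb, LinearMap.BilinForm.smul_left, LinearMap.BilinForm.smul_right,
      ← LinearMap.BilinForm.toMatrix_apply bb, LinearMap.BilinForm.toMatrix_toBilin]
    rcases eq_or_ne i j with rfl | h
    · rcases i with i | i <;> simp [lam] <;> ring
    · simp [Matrix.diagonal_apply_ne _ h]
  · push_neg at hsq
    obtain ⟨k, b, hb⟩ := QuadExtInvolution.exists_basis (w := (x : Mx)) hz hsq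
    have hk : 1 ≤ k := by
      have h := Module.finrank_eq_card_basis b
      simp at h; omega
    let bb := b.reindex (Equiv.prodComm _ _)
    let p0 : Fin k := ⟨0, hk⟩
    obtain ⟨α, γ, hαγ⟩ := exists_sq_add_sq_eq hz0 (neg_ne_zero.2 (one_ne_zero (α := F))) (D * z ^ (k - 1))
    let G : Fin k → Matrix (Fin 2) (Fin 2) F := fun p => if p = p0 then !![α, γ; γ, α * z] else !![1, 0; 0, z]
    have hGd : (Matrix.blockDiagonal G).det = D * (z ^ (k - 1) * z ^ (k - 1)) := by
      rw [Matrix.det_blockDiagonal, ← Finset.mul_prod_erase _ _ (Finset.mem_univ p0),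
        Finset.prod_congr rfl (g := fun _ => z) fun p hp => ?_, Finset.prod_const, Finset.card_erase_of_mem (Finset.mem_univ p0),
        Finset.card_univ, Fintype.card_fin]
      · simp only [G, if_pos, Matrix.det_fin_two_of]
        linear_combination z ^ (k - 1) * hαγ
      · simp [G, (Finset.mem_erase.1 hp).1, Matrix.det_fin_two_of]
    have hbil : ∀ i j, Matrix.toBilin bb (Matrix.blockDiagonal G) (bb i) (bb j) = Matrix.blockDiagonal G i j :=
      fun i j => by rw [← LinearMap.BilinForm.toMatrix_apply bb, LinearMap.BilinForm.toMatrix_toBilin]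
    have hx0 : ∀ p, (x : Mx) *ᵥ bb (0, p) = bb (1, p) := fun p => by simp [bb, (hb p).1]
    have hx1 : ∀ p, (x : Mx) *ᵥ bb (1, p) = z • bb (0, p) := fun p => by simp [bb, (hb p).2]
    refine conj_of_gram h2 hn hQ bb (M := Matrix.blockDiagonal G) ?_ ?_ hz0 ?_ (Or.inl ?_)
      fun s _ => QuadExtInvolution.exists_det_odd h2 hk hz0 b hb s
    · rw [Matrix.blockDiagonal_transpose]
      congr 1
      funext p
      ext i j
      simp only [G]
      split_ifs <;> fin_cases i <;> fin_cases j <;> simp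
    · rw [hGd]
      exact mul_ne_zero hD (mul_ne_zero (pow_ne_zero _ hz0) (pow_ne_zero _ hz0))
    · rintro ⟨i, p⟩ ⟨j, p'⟩
      fin_cases i <;> fin_cases j <;>
        simp only [Fin.zero_eta, Fin.mk_one, hx0, hx1, map_smul, LinearMap.smul_apply, smul_eq_mul, hbil] <;>
        by_cases hp : p = p' <;> simp [Matrix.blockDiagonal_apply, hp, G] <;> split_ifs <;> simp <;> (ring_nf; try tauto)
    · rw [hGd]
      exact ⟨D * z ^ (k - 1), by ring⟩

end Cfsg.Agent.GeomClasses.OrthPreserve
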