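import Cfsg.Agent.GeomClasses.OrthPreserve
import Cfsg.Agent.GeomClasses.SympFormDerange
import Cfsg.Agent.GeomClasses.SubfieldInvolution
import Cfsg.Agent.Linear.OrthFree

/-!
Elements of odd prime order of `SL_n` conjugate into no similitude group of a quadratic form.
-/

set_option autoImplicit false

namespace Cfsg.Agent.GeomClasses.OrthPreserveDerange

open Matrix Module Cfsg.Agent.Forms

variable {F : Type*} [Field F] [Fintype F] {n : ℕ}

local notation "Mx" => Matrix (Fin n) (Fin n) F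

theorem multiplier_pow (hn : 1 ≤ n) {Q : QuadraticForm F (Fin n → F)}
    (hQ : (QuadraticMap.polarBilin Q).Nondegenerate) {h : Mx} {c z : F} (hc : ∀ v, Q (h *ᵥ v) = c * Q v)
    {r : ℕ} (hr : h ^ r = z • (1 : Mx)) : c ^ r = z * z := by
  have hk : ∀ (k : ℕ) v, Q ((h ^ k) *ᵥ v) = c ^ k * Q v := by
    intro k
    induction k with
    | zero => simp
    | succ k ih => intro v; rw [pow_succ', pow_succ', ← Matrix.mulVec_mulVec, hc, ih]; ring
  obtain ⟨v, hv⟩ : ∃ v, Q v ≠ 0 := by
    by_contra hh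
    push_neg at hh
    haveI : Nonempty (Fin n) := ⟨⟨0, hn⟩⟩
    obtain ⟨w, hw⟩ := exists_ne (0 : Fin n → F)
    exact hw (hQ.1 w fun u => by simp [QuadraticMap.polar, hh])
  have h1 := hk r v
  rw [hr, Matrix.smul_mulVec, Matrix.one_mulVec, QuadraticMap.map_smul, smul_eq_mul] at h1
  exact (mul_right_cancel₀ hv h1).symm

/-- A diagonal matrix conjugate into the similitude group has its eigenvalues permuted by `a ↦ c/a`. -/
theorem exists_perm {Q : QuadraticForm F (Fin n → F)} (hQ : (QuadraticMap.polarBilin Q).Nondegenerate)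
    {g x : GL (Fin n) F} {lam : Fin n → F} (hx : (x : Mx) = Matrix.diagonal lam)
    (hmem : g⁻¹ * x * g ∈ Cfsg.Geo.quadSimilarityGroup ⇑Q) :
    ∃ (c : F) (σ : Equiv.Perm (Fin n)), ∀ j, lam (σ j) * lam j = c := by
  classical
  obtain ⟨c, hc⟩ := hmem
  set G := ((g⁻¹ : GL (Fin n) F) : Mx)
  set A := QuadraticMap.polarBilin Q
  have hA : ∀ u v, A (((g⁻¹ * x * g : GL (Fin n) F) : Mx) *ᵥ u) (((g⁻¹ * x * g : GL (Fin n) F) : Mx) *ᵥ v) =
      (c : F) * A u v := fun u v => by
    simp only [A, QuadraticMap.polarBilin_apply_apply, QuadraticMap.polar, ← Matrix.mulVec_add, hc]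
    ring
  let M : Mx := fun i j => A (G *ᵥ Pi.single i 1) (G *ᵥ Pi.single j 1)
  have hMeq : M = Gᵀ * LinearMap.BilinForm.toMatrix (Pi.basisFun F (Fin n)) A * G := by
    ext i j
    show A (G *ᵥ Pi.single i 1) (G *ᵥ Pi.single j 1) = _
    rw [← LinearMap.BilinForm.toMatrix_mul_basis_toMatrix (Pi.basisFun F (Fin n)) (Pi.basisFun F (Fin n)) A]
    simp only [Module.Basis.toMatrix_self, Matrix.transpose_one, Matrix.one_mul, Matrix.mul_one]
    rw [← Matrix.toLin'_apply G, ← Matrix.toLin'_apply G]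
    have := LinearMap.BilinForm.toMatrix_comp (Pi.basisFun F (Fin n)) (Pi.basisFun F (Fin n)) A (Matrix.toLin' G) (Matrix.toLin' G)
    rw [LinearMap.toMatrix_eq_toMatrix', LinearMap.toMatrix'_toLin'] at this
    rw [← this, LinearMap.BilinForm.toMatrix_apply]
    simp
  have hM : M.det ≠ 0 := by
    have hG : G.det ≠ 0 := (Matrix.GeneralLinearGroup.det g⁻¹).ne_zero
    rw [hMeq, Matrix.det_mul, Matrix.det_mul, Matrix.det_transpose]
    exact mul_ne_zero (mul_ne_zero hG ((LinearMap.BilinForm.nondegenerate_iff_det_ne_zero _).1 hQ)) hG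
  have hrel : ∀ i j, M i j ≠ 0 → lam i * lam j = c := by
    intro i j hij
    have hxs : ∀ k, ((g⁻¹ * x * g : GL (Fin n) F) : Mx) *ᵥ (G *ᵥ Pi.single k 1) = lam k • (G *ᵥ Pi.single k 1) := fun k => by
      rw [Units.val_mul, Units.val_mul, ← Matrix.mulVec_mulVec, ← Matrix.mulVec_mulVec,
        Matrix.mulVec_mulVec (Pi.single k 1) (g : Mx) G, show (g : Mx) * G = 1 by
          rw [← Units.val_mul, mul_inv_cancel, Units.val_one],
        Matrix.one_mulVec, hx, show Matrix.diagonal lam *ᵥ Pi.single k 1 = lam k • Pi.single k (1 : F) from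
          funext fun l => by rcases eq_or_ne l k with rfl | h <;> simp_all [Matrix.mulVec_diagonal], Matrix.mulVec_smul]
    have h := hA (G *ᵥ Pi.single i 1) (G *ᵥ Pi.single j 1)
    rw [hxs, hxs, map_smul, map_smul, LinearMap.smul_apply, smul_eq_mul, smul_eq_mul, ← mul_assoc] at h
    exact mul_right_cancel₀ hij ((congrArg (· * M i j) (mul_comm _ _)).trans h)
  obtain ⟨σ, hσ⟩ : ∃ σ : Equiv.Perm (Fin n), ∀ j, M (σ j) j ≠ 0 := by
    by_contra hh
    push_neg at hh
    refine hM (by
      rw [Matrix.det_apply]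
      exact Finset.sum_eq_zero fun σ _ => by
        obtain ⟨j, hj⟩ := hh σ
        have h0 : ∏ i, M (σ i) i = 0 := Finset.prod_eq_zero (Finset.mem_univ j) hj
        exact (congrArg _ h0).trans (smul_zero _))
  exact ⟨c, σ, fun j => hrel _ _ (hσ j)⟩

/-- If the values of `lam` have different multiplicities and are permuted by `a ↦ c/a`, their squares agree. -/
theorem sq_eq [DecidableEq F] {lam : Fin n → F} (hlam : ∀ j, lam j ≠ 0) {c : F} (σ : Equiv.Perm (Fin n)) (hσ : ∀ j, lam (σ j) * lam j = c)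
    (hfib : ∀ j k, (Finset.univ.filter fun l => lam l = lam j).card = (Finset.univ.filter fun l => lam l = lam k).card →
      lam j = lam k) (j : Fin n) : lam j * lam j = c := by
  have h : lam (σ j) = lam j := by
    refine (hfib j (σ j) (Finset.card_bij (fun l _ => σ l) (fun l hl => ?_) (fun a _ b _ h => σ.injective h) fun l hl => ?_)).symm
    · simp only [Finset.mem_filter, Finset.mem_univ, true_and] at hl ⊢
      exact mul_right_cancel₀ (hlam j) (by rw [hσ, ← hσ l, hl])
    · refine ⟨σ.symm l, ?_, σ.apply_symm_apply l⟩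
      simp only [Finset.mem_filter, Finset.mem_univ, true_and] at hl ⊢
      have h1 := hσ (σ.symm l)
      rw [σ.apply_symm_apply, hl, ← hσ j] at h1
      exact mul_left_cancel₀ (hlam (σ j)) h1
  rw [← hσ j, h]

/-- A map with `x^N = 1` and enough roots of unity is diagonalisable. -/
theorem exists_eigen_basis {N : ℕ} (hN : 0 < N) (hNF : (N : F) ≠ 0) {ω : F} (hω : IsPrimitiveRoot ω N) {x : Mx}
    (hx : x ^ N = 1) : ∃ (b : Basis (Fin n) F (Fin n → F)) (e : Fin n → ℕ), ∀ i, x *ᵥ b i = ω ^ e i • b i := by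
  classical
  let S : Set (Fin n → F) := {u | ∃ k : ℕ, x *ᵥ u = ω ^ k • u}
  have hspan : Submodule.span F S = ⊤ := by
    rw [eq_top_iff]
    intro v _
    have hP : ∀ k : ℕ, ∑ j ∈ Finset.range N, ((ω⁻¹) ^ k) ^ j • ((x ^ j) *ᵥ v) ∈ S := fun k => by
      refine ⟨k, ?_⟩
      set c := (ω⁻¹) ^ k with hc
      have hc0 : c ≠ 0 := pow_ne_zero _ (inv_ne_zero (hω.ne_zero (by omega)))
      have hcN : c ^ N = 1 := by rw [hc, ← pow_mul, mul_comm, pow_mul, inv_pow, hω.pow_eq_one, inv_one, one_pow]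
      have hωc : ω ^ k = c⁻¹ := by rw [hc, inv_pow, inv_inv]
      rw [hωc, Matrix.mulVec_sum, eq_inv_smul_iff₀ hc0, Finset.smul_sum]
      have e1 : ∀ j, c • (x *ᵥ (c ^ j • (x ^ j *ᵥ v))) = c ^ (j + 1) • (x ^ (j + 1) *ᵥ v) := fun j => by
        rw [Matrix.mulVec_smul, Matrix.mulVec_mulVec, ← pow_succ', smul_smul, ← pow_succ']
      rw [Finset.sum_congr rfl fun j _ => e1 j]
      have h1 := Finset.sum_range_succ' (fun j => c ^ j • (x ^ j *ᵥ v)) N
      rw [Finset.sum_range_succ, hcN, hx, pow_zero, pow_zero] at h1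
      exact add_right_cancel h1.symm
    have hsum : ∑ k ∈ Finset.range N, ∑ j ∈ Finset.range N, ((ω⁻¹) ^ k) ^ j • ((x ^ j) *ᵥ v) = (N : F) • v := by
      rw [Finset.sum_comm, Finset.sum_eq_single 0]
      · simp [← Nat.cast_smul_eq_nsmul F]
      · intro j hj hj0
        rw [← Finset.sum_smul]
        have hj1 : (ω⁻¹) ^ j ≠ 1 := by
          rw [inv_pow, Ne, inv_eq_one]
          exact hω.pow_ne_one_of_pos_of_lt hj0 (Finset.mem_range.1 hj)
        rw [Finset.sum_congr rfl fun k _ => by rw [← pow_mul, mul_comm, pow_mul], geom_sum_eq hj1,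
          ← pow_mul, mul_comm, pow_mul, inv_pow, hω.pow_eq_one, inv_one, one_pow, sub_self, zero_div, zero_smul]
      · simp; omega
    rw [show v = (N : F)⁻¹ • ((N : F) • v) by rw [smul_smul, inv_mul_cancel₀ hNF, one_smul], ← hsum]
    exact Submodule.smul_mem _ _ (Submodule.sum_mem _ fun k _ => Submodule.subset_span (hP k))
  obtain ⟨T, hTS, hTspan, hTli⟩ := exists_linearIndependent F S
  rw [hspan] at hTspan
  let b₀ : Basis T F (Fin n → F) := Basis.mk hTli (by rw [Subtype.range_coe_subtype]; exact hTspan.ge)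
  haveI : Fintype T := FiniteDimensional.fintypeBasisIndex b₀
  have hcard : Fintype.card T = n := by rw [← Module.finrank_eq_card_basis b₀, Module.finrank_fin_fun]
  let b := b₀.reindex (Fintype.equivFinOfCardEq hcard)
  have hb : ∀ i, b i ∈ S := fun i => by
    rw [Basis.reindex_apply, Basis.mk_apply]
    exact hTS (Subtype.coe_prop _)
  choose e he using hb
  exact ⟨b, e, he⟩

section Index

open Cfsg.Agent.Linear.OrthSpaces

theorem prod_parity (q r : ℕ) (hodd : ∀ j, Odd j → Nat.Coprime r (q ^ j - 1)) (n : ℕ) :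
    ∃ G, Nat.Coprime r G ∧
      ∏ j ∈ Finset.range n, (q ^ (j + 1) - 1) = G * ∏ l ∈ Finset.range (n / 2), (q ^ (2 * (l + 1)) - 1) := by
  induction n with
  | zero => exact ⟨1, Nat.coprime_one_right _, by simp⟩
  | succ n ih =>
    obtain ⟨G, hG, h⟩ := ih
    rw [Finset.prod_range_succ, h]
    rcases Nat.even_or_odd n with he | ho
    · refine ⟨G * (q ^ (n + 1) - 1), Nat.Coprime.mul_right hG (hodd _ he.add_one), ?_⟩
      obtain ⟨k, hk⟩ := he
      rw [show (n + 1) / 2 = n / 2 by omega]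
      ring
    · refine ⟨G, hG, ?_⟩
      obtain ⟨k, hk⟩ := ho
      rw [show (n + 1) / 2 = n / 2 + 1 by omega, Finset.prod_range_succ, show 2 * (n / 2 + 1) = n + 1 by omega]
      ring

theorem prod_gl (q n : ℕ) : ∃ N, ∏ i ∈ Finset.range n, (q ^ n - q ^ i) = q ^ N * ∏ j ∈ Finset.range n, (q ^ (j + 1) - 1) := by
  refine ⟨∑ i ∈ Finset.range n, i, ?_⟩
  rw [← Finset.prod_pow_eq_pow_sum, ← Finset.prod_range_reflect (fun j => q ^ (j + 1) - 1) n, ← Finset.prod_mul_distrib]
  refine Finset.prod_congr rfl fun i hi => ?_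
  rw [Finset.mem_range] at hi
  rw [Nat.mul_sub, mul_one, ← pow_add, show i + (n - 1 - i + 1) = n by omega]

theorem exists_core (Q : QuadraticForm F (Fin n → F)) :
    ∃ W : Submodule F (Fin n → F), IsSingularCore Q W ∧ (Sing Q W) ∧
      ∀ U, Sing Q U → finrank F U ≤ finrank F W := by
  classical
  obtain ⟨W, hW, hmax⟩ := Set.exists_max_image {U : Submodule F (Fin n → F) | Sing Q U} (fun U => finrank F U)
    (Set.toFinite _) ⟨⊥, fun w hw => by rw [(Submodule.mem_bot F).1 hw, map_zero]⟩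
  refine ⟨W, ⟨hW, fun v hv hQv => ?_⟩, hW, hmax⟩
  have hs : Sing Q (W ⊔ Submodule.span F {v}) := by
    intro u hu
    obtain ⟨w, hw, u', hu', rfl⟩ := Submodule.mem_sup.1 hu
    obtain ⟨t, rfl⟩ := Submodule.mem_span_singleton.1 hu'
    rw [QuadraticMap.map_add Q, hW w hw, QuadraticMap.map_smul, hQv, smul_zero, QuadraticMap.polar_smul_right,
      QuadraticMap.polar_comm]
    have h0 : QuadraticMap.polar Q w v = 0 := hv w hw
    rw [QuadraticMap.polar_comm] at h0
    simp [h0]
  have hle := hmax _ hs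
  have heq := Submodule.eq_of_le_of_finrank_le (le_sup_left : W ≤ W ⊔ Submodule.span F {v}) hle
  rw [heq]
  exact Submodule.mem_sup_right (Submodule.mem_span_singleton_self v)

/-- The index of the similitude group is prime to `r` unless the order of `q` divides `n` with the wrong sign. -/
theorem not_dvd_relIndex {Q : QuadraticForm F (Fin n → F)} (hQ : (QuadraticMap.polarBilin Q).Nondegenerate)
    (hn : 1 ≤ n) {q r i : ℕ} [Fact r.Prime] (hq : Fintype.card F = q) (hr2 : r ≠ 2) (hrq : ¬ r ∣ q)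
    (hi : i = orderOf (q : ZMod r)) (hie : Even i)
    (hgood : i ∣ n → (Plus Q (⊤ : Submodule F (Fin n → F)) ↔ Even (n / i))) :
    ¬ r ∣ (Cfsg.Geo.quadSimilarityGroup ⇑Q).relIndex (Cfsg.Geo.specialLinear (Fin n) F) := by
  classical
  intro hdvd
  have hr := (Fact.out : r.Prime)
  have hq1 : 1 < q := hq ▸ Fintype.one_lt_card
  have hi0 : 0 < i := hi ▸ orderOf_pos_iff.2 (isOfFinOrder_iff_pow_eq_one.2
    ⟨r - 1, by have := hr.two_le; omega, ZMod.pow_card_sub_one_eq_one fun h => hrq ((ZMod.natCast_eq_zero_iff _ _).1 h)⟩)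
  have hcop : ∀ N, ¬ r ∣ N → Nat.Coprime r N := fun N h => hr.coprime_iff_not_dvd.2 h
  have hpow : ∀ j, r ∣ q ^ j - 1 ↔ i ∣ j := fun j => by
    rw [hi, orderOf_dvd_iff_pow_eq_one, ← ZMod.natCast_eq_zero_iff, Nat.cast_sub (Nat.one_le_pow _ _ (by omega)),
      Nat.cast_pow, Nat.cast_one, sub_eq_zero]
  have hodd : ∀ j, Odd j → Nat.Coprime r (q ^ j - 1) := fun j hj => hcop _ fun h => by
    obtain ⟨a, ha⟩ := (hpow j).1 h
    exact Nat.not_even_iff_odd.2 hj (ha ▸ hie.mul_right a)
  have hcq : Nat.Coprime r (q - 1) := by simpa using hodd 1 odd_one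
  set A := ∏ l ∈ Finset.range (n / 2), (q ^ (2 * (l + 1)) - 1) with hA
  set O := Nat.card (Cfsg.isometryGroup F ⇑Q) with hO
  -- the order of the isometry group
  have hAO : ∃ G, Nat.Coprime r G ∧ A ∣ G * O := by
    obtain ⟨W, hW, hWs, hmax⟩ := exists_core Q
    have hle : 2 * finrank F W ≤ n := by
      have h := sing_le (nd_top hQ) le_top hWs
      rw [finrank_top, finrank_fin_fun] at h
      omega
    have h := quadType_of_core hq hQ hW
    rw [finrank_fin_fun, card_isometryGroup_congr Q ⇑Q rfl] at h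
    rcases h with ⟨hd, -, h3⟩ | ⟨hd, -, h3⟩ | ⟨hd, -, h3⟩
    · have hm : n / 2 = finrank F W := by omega
      refine ⟨q ^ finrank F W + 1, hcop _ fun hdv => ?_, ⟨2 * q ^ (finrank F W * (finrank F W - 1)), ?_⟩⟩
      · have hz : (q : ZMod r) ^ finrank F W = -1 := by
          rw [← ZMod.natCast_eq_zero_iff, Nat.cast_add, Nat.cast_pow, Nat.cast_one] at hdv
          linear_combination hdv
        have hin : i ∣ n := by
          rw [hi, orderOf_dvd_iff_pow_eq_one, show n = finrank F W + finrank F W by omega, pow_add, hz]; ring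
        have hplus : Plus Q (⊤ : Submodule F (Fin n → F)) :=
          ⟨W, le_top, hWs, by rw [finrank_top, finrank_fin_fun]; omega⟩
        obtain ⟨a, ha⟩ := (hgood hin).1 hplus
        have hm' : finrank F W = i * a := by
          have := Nat.div_mul_cancel hin
          rw [ha, add_mul, Nat.mul_comm a i] at this
          omega
        rw [hm', pow_mul, hi, pow_orderOf_eq_one, one_pow] at hz
        haveI : Fact (2 < r) := ⟨by have := hr.two_le; omega⟩
        exact ZMod.neg_one_ne_one hz.symm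
      · rw [hA, hm, hO]
        linear_combination h3
    · have hm : n / 2 = finrank F W := by omega
      exact ⟨1, Nat.coprime_one_right _, ⟨2 * q ^ (finrank F W ^ 2), by rw [hA, hm, hO]; linear_combination h3⟩⟩
    · have hm : n / 2 = finrank F W + 1 := by omega
      refine ⟨q ^ (finrank F W + 1) - 1, hcop _ fun hdv => ?_, ⟨2 * q ^ ((finrank F W + 1) * finrank F W), ?_⟩⟩
      · have hin' := (hpow _).1 hdv
        have hin : i ∣ n := hin'.trans ⟨2, by omega⟩
        have hnp : ¬ Plus Q (⊤ : Submodule F (Fin n → F)) := fun ⟨U, _, hU, hUd⟩ => by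
          have := hmax U hU
          rw [finrank_top, finrank_fin_fun] at hUd
          omega
        obtain ⟨a, ha⟩ := hin'
        have he : n = i * (a + a) := by rw [mul_add, ← ha]; omega
        exact hnp ((hgood hin).2 ⟨a, by rw [he, Nat.mul_div_cancel_left _ hi0]⟩)
      · rw [hA, hm, hO]
        linear_combination h3
  obtain ⟨G, hG, hAO⟩ := hAO
  -- the order of the isometries of determinant one
  set S := Cfsg.Geo.specialLinear (Fin n) F
  set I := Cfsg.isometryGroup F ⇑Q with hI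
  have hIle : I ≤ Cfsg.Geo.quadSimilarityGroup ⇑Q := fun g hg => ⟨1, fun v => by rw [Units.val_one, one_mul]; exact hg v v⟩
  set K := Nat.card ((Cfsg.Geo.quadSimilarityGroup ⇑Q).subgroupOf S)
  have hSmul : K * (Cfsg.Geo.quadSimilarityGroup ⇑Q).relIndex S = Nat.card S :=
    Subgroup.card_mul_index _
  have hOK : O ∣ K * (q - 1) := by
    let D : I →* Fˣ := (Matrix.GeneralLinearGroup.det : GL (Fin n) F →* Fˣ).comp I.subtype
    have h1 := D.ker.card_mul_index
    rw [Subgroup.index_ker] at h1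
    have h2 : Nat.card D.range ∣ q - 1 := by
      have h := Subgroup.card_subgroup_dvd_card D.range
      rwa [Nat.card_units, Nat.card_eq_fintype_card (α := F), hq] at h
    let f : D.ker →* (Cfsg.Geo.quadSimilarityGroup ⇑Q).subgroupOf S :=
      { toFun := fun g => ⟨⟨((g : I) : GL (Fin n) F), g.2⟩, hIle (g : I).2⟩
        map_one' := rfl
        map_mul' := fun _ _ => rfl }
    have h3 : Nat.card D.ker ∣ K := Subgroup.card_dvd_of_injective f fun a b h =>
      Subtype.ext (Subtype.ext (congrArg (fun t : (Cfsg.Geo.quadSimilarityGroup ⇑Q).subgroupOf S => ((t : S) : GL (Fin n) F)) h))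
    rw [hO, ← h1]
    exact mul_dvd_mul h3 h2
  obtain ⟨N, hN⟩ := prod_gl q n
  obtain ⟨G', hG', hGA⟩ := prod_parity q r hodd n
  have hcard : Nat.card S * (q - 1) = ∏ i ∈ Finset.range n, (q ^ n - q ^ i) := by
    rw [← SubfieldInvolution.card_SL (F := F) hn hq]
    congr 1
    exact Nat.card_congr
      { toFun := fun g => (⟨((g : GL (Fin n) F) : Mx), OrthPreserve.mem_sl.1 g.2⟩ : Matrix.SpecialLinearGroup (Fin n) F)
        invFun := fun s => ⟨Matrix.SpecialLinearGroup.toGL s, OrthPreserve.mem_sl.2 s.2⟩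
        left_inv := fun g => Subtype.ext (Units.ext rfl)
        right_inv := fun s => rfl }
  have hK : 0 < K := Nat.card_pos
  obtain ⟨t, ht⟩ := hdvd
  rw [ht] at hSmul
  -- `K * r * c = const * A` and `A ∣ const * K`
  have h4 : K * (q - 1) * r ∣ (q ^ N * G') * A := ⟨t, by rw [mul_assoc (q ^ N), ← hGA, ← hN, ← hcard, ← hSmul]; ring⟩
  have h5 : A ∣ G * (K * (q - 1)) := hAO.trans (mul_dvd_mul_left _ hOK)
  have h6 : K * (q - 1) * r ∣ (K * (q - 1)) * (q ^ N * G' * G) := by
    refine h4.trans ((mul_dvd_mul_left _ h5).trans ⟨1, by ring⟩)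
  have h7 : r ∣ q ^ N * G' * G := Nat.dvd_of_mul_dvd_mul_left (Nat.mul_pos hK (by omega)) h6
  exact hr.coprime_iff_not_dvd.1 (((hcop q hrq).pow_right N).mul_right hG' |>.mul_right hG) h7

end Index

end Cfsg.Agent.GeomClasses.OrthPreserveDerange
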