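import Cfsg.Agent.GeomClasses.OrthBlocks

/-! # Orthogonal imprimitive subgroups: a transformation centred in one block -/

set_option autoImplicit false

namespace Cfsg.Agent.GeomClasses

open Module Cfsg.Agent.Forms

variable {F V : Type*} [Field F] [AddCommGroup V] [Module F V] [FiniteDimensional F V]
  {Q : QuadraticForm F V}

set_option quotPrecheck false in
local notation "BQ" => QuadraticMap.polar ⇑Q

local notation "sp" => Submodule.span F

variable {t k : ℕ} {D : Fin t → Submodule F V} {M : Subgroup (orthGroup Q)}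

omit [FiniteDimensional F V] in
theorem eIn_self {x : V} (hx : Q x = 0) (c : F) : EIn Q M x (c • x) := by
  have h1 : BQ x (c • x) = 0 := by rw [QuadraticMap.polar_smul_right, polar_self_two_mul, hx, mul_zero, smul_zero]
  refine ⟨hx, h1, ?_⟩
  convert one_mem M
  refine orth_ext fun y => ?_
  rw [eichler_apply, eichlerMap_apply, QuadraticMap.polar_smul_left, QuadraticMap.map_smul, hx, orth_one_apply]
  simp only [smul_eq_mul, mul_zero, zero_mul, add_zero]
  module

/-- Every Eichler transformation inside a block lies in the subgroup. -/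
def BlockE (Q : QuadraticForm F V) (M : Subgroup (orthGroup Q)) (D : Fin t → Submodule F V) : Prop :=
  ∀ i, ∀ y ∈ D i, ∀ c ∈ D i, Q y = 0 → QuadraticMap.polar Q y c = 0 → EIn Q M y c

/-- A transformation centred in a block whose second vector leaves that block. -/
def Seed (Q : QuadraticForm F V) (M : Subgroup (orthGroup Q)) (D : Fin t → Submodule F V) : Prop :=
  ∃ i, ∃ y ∈ D i, y ≠ 0 ∧ Q y = 0 ∧ ∃ z, z ∉ D i ∧ EIn Q M y z

omit [FiniteDimensional F V] in
theorem seed_of_swap {x y : V} {μ : F} {i : Fin t} (hy : y ∈ D i) (hy0 : y ≠ 0) (hQy : Q y = 0) (hμ : μ ≠ 0)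
    (hx : x ∉ D i) (h : EIn Q M x (μ • y)) : Seed Q M D := by
  obtain ⟨hQx, hxy, hm⟩ := h
  have h1 := eIn_swap ⟨hQx, hxy, hm⟩ (by rw [QuadraticMap.map_smul, hQy, smul_zero])
  have hxy' : BQ y (-x) = 0 := by
    rw [QuadraticMap.polar_smul_right, smul_eq_mul, mul_eq_zero, or_iff_right hμ] at hxy
    rw [QuadraticMap.polar_neg_right, QuadraticMap.polar_comm, hxy, neg_zero]
  refine ⟨i, y, hy, hy0, hQy, μ • -x, fun hm' => hx ?_, (eIn_smul μ hQy hxy').mp h1⟩
  simpa [smul_smul, inv_mul_cancel₀ hμ] using (D i).neg_mem ((D i).smul_mem μ⁻¹ hm')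

variable [Finite F] (h : OBlocks Q k D) (hE : BlockE Q M D) (h2 : (2 : F) ≠ 0)
include h hE h2

/-- A centre with a component perpendicular to a singular vector of the block. -/
theorem seed_good {i : Fin t} {x w y c : V} (hx : x ∉ D i) (hw : ∀ σ : F, EIn Q M x (σ • w))
    (hy : y ∈ D i) (hy0 : y ≠ 0) (hQy : Q y = 0) (hc : c ∈ D i) (hyc : BQ y c = 0)
    (hyx : BQ y x = 0) (hcx : BQ c x ≠ 0)
    (hb0 : BQ y w = 0 → Q w ≠ 0) (hb1 : BQ y w ≠ 0 → Q w ≠ Q c * (BQ y w * BQ y w)) :
    Seed Q M D := by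
  set α := BQ c x with hα
  set β := BQ y w with hβ
  have hw1 : EIn Q M x w := by simpa using hw 1
  obtain ⟨hQx, hxw, hm1⟩ := id hw1
  have hxy : BQ x y = 0 := by rw [QuadraticMap.polar_comm]; exact hyx
  obtain ⟨_, _, hTm⟩ := hE i y hy c hc hQy hyc
  set T := eichler Q y c hQy hyc
  have hTx : (T : V ≃ₗ[F] V) x = x - α • y := by
    rw [eichler_apply, eichlerMap_apply, hyx, ← hα]; simp
  have hTw : (T : V ≃ₗ[F] V) w = w + β • c - (BQ c w + Q c * β) • y := by
    rw [eichler_apply, eichlerMap_apply, ← hβ]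
  have hxTx : BQ x (x - α • y) = 0 := by
    rw [QuadraticMap.polar_sub_right, QuadraticMap.polar_smul_right, polar_self_two_mul, hQx, hxy]; simp
  have hxTw : BQ x (w + β • c - (BQ c w + Q c * β) • y) = β * α := by
    rw [QuadraticMap.polar_sub_right, QuadraticMap.polar_add_right, QuadraticMap.polar_smul_right,
      QuadraticMap.polar_smul_right, hxw, hxy, QuadraticMap.polar_comm _ x c, ← hα]
    simp
  have hwTx : BQ w (x - α • y) = -(α * β) := by
    rw [QuadraticMap.polar_sub_right, QuadraticMap.polar_smul_right, QuadraticMap.polar_comm _ w x, hxw,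
      QuadraticMap.polar_comm _ w y, ← hβ]
    simp
  have hwTw : BQ w (w + β • c - (BQ c w + Q c * β) • y) = 2 * Q w - Q c * (β * β) := by
    rw [QuadraticMap.polar_sub_right, QuadraticMap.polar_add_right, QuadraticMap.polar_smul_right,
      QuadraticMap.polar_smul_right, polar_self_two_mul, QuadraticMap.polar_comm _ w c,
      QuadraticMap.polar_comm _ w y, ← hβ]
    simp only [smul_eq_mul]; ring
  by_cases hβ0 : β = 0
  · have hQw := hb0 hβ0
    have h1 := eIn_conj hTm hw1
    rw [hTx, hTw] at h1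
    have h3 := eIn_conj hm1 h1
    have e1 : ((eichler Q x w hQx hxw : orthGroup Q) : V ≃ₗ[F] V) (x - α • y) = x - α • y :=
      eichler_fixes hQx hxw hxTx (by rw [hwTx, hβ0, mul_zero, neg_zero])
    have e2 : ((eichler Q x w hQx hxw : orthGroup Q) : V ≃ₗ[F] V) (w + β • c - (BQ c w + Q c * β) • y) =
        (w + β • c - (BQ c w + Q c * β) • y) - (2 * Q w) • x := by
      rw [eichler_apply, eichlerMap_apply, hxTw, hwTw, hβ0]; simp
    rw [e1, e2] at h3
    have h4 := eIn_add h3 (eIn_neg h1)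
    rw [show (w + β • c - (BQ c w + Q c * β) • y) - (2 * Q w) • x + -(w + β • c - (BQ c w + Q c * β) • y) =
      (-(2 * Q w)) • x by rw [neg_smul]; abel] at h4
    -- move the scalar to the centre and swap
    have h5 := eIn_swap h4 (by rw [QuadraticMap.map_smul, hQx, smul_zero])
    have h6 := (eIn_smul (-(2 * Q w)) hQx (by
      rw [QuadraticMap.polar_neg_right, hxTx, neg_zero])).mp h5
    have h7 := eIn_add h6 (eIn_self hQx (-(2 * Q w)))
    rw [show -(2 * Q w) • -(x - α • y) + -(2 * Q w) • x = (-(2 * Q w) * α) • y by module] at h7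
    exact seed_of_swap hy hy0 hQy (mul_ne_zero (neg_ne_zero.mpr (mul_ne_zero h2 hQw)) hcx) hx h7
  · have hne := hb1 hβ0
    set σ := -(α * β)⁻¹ with hσ
    have hαβ : α * β ≠ 0 := mul_ne_zero hcx hβ0
    have hσαβ : σ * (α * β) = -1 := by rw [hσ, neg_mul, inv_mul_cancel₀ hαβ]
    obtain ⟨_, hxs, hms⟩ := hw σ
    have h1 := eIn_conj hms (eIn_conj hTm (hw σ))
    rw [map_smul (T : V ≃ₗ[F] V), hTx, hTw] at h1
    have e1 : ((eichler Q x (σ • w) hQx hxs : orthGroup Q) : V ≃ₗ[F] V) (x - α • y) = (-α) • y := by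
      rw [eichler_apply, eichlerMap_apply, hxTx, QuadraticMap.polar_smul_left, hwTx, smul_eq_mul,
        show σ * -(α * β) = 1 by rw [mul_neg, hσαβ, neg_neg]]
      simp
    set τ := σ * σ * (Q w - Q c * (β * β)) with hτdef
    have e2 : ((eichler Q x (σ • w) hQx hxs : orthGroup Q) : V ≃ₗ[F] V) (σ • (w + β • c - (BQ c w + Q c * β) • y)) =
        σ • (β • c - (BQ c w + Q c * β) • y) - τ • x := by
      rw [eichler_apply, eichlerMap_apply, QuadraticMap.polar_smul_right, hxTw, QuadraticMap.polar_smul_left,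
        QuadraticMap.polar_smul_right, hwTw, QuadraticMap.map_smul]
      simp only [smul_eq_mul, hτdef]
      have e : σ * (β * α) = -1 := by rw [mul_comm β α]; exact hσαβ
      rw [e]
      module
    rw [e1, e2] at h1
    set u := σ • (β • c - (BQ c w + Q c * β) • y)
    have hu : u ∈ D i := (D i).smul_mem _ (sub_mem ((D i).smul_mem _ hc) ((D i).smul_mem _ hy))
    have hyu : BQ y u = 0 := by
      simp [u, QuadraticMap.polar_smul_right, QuadraticMap.polar_sub_right, hyc, polar_self_two_mul, hQy]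
    have h2' := (eIn_smul (-α) hQy (by
      rw [QuadraticMap.polar_sub_right, hyu, QuadraticMap.polar_smul_right, hyx, smul_zero, sub_zero])).mp h1
    have h3 := eIn_add h2' (eIn_neg (hE i y hy ((-α) • u) ((D i).smul_mem _ hu) hQy (by
      rw [QuadraticMap.polar_smul_right, hyu, smul_zero])))
    rw [show -α • (u - τ • x) + -(-α • u) = (α * τ) • x by module] at h3
    have hτ : τ ≠ 0 := mul_ne_zero (mul_self_ne_zero.mpr (neg_ne_zero.mpr (inv_ne_zero hαβ))) (sub_ne_zero.mpr hne)
    refine ⟨i, y, hy, hy0, hQy, _, fun hm => hx ?_, h3⟩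
    have h4 := (D i).smul_mem (α * τ)⁻¹ hm
    rwa [smul_smul, inv_mul_cancel₀ (mul_ne_zero hcx hτ), one_smul] at h4

/-- A block fixed on the centre but not on the second vector. -/
theorem seed_fix {j : Fin t} {a w y c : V} (ha : a ∉ D j) (hm : EIn Q M a w) (hy : y ∈ D j) (hy0 : y ≠ 0)
    (hQy : Q y = 0) (hc : c ∈ D j) (hyc : BQ y c = 0) (hya : BQ y a = 0) (hca : BQ c a = 0)
    (hz : BQ y w ≠ 0 ∧ Q c ≠ 0 ∨ BQ y w = 0 ∧ BQ c w ≠ 0) : Seed Q M D := by
  obtain ⟨_, _, hTm⟩ := hE j y hy c hc hQy hyc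
  set T := eichler Q y c hQy hyc
  have hTa : (T : V ≃ₗ[F] V) a = a := eichler_fixes hQy hyc hya hca
  have hTy : (T : V ≃ₗ[F] V) y = y :=
    eichler_fixes hQy hyc (by rw [polar_self_two_mul, hQy, mul_zero]) (by rw [QuadraticMap.polar_comm]; exact hyc)
  have hTw : (T : V ≃ₗ[F] V) w = w + (BQ y w • c - (BQ c w + Q c * BQ y w) • y) := by
    rw [eichler_apply, eichlerMap_apply]; abel
  have h1 := eIn_conj hTm hm
  rw [hTa, hTw] at h1
  have h2' := eIn_add h1 (eIn_neg hm)
  rw [add_neg_eq_iff_eq_add.mpr (add_comm _ _)] at h2'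
  rcases hz with ⟨hyw, hQc⟩ | ⟨hyw, hcw⟩
  · have h3 := eIn_conj hTm h2'
    rw [hTa, map_sub, map_smul, map_smul, hTy] at h3
    have e : (T : V ≃ₗ[F] V) c = c - (2 * Q c) • y := by
      rw [eichler_apply, eichlerMap_apply, hyc, polar_self_two_mul]; simp
    rw [e] at h3
    have h4 := eIn_add h3 (eIn_neg h2')
    rw [show BQ y w • (c - (2 * Q c) • y) - (BQ c w + Q c * BQ y w) • y +
      -(BQ y w • c - (BQ c w + Q c * BQ y w) • y) = (-(BQ y w * (2 * Q c))) • y by module] at h4
    exact seed_of_swap hy hy0 hQy (neg_ne_zero.mpr (mul_ne_zero hyw (mul_ne_zero h2 hQc))) ha h4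
  · rw [hyw, zero_smul, mul_zero, add_zero, zero_sub, ← neg_smul] at h2'
    exact seed_of_swap hy hy0 hQy (neg_ne_zero.mpr hcw) ha h2'

omit hE in
/-- The second vector of `seed_good` can be adjusted. -/
theorem exists_good_c (hk : 3 ≤ k) (hq : 5 ≤ Nat.card F ∨ 5 ≤ k) {i : Fin t} {x y w : V} (hy : y ∈ D i)
    (hu : h.comp i x ∉ sp {y}) :
    ∃ c ∈ D i, BQ y c = 0 ∧ BQ c x ≠ 0 ∧ (BQ y w ≠ 0 → Q w ≠ Q c * (BQ y w * BQ y w)) := by
  obtain ⟨c0, hc0, hyc0, hxc0⟩ := (h.split i).pairing (S := sp {y}) ((Submodule.span_singleton_le_iff_mem _ _).mpr hy)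
    (h.comp_mem i x) hu
  have hyc := hyc0 y (Submodule.mem_span_singleton_self y)
  have hcx : BQ c0 x = 1 := by
    rw [← h.polar_comp hc0, QuadraticMap.polar_comm]; exact hxc0
  by_cases hw : BQ y w ≠ 0 → Q w ≠ Q c0 * (BQ y w * BQ y w)
  · exact ⟨c0, hc0, hyc, by rw [hcx]; exact one_ne_zero, hw⟩
  push Not at hw
  obtain ⟨hβ, hQw⟩ := hw
  have hb : BQ y w * BQ y w ≠ 0 := mul_ne_zero hβ hβ
  by_cases hQc : Q c0 = 0
  · -- any other vector with a non-zero value
    obtain ⟨c1, hc1, hyc1, hQc1⟩ := h.exists_nonsing_perp hk (i := i) y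
    by_cases h1 : BQ c1 x = 0
    · by_cases h3 : Q (c0 + c1) = 0
      · refine ⟨c0 - c1, sub_mem hc0 hc1, by rw [QuadraticMap.polar_sub_right, hyc, hyc1, sub_zero],
          by rw [QuadraticMap.polar_sub_left, hcx, h1, sub_zero]; exact one_ne_zero, fun _ => ?_⟩
        rw [hQw, hQc, zero_mul]
        have e : Q (c0 - c1) = 2 * Q c1 := by
          rw [QuadraticMap.map_add Q, hQc] at h3
          rw [sub_eq_add_neg, QuadraticMap.map_add Q, QuadraticMap.map_neg, QuadraticMap.polar_neg_right, hQc]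
          linear_combination -h3
        rw [e]
        exact (mul_ne_zero (mul_ne_zero h2 hQc1) hb).symm
      · refine ⟨c0 + c1, add_mem hc0 hc1, by rw [QuadraticMap.polar_add_right, hyc, hyc1, add_zero],
          by rw [QuadraticMap.polar_add_left, hcx, h1, add_zero]; exact one_ne_zero, fun _ => ?_⟩
        rw [hQw, hQc, zero_mul]
        exact (mul_ne_zero h3 hb).symm
    · refine ⟨c1, hc1, hyc1, h1, fun _ => ?_⟩
      rw [hQw, hQc, zero_mul]
      exact (mul_ne_zero hQc1 hb).symm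
  have other : ∀ c, c ∈ D i → BQ y c = 0 → BQ c x ≠ 0 → Q c ≠ Q c0 →
      ∃ c ∈ D i, BQ y c = 0 ∧ BQ c x ≠ 0 ∧ (BQ y w ≠ 0 → Q w ≠ Q c * (BQ y w * BQ y w)) :=
    fun c h1 h2 h3 h4 => ⟨c, h1, h2, h3, fun _ e => h4 (mul_right_cancel₀ hb (e.symm.trans hQw))⟩
  rcases hq with hq | hk5
  · obtain ⟨r, r0, r1, r2⟩ := exists_ne_three (F := F) (by omega) 0 1 (-1)
    refine other (r • c0) ((D i).smul_mem _ hc0) (by rw [QuadraticMap.polar_smul_right, hyc, smul_zero])
      (by rw [QuadraticMap.polar_smul_left, hcx, smul_eq_mul, mul_one]; exact r0) ?_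
    rw [QuadraticMap.map_smul, smul_eq_mul]
    intro e
    rcases mul_self_eq_one_iff.mp (mul_right_cancel₀ hQc (show r * r * Q c0 = 1 * Q c0 by rw [one_mul]; exact e)) with e' | e'
    · exact r1 e'
    · exact r2 e'
  · set S := perp (QuadraticMap.polarBilin Q) (sp {y, h.comp i x}) ⊓ D i
    obtain ⟨r, hr, hQr⟩ : ∃ r ∈ S, Q r ≠ 0 := by
      by_contra hno
      push Not at hno
      have e1 := two_mul_ts_le (h.split i) (S := S) inf_le_right hno
      have e2 := (h.split i).finrank_inf (sp {y, h.comp i x})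
      have e3 := finrank_pair_le (F := F) y (h.comp i x)
      change finrank F (D i) ≤ finrank F S + _ at e2
      rw [h.dim] at e1 e2
      omega
    have hyr : BQ y r = 0 := hr.1 y (Submodule.subset_span (by simp))
    have hxr : BQ r x = 0 := by
      rw [← h.polar_comp hr.2, QuadraticMap.polar_comm]; exact hr.1 _ (Submodule.subset_span (by simp))
    have hplus : ∀ s : F, BQ y (c0 + s • r) = 0 ∧ BQ (c0 + s • r) x ≠ 0 := fun s => by
      refine ⟨by rw [QuadraticMap.polar_add_right, QuadraticMap.polar_smul_right, hyc, hyr]; simp, ?_⟩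
      rw [QuadraticMap.polar_add_left, QuadraticMap.polar_smul_left, hcx, hxr]; simp
    have hval : ∀ s : F, Q (c0 + s • r) = Q c0 + s * s * Q r + s * BQ c0 r := fun s => by
      rw [QuadraticMap.map_add Q, QuadraticMap.map_smul, QuadraticMap.polar_smul_right]; rfl
    by_cases he : Q (c0 + (1 : F) • r) = Q c0
    · refine other (c0 + (-1 : F) • r) (add_mem hc0 ((D i).smul_mem _ hr.2)) (hplus _).1 (hplus _).2 fun e => ?_
      rw [hval] at he e
      exact mul_ne_zero h2 hQr (by linear_combination he + e)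
    · exact other (c0 + (1 : F) • r) (add_mem hc0 ((D i).smul_mem _ hr.2)) (hplus _).1 (hplus _).2 he

end Cfsg.Agent.GeomClasses
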