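import Cfsg.Agent.GeomClasses.SubfieldInSymp
import Cfsg.Agent.Forms.SympBasis

/-! # Subfield groups of rational structures in symplectic groups -/

set_option autoImplicit false

namespace Cfsg.Agent.GeomClasses.SubfieldSp

open Matrix Cfsg.Agent.Forms Cfsg.Agent.GeomClasses Cfsg.Agent.GeomClasses.SubfieldSL

variable {m : ℕ} {F : Type*} [Field F]

local notation "Vec" => (Fin m ⊕ Fin m → F)
local notation "BB" => sympB m F
local notation "Mx" => Matrix (Fin m ⊕ Fin m) (Fin m ⊕ Fin m) F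
local notation "Idx" => Fin m ⊕ Fin m

attribute [-simp] sympB_apply

/-- A rational change of basis bringing a rational structure to the standard form. -/
theorem exists_std (F₀ : Subfield F) (P : GL Idx F) {ζ : F} (hζ : ζ ≠ 0)
    (hP : Cfsg.Geo.IsFormRationalStructure (Cfsg.sympForm m F) F₀ ζ P) :
    ∃ R ∈ (Matrix.GeneralLinearGroup.map (n := Idx) (F₀.subtype : F₀ →+* F)).range,
      ∀ u v : Vec, ζ * BB (((P * R : GL Idx F) : Mx) *ᵥ u) (((P * R : GL Idx F) : Mx) *ᵥ v) = BB u v := by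
  classical
  let emb : (Idx → F₀) →ₛₗ[(F₀.subtype : F₀ →+* F)] Vec :=
    { toFun := fun x i => (x i : F)
      map_add' := fun _ _ => rfl
      map_smul' := fun _ _ => rfl }
  let b : Vec → Vec → F := fun u v => ζ * BB ((P : Mx) *ᵥ u) ((P : Mx) *ᵥ v)
  have hrat : ∀ x y : Idx → F₀, b (emb x) (emb y) ∈ F₀ := fun x y => by
    show ζ * BB _ _ ∈ F₀
    rw [sympB_apply]
    exact hP _ _ (fun i => (x i).2) (fun i => (y i).2)
  let B0 : LinearMap.BilinForm F₀ (Idx → F₀) :=
    LinearMap.mk₂ F₀ (fun x y => (⟨_, hrat x y⟩ : F₀))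
      (fun x x' y => Subtype.ext (by simp [b, map_add, Matrix.mulVec_add, LinearMap.add_apply, mul_add]))
      (fun c x y => Subtype.ext (by
        show b (emb (c • x)) (emb y) = (c : F) * b (emb x) (emb y)
        rw [emb.map_smulₛₗ]
        simp [b, Matrix.mulVec_smul]
        ring))
      (fun x y y' => Subtype.ext (by simp [b, map_add, Matrix.mulVec_add, mul_add]))
      (fun c x y => Subtype.ext (by
        show b (emb x) (emb (c • y)) = (c : F) * b (emb x) (emb y)
        rw [emb.map_smulₛₗ]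
        simp [b, Matrix.mulVec_smul]
        ring))
  have hB0 : ∀ x y, ((B0 x y : F₀) : F) = b (emb x) (emb y) := fun x y => rfl
  have hAlt : B0.IsAlt := fun x => Subtype.ext (by rw [hB0]; simp [b, sympB_self])
  have hPinj : ∀ u : Vec, (P : Mx) *ᵥ u = 0 → u = 0 := fun u hu => by
    have := congrArg (((P⁻¹ : GL Idx F) : Mx) *ᵥ ·) hu
    simpa [Matrix.mulVec_mulVec, ← Units.val_mul] using this
  have hND : B0.Nondegenerate := by
    have hl : ∀ x, (∀ y, B0 x y = 0) → x = 0 := by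
      intro x hx
      have h0 : ∀ u : Vec, BB ((P : Mx) *ᵥ emb x) ((P : Mx) *ᵥ u) = 0 := by
        have hL : ((BB ((P : Mx) *ᵥ emb x)).comp (Matrix.mulVecLin (P : Mx))) = 0 := by
          refine (Pi.basisFun F Idx).ext fun i => ?_
          have h1 := congrArg (Subtype.val : F₀ → F) (hx (Pi.single i 1))
          rw [hB0] at h1
          have h2 : emb (Pi.single i 1) = Pi.single i 1 := funext fun j => by
            show ((Pi.single i 1 : Idx → F₀) j : F) = _
            rcases eq_or_ne j i with rfl | h <;> simp [*]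
          rw [Pi.basisFun_apply, LinearMap.comp_apply, Matrix.mulVecLin_apply, LinearMap.zero_apply]
          rw [h2] at h1
          exact (mul_eq_zero.mp h1).resolve_left hζ
        exact fun u => LinearMap.congr_fun hL u
      have h3 : (P : Mx) *ᵥ emb x = 0 := isForm_symp.nondeg _ fun z => by
        have := h0 (((P⁻¹ : GL Idx F) : Mx) *ᵥ z)
        rwa [Matrix.mulVec_mulVec, ← Units.val_mul, mul_inv_cancel, Units.val_one, Matrix.one_mulVec] at this
      exact funext fun i => Subtype.ext (congrFun (hPinj _ h3) i)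
    exact ⟨hl, fun y hy => hl y fun x => by rw [← LinearMap.IsAlt.neg hAlt x y, hy x, neg_zero]⟩
  obtain ⟨m', w, hm', hw⟩ := exists_symp_family (isForm_alt B0 hND hAlt)
  have hmm : m = m' := by
    have : Module.finrank F₀ (Idx → F₀) = m + m := by simp
    omega
  subst hmm
  let R : Mx := Matrix.of fun a c => ((w c.swap) a : F)
  have hRcol : ∀ c, R *ᵥ Pi.single c 1 = emb (w c.swap) := fun c => funext fun a => by
    rw [Matrix.mulVec_single, MulOpposite.op_one, one_smul, Matrix.col_apply]; rfl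
  have hRB : ∀ u v : Fin m ⊕ Fin m → F, b (R *ᵥ u) (R *ᵥ v) = BB u v := by
    have hL : ((sympB m F).compl₁₂ (Matrix.mulVecLin ((P : Mx) * R)) (Matrix.mulVecLin ((P : Mx) * R))) =
        ζ⁻¹ • sympB m F := by
      refine LinearMap.ext_basis (Pi.basisFun F _) (Pi.basisFun F _) fun a c => ?_
      have h1 := hB0 (w a.swap) (w c.swap)
      simp only [LinearMap.compl₁₂_apply, Matrix.mulVecLin_apply, Pi.basisFun_apply, ← Matrix.mulVec_mulVec, hRcol,
        LinearMap.smul_apply, smul_eq_mul]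
      rw [eq_inv_mul_iff_mul_eq₀ hζ]
      refine h1.symm.trans ?_
      rw [← ev, ← ev]
      have hrl : ∀ i j, B0 (w (Sum.inr i)) (w (Sum.inl j)) = -(if j = i then (1 : F₀) else 0) := fun i j => by
        rw [← LinearMap.IsAlt.neg hAlt, hw.lr]
      rcases a with a | a <;> rcases c with c | c <;> simp only [Sum.swap_inl, Sum.swap_inr]
      · rw [hw.rr, B_ev_ev (by simp)]; rfl
      · rw [hrl, B_ev]
        rcases eq_or_ne c a with rfl | h
        · simp [ev, sgn]
        · simp [ev, sgn, h, Ne.symm h]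
      · rw [hw.lr, B_ev]
        rcases eq_or_ne a c with rfl | h
        · simp [ev, sgn]
        · simp [ev, sgn, h, Ne.symm h]
      · rw [hw.ll, B_ev_ev (by simp)]; rfl
    intro u v
    have h2 := LinearMap.congr_fun₂ hL u v
    simp only [LinearMap.compl₁₂_apply, Matrix.mulVecLin_apply, ← Matrix.mulVec_mulVec, LinearMap.smul_apply,
      smul_eq_mul] at h2
    show ζ * _ = _
    rw [h2, mul_inv_cancel_left₀ hζ]
  have hRdet : R.det ≠ 0 := fun h0 => by
    obtain ⟨u, hu, hu0⟩ := Matrix.exists_mulVec_eq_zero_iff.mpr h0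
    refine hu (isForm_symp.nondeg u fun v => ?_)
    rw [← hRB, hu0]
    simp [b]
  refine ⟨Matrix.GeneralLinearGroup.mkOfDetNeZero R hRdet, mem_range_of_rat' fun i j => (w j.swap i).2, fun u v => ?_⟩
  rw [Units.val_mul, ← Matrix.mulVec_mulVec, ← Matrix.mulVec_mulVec]
  exact hRB u v

theorem subfieldSubgroup_mul {ι : Type} [Fintype ι] [DecidableEq ι] (F₀ : Subfield F) (P : GL ι F) {R : GL ι F}
    (hR : R ∈ (Matrix.GeneralLinearGroup.map (n := ι) (F₀.subtype : F₀ →+* F)).range) :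
    Cfsg.Geo.subfieldSubgroup F₀ (P * R) = Cfsg.Geo.subfieldSubgroup F₀ P := by
  have hR' : R ∈ (Matrix.GeneralLinearGroup.map (n := ι) (F₀.subtype : F₀ →+* F)).range ⊔ Cfsg.Geo.scalars ι F :=
    Subgroup.mem_sup_left hR
  ext g
  simp only [Cfsg.Geo.subfieldSubgroup, Subgroup.mem_map]
  constructor
  · rintro ⟨h, hh, rfl⟩
    exact ⟨R * h * R⁻¹, mul_mem (mul_mem hR' hh) (inv_mem hR'), by simp [mul_assoc]⟩
  · rintro ⟨h, hh, rfl⟩
    exact ⟨R⁻¹ * h * R, mul_mem (mul_mem (inv_mem hR') hh) hR', by simp [mul_assoc]⟩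

theorem isMaximalIn_subfield [Fintype F] (hm : 4 ≤ m) (F₀ : Subfield F) {r : ℕ} (hr : r.Prime)
    (hcard : Fintype.card F = Nat.card F₀ ^ r) (P : GL Idx F) {ζ : F} (hζ : ζ ≠ 0)
    (hP : Cfsg.Geo.IsFormRationalStructure (Cfsg.sympForm m F) F₀ ζ P) :
    Cfsg.Geo.IsMaximalIn (Cfsg.spGL m F) (Cfsg.Geo.subfieldSubgroup F₀ P ⊓ Cfsg.spGL m F) := by
  obtain ⟨R, hR, hRB⟩ := exists_std F₀ P hζ hP
  set Q := P * R
  have hQ : ∀ u v : Vec, BB ((Q : Mx) *ᵥ u) ((Q : Mx) *ᵥ v) = ζ⁻¹ * BB u v := fun u v => by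
    rw [eq_inv_mul_iff_mul_eq₀ hζ]; exact hRB u v
  have hQ' : ∀ u v : Vec, BB (((Q⁻¹ : GL Idx F) : Mx) *ᵥ u) (((Q⁻¹ : GL Idx F) : Mx) *ᵥ v) = ζ * BB u v := fun u v => by
    rw [← hRB]
    simp only [Matrix.mulVec_mulVec, ← Units.val_mul, mul_inv_cancel, Units.val_one, Matrix.one_mulVec]
  have hconj : ∀ g : GL Idx F, g ∈ Cfsg.spGL m F → Q * g * Q⁻¹ ∈ Cfsg.spGL m F := fun g hg => by
    rw [mem_spGL_iff]
    intro u v
    simp only [Units.val_mul, ← Matrix.mulVec_mulVec]
    rw [hQ, mem_spGL_iff.mp hg, hQ', inv_mul_cancel_left₀ hζ]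
  have hconj' : ∀ g : GL Idx F, g ∈ Cfsg.spGL m F → Q⁻¹ * g * Q ∈ Cfsg.spGL m F := fun g hg => by
    rw [mem_spGL_iff]
    intro u v
    simp only [Units.val_mul, ← Matrix.mulVec_mulVec]
    rw [hQ', mem_spGL_iff.mp hg, hQ, mul_inv_cancel_left₀ hζ]
  have hK : (Cfsg.spGL m F).map (MulAut.conj Q).toMonoidHom = Cfsg.spGL m F := by
    ext g
    rw [Subgroup.mem_map]
    constructor
    · rintro ⟨a, ha, rfl⟩; exact hconj a ha
    · intro hg
      exact ⟨Q⁻¹ * g * Q, hconj' g hg, by simp [mul_assoc]⟩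
  have := Unitary.isMaximalIn_map (MulAut.conj Q) (maximal hm F₀ hr hcard)
  rw [Subgroup.map_inf _ _ _ (MulAut.conj Q).injective, hK] at this
  rw [← subfieldSubgroup_mul F₀ P hR]
  exact this

end Cfsg.Agent.GeomClasses.SubfieldSp
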