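import Cfsg.Agent.GeomClasses.OrthSubfieldMain
import Cfsg.Agent.GeomClasses.OmegaBridge
import Cfsg.Agent.GeomClasses.SubfieldInSympBridge

/-! # Subfield groups are maximal in the derived orthogonal groups -/

set_option autoImplicit false
set_option linter.unusedSectionVars false

namespace Cfsg.Agent.GeomClasses.OrthSub

open Module Cfsg.Agent.Forms Cfsg.Agent.GeomClasses Cfsg.Agent.GeomClasses.SubfieldSL

variable {ι : Type} [Fintype ι] [DecidableEq ι] {F : Type*} [Field F] [Fintype F]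

local notation "Vec" => (ι → F)
local notation "Mx" => Matrix ι ι F

theorem mem_iff_scaledRat (Q : QuadraticForm F Vec) (F₀ : Subfield F) (g : orthGroup Q) :
    orthToGL Q g ∈ (Matrix.GeneralLinearGroup.map (n := ι) (F₀.subtype : F₀ →+* F)).range ⊔ Cfsg.Geo.scalars ι F ↔
      ScaledRat F₀ g := by
  constructor
  · intro h
    rw [sup_comm, Subgroup.mem_sup_of_normal_left] at h
    obtain ⟨s, hs, k, hk, he⟩ := h
    obtain ⟨u, rfl⟩ := hs
    refine ⟨((u⁻¹ : Fˣ) : F), Units.ne_zero _, fun v hv i => ?_⟩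
    have h1 : (g : Vec ≃ₗ[F] Vec) v = (u : F) • ((k : Mx).mulVec v) := by
      rw [← orthToGL_mulVec, ← he, Units.val_mul, ← Matrix.mulVec_mulVec]
      funext j
      simp [Matrix.scalar_apply, Matrix.mulVec_diagonal]
    rw [Pi.smul_apply, h1, Pi.smul_apply, smul_eq_mul, smul_eq_mul, ← mul_assoc, ← Units.val_mul, inv_mul_cancel,
      Units.val_one, one_mul]
    exact F₀.sum_mem fun j _ => F₀.mul_mem (SubfieldSp.entries_mem' hk i j) (hv j)
  · rintro ⟨c, hc, h⟩
    set s : GL ι F := Units.map (Matrix.scalar ι : F →+* Mx).toMonoidHom (Units.mk0 c⁻¹ (inv_ne_zero hc))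
    have hs : s ∈ Cfsg.Geo.scalars ι F := ⟨_, rfl⟩
    have hsv : ((s⁻¹ : GL ι F) : Mx) = Matrix.scalar ι c := by
      show Matrix.scalar ι (c⁻¹)⁻¹ = _
      rw [inv_inv]
    have hr : s⁻¹ * orthToGL Q g ∈ (Matrix.GeneralLinearGroup.map (n := ι) (F₀.subtype : F₀ →+* F)).range :=
      SubfieldSp.mem_range_of_rat' fun i j => by
        have h1 := h _ (rat_unit j) i
        rw [← orthToGL_mulVec, Matrix.mulVec_single, MulOpposite.op_one, one_smul, Pi.smul_apply, Matrix.col_apply,
          smul_eq_mul] at h1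
        rwa [Units.val_mul, hsv, Matrix.scalar_apply, Matrix.diagonal_mul]
    rw [show orthToGL Q g = s * (s⁻¹ * orthToGL Q g) by group]
    exact mul_mem (Subgroup.mem_sup_right hs) (Subgroup.mem_sup_left hr)

theorem maximal {Q : QuadraticForm F Vec} (hQ : (QuadraticMap.polarBilin Q).Nondegenerate)
    (hn : 13 ≤ Fintype.card ι) (F₀ : Subfield F) {r : ℕ} (hr : r.Prime) (hcard : Fintype.card F = Nat.card F₀ ^ r)
    (h : RatForm Q F₀) :
    Cfsg.Geo.IsMaximalIn (Cfsg.Geo.omegaGL ⇑Q)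
      (((Matrix.GeneralLinearGroup.map (n := ι) (F₀.subtype : F₀ →+* F)).range ⊔ Cfsg.Geo.scalars ι F) ⊓
        Cfsg.Geo.omegaGL ⇑Q) := by
  have hn' : 7 ≤ finrank F Vec := by rw [finrank_pi]; omega
  refine isMaximalIn_omega Q (P := fun g => ScaledRat F₀ g) (mem_iff_scaledRat Q F₀) ?_ fun M hM g hg _ hgn => ?_
  · obtain ⟨d, d', hd, hd', hQd, hQd', hdd, -⟩ := exists_pair hQ h [] (by simp) (by simp; omega)
    obtain ⟨e, e', he, he', hQe, -, hee, hperp⟩ := exists_pair hQ h [d, d'] (by simp [hd, hd']) (by simp; omega)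
    simp only [List.mem_cons, List.not_mem_nil, or_false, forall_eq_or_imp, forall_eq] at hperp
    obtain ⟨⟨pe, pe'⟩, ⟨pf, pf'⟩⟩ := hperp
    obtain ⟨s, hs⟩ := SubfieldSp.exists_not_mem F₀ hr hcard
    have hw : QuadraticMap.polar (⇑Q) d (s • e) = 0 := by rw [polar_smul_right', pe, mul_zero]
    refine ⟨eichler Q d (s • e) hQd hw, eichler_mem_comm hQ hn' hQd hw, fun ⟨c, hc, hrat⟩ => hs ?_⟩
    have e1 : (eichler Q d (s • e) hQd hw : Vec ≃ₗ[F] Vec) d = d := by
      rw [eichler_apply, eichlerMap_apply, polar_self_of_singular hQd, QuadraticMap.polar_comm (⇑Q) (s • e) d, hw]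
      simp
    have e2 : (eichler Q d (s • e) hQd hw : Vec ≃ₗ[F] Vec) d' = d' + s • e := by
      rw [eichler_apply, eichlerMap_apply, hdd, QuadraticMap.map_smul, hQe, QuadraticMap.polar_smul_left,
        QuadraticMap.polar_comm (⇑Q) e d', pf]
      simp
    have hd1 := hrat d hd
    rw [e1] at hd1
    have hc0 : c ∈ F₀ := by
      obtain ⟨i, hi⟩ : ∃ i, d i ≠ 0 := Function.ne_iff.mp fun e0 => by
        replace e0 : d = 0 := e0
        rw [e0] at hdd; simp [QuadraticMap.polar] at hdd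
      have := F₀.mul_mem (hd1 i) (F₀.inv_mem (hd i))
      rwa [Pi.smul_apply, smul_eq_mul, mul_assoc, mul_inv_cancel₀ hi, mul_one] at this
    have h2 := hrat d' hd'
    rw [e2] at h2
    have h3 := h.polar_mem h2 he'
    rw [QuadraticMap.polar_smul_left, QuadraticMap.polar_add_left, QuadraticMap.polar_smul_left, hee, pf', smul_eq_mul,
      smul_eq_mul, mul_one, zero_add] at h3
    have := F₀.mul_mem (F₀.inv_mem hc0) h3
    rwa [← mul_assoc, inv_mul_cancel₀ hc, one_mul] at this
  · have S : Setting Q F₀ r M :=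
      { nondeg := hQ
        dim := hn
        rat := h
        prime := hr
        card := hcard
        root := fun x w hx hw hQx hxw => ⟨hQx, hxw, hM _ (eichler_mem_comm hQ hn' hQx hxw)
          ⟨1, one_ne_zero, fun v hv => by
            rw [one_smul, eichler_apply, eichlerMap_apply]
            exact rat_sub (rat_add hv (rat_smul (h.polar_mem hx hv) hw))
              (rat_smul (F₀.add_mem (h.polar_mem hw hv) (F₀.mul_mem (h w hw) (h.polar_mem hx hv))) hx)⟩⟩ }
    exact (S.top_or_scaled hg).resolve_right hgn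

theorem omegaGL_eq_commutator (f : Vec → F) :
    Cfsg.Geo.omegaGL f = ⁅Cfsg.isometryGroup F f, Cfsg.isometryGroup F f⁆ := by
  rw [Cfsg.Geo.omegaGL]; exact Subgroup.map_subtype_commutator _

/-- The subfield group of a rational structure is maximal. -/
theorem isMaximalIn_subfield {Q : QuadraticForm F Vec} (hQ : (QuadraticMap.polarBilin Q).Nondegenerate)
    (hn : 13 ≤ Fintype.card ι) (F₀ : Subfield F) {r : ℕ} (hr : r.Prime) (hcard : Fintype.card F = Nat.card F₀ ^ r)
    (P : GL ι F) {ζ : F} (hζ : ζ ≠ 0) (hP : Cfsg.Geo.IsQuadFormRationalStructure (fun v => ζ * Q v) F₀ P) :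
    Cfsg.Geo.IsMaximalIn (Cfsg.Geo.omegaGL ⇑Q) (Cfsg.Geo.subfieldSubgroup F₀ P ⊓ Cfsg.Geo.omegaGL ⇑Q) := by
  set Q' : QuadraticForm F Vec := (ζ • Q).comp (Matrix.mulVecLin (P : Mx)) with hQ'
  have hQ'v : ∀ v, Q' v = ζ * Q ((P : Mx).mulVec v) := fun v => rfl
  have hinv : ∀ v, (P : Mx).mulVec (((P⁻¹ : GL ι F) : Mx).mulVec v) = v := fun v => by
    rw [Matrix.mulVec_mulVec, ← Units.val_mul, mul_inv_cancel, Units.val_one, Matrix.one_mulVec]
  have hinv' : ∀ v, ((P⁻¹ : GL ι F) : Mx).mulVec ((P : Mx).mulVec v) = v := fun v => by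
    rw [Matrix.mulVec_mulVec, ← Units.val_mul, inv_mul_cancel, Units.val_one, Matrix.one_mulVec]
  have hpol : ∀ u v, QuadraticMap.polar (⇑Q') u v =
      ζ * QuadraticMap.polar (⇑Q) ((P : Mx).mulVec u) ((P : Mx).mulVec v) := fun u v => by
    simp only [QuadraticMap.polar, hQ'v, Matrix.mulVec_add]; ring
  have hQ'nd : (QuadraticMap.polarBilin Q').Nondegenerate := by
    have hl : ∀ x, (∀ y, QuadraticMap.polarBilin Q' x y = 0) → x = 0 := by
      intro x hx
      have h0 : (P : Mx).mulVec x = 0 := hQ.1 _ fun y => by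
        have := hx (((P⁻¹ : GL ι F) : Mx).mulVec y)
        rw [QuadraticMap.polarBilin_apply_apply, hpol, hinv, mul_eq_zero, or_iff_right hζ] at this
        exact this
      rw [← hinv' x, h0, Matrix.mulVec_zero]
    exact ⟨hl, fun y hy => hl y fun x => by
      rw [QuadraticMap.polarBilin_apply_apply, QuadraticMap.polar_comm, ← QuadraticMap.polarBilin_apply_apply]
      exact hy x⟩
  have hiso : (Cfsg.isometryGroup F ⇑Q').map (MulAut.conj P).toMonoidHom = Cfsg.isometryGroup F ⇑Q := by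
    ext g
    rw [Subgroup.mem_map]
    constructor
    · rintro ⟨a, ha, rfl⟩
      refine mem_isometryGroup_iff.mpr fun x => ?_
      have h1 := mem_isometryGroup_iff.mp ha (((P⁻¹ : GL ι F) : Mx).mulVec x)
      rw [hQ'v, hQ'v, hinv] at h1
      have h2 := mul_left_cancel₀ hζ h1
      rwa [Matrix.mulVec_mulVec, Matrix.mulVec_mulVec] at h2
    · intro hg
      refine ⟨P⁻¹ * g * P, mem_isometryGroup_iff.mpr fun x => ?_, by simp [mul_assoc]⟩
      rw [hQ'v, hQ'v, Units.val_mul, Units.val_mul, ← Matrix.mulVec_mulVec, ← Matrix.mulVec_mulVec, hinv,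
        mem_isometryGroup_iff.mp hg]
  have hK : (Cfsg.Geo.omegaGL ⇑Q').map (MulAut.conj P).toMonoidHom = Cfsg.Geo.omegaGL ⇑Q := by
    rw [omegaGL_eq_commutator, omegaGL_eq_commutator, Subgroup.map_commutator, hiso]
  have := Unitary.isMaximalIn_map (MulAut.conj P) (maximal hQ'nd hn F₀ hr hcard fun v hv => by
    rw [hQ'v]; exact hP v hv)
  rwa [Subgroup.map_inf _ _ _ (MulAut.conj P).injective, hK] at this

end Cfsg.Agent.GeomClasses.OrthSub
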