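import Cfsg.Agent.GeomClasses.SubspaceDerange
import Cfsg.Agent.GeomClasses.JordanType
import Cfsg.Agent.KnownA.Jordan.Basis

/-!
# Decompositions fixed by unipotent elements
-/

set_option autoImplicit false
set_option linter.unusedSectionVars false

namespace Cfsg.Agent.GeomClasses.PairDerange

open Module

variable {F : Type*} [Field F] [Fintype F]

theorem card_ker {q : ℕ} (hq : Fintype.card F = q) {A B : Type*} [AddCommGroup A] [Module F A] [FiniteDimensional F A]
    [AddCommGroup B] [Module F B] [FiniteDimensional F B] (f : A →ₗ[F] B) (hf : Function.Surjective f) :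
    Nat.card (LinearMap.ker f) = q ^ (finrank F A - finrank F B) := by
  have h := LinearMap.finrank_range_add_finrank_ker f
  rw [LinearMap.range_eq_top.2 hf, finrank_top] at h
  rw [Module.natCard_eq_pow_finrank (K := F) (V := ↥(LinearMap.ker f)), Nat.card_eq_fintype_card, hq]
  congr 1
  omega

theorem card_pairs {q : ℕ} (hq : Fintype.card F = q) (n m : ℕ) :
    Nat.card {P : Submodule F (Fin n → F) × Submodule F (Fin n → F) // IsCompl P.1 P.2 ∧ finrank F P.1 = m} =
      Nat.card {U : Submodule F (Fin n → F) // finrank F U = m} * q ^ (m * (n - m)) := by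
  classical
  let e : {P : Submodule F (Fin n → F) × Submodule F (Fin n → F) // IsCompl P.1 P.2 ∧ finrank F P.1 = m} ≃
      Σ U : {U : Submodule F (Fin n → F) // finrank F U = m},
        {W : Submodule F (Fin n → F) // IsCompl (U : Submodule F (Fin n → F)) W} :=
    { toFun := fun P => ⟨⟨P.1.1, P.2.2⟩, ⟨P.1.2, P.2.1⟩⟩
      invFun := fun s => ⟨(s.1.1, s.2.1), s.2.2, s.1.2⟩
      left_inv := fun P => rfl
      right_inv := fun s => rfl }
  have key : ∀ U : {U : Submodule F (Fin n → F) // finrank F U = m},
      Nat.card {W : Submodule F (Fin n → F) // IsCompl (U : Submodule F (Fin n → F)) W} = q ^ (m * (n - m)) := by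
    rintro ⟨U, hU⟩
    rw [Nat.card_congr U.isComplEquivProj]
    obtain ⟨W₀, hW₀⟩ := U.exists_isCompl
    let res : ((Fin n → F) →ₗ[F] U) →ₗ[F] (U →ₗ[F] U) := LinearMap.lcomp F U U.subtype
    have hres : ∀ f (x : U), res f x = f x := fun f x => rfl
    set f₀ := U.projectionOnto W₀ hW₀
    have h₀ : ∀ x : U, f₀ x = x := fun x => Submodule.projectionOnto_apply_left hW₀ x
    let t : {f : (Fin n → F) →ₗ[F] U // ∀ x : U, f x = x} ≃ LinearMap.ker res :=
      { toFun := fun f => ⟨f.1 - f₀, LinearMap.mem_ker.2 (LinearMap.ext fun x => by simp [hres, f.2, h₀])⟩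
        invFun := fun g => ⟨g.1 + f₀, fun x => by
          have := LinearMap.congr_fun (LinearMap.mem_ker.1 g.2) x
          rw [hres] at this
          simp [this, h₀]⟩
        left_inv := fun f => Subtype.ext (show f.1 - f₀ + f₀ = f.1 by abel)
        right_inv := fun g => Subtype.ext (show g.1 + f₀ - f₀ = g.1 by abel) }
    have hsurj : Function.Surjective res := fun g => ⟨g.comp f₀, LinearMap.ext fun x => by simp [hres, h₀]⟩
    rw [Nat.card_congr t, card_ker hq (A := (Fin n → F) →ₗ[F] U) (B := U →ₗ[F] U) res hsurj,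
      Module.finrank_linearMap, Module.finrank_linearMap, Module.finrank_fin_fun, hU, Nat.mul_sub, mul_comm m n]
  have : Fintype {U : Submodule F (Fin n → F) // finrank F U = m} := Fintype.ofFinite _
  rw [Nat.card_congr e, Nat.card_sigma]
  simp only [key, Finset.sum_const, Finset.card_univ, smul_eq_mul, ← Nat.card_eq_fintype_card]

variable {p : ℕ} [Fact p.Prime] [CharP F p] {n m : ℕ}

/-- An element of order `p` fixes a decomposition matching every admissible sub-multiset. -/
theorem exists_pair
    (H : ∀ μ : Multiset ℕ, (∀ a ∈ μ, 0 < a ∧ a ≤ p) → μ.sum = n → ∃ ν : Multiset ℕ, ν ≤ μ ∧ ν.sum = m)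
    {T : Module.End F (Fin n → F)} {z : F} (hT : T ^ p = z • 1) (hz : z ≠ 0) :
    ∃ U W : Submodule F (Fin n → F), IsCompl U W ∧ finrank F U = m ∧ (∀ v ∈ U, T v ∈ U) ∧ ∀ v ∈ W, T v ∈ W := by
  classical
  obtain ⟨c, hc⟩ := (bijective_frobenius F p).2 z
  rw [frobenius_def] at hc
  obtain ⟨hS, hinv⟩ := SubspaceDerange.scaled hc hz hT
  rcases Nat.eq_zero_or_pos n with rfl | hn
  · obtain ⟨ν, hν, hνm⟩ := H 0 (by simp) (by simp)
    obtain rfl := Multiset.le_zero.1 hν
    exact ⟨⊥, ⊤, isCompl_bot_top, by rw [finrank_bot]; exact hνm,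
      fun v hv => by rw [(Submodule.mem_bot F).1 hv, map_zero]; exact Submodule.zero_mem _, fun v _ => trivial⟩
  have : NeZero n := ⟨hn.ne'⟩
  have : CharP (Module.End F (Fin n → F)) p :=
    charP_of_injective_algebraMap (algebraMap F (Module.End F (Fin n → F))).injective p
  set N : Module.End F (Fin n → F) := c⁻¹ • T - 1 with hN
  have hNp : N ^ p = 0 := by rw [hN, sub_pow_char_of_commute p (Commute.one_right _), hS, one_pow, sub_self]
  obtain ⟨d, k, b, hb⟩ := KnownA.Jordan.exists_chain_basis ⟨p, hNp⟩
  have hkp : ∀ i, k i ≤ p := by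
    intro i
    by_contra hlt
    have hpow : ∀ j : ℕ, (h : j < k i) → (N ^ j) (b ⟨i, ⟨0, by omega⟩⟩) = b ⟨i, ⟨j, h⟩⟩ := by
      intro j
      induction j with
      | zero => intro h; rfl
      | succ j ih =>
        intro h
        rw [pow_succ', Module.End.mul_apply, ih (by omega), hb, dif_pos h]
    have := hpow p (by omega)
    rw [hNp, LinearMap.zero_apply] at this
    exact b.ne_zero _ this.symm
  have hsum : ∑ i, k i = n := by
    have h := Module.finrank_eq_card_basis b
    rw [Module.finrank_fin_fun, Fintype.card_sigma] at h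
    simpa using h.symm
  set P : Finset (Fin d) := Finset.univ.filter fun i => 0 < k i
  obtain ⟨ν, hν, hνm⟩ := H (P.val.map k) (fun a ha => by
      obtain ⟨i, hi, rfl⟩ := Multiset.mem_map.1 ha
      exact ⟨(Finset.mem_filter.1 (show i ∈ P from hi)).2, hkp i⟩)
    (by
      rw [Finset.sum_map_val, Finset.sum_filter_of_ne (fun i _ h => Nat.pos_of_ne_zero h), hsum])
  obtain ⟨S, hS', hSν⟩ : ∃ S : Finset (Fin d), S ⊆ P ∧ S.val.map k = ν := by
    clear hνm
    induction ν using Multiset.induction with
    | empty => exact ⟨∅, Finset.empty_subset _, rfl⟩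
    | cons a ν ih =>
      obtain ⟨S, hSP, hSν⟩ := ih ((Multiset.le_cons_self ν a).trans hν)
      have hle := Multiset.count_le_of_le a hν
      rw [Multiset.count_cons_self, ← hSν, Multiset.count_map, Multiset.count_map] at hle
      obtain ⟨i, hiP, hia, hiS⟩ : ∃ i ∈ P, a = k i ∧ i ∉ S := by
        by_contra hcon
        push_neg at hcon
        have hsub : P.filter (fun i => a = k i) ⊆ S.filter (fun i => a = k i) := fun i hi => by
          rw [Finset.mem_filter] at hi ⊢
          exact ⟨hcon i hi.1 hi.2, hi.2⟩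
        have := Finset.card_le_card hsub
        simp only [Finset.card_def, Finset.filter_val] at this
        omega
      exact ⟨insert i S, Finset.insert_subset hiP hSP, by rw [Finset.insert_val_of_notMem hiS, Multiset.map_cons, hSν, hia]⟩
  let A : Set (Σ i, Fin (k i)) := {s | s.1 ∈ S}
  have hinvSpan : ∀ B : Set (Σ i, Fin (k i)), (∀ s t, s.1 = t.1 → s ∈ B → t ∈ B) →
      ∀ v ∈ Submodule.span F (b '' B), T v ∈ Submodule.span F (b '' B) := by
    intro B hB
    refine hinv _ fun v hv => ?_
    induction hv using Submodule.span_induction with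
    | mem v hv =>
      obtain ⟨⟨i, j⟩, hij, rfl⟩ := hv
      have hNv : N (b ⟨i, j⟩) ∈ Submodule.span F (b '' B) := by
        rw [hb]
        split_ifs with h
        · exact Submodule.subset_span ⟨_, hB _ _ (by rfl) hij, rfl⟩
        · exact Submodule.zero_mem _
      have := Submodule.add_mem _ hNv (Submodule.subset_span ⟨_, hij, rfl⟩ : b ⟨i, j⟩ ∈ Submodule.span F (b '' B))
      rwa [hN, LinearMap.sub_apply, Module.End.one_apply, sub_add_cancel] at this
    | zero => rw [map_zero]; exact Submodule.zero_mem _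
    | add u v _ _ hu hv => rw [map_add]; exact Submodule.add_mem _ hu hv
    | smul a v _ hv => rw [map_smul]; exact Submodule.smul_mem _ a hv
  refine ⟨Submodule.span F (b '' A), Submodule.span F (b '' Aᶜ), ⟨b.linearIndependent.disjoint_span_image disjoint_compl_right, ?_⟩,
    ?_, hinvSpan A (fun s t h hs => show t.1 ∈ S from h ▸ hs), hinvSpan Aᶜ (fun s t h hs ht => hs (show s.1 ∈ S from h ▸ ht))⟩
  · rw [codisjoint_iff, ← Submodule.span_union, ← Set.image_union, Set.union_compl_self, Set.image_univ, b.span_eq]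
  · let eA : A ≃ Σ i : S, Fin (k i) :=
      { toFun := fun s => ⟨⟨s.1.1, s.2⟩, s.1.2⟩
        invFun := fun s => ⟨⟨s.1.1, s.2⟩, s.1.2⟩
        left_inv := fun s => rfl
        right_inv := fun s => rfl }
    rw [Set.image_eq_range]
    refine (finrank_span_eq_card (b.linearIndependent.comp _ Subtype.val_injective)).trans ?_
    rw [Fintype.card_congr eA, Fintype.card_sigma, ← hνm, ← hSν, Finset.sum_map_val]
    simp only [Fintype.card_fin]
    exact Finset.sum_coe_sort S k

/-- A unipotent element fixing no decomposition. -/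
theorem exists_derangement {μ : Multiset ℕ} (hμ : ∀ a ∈ μ, a ≤ p) (hsum : μ.sum = n)
    (hno : ∀ ν : Multiset ℕ, ν ≤ μ → ν.sum ≠ m) :
    ∃ T : Module.End F (Fin n → F), T ^ p = 1 ∧ LinearMap.det T = 1 ∧
      ∀ U W : Submodule F (Fin n → F), IsCompl U W → finrank F U = m → (∀ v ∈ U, T v ∈ U) → ¬ ∀ v ∈ W, T v ∈ W := by
  classical
  set L : Fin μ.toList.length → ℕ := fun i => μ.toList.get i with hL
  have hmap : Finset.univ.val.map L = μ := by
    rw [hL, Fin.univ_val_map, List.ofFn_get, Multiset.coe_toList]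
  have hLp : ∀ b, L b ≤ p := fun b => hμ _ (by rw [← hmap]; exact Multiset.mem_map.2 ⟨b, Finset.mem_univ_val b, rfl⟩)
  have hcard : Fintype.card (Σ b, Fin (L b)) = n := by
    have hs := congrArg Multiset.sum hmap
    rw [Finset.sum_map_val] at hs
    rw [Fintype.card_sigma]
    simp only [Fintype.card_fin]
    exact hs.trans hsum
  let e : ((Σ b, Fin (L b)) → F) ≃ₗ[F] (Fin n → F) :=
    LinearEquiv.ofFinrankEq _ _ (by rw [Module.finrank_pi, hcard, Module.finrank_fin_fun])
  set N : Module.End F ((Σ b, Fin (L b)) → F) := JordanType.shift L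
  set T := e.conjAlgEquiv F (1 + N) with hTdef
  have hT : T ^ p = 1 := by
    rcases subsingleton_or_nontrivial (Module.End F ((Σ b, Fin (L b)) → F)) with hs | hs
    · rw [hTdef, Subsingleton.elim (1 + N) 1, map_one, one_pow]
    have : CharP (Module.End F ((Σ b, Fin (L b)) → F)) p :=
      charP_of_injective_algebraMap (algebraMap F _).injective p
    rw [hTdef, ← map_pow, add_pow_char_of_commute p (Commute.one_left _), one_pow,
      JordanType.shift_pow_eq_zero L hLp, add_zero, map_one]
  refine ⟨T, hT, ?_, fun U W hc hm hU hW => ?_⟩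
  · have h := congrArg LinearMap.det hT
    rw [map_pow, map_one] at h
    exact frobenius_inj F p (by rw [frobenius_def, frobenius_def, one_pow, h])
  · have hpull : ∀ X : Submodule F (Fin n → F), (∀ v ∈ X, T v ∈ X) →
        (X.comap (e : _ →ₗ[F] _)).map N ≤ X.comap (e : _ →ₗ[F] _) := by
      rintro X hX _ ⟨u, hu, rfl⟩
      have := X.sub_mem (hX _ hu) hu
      simp only [hTdef, LinearEquiv.conjAlgEquiv_apply, LinearMap.comp_apply, LinearEquiv.coe_coe,
        LinearEquiv.symm_apply_apply, LinearMap.add_apply, Module.End.one_apply, map_add, add_sub_cancel_left] at this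
      exact this
    obtain ⟨ν, hν, hνs⟩ := JordanType.exists_sub L p hLp (hpull U hU) (hpull W hW)
      ((Submodule.orderIsoMapComap e).symm.isCompl hc)
    rw [hmap] at hν
    refine hno ν hν (hνs.trans ?_)
    rw [← hm, Submodule.comap_equiv_eq_map_symm, LinearEquiv.finrank_map_eq]

end Cfsg.Agent.GeomClasses.PairDerange
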