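import Cfsg.Agent.Forms.Models

/-!
An element preserving an alternating form with scalar square permutes the members of an orthogonal
decomposition into planes, so also those of a decomposition into members of any even dimension.
-/

set_option autoImplicit false

namespace Cfsg.Agent.GeomClasses.PlanePerm

variable {F V : Type*} [Field F] [AddCommGroup V] [Module F V]

/-- Two vectors spanning the plane with index `i`. -/
def plane {α : Type} (w : α × Bool → V) (F : Type*) [Field F] [Module F V] (i : α) : Submodule F V :=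
  Submodule.span F (Set.range fun b => w (i, b))

/-- Orthogonal planes permuted by `f`. -/
structure Frame (B : LinearMap.BilinForm F V) (f : V →ₗ[F] V) (S : Submodule F V) where
  idx : Type
  fin : Fintype idx
  w : idx × Bool → V
  perm : idx → idx
  invol : ∀ i, perm (perm i) = i
  orth : ∀ i j, i ≠ j → ∀ a b, B (w (i, a)) (w (j, b)) = 0
  pair : ∀ i, B (w (i, false)) (w (i, true)) ≠ 0
  span_eq : Submodule.span F (Set.range w) = S
  image : ∀ p, f (w p) ∈ plane w F (perm p.1)

theorem exists_frame [FiniteDimensional F V] (B : LinearMap.BilinForm F V) (halt : ∀ v, B v v = 0)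
    (f : V →ₗ[F] V) (hB : ∀ u v, B (f u) (f v) = B u v) {z : F} (hz : z ≠ 0)
    (hf : ∀ v, f (f v) = z • v) :
    ∀ (N : ℕ) (S : Submodule F V), Module.finrank F S ≤ N → (∀ s ∈ S, f s ∈ S) →
      (∀ s ∈ S, s ≠ 0 → ∃ t ∈ S, B s t ≠ 0) → Nonempty (Frame B f S) := by
  classical
  have hsk : ∀ a b, B a b = -B b a := fun a b => by
    have := halt (a + b)
    simp only [map_add, LinearMap.add_apply, halt, zero_add, add_zero] at this
    linear_combination this
  intro N
  induction N with
  | zero =>
    intro S hS _ _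
    have : S = ⊥ := Submodule.finrank_eq_zero.1 (Nat.le_zero.1 hS)
    subst this
    exact ⟨⟨Empty, inferInstance, fun p => p.1.elim, id, fun _ => rfl, fun i => i.elim,
      fun i => i.elim, by simp, fun p => p.1.elim⟩⟩
  | succ N IH =>
    intro S hS hfS hnd
    by_cases h0 : S = ⊥
    · subst h0
      exact ⟨⟨Empty, inferInstance, fun p => p.1.elim, id, fun _ => rfl, fun i => i.elim,
        fun i => i.elim, by simp, fun p => p.1.elim⟩⟩
    obtain ⟨β, hβ, w₁, π₁, hπ₁, horth₁, hpair₁, hmem₁, himg₁, ⟨i₀⟩⟩ : ∃ (β : Type) (_ : Fintype β)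
        (w : β × Bool → V) (π : β → β), (∀ i, π (π i) = i) ∧
        (∀ i j, i ≠ j → ∀ a b, B (w (i, a)) (w (j, b)) = 0) ∧
        (∀ i, B (w (i, false)) (w (i, true)) ≠ 0) ∧ (∀ p, w p ∈ S) ∧
        (∀ p, f (w p) ∈ plane w F (π p.1)) ∧ Nonempty β := by
      have fixed : ∀ u ∈ S, ∀ v ∈ S, B u v ≠ 0 → f u ∈ Submodule.span F {u, v} →
          f v ∈ Submodule.span F {u, v} → ∃ (β : Type) (_ : Fintype β) (w : β × Bool → V) (π : β → β),
          (∀ i, π (π i) = i) ∧ (∀ i j, i ≠ j → ∀ a b, B (w (i, a)) (w (j, b)) = 0) ∧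
          (∀ i, B (w (i, false)) (w (i, true)) ≠ 0) ∧ (∀ p, w p ∈ S) ∧
          (∀ p, f (w p) ∈ plane w F (π p.1)) ∧ Nonempty β := by
        intro u hu v hv huv hfu hfv
        refine ⟨Unit, inferInstance, fun p => if p.2 then v else u, id, fun _ => rfl,
          fun i j h => absurd rfl h, fun _ => by simpa using huv,
          fun p => by dsimp only; split_ifs <;> assumption, fun p => ?_, inferInstance⟩
        have e : plane (fun p : Unit × Bool => if p.2 then v else u) F p.1 = Submodule.span F {u, v} := by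
          rw [plane]; congr 1
          ext x
          simp only [Set.mem_range, Set.mem_insert_iff, Set.mem_singleton_iff]
          constructor
          · rintro ⟨b, rfl⟩; cases b <;> simp
          · rintro (rfl | rfl)
            · exact ⟨false, rfl⟩
            · exact ⟨true, rfl⟩
        show f (if p.2 then v else u) ∈ plane _ F (id p.1)
        rw [id, e]
        split_ifs <;> assumption
      have hu' : ∀ u v : V, u ∈ Submodule.span F ({u, v} : Set V) := fun u v =>
        Submodule.subset_span (by simp)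
      have hv' : ∀ u v : V, v ∈ Submodule.span F ({u, v} : Set V) := fun u v =>
        Submodule.subset_span (by simp)
      by_cases hA : ∃ u ∈ S, B u (f u) ≠ 0
      · obtain ⟨u, hu, h⟩ := hA
        exact fixed u hu (f u) (hfS u hu) h (hv' _ _) (by rw [hf]; exact Submodule.smul_mem _ _ (hu' _ _))
      push_neg at hA
      by_cases hC : ∀ u ∈ S, f u ∈ Submodule.span F {u}
      · obtain ⟨u, hu, hu0⟩ := (Submodule.ne_bot_iff S).1 h0
        obtain ⟨v, hv, huv⟩ := hnd u hu hu0
        exact fixed u hu v hv huv (Submodule.span_mono (by simp) (hC u hu))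
          (Submodule.span_mono (by simp) (hC v hv))
      push_neg at hC
      obtain ⟨u, hu, hind⟩ := hC
      obtain ⟨v, hv, huv, hfuv⟩ : ∃ v ∈ S, B u v ≠ 0 ∧ B (f u) v = 0 := by
        by_contra hc
        push_neg at hc
        have hu0 : u ≠ 0 := fun e => hind (by simp [e])
        obtain ⟨v₁, hv₁, h1⟩ := hnd u hu hu0
        refine hind (Submodule.mem_span_singleton.2 ⟨B (f u) v₁ / B u v₁, ?_⟩)
        by_contra hne
        obtain ⟨y, hy, hy0⟩ := hnd _ (sub_mem (hfS u hu) (S.smul_mem (B (f u) v₁ / B u v₁) hu))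
          (sub_ne_zero.2 (Ne.symm hne))
        simp only [map_sub, map_smul, LinearMap.sub_apply, LinearMap.smul_apply, smul_eq_mul] at hy0
        have hv1 : B (f u) v₁ ≠ 0 := hc v₁ hv₁ h1
        refine hc (y - (B (f u) y / B (f u) v₁) • v₁) (sub_mem hy (S.smul_mem _ hv₁)) ?_ ?_
        · simp only [map_sub, map_smul, smul_eq_mul]
          intro e
          apply hy0
          field_simp at e ⊢
          linear_combination -e
        · simp [hv1]
      have hufv : B u (f v) = 0 := by
        have := hB u (f v)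
        rw [hf, map_smul, hfuv, smul_zero] at this
        exact this.symm
      refine ⟨Bool, inferInstance, fun p => if p.1 then f (if p.2 then v else u) else (if p.2 then v else u),
        Bool.not, Bool.not_not, ?_, ?_, ?_, ?_, inferInstance⟩
      · intro i j h a b
        cases i <;> cases j <;> first | exact absurd rfl h | skip
        · cases a <;> cases b <;> simp [hA u hu, hA v hv, hufv, hsk v (f u), hfuv]
        · cases a <;> cases b <;> simp [hsk (f u) u, hsk (f v) v, hsk (f v) u, hA u hu, hA v hv, hufv, hfuv]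
      · intro i
        cases i <;> simp [hB, huv]
      · intro p
        dsimp only
        split_ifs <;> first | exact hfS _ hv | exact hfS _ hu | assumption
      · rintro ⟨i, a⟩
        cases i
        · exact Submodule.subset_span ⟨a, rfl⟩
        · show f (f (if a then v else u)) ∈ _
          rw [hf]
          exact Submodule.smul_mem _ _ (Submodule.subset_span ⟨a, rfl⟩)
    let S' : Submodule F V := S ⊓ ⨅ p, LinearMap.ker (B (w₁ p))
    have hmem : ∀ s, s ∈ S' ↔ s ∈ S ∧ ∀ p, B (w₁ p) s = 0 := fun s => by simp [S']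
    have hplane : ∀ {s} i, (∀ p, B (w₁ p) s = 0) → ∀ x ∈ plane w₁ F i, B x s = 0 := by
      intro s i hs x hx
      induction hx using Submodule.span_induction with
      | mem x hx => obtain ⟨b, rfl⟩ := hx; exact hs _
      | zero => simp
      | add x y _ _ hx hy => simp [hx, hy]
      | smul c x _ hx => simp [hx]
    have hfS' : ∀ s ∈ S', f s ∈ S' := by
      intro s hs
      obtain ⟨hsS, hs⟩ := (hmem s).1 hs
      refine (hmem _).2 ⟨hfS s hsS, fun p => ?_⟩
      have e := hB (f (w₁ p)) s
      rw [hplane _ hs _ (himg₁ p), hf, map_smul, LinearMap.smul_apply, smul_eq_mul] at e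
      exact (mul_eq_zero.1 e).resolve_left hz
    have hsplit : ∀ s ∈ S, s - ∑ i, ((B (w₁ (i, false)) s / B (w₁ (i, false)) (w₁ (i, true))) • w₁ (i, true) +
        (B (w₁ (i, true)) s / B (w₁ (i, true)) (w₁ (i, false))) • w₁ (i, false)) ∈ S' := by
      intro s hs
      refine (hmem _).2 ⟨sub_mem hs (sum_mem fun i _ => add_mem (S.smul_mem _ (hmem₁ _)) (S.smul_mem _ (hmem₁ _))), ?_⟩
      rintro ⟨j, a⟩
      rw [map_sub, map_sum, Finset.sum_eq_single j (fun i _ hij => by
        simp [horth₁ j i (Ne.symm hij)]) (fun h => absurd (Finset.mem_univ j) h)]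
      have h1 := hpair₁ j
      have h2 : B (w₁ (j, true)) (w₁ (j, false)) ≠ 0 := by rw [hsk]; exact neg_ne_zero.2 h1
      cases a <;> simp [halt, h1, h2]
    have hnd' : ∀ s ∈ S', s ≠ 0 → ∃ t ∈ S', B s t ≠ 0 := by
      intro s hs hs0
      obtain ⟨hsS, hs'⟩ := (hmem s).1 hs
      obtain ⟨t, ht, hst⟩ := hnd s hsS hs0
      refine ⟨_, hsplit t ht, ?_⟩
      simpa [map_sum, hsk s (w₁ _), hs'] using hst
    have hlt : S' < S := lt_of_le_of_ne inf_le_left fun e =>
      hpair₁ i₀ (((hmem (w₁ (i₀, true))).1 (e ▸ hmem₁ _)).2 (i₀, false))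
    obtain ⟨R⟩ := IH S' (by have := Submodule.finrank_lt_finrank_of_lt hlt; omega) hfS' hnd'
    haveI := R.fin
    have hR : ∀ p, R.w p ∈ S' := fun p => R.span_eq.le (Submodule.subset_span (Set.mem_range_self p))
    refine ⟨⟨β ⊕ R.idx, inferInstance, fun p => Sum.elim (fun i => w₁ (i, p.2)) (fun i => R.w (i, p.2)) p.1,
      Sum.map π₁ R.perm, ?_, ?_, ?_, ?_, ?_⟩⟩
    · rintro (i | i) <;> simp [hπ₁, R.invol]
    · rintro (i | i) (j | j) h a b
      · exact horth₁ i j (fun e => h (by rw [e])) a b
      · exact ((hmem _).1 (hR _)).2 _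
      · show B (R.w (i, a)) (w₁ (j, b)) = 0
        rw [hsk, ((hmem _).1 (hR _)).2, neg_zero]
      · exact R.orth i j (fun e => h (by rw [e])) a b
    · rintro (i | i)
      · exact hpair₁ i
      · exact R.pair i
    · refine le_antisymm (Submodule.span_le.2 ?_) fun s hs => ?_
      · rintro _ ⟨⟨i | i, a⟩, rfl⟩
        · exact hmem₁ _
        · exact ((hmem _).1 (hR _)).1
      · have h1 := hsplit s hs
        rw [← R.span_eq] at h1
        have hle : Submodule.span F (Set.range R.w) ≤ Submodule.span F (Set.range fun p : (β ⊕ R.idx) × Bool =>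
            Sum.elim (fun i => w₁ (i, p.2)) (fun i => R.w (i, p.2)) p.1) :=
          Submodule.span_mono (by rintro _ ⟨⟨i, a⟩, rfl⟩; exact ⟨(Sum.inr i, a), rfl⟩)
        have := add_mem (hle h1) (sum_mem (t := Finset.univ) fun i _ => add_mem
          (Submodule.smul_mem _ (B (w₁ (i, false)) s / B (w₁ (i, false)) (w₁ (i, true)))
            (Submodule.subset_span ⟨(Sum.inl i, true), rfl⟩))
          (Submodule.smul_mem _ (B (w₁ (i, true)) s / B (w₁ (i, true)) (w₁ (i, false)))
            (Submodule.subset_span ⟨(Sum.inl i, false), rfl⟩)))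
        simpa using this
    · rintro ⟨i | i, a⟩
      · exact himg₁ (i, a)
      · exact R.image (i, a)

/-- An involution of a finite set permutes a partition into parts of any size dividing the cardinality. -/
theorem exists_partition {α : Type} [DecidableEq α] (π : α → α) (hπ : ∀ i, π (π i) = i) {b : ℕ}
    (hb : 0 < b) : ∀ (t : ℕ) (s : Finset α), (∀ i ∈ s, π i ∈ s) → s.card = b * t →
      ∃ P : Finset (Finset α), P.card = t ∧ (∀ A ∈ P, A ⊆ s ∧ A.card = b ∧ A.image π ∈ P) ∧
        (∀ i ∈ s, ∃ A ∈ P, i ∈ A) ∧ ∀ A ∈ P, ∀ C ∈ P, A ≠ C → Disjoint A C := by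
  classical
  have hinj : Function.Injective π := fun a c h => by rw [← hπ a, h, hπ]
  intro t
  induction t using Nat.strong_induction_on with
  | _ t IH =>
  intro s hs hcard
  rcases Nat.eq_zero_or_pos t with rfl | ht
  · exact ⟨∅, rfl, by simp, fun i hi => by simp [Finset.card_eq_zero.1 (by simpa using hcard)] at hi, by simp⟩
  -- a set of parts to be removed
  obtain ⟨N, hN0, hN1, hN2, hN3, hN4⟩ : ∃ N : Finset (Finset α), 0 < N.card ∧ (∀ A ∈ N, A ⊆ s) ∧
      (∀ A ∈ N, A.card = b) ∧ (∀ A ∈ N, A.image π ∈ N) ∧ (∀ A ∈ N, ∀ C ∈ N, A ≠ C → Disjoint A C) := by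
    let e : α → ℕ := fun i => if h : i ∈ s then (s.equivFin ⟨i, h⟩ : ℕ) else 0
    have he : ∀ i ∈ s, ∀ j ∈ s, e i = e j → i = j := fun i hi j hj h => by
      simp only [e, dif_pos hi, dif_pos hj] at h
      exact congrArg Subtype.val (s.equivFin.injective (Fin.ext h))
    let Fx := s.filter fun i => π i = i
    let R := s.filter fun i => e i < e (π i)
    have hsplit : s = Fx ∪ (R ∪ R.image π) := by
      ext i
      simp only [Fx, R, Finset.mem_union, Finset.mem_filter, Finset.mem_image]
      constructor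
      · intro hi
        rcases lt_trichotomy (e i) (e (π i)) with h | h | h
        · exact Or.inr (Or.inl ⟨hi, h⟩)
        · exact Or.inl ⟨hi, (he i hi _ (hs i hi) h).symm⟩
        · exact Or.inr (Or.inr ⟨π i, ⟨hs i hi, by rw [hπ]; exact h⟩, hπ i⟩)
      · rintro (⟨hi, -⟩ | ⟨hi, -⟩ | ⟨j, ⟨hj, -⟩, rfl⟩)
        exacts [hi, hi, hs j hj]
    have hd1 : ∀ R' ⊆ R, Disjoint R' (R'.image π) := by
      intro R' hR'
      rw [Finset.disjoint_left]
      intro i hi hi'
      obtain ⟨j, hj, rfl⟩ := Finset.mem_image.1 hi'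
      have h1 := (Finset.mem_filter.1 (hR' hi)).2
      have h2 := (Finset.mem_filter.1 (hR' hj)).2
      rw [hπ] at h1
      omega
    have hd2 : ∀ J ⊆ Fx, ∀ R' ⊆ R, Disjoint J (R' ∪ R'.image π) := by
      intro J hJ R' hR'
      rw [Finset.disjoint_left]
      intro i hi hi'
      have h1 := (Finset.mem_filter.1 (hJ hi)).2
      rcases Finset.mem_union.1 hi' with h | h
      · have := (Finset.mem_filter.1 (hR' h)).2
        rw [h1] at this; omega
      · obtain ⟨j, hj, rfl⟩ := Finset.mem_image.1 h
        rw [hπ] at h1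
        have := (Finset.mem_filter.1 (hR' hj)).2
        rw [← h1] at this; omega
    have hcnt : Fx.card + 2 * R.card = b * t := by
      rw [← hcard]
      conv_rhs => rw [hsplit]
      rw [Finset.card_union_of_disjoint (hd2 Fx subset_rfl R subset_rfl),
        Finset.card_union_of_disjoint (hd1 R subset_rfl), Finset.card_image_of_injective _ hinj]
      ring
    have hbt : b ≤ b * t := Nat.le_mul_of_pos_right b ht
    by_cases hgood : b % 2 = 0 ∨ 0 < Fx.card
    · obtain ⟨R', hR', hR'c⟩ := Finset.exists_subset_card_eq (min_le_left R.card (b / 2))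
      obtain ⟨J, hJ, hJc⟩ := Finset.exists_subset_card_eq (s := Fx) (n := b - 2 * min R.card (b / 2)) (by omega)
      refine ⟨{J ∪ (R' ∪ R'.image π)}, by simp, ?_, ?_, ?_, ?_⟩
      · simp only [Finset.mem_singleton, forall_eq]
        rw [hsplit]
        exact Finset.union_subset_union hJ (Finset.union_subset_union hR' (Finset.image_subset_image hR'))
      · simp only [Finset.mem_singleton, forall_eq]
        rw [Finset.card_union_of_disjoint (hd2 J hJ R' hR'), Finset.card_union_of_disjoint (hd1 R' hR'),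
          Finset.card_image_of_injective _ hinj, hJc, hR'c]
        omega
      · simp only [Finset.mem_singleton, forall_eq, Finset.image_union, Finset.image_image]
        rw [show π ∘ π = id from funext hπ, Finset.image_id,
          show J.image π = J from (Finset.image_congr fun i hi => (Finset.mem_filter.1 (hJ hi)).2).trans
            Finset.image_id, Finset.union_comm (R'.image π)]
      · simp
    · push_neg at hgood
      have ht2 : 2 ≤ t := by
        by_contra h
        obtain rfl : t = 1 := by omega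
        omega
      have hbt' : b * 2 ≤ b * t := Nat.mul_le_mul_left b ht2
      obtain ⟨R', hR', hR'c⟩ := Finset.exists_subset_card_eq (s := R) (n := b) (by omega)
      have hne : R' ≠ R'.image π := fun h => by
        have := hd1 R' hR'
        rw [← h, disjoint_self] at this
        rw [this] at hR'c
        simp at hR'c
        omega
      have hRs : R' ⊆ s := hR'.trans (Finset.filter_subset _ _)
      refine ⟨{R', R'.image π}, by rw [Finset.card_pair hne]; omega, ?_, ?_, ?_, ?_⟩
      · simp only [Finset.mem_insert, Finset.mem_singleton, forall_eq_or_imp, forall_eq]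
        exact ⟨hRs, Finset.image_subset_iff.2 fun i hi => hs i (hRs hi)⟩
      · simp [hR'c, Finset.card_image_of_injective _ hinj]
      · simp [Finset.image_image, show π ∘ π = id from funext hπ]
      · simp only [Finset.mem_insert, Finset.mem_singleton, forall_eq_or_imp, forall_eq]
        exact ⟨⟨fun h => absurd rfl h, fun _ => hd1 R' hR'⟩, fun _ => (hd1 R' hR').symm, fun h => absurd rfl h⟩
  let U := N.biUnion id
  have hU : U.card = b * N.card := by
    show (N.biUnion fun A => A).card = _
    rw [Finset.card_biUnion (fun A hA C hC h => hN4 A hA C hC h)]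
    rw [Finset.sum_congr rfl hN2, Finset.sum_const, smul_eq_mul, mul_comm]
  have hUs : U ⊆ s := Finset.biUnion_subset.2 hN1
  have hNt : N.card ≤ t := Nat.le_of_mul_le_mul_left (hU ▸ hcard ▸ Finset.card_le_card hUs) hb
  have hinv : ∀ i ∈ s \ U, π i ∈ s \ U := by
    intro i hi
    obtain ⟨his, hiU⟩ := Finset.mem_sdiff.1 hi
    refine Finset.mem_sdiff.2 ⟨hs i his, fun h => hiU ?_⟩
    obtain ⟨A, hA, hiA⟩ := Finset.mem_biUnion.1 h
    exact Finset.mem_biUnion.2 ⟨_, hN3 A hA, Finset.mem_image.2 ⟨π i, hiA, hπ i⟩⟩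
  obtain ⟨P, hP, hP1, hP2, hP3⟩ := IH (t - N.card) (by omega) (s \ U) hinv
    (by rw [Finset.card_sdiff_of_subset hUs, hU, hcard, Nat.mul_sub])
  have hcross : ∀ A ∈ N, ∀ C ∈ P, Disjoint A C := fun A hA C hC =>
    Disjoint.mono (Finset.subset_biUnion_of_mem id hA) (hP1 C hC).1 (Finset.disjoint_sdiff)
  refine ⟨N ∪ P, ?_, ?_, ?_, ?_⟩
  · rw [Finset.card_union_of_disjoint, hP]; omega
    rw [Finset.disjoint_left]
    intro A hA hA'
    have := hcross A hA A hA'
    rw [disjoint_self] at this
    have h2 := hN2 A hA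
    rw [this] at h2
    simp at h2
    omega
  · intro A hA
    rcases Finset.mem_union.1 hA with h | h
    · exact ⟨hN1 A h, hN2 A h, Finset.mem_union_left _ (hN3 A h)⟩
    · obtain ⟨h1, h2, h3⟩ := hP1 A h
      exact ⟨h1.trans Finset.sdiff_subset, h2, Finset.mem_union_right _ h3⟩
  · intro i hi
    by_cases h : i ∈ U
    · obtain ⟨A, hA, hiA⟩ := Finset.mem_biUnion.1 h
      exact ⟨A, Finset.mem_union_left _ hA, hiA⟩
    · obtain ⟨A, hA, hiA⟩ := hP2 i (Finset.mem_sdiff.2 ⟨hi, h⟩)
      exact ⟨A, Finset.mem_union_right _ hA, hiA⟩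
  · intro A hA C hC hAC
    rcases Finset.mem_union.1 hA with h | h <;> rcases Finset.mem_union.1 hC with h' | h'
    exacts [hN4 A h C h' hAC, hcross A h C h', (hcross C h' A h).symm, hP3 A h C h' hAC]

/-- The main statement. -/
theorem exists_decomposition [FiniteDimensional F V] (B : LinearMap.BilinForm F V) (halt : ∀ v, B v v = 0)
    (hnd : ∀ v, v ≠ 0 → ∃ w, B v w ≠ 0) (f : V →ₗ[F] V) (hB : ∀ u v, B (f u) (f v) = B u v)
    {z : F} (hz : z ≠ 0) (hf : ∀ v, f (f v) = z • v) (b t : ℕ) (hb : 0 < b)
    (hdim : Module.finrank F V = 2 * b * t) :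
    ∃ D : Fin t → Submodule F V, (∀ j, Module.finrank F (D j) = 2 * b) ∧ iSupIndep D ∧ iSup D = ⊤ ∧
      (∀ j, ∀ u ∈ D j, u ≠ 0 → ∃ v ∈ D j, B u v ≠ 0) ∧
      (∀ j j', j ≠ j' → ∀ u ∈ D j, ∀ v ∈ D j', B u v = 0) ∧
      ∃ σ : Equiv.Perm (Fin t), ∀ j, (D j).map f = D (σ j) := by
  classical
  have hsk : ∀ a c, B a c = -B c a := fun a c => by
    have := halt (a + c)
    simp only [map_add, LinearMap.add_apply, halt, zero_add, add_zero] at this
    linear_combination this
  obtain ⟨R⟩ := exists_frame B halt f hB hz hf (Module.finrank F (⊤ : Submodule F V)) ⊤ le_rfl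
    (fun _ _ => Submodule.mem_top)
    (fun s _ hs => by obtain ⟨w, hw⟩ := hnd s hs; exact ⟨w, Submodule.mem_top, hw⟩)
  haveI := R.fin
  have hli : LinearIndependent F R.w := by
    rw [Fintype.linearIndependent_iff]
    rintro g hg ⟨i, a⟩
    have h := congrArg (B (R.w (i, !a))) hg
    rw [map_sum, map_zero, Finset.sum_eq_single (i, a)] at h
    · rw [map_smul, smul_eq_mul] at h
      refine (mul_eq_zero.1 h).resolve_right ?_
      cases a
      · show B (R.w (i, true)) (R.w (i, false)) ≠ 0
        rw [hsk]; exact neg_ne_zero.2 (R.pair i)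
      · exact R.pair i
    · rintro ⟨j, c⟩ _ hjc
      by_cases hij : i = j
      · subst hij
        have : c = !a := by cases a <;> cases c <;> first | rfl | exact absurd rfl hjc
        subst this
        simp [halt]
      · simp [R.orth i j hij]
    · exact fun h' => absurd (Finset.mem_univ _) h'
  have hn : Fintype.card R.idx = b * t := by
    have := finrank_span_eq_card hli
    rw [R.span_eq, finrank_top, hdim, Fintype.card_prod, Fintype.card_bool, mul_assoc] at this
    omega
  obtain ⟨P, hP, hP1, hP2, hP3⟩ := exists_partition R.perm R.invol hb t Finset.univ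
    (fun i _ => Finset.mem_univ _) (by rw [Finset.card_univ, hn])
  let e : Fin t ≃ P := (Fintype.equivFinOfCardEq (by rw [Fintype.card_coe, hP])).symm
  let D : Fin t → Submodule F V := fun j =>
    Submodule.span F (Set.range fun p : ((e j : Finset R.idx) : Type) × Bool => R.w (p.1, p.2))
  have hgen : ∀ j, ∀ i ∈ (e j : Finset R.idx), ∀ a, R.w (i, a) ∈ D j := fun j i hi a =>
    Submodule.subset_span ⟨(⟨i, hi⟩, a), rfl⟩
  have hdim' : ∀ j, Module.finrank F (D j) = 2 * b := by
    intro j
    have hi : Function.Injective fun p : ((e j : Finset R.idx) : Type) × Bool => ((p.1 : R.idx), p.2) := by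
      rintro ⟨⟨i, _⟩, a⟩ ⟨⟨i', _⟩, a'⟩ h
      obtain ⟨rfl, rfl⟩ := Prod.ext_iff.1 h
      rfl
    rw [show D j = Submodule.span F (Set.range (R.w ∘ fun p : ((e j : Finset R.idx) : Type) × Bool =>
      ((p.1 : R.idx), p.2))) from rfl, finrank_span_eq_card (hli.comp _ hi), Fintype.card_prod,
      Fintype.card_coe, Fintype.card_bool, (hP1 _ (e j).2).2.1, mul_comm]
  have hort : ∀ j j', j ≠ j' → ∀ u ∈ D j, ∀ v ∈ D j', B u v = 0 := by
    intro j j' hjj u hu v hv
    have hne : (e j : Finset R.idx) ≠ e j' := fun h => hjj (e.injective (Subtype.ext h))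
    have hd := Finset.disjoint_left.1 (hP3 _ (e j).2 _ (e j').2 hne)
    induction hu using Submodule.span_induction with
    | mem x hx =>
      obtain ⟨⟨⟨i, hi⟩, a⟩, rfl⟩ := hx
      induction hv using Submodule.span_induction with
      | mem y hy =>
        obtain ⟨⟨⟨i', hi'⟩, c⟩, rfl⟩ := hy
        exact R.orth i i' (fun h => hd hi (by rw [h]; exact hi')) a c
      | zero => simp
      | add x y _ _ hx hy => simp [hx, hy]
      | smul c x _ hx => simp [hx]
    | zero => simp
    | add x y _ _ hx hy => simp [hx, hy]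
    | smul c x _ hx => simp [hx]
  have htop : iSup D = ⊤ := by
    refine top_le_iff.1 (R.span_eq ▸ Submodule.span_le.2 ?_)
    rintro _ ⟨⟨i, a⟩, rfl⟩
    obtain ⟨A, hA, hi⟩ := hP2 i (Finset.mem_univ i)
    exact Submodule.mem_iSup_of_mem (e.symm ⟨A, hA⟩) (hgen _ i (by simpa using hi) a)
  have hzero : ∀ j, ∀ u ∈ D j, (∀ v ∈ D j, B u v = 0) → u = 0 := by
    intro j u hu h
    by_contra hu0
    obtain ⟨w, hw⟩ := hnd u hu0
    refine hw ((?_ : (⊤ : Submodule F V) ≤ LinearMap.ker (B u)) Submodule.mem_top)
    rw [← htop]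
    refine iSup_le fun i v hv => ?_
    by_cases hij : j = i
    · subst hij; exact h v hv
    · exact hort j i hij u hu v hv
  refine ⟨D, hdim', ?_, htop, fun j u hu hu0 => ?_, hort, ?_⟩
  · intro j
    rw [Submodule.disjoint_def]
    intro x hx hx'
    refine hzero j x hx fun v hv => ?_
    have hle : (⨆ (i : Fin t) (_ : i ≠ j), D i) ≤ LinearMap.ker (B v) :=
      iSup₂_le fun i hi y hy => hort j i (Ne.symm hi) v hv y hy
    have h0 : B v x = 0 := hle hx'
    rw [hsk, h0, neg_zero]
  · by_contra h
    push_neg at h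
    exact hu0 (hzero j u hu h)
  · have hinj : Function.Injective f := fun a c h => by
      have := congrArg f h
      rw [hf, hf] at this
      exact smul_right_injective V hz this
    let σ : Fin t → Fin t := fun j => e.symm ⟨_, (hP1 _ (e j).2).2.2⟩
    have hσσ : ∀ j, σ (σ j) = j := by
      intro j
      simp only [σ, Equiv.apply_symm_apply]
      apply e.injective
      rw [Equiv.apply_symm_apply]
      ext1
      simp only [Finset.image_image]
      rw [show R.perm ∘ R.perm = id from funext R.invol, Finset.image_id]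
    refine ⟨⟨σ, σ, hσσ, hσσ⟩, fun j => Submodule.eq_of_le_of_finrank_eq ?_
      (by rw [(Submodule.equivMapOfInjective f hinj _).finrank_eq.symm, hdim', hdim'])⟩
    rw [Submodule.map_le_iff_le_comap, Submodule.span_le]
    rintro _ ⟨⟨⟨i, hi⟩, a⟩, rfl⟩
    refine (?_ : plane R.w F (R.perm i) ≤ D (σ j)) (R.image (i, a))
    refine Submodule.span_le.2 ?_
    rintro _ ⟨c, rfl⟩
    exact hgen _ _ (by simp only [σ, Equiv.apply_symm_apply]; exact Finset.mem_image_of_mem _ hi) c

end Cfsg.Agent.GeomClasses.PlanePerm
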