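import Cfsg.Agent.Forms.Models

/-!
A linear map preserving an alternating form and squaring to a scalar fixes or interchanges a pair
of complementary totally isotropic subspaces, when two is non-zero.
-/

set_option autoImplicit false

namespace Cfsg.Agent.GeomClasses.PolarPair

variable {F V : Type*} [Field F] [AddCommGroup V] [Module F V] [FiniteDimensional F V]

theorem exists_pair_split (B : LinearMap.BilinForm F V) (halt : ∀ v, B v v = 0) (f : V →ₗ[F] V)
    (hB : ∀ u v, B (f u) (f v) = B u v) {z : F} (hz : z ≠ 0) (hf : ∀ v, f (f v) = z • v)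
    (sw : Bool)
    (hpick : ∀ S : Submodule F V, S ≠ ⊥ → (∀ s ∈ S, f s ∈ S) → (∀ s ∈ S, s ≠ 0 → ∃ t ∈ S, B s t ≠ 0) →
      ∃ u ∈ S, ∃ v ∈ S, B u v ≠ 0 ∧
        if sw then (∃ c : F, f u = c • v) ∧ (∃ c : F, f v = c • u)
        else (∃ c : F, f u = c • u) ∧ (∃ c : F, f v = c • v)) :
    ∀ (N : ℕ) (S : Submodule F V), Module.finrank F S ≤ N → (∀ s ∈ S, f s ∈ S) →
      (∀ s ∈ S, s ≠ 0 → ∃ t ∈ S, B s t ≠ 0) →
      ∃ U W : Submodule F V, U ⊔ W = S ∧ U ⊓ W = ⊥ ∧ (∀ a ∈ U, ∀ b ∈ U, B a b = 0) ∧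
        (∀ a ∈ W, ∀ b ∈ W, B a b = 0) ∧
        if sw then U.map f ≤ W ∧ W.map f ≤ U else U.map f ≤ U ∧ W.map f ≤ W := by
  intro N
  induction N with
  | zero =>
    intro S hS _ _
    have : S = ⊥ := Submodule.finrank_eq_zero.1 (Nat.le_zero.1 hS)
    subst this
    exact ⟨⊥, ⊥, by simp, by simp, by simp, by simp, by cases sw <;> simp⟩
  | succ N IH =>
    intro S hS hfS hnd
    by_cases h0 : S = ⊥
    · subst h0
      exact ⟨⊥, ⊥, by simp, by simp, by simp, by simp, by cases sw <;> simp⟩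
    obtain ⟨u, hu, v, hv, huv, hact⟩ := hpick S h0 hfS hnd
    have hsk : ∀ a b, B a b = -B b a := fun a b => by
      have := halt (a + b)
      simp only [map_add, LinearMap.add_apply, halt, zero_add, add_zero] at this
      linear_combination this
    let S' : Submodule F V := S ⊓ (LinearMap.ker (B u) ⊓ LinearMap.ker (B v))
    have hmem : ∀ s, s ∈ S' ↔ s ∈ S ∧ B u s = 0 ∧ B v s = 0 := fun s => by simp [S']
    have hfS' : ∀ s ∈ S', f s ∈ S' := by
      intro s hs
      obtain ⟨hsS, hus, hvs⟩ := (hmem s).1 hs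
      refine (hmem _).2 ⟨hfS s hsS, ?_⟩
      have key : ∀ a, (B (f a) s = 0) → B a (f s) = 0 := fun a h => by
        have e := hB a (f s)
        rw [hf, map_smul, h, smul_zero] at e
        exact e.symm
      cases sw
      · obtain ⟨⟨c, hc⟩, ⟨c', hc'⟩⟩ := hact
        exact ⟨key u (by simp [hc, hus]), key v (by simp [hc', hvs])⟩
      · obtain ⟨⟨c, hc⟩, ⟨c', hc'⟩⟩ := hact
        exact ⟨key u (by simp [hc, hvs]), key v (by simp [hc', hus])⟩
    have hsplit : ∀ s ∈ S, s - ((B u s) / (B u v)) • v - ((B v s) / (B v u)) • u ∈ S' := by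
      intro s hs
      have hvu : B v u ≠ 0 := by rw [hsk]; exact neg_ne_zero.2 huv
      refine (hmem _).2 ⟨sub_mem (sub_mem hs (S.smul_mem _ hv)) (S.smul_mem _ hu), ?_, ?_⟩
      · simp [halt]; field_simp; ring
      · simp [halt]; field_simp; ring
    have hnd' : ∀ s ∈ S', s ≠ 0 → ∃ t ∈ S', B s t ≠ 0 := by
      intro s hs hs0
      obtain ⟨hsS, hus, hvs⟩ := (hmem s).1 hs
      obtain ⟨t, ht, hst⟩ := hnd s hsS hs0
      refine ⟨_, hsplit t ht, ?_⟩
      simpa [hsk s u, hsk s v, hus, hvs] using hst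
    have hlt : S' < S := lt_of_le_of_ne inf_le_left fun e => huv (((hmem v).1 (e ▸ hv)).2.1)
    obtain ⟨U, W, hUW, hdis, hU, hW, hm⟩ := IH S'
      (by have := Submodule.finrank_lt_finrank_of_lt hlt; omega) hfS' hnd'
    have hUS' : U ≤ S' := hUW ▸ le_sup_left
    have hWS' : W ≤ S' := hUW ▸ le_sup_right
    refine ⟨Submodule.span F {u} ⊔ U, Submodule.span F {v} ⊔ W, ?_, ?_, ?_, ?_, ?_⟩
    · refine le_antisymm (sup_le (sup_le ?_ (hUS'.trans inf_le_left)) (sup_le ?_ (hWS'.trans inf_le_left))) ?_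
      · simpa [Submodule.span_singleton_le_iff_mem] using hu
      · simpa [Submodule.span_singleton_le_iff_mem] using hv
      · intro s hs
        have h1 := hsplit s hs
        rw [← hUW] at h1
        have h2 : U ⊔ W ≤ (Submodule.span F {u} ⊔ U) ⊔ (Submodule.span F {v} ⊔ W) :=
          sup_le_sup le_sup_right le_sup_right
        have hu' : u ∈ (Submodule.span F {u} ⊔ U) ⊔ (Submodule.span F {v} ⊔ W) :=
          Submodule.mem_sup_left (Submodule.mem_sup_left (Submodule.mem_span_singleton_self u))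
        have hv' : v ∈ (Submodule.span F {u} ⊔ U) ⊔ (Submodule.span F {v} ⊔ W) :=
          Submodule.mem_sup_right (Submodule.mem_sup_left (Submodule.mem_span_singleton_self v))
        convert add_mem (add_mem (h2 h1) (Submodule.smul_mem _ ((B v s) / (B v u)) hu'))
          (Submodule.smul_mem _ ((B u s) / (B u v)) hv') using 1
        abel
    · rw [Submodule.eq_bot_iff]
      intro x hx
      obtain ⟨hxU, hxW⟩ := Submodule.mem_inf.1 hx
      obtain ⟨p, hp, a, ha, hpa⟩ := Submodule.mem_sup.1 hxU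
      obtain ⟨r, hr, b, hb, hrb⟩ := Submodule.mem_sup.1 hxW
      obtain ⟨c, rfl⟩ := Submodule.mem_span_singleton.1 hp
      obtain ⟨e, rfl⟩ := Submodule.mem_span_singleton.1 hr
      obtain ⟨-, hua, hva⟩ := (hmem a).1 (hUS' ha)
      obtain ⟨-, hub, hvb⟩ := (hmem b).1 (hWS' hb)
      have he : e = 0 := by
        have := congrArg (B u) (hpa.trans hrb.symm)
        simpa [halt, hua, hub, huv] using this.symm
      have hc : c = 0 := by
        have := congrArg (B v) (hpa.trans hrb.symm)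
        have hvu : B v u ≠ 0 := by rw [hsk]; exact neg_ne_zero.2 huv
        simpa [halt, hva, hvb, hvu] using this
      subst hc he
      simp only [zero_smul, zero_add] at hpa hrb
      exact (Submodule.mem_bot F).1 (hdis ▸ Submodule.mem_inf.2 ⟨hpa ▸ ha, hrb ▸ hb⟩)
    · intro a ha b hb
      obtain ⟨p, hp, a', ha', rfl⟩ := Submodule.mem_sup.1 ha
      obtain ⟨r, hr, b', hb', rfl⟩ := Submodule.mem_sup.1 hb
      obtain ⟨c, rfl⟩ := Submodule.mem_span_singleton.1 hp
      obtain ⟨e, rfl⟩ := Submodule.mem_span_singleton.1 hr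
      simp [halt, hU a' ha' b' hb', ((hmem a').1 (hUS' ha')).2.1, ((hmem b').1 (hUS' hb')).2.1,
        hsk a' u]
    · intro a ha b hb
      obtain ⟨p, hp, a', ha', rfl⟩ := Submodule.mem_sup.1 ha
      obtain ⟨r, hr, b', hb', rfl⟩ := Submodule.mem_sup.1 hb
      obtain ⟨c, rfl⟩ := Submodule.mem_span_singleton.1 hp
      obtain ⟨e, rfl⟩ := Submodule.mem_span_singleton.1 hr
      simp [halt, hW a' ha' b' hb', ((hmem a').1 (hWS' ha')).2.2, ((hmem b').1 (hWS' hb')).2.2,
        hsk a' v]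
    · have key : ∀ (w w' : V) (c : F), f w = c • w' → (Submodule.span F {w}).map f ≤ Submodule.span F {w'} := by
        intro w w' c h
        rw [Submodule.map_span, Set.image_singleton, Submodule.span_singleton_le_iff_mem, h]
        exact Submodule.smul_mem _ _ (Submodule.mem_span_singleton_self w')
      cases sw
      · obtain ⟨⟨c, hc⟩, ⟨c', hc'⟩⟩ := hact
        simp only [Bool.false_eq_true, if_false, Submodule.map_sup] at hm ⊢
        exact ⟨sup_le_sup (key _ _ c hc) hm.1, sup_le_sup (key _ _ c' hc') hm.2⟩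
      · obtain ⟨⟨c, hc⟩, ⟨c', hc'⟩⟩ := hact
        simp only [if_true, Submodule.map_sup] at hm ⊢
        exact ⟨sup_le_sup (key _ _ c hc) hm.1, sup_le_sup (key _ _ c' hc') hm.2⟩

/-- The main statement. -/
theorem exists_pair (B : LinearMap.BilinForm F V) (halt : ∀ v, B v v = 0)
    (hnd : ∀ v, v ≠ 0 → ∃ w, B v w ≠ 0) (f : V →ₗ[F] V) (hB : ∀ u v, B (f u) (f v) = B u v)
    (h2 : (2 : F) ≠ 0) {z : F} (hf : ∀ v, f (f v) = z • v) :
    ∃ U W : Submodule F V, IsCompl U W ∧ (∀ a ∈ U, ∀ b ∈ U, B a b = 0) ∧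
      (∀ a ∈ W, ∀ b ∈ W, B a b = 0) ∧ ((U.map f = U ∧ W.map f = W) ∨ (U.map f = W ∧ W.map f = U)) := by
  rcases subsingleton_or_nontrivial V with hV | hV
  · exact ⟨⊥, ⊤, isCompl_bot_top, by simp, fun a _ b _ => by rw [Subsingleton.elim a 0]; simp,
      Or.inl ⟨Subsingleton.elim _ _, Subsingleton.elim _ _⟩⟩
  obtain ⟨v₀, hv₀⟩ := exists_ne (0 : V)
  obtain ⟨w₀, hw₀⟩ := hnd v₀ hv₀
  have hzz : z * z = 1 := by
    have := hB (f v₀) (f w₀)
    simp only [hf, map_smul, LinearMap.smul_apply, hB, smul_eq_mul] at this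
    exact mul_right_cancel₀ hw₀ (by linear_combination this)
  have hz : z ≠ 0 := fun e => by rw [e, mul_zero] at hzz; exact zero_ne_one hzz
  have hsk : ∀ a b, B a b = -B b a := fun a b => by
    have := halt (a + b)
    simp only [map_add, LinearMap.add_apply, halt, zero_add, add_zero] at this
    linear_combination this
  obtain ⟨sw, hpick⟩ : ∃ sw : Bool, ∀ S : Submodule F V, S ≠ ⊥ → (∀ s ∈ S, f s ∈ S) →
      (∀ s ∈ S, s ≠ 0 → ∃ t ∈ S, B s t ≠ 0) →
      ∃ u ∈ S, ∃ v ∈ S, B u v ≠ 0 ∧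
        if sw then (∃ c : F, f u = c • v) ∧ (∃ c : F, f v = c • u)
        else (∃ c : F, f u = c • u) ∧ (∃ c : F, f v = c • v) := by
    by_cases hsq : ∃ e : F, z = e * e
    · obtain ⟨e, he⟩ := hsq
      have he0 : e ≠ 0 := fun h => hz (by rw [he, h, mul_zero])
      refine ⟨false, fun S hS hfS hS' => ?_⟩
      obtain ⟨s, hs, hs0⟩ := (Submodule.ne_bot_iff S).1 hS
      obtain ⟨u, hu, hu0, ε, hε, hfu⟩ : ∃ u ∈ S, u ≠ 0 ∧ ∃ ε : F, ε * ε = z ∧ f u = ε • u := by
        by_cases h : f s + e • s = 0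
        · exact ⟨s, hs, hs0, -e, by rw [he]; ring, by rw [neg_smul]; exact eq_neg_of_add_eq_zero_left h⟩
        · refine ⟨_, add_mem (hfS s hs) (S.smul_mem e hs), h, e, he.symm, ?_⟩
          rw [map_add, map_smul, hf, he]; module
      obtain ⟨v, hv, huv⟩ := hS' u hu hu0
      have hε0 : ε ≠ 0 := fun h => hz (by rw [← hε, h, mul_zero])
      have huf : ε * B u (f v) = B u v := by
        rw [← hB u v, hfu]; simp
      refine ⟨u, hu, v + ε • f v, add_mem hv (S.smul_mem _ (hfS v hv)), ?_, ⟨ε, hfu⟩, ⟨ε⁻¹, ?_⟩⟩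
      · rw [map_add, map_smul, smul_eq_mul, huf, ← two_mul]; exact mul_ne_zero h2 huv
      · rw [map_add, map_smul, hf, smul_add, smul_smul, smul_smul, inv_mul_cancel₀ hε0, one_smul,
          show ε * z = ε⁻¹ by field_simp; linear_combination hzz + (z) * hε, add_comm]
    · have hz1 : (1 : F) - z ≠ 0 := fun h => hsq ⟨1, by linear_combination -h⟩
      refine ⟨true, fun S hS hfS hS' => ?_⟩
      by_contra hcon
      push_neg at hcon
      have hq : ∀ u ∈ S, B u (f u) = 0 := by
        intro u hu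
        by_contra h
        exact hcon u hu (f u) (hfS u hu) h (by rw [if_pos rfl]; exact ⟨⟨1, (one_smul F (f u)).symm⟩, z, hf u⟩)
      obtain ⟨s, hs, hs0⟩ := (Submodule.ne_bot_iff S).1 hS
      obtain ⟨t, ht, hst⟩ := hS' s hs hs0
      have h1 := hq (s + f t) (add_mem hs (hfS t ht))
      have h3 : B (f t) (f s) = -B s t := by rw [hB, hsk]
      simp only [map_add, LinearMap.add_apply, hf, map_smul, smul_eq_mul, hq s hs, h3] at h1
      have h4 : B (f t) t = 0 := by rw [hsk, hq t ht, neg_zero]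
      exact hst ((mul_eq_zero.1 (show (1 - z) * B s t = 0 by linear_combination -h1 + z * h4)).resolve_left hz1)
  obtain ⟨U, W, hUW, hdis, hU, hW, hm⟩ := exists_pair_split B halt f hB hz hf sw hpick
    (Module.finrank F (⊤ : Submodule F V)) ⊤ le_rfl (fun _ _ => Submodule.mem_top)
    (fun s _ hs => by obtain ⟨w, hw⟩ := hnd s hs; exact ⟨w, Submodule.mem_top, hw⟩)
  have hinj : Function.Injective f := fun a b h => by
    have := congrArg f h
    rw [hf, hf] at this
    exact smul_right_injective V hz this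
  have hmap : ∀ X : Submodule F V, Module.finrank F (X.map f) = Module.finrank F X := fun X =>
    (Submodule.equivMapOfInjective f hinj X).finrank_eq.symm
  refine ⟨U, W, ⟨disjoint_iff.2 hdis, codisjoint_iff.2 hUW⟩, hU, hW, ?_⟩
  cases sw
  · simp only [Bool.false_eq_true, if_false] at hm
    exact Or.inl ⟨Submodule.eq_of_le_of_finrank_eq hm.1 (hmap U),
      Submodule.eq_of_le_of_finrank_eq hm.2 (hmap W)⟩
  · simp only [if_true] at hm
    have h1 := Submodule.finrank_mono hm.1
    have h2' := Submodule.finrank_mono hm.2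
    rw [hmap] at h1 h2'
    exact Or.inr ⟨Submodule.eq_of_le_of_finrank_eq hm.1 (by rw [hmap]; omega),
      Submodule.eq_of_le_of_finrank_eq hm.2 (by rw [hmap]; omega)⟩

end Cfsg.Agent.GeomClasses.PolarPair
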