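import Cfsg.Agent.GeomClasses.PolarPairDerange
import Cfsg.Agent.GeomClasses.SympFormDerange
import Cfsg.Prelude.Def_GeometricClasses

/-!
Elements of order `n` of `GL_n`, `n` prime, and the normaliser of a field of degree `n`.
-/

set_option autoImplicit false

namespace Cfsg.Agent.GeomClasses.PrimeSinger

open Matrix

variable {F : Type*} [Field F] [Fintype F] {n : ℕ}

local notation "Mx" => Matrix (Fin n) (Fin n) F

section Field

variable {K : Subalgebra F (Matrix (Fin n) (Fin n) F)} (hK : Cfsg.Geo.IsFieldSubalgebra n K)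

include hK

theorem eq_zero_of_mulVec {k : Mx} (hk : k ∈ K) {v : Fin n → F} (hv : v ≠ 0) (h : k *ᵥ v = 0) : k = 0 := by
  by_contra hne
  obtain ⟨y, hy, hy1⟩ := hK.inv k hk hne
  apply hv
  rw [← Matrix.one_mulVec v, ← hy1, hK.comm k hk y hy, ← Matrix.mulVec_mulVec, h, Matrix.mulVec_zero]

theorem orbit_bijective {v : Fin n → F} (hv : v ≠ 0) : Function.Bijective fun k : K => (k : Mx) *ᵥ v := by
  let L : K →ₗ[F] (Fin n → F) :=
    { toFun := fun k => (k : Mx) *ᵥ v
      map_add' := fun a b => by simp [Matrix.add_mulVec]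
      map_smul' := fun c a => by simp [Matrix.smul_mulVec] }
  have hinj : Function.Injective L := (injective_iff_map_eq_zero L).2 fun k hk =>
    Subtype.ext (eq_zero_of_mulVec hK k.2 hv hk)
  refine ⟨hinj, (LinearMap.injective_iff_surjective_of_finrank_eq_finrank ?_).1 hinj⟩
  rw [hK.finrank_eq, Module.finrank_pi, Fintype.card_fin]

theorem card_ne_zero {q : ℕ} (hq : Fintype.card F = q) {L : Subalgebra F Mx} :
    Nat.card {x : L // x ≠ 0} = q ^ Module.finrank F L - 1 := by
  exact Forms.card_ne_zero_vectors (V := L) hq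

theorem noZeroDivisors : NoZeroDivisors K := by
  refine ⟨fun {a b} h => or_iff_not_imp_left.2 fun ha => ?_⟩
  obtain ⟨y, hy, hy1⟩ := hK.inv a a.2 (fun e => ha (Subtype.ext e))
  apply Subtype.ext
  have h' : (a : Mx) * b = 0 := by simpa using congrArg Subtype.val h
  have := congrArg (y * ·) h'
  simp only [← mul_assoc, ← hK.comm a a.2 y hy, hy1, one_mul, mul_zero] at this
  exact this

theorem unit_of_ne {k : K} (hk : k ≠ 0) : IsUnit k := by
  obtain ⟨y, hy, hy1⟩ := hK.inv k k.2 (fun e => hk (Subtype.ext e))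
  exact ⟨⟨k, ⟨y, hy⟩, Subtype.ext hy1, Subtype.ext ((hK.comm y hy k k.2).trans hy1)⟩, rfl⟩

theorem card_units {q : ℕ} (hq : Fintype.card F = q) (hn : 1 ≤ n) : Nat.card Kˣ = q ^ n - 1 := by
  haveI : Nonempty (Fin n) := ⟨⟨0, hn⟩⟩
  refine Eq.trans ?_ ((card_ne_zero hK hq (L := K)).trans (congrArg (fun m => q ^ m - 1) hK.finrank_eq))
  refine Nat.card_congr (Equiv.ofBijective (fun u : Kˣ => (⟨u, u.ne_zero⟩ : {x : K // x ≠ 0}))
    ⟨fun a b h => Units.ext (congrArg Subtype.val h), fun x => ?_⟩)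
  obtain ⟨u, hu⟩ := unit_of_ne hK x.2
  exact ⟨u, Subtype.ext hu⟩

/-- An element normalising `K` moves nothing, everything, or all but one dimension. -/
theorem rank_dichotomy (hn : n.Prime) {g : GL (Fin n) F}
    (hg : g ∈ Cfsg.Geo.subalgebraNormalizer K) (hne : (g : Mx) ≠ 1) : n - 1 ≤ ((g : Mx) - 1).rank := by
  classical
  set q := Fintype.card F
  set L := ((g : Mx) - 1).mulVecLin
  have hgg : ((g⁻¹ : GL (Fin n) F) : Mx) * (g : Mx) = 1 := by rw [← Units.val_mul, inv_mul_cancel, Units.val_one]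
  by_cases hcomm : ∀ k ∈ K, (g : Mx) * k = k * g
  · obtain ⟨u, hu⟩ : ∃ u, L u ≠ 0 := by
      by_contra hc
      push_neg at hc
      refine hne (sub_eq_zero.1 (Matrix.toLin'.injective (LinearMap.ext fun u => ?_)))
      rw [map_zero, LinearMap.zero_apply]
      exact hc u
    have htop : LinearMap.range L = ⊤ := by
      refine eq_top_iff.2 fun v _ => ?_
      obtain ⟨k, hk⟩ := (orbit_bijective hK hu).2 v
      refine ⟨(k : Mx) *ᵥ u, ?_⟩
      rw [← hk]
      simp only [L, Matrix.mulVecLin_apply, Matrix.mulVec_mulVec, sub_mul, one_mul, mul_sub, mul_one, hcomm _ k.2]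
    show n - 1 ≤ Module.finrank F (LinearMap.range L)
    rw [htop, finrank_top, Module.finrank_pi, Fintype.card_fin]
    omega
  push_neg at hcomm
  obtain ⟨k₀, hk₀, hk₀g⟩ := hcomm
  have hker : Module.finrank F (LinearMap.ker L) ≤ 1 := by
    by_contra hc
    push_neg at hc
    obtain ⟨v, hv, hv0⟩ : ∃ v ∈ LinearMap.ker L, v ≠ 0 := by
      refine (Submodule.ne_bot_iff _).1 fun e => ?_
      rw [e, finrank_bot] at hc; omega
    have hlt : Submodule.span F {v} < LinearMap.ker L := by
      refine lt_of_le_of_ne ((Submodule.span_singleton_le_iff_mem _ _).2 hv) fun e => ?_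
      rw [← e, finrank_span_singleton hv0] at hc; omega
    obtain ⟨v', hv', hv'n⟩ := SetLike.exists_of_lt hlt
    have fixg : ∀ u, u ∈ LinearMap.ker L → (g : Mx) *ᵥ u = u := fun u hu => by
      simpa [L, Matrix.sub_mulVec, sub_eq_zero] using hu
    obtain ⟨⟨k, hk⟩, hkv⟩ := (orbit_bijective hK hv0).2 v'
    simp only at hkv
    have hcomm' : (g : Mx) * k = k * g := by
      set k' := (g : Mx) * k * ((g⁻¹ : GL (Fin n) F) : Mx) with hk'
      have hk'K : k' ∈ K := (hg k).1 hk
      have hgk : (g : Mx) * k = k' * g := by rw [hk', mul_assoc, hgg, mul_one]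
      have h0 : (k' - k) *ᵥ v = 0 := by
        have h1 : (g : Mx) *ᵥ (k *ᵥ v) = k' *ᵥ v := by
          rw [Matrix.mulVec_mulVec, hgk, ← Matrix.mulVec_mulVec, fixg v hv]
        rw [hkv, fixg v' hv'] at h1
        rw [Matrix.sub_mulVec, ← h1, hkv, sub_self]
      rw [hgk, sub_eq_zero.1 (eq_zero_of_mulVec hK (K.sub_mem hk'K hk) hv0 h0)]
    let C : Subalgebra F Mx := K ⊓ Subalgebra.centralizer F {(g : Mx)}
    have hmemC : ∀ a, a ∈ C ↔ a ∈ K ∧ (g : Mx) * a = a * g := fun a => by
      simp [C, Algebra.mem_inf, Subalgebra.mem_centralizer_iff]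
    have hkC : k ∈ C := (hmemC k).2 ⟨hk, hcomm'⟩
    haveI : Nonempty (Fin n) := ⟨⟨0, hn.pos⟩⟩
    haveI : Nontrivial C := ⟨⟨0, 1, fun e => zero_ne_one (congrArg Subtype.val e)⟩⟩
    have hl2 : 2 ≤ Module.finrank F C := by
      by_contra hc'
      haveI : Nonempty (Fin n) := ⟨⟨0, hn.pos⟩⟩
      have h1 : C = ⊥ := Subalgebra.eq_bot_of_finrank_one (by
        have : 0 < Module.finrank F C := Module.finrank_pos
        omega)
      rw [h1, Algebra.mem_bot] at hkC
      obtain ⟨c, hc2⟩ := hkC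
      refine hv'n (Submodule.mem_span_singleton.2 ⟨c, ?_⟩)
      rw [← hkv, ← hc2, Algebra.algebraMap_eq_smul_one, Matrix.smul_mulVec, Matrix.one_mulVec]
    let incl : C →ₐ[F] K := Subalgebra.inclusion inf_le_left
    have hinj : Function.Injective incl := Subalgebra.inclusion_injective _
    have hcardC : Nat.card Cˣ = q ^ Module.finrank F C - 1 := by
      rw [← card_ne_zero hK rfl]
      refine Nat.card_congr (Equiv.ofBijective (fun u : Cˣ => (⟨u, u.ne_zero⟩ : {x : C // x ≠ 0}))
        ⟨fun a b h => Units.ext (congrArg Subtype.val h), fun x => ?_⟩)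
      obtain ⟨⟨a, ha⟩, hx⟩ := x
      obtain ⟨haK, hag⟩ := (hmemC a).1 ha
      obtain ⟨y, hy, hy1⟩ := hK.inv a haK (fun e => hx (Subtype.ext e))
      have hy2 : y * a = 1 := (hK.comm y hy a haK).trans hy1
      have hyg : (g : Mx) * y = y * g := by
        calc (g : Mx) * y = y * a * ((g : Mx) * y) := by rw [hy2, one_mul]
          _ = y * ((g : Mx) * (a * y)) := by rw [mul_assoc, ← mul_assoc a, ← hag, mul_assoc]
          _ = y * g := by rw [hy1, mul_one]
      exact ⟨⟨⟨a, ha⟩, ⟨y, (hmemC y).2 ⟨hy, hyg⟩⟩, Subtype.ext hy1, Subtype.ext hy2⟩, rfl⟩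
    have hdvd := Subgroup.card_dvd_of_injective (Units.map (incl : C →* K)) (Units.map_injective hinj)
    rw [hcardC, card_units hK rfl hn.pos] at hdvd
    have hg' := Nat.pow_sub_one_gcd_pow_sub_one q (Module.finrank F C) n
    rw [Nat.gcd_eq_left hdvd] at hg'
    have hq1 : 1 < q := Fintype.one_lt_card
    have hle : Module.finrank F C = n := by
      have hd : Nat.gcd (Module.finrank F C) n = Module.finrank F C := by
        refine Nat.pow_right_injective hq1 ?_
        have h1 := Nat.one_le_pow (Module.finrank F C) q (by omega)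
        have h2 := Nat.one_le_pow (Nat.gcd (Module.finrank F C) n) q (by omega)
        show q ^ _ = q ^ _
        omega
      rcases (Nat.dvd_prime hn).1 (Nat.gcd_eq_left_iff_dvd.1 hd) with e | e
      · omega
      · exact e
    have hCK : C = K := Subalgebra.eq_of_le_of_finrank_eq inf_le_left (hle.trans hK.finrank_eq.symm)
    exact hk₀g ((hmemC k₀).1 (hCK ▸ hk₀)).2
  have h := LinearMap.finrank_range_add_finrank_ker L
  rw [Module.finrank_pi, Fintype.card_fin] at h
  show n - 1 ≤ Module.finrank F (LinearMap.range L)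
  omega

/-- The Frobenius element of the normaliser. -/
theorem exists_frobenius (hn : n.Prime) {p : ℕ} [Fact p.Prime] [CharP F p] {q : ℕ} (hq : Fintype.card F = q) :
    ∃ g : GL (Fin n) F, g ∈ Cfsg.Geo.subalgebraNormalizer K ∧ g ^ n = 1 ∧ (g : Mx) ≠ 1 ∧ ∀ c : F, (g : Mx) ≠ c • 1 := by
  classical
  haveI : Nonempty (Fin n) := ⟨⟨0, hn.pos⟩⟩
  obtain ⟨e, -, he⟩ := FiniteField.card F p
  let σ : K →ₗ[F] K :=
    { toFun := fun k => k ^ q
      map_add' := fun a b => Subtype.ext (by
        simp only [SubmonoidClass.coe_pow, AddMemClass.coe_add]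
        rw [← hq, he]
        exact add_pow_expChar_pow_of_commute p _ (hK.comm a a.2 b b.2))
      map_smul' := fun c a => by
        rw [smul_pow, ← hq, FiniteField.pow_card]; rfl }
  have hσ : ∀ k, σ k = k ^ q := fun k => rfl
  haveI := noZeroDivisors hK
  haveI : IsDomain K := NoZeroDivisors.to_isDomain _
  have hmul : ∀ a b : K, a * b = b * a := fun a b => Subtype.ext (hK.comm a a.2 b b.2)
  have hσmul : ∀ a b, σ (a * b) = σ a * σ b := fun a b => by
    rw [hσ, hσ, hσ]; exact Commute.mul_pow (hmul a b) q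
  let v₀ : Fin n → F := fun _ => 1
  have hv₀ : v₀ ≠ 0 := fun h => one_ne_zero (α := F) (congrFun h ⟨0, hn.pos⟩)
  let Φ₀ : K →ₗ[F] (Fin n → F) :=
    { toFun := fun k => (k : Mx) *ᵥ v₀
      map_add' := fun a b => by simp [Matrix.add_mulVec]
      map_smul' := fun c a => by simp [Matrix.smul_mulVec] }
  let Φ : K ≃ₗ[F] (Fin n → F) := LinearEquiv.ofBijective Φ₀ (orbit_bijective hK hv₀)
  have hΦ : ∀ k : K, Φ k = (k : Mx) *ᵥ v₀ := fun k => rfl
  let S : (Fin n → F) →ₗ[F] (Fin n → F) := Φ.toLinearMap ∘ₗ σ ∘ₗ Φ.symm.toLinearMap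
  have hσpow : ∀ (j : ℕ) v, (S ^ j) v = Φ ((Φ.symm v) ^ q ^ j) := by
    intro j
    induction j with
    | zero => intro v; simp
    | succ j ih =>
      intro v
      rw [pow_succ', Module.End.mul_apply, ih]
      simp [S, hσ, pow_succ, pow_mul]
  have hSn : S ^ n = 1 := LinearMap.ext fun v => by
    rw [hσpow]
    show Φ _ = v
    by_cases hk : Φ.symm v = 0
    · rw [hk, zero_pow (pow_ne_zero _ (by rw [← hq]; exact Fintype.card_ne_zero)), map_zero]
      have h := congrArg Φ hk
      rwa [Φ.apply_symm_apply, map_zero, eq_comm] at h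
    · obtain ⟨u, hu⟩ := unit_of_ne hK hk
      have h := pow_card_eq_one' (G := Kˣ) (x := u)
      rw [card_units hK hq hn.pos] at h
      have h1 : q ^ n = (q ^ n - 1) + 1 := (Nat.sub_add_cancel (Nat.one_le_pow _ _ (hq ▸ Fintype.card_pos))).symm
      rw [h1, pow_succ, ← hu, ← Units.val_pow_eq_pow_val, h, Units.val_one, one_mul, hu, Φ.apply_symm_apply]
  set G := LinearMap.toMatrix' S
  have hG : ∀ k : K, G *ᵥ Φ k = Φ (σ k) := fun k => by simp [G, LinearMap.toMatrix'_mulVec, S]
  have hGn : G ^ n = 1 := by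
    apply Matrix.toLin'.injective
    rw [Matrix.toLin'_pow, Matrix.toLin'_toMatrix', hSn, Matrix.toLin'_one]; rfl
  have hn1 : n - 1 + 1 = n := Nat.sub_add_cancel hn.one_lt.le
  let g : GL (Fin n) F := ⟨G, G ^ (n - 1), by rw [← pow_succ', hn1, hGn], by rw [← pow_succ, hn1, hGn]⟩
  have hmv : ∀ k : K, G * (k : Mx) = ((σ k : K) : Mx) * G := fun k => by
    apply Matrix.toLin'.injective
    refine LinearMap.ext fun v => ?_
    obtain ⟨a, rfl⟩ := Φ.surjective v
    rw [Matrix.toLin'_apply, Matrix.toLin'_apply, ← Matrix.mulVec_mulVec, ← Matrix.mulVec_mulVec, hG,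
      show (k : Mx) *ᵥ Φ a = Φ (k * a) by rw [hΦ, hΦ, Matrix.mulVec_mulVec]; rfl, hG, hσmul, hΦ, hΦ,
      Matrix.mulVec_mulVec]
    rfl
  have hgk : ∀ k ∈ K, (g : Mx) * k * ((g⁻¹ : GL (Fin n) F) : Mx) ∈ K := fun k hk => by
    rw [show (g : Mx) * k = ((σ ⟨k, hk⟩ : K) : Mx) * (g : Mx) from hmv ⟨k, hk⟩, mul_assoc, ← Units.val_mul,
      mul_inv_cancel, Units.val_one, mul_one]
    exact (σ ⟨k, hk⟩).2
  refine ⟨g, fun k => ⟨hgk k, fun hk => ?_⟩, Units.ext (by rw [Units.val_pow_eq_pow_val]; exact hGn),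
    (fun h => ?_), fun c hc => ?_⟩
  · obtain ⟨m, hm⟩ : ∃ m, m + 1 = n := ⟨n - 1, hn1⟩
    have hinv : ∀ (j : ℕ) (k : Mx), k ∈ K → ((g ^ j : GL (Fin n) F) : Mx) * k * (((g ^ j)⁻¹ : GL (Fin n) F) : Mx) ∈ K := by
      intro j
      induction j with
      | zero => intro k hk; simpa using hk
      | succ j ih =>
        intro k hk
        have := hgk _ (ih k hk)
        rw [pow_succ', _root_.mul_inv_rev, Units.val_mul, Units.val_mul]
        simpa [mul_assoc] using this
    have h2 := hinv m _ hk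
    have hgn : g ^ m * g = 1 := by rw [← pow_succ, hm]; exact Units.ext (by rw [Units.val_pow_eq_pow_val]; exact hGn)
    rw [show ((g ^ m : GL (Fin n) F) : Mx) * ((g : Mx) * k * ((g⁻¹ : GL (Fin n) F) : Mx)) * (((g ^ m)⁻¹ : GL (Fin n) F) : Mx) =
      ((g ^ m * g : GL (Fin n) F) : Mx) * k * (((g ^ m * g)⁻¹ : GL (Fin n) F) : Mx) by
        rw [_root_.mul_inv_rev, Units.val_mul, Units.val_mul]; simp [mul_assoc], hgn] at h2
    simpa using h2
  · letI : CommRing K := { (inferInstance : Ring K) with mul_comm := hmul }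
    obtain ⟨u, hu⟩ := IsCyclic.exists_ofOrder_eq_natCard (α := Kˣ)
    rw [card_units hK hq hn.pos] at hu
    have h1 : σ (u : K) = (u : K) := by
      apply Φ.injective
      have := hG (u : K)
      rw [show G = 1 from h, Matrix.one_mulVec] at this
      exact this.symm
    have hq1 : 1 < q := hq ▸ Fintype.one_lt_card
    have h2 : u ^ (q - 1) = 1 := by
      refine mul_right_cancel (b := u) ?_
      rw [← pow_succ, Nat.sub_add_cancel hq1.le, one_mul]
      exact Units.ext (by rw [Units.val_pow_eq_pow_val, ← hσ]; exact h1)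
    have h3 := Nat.le_of_dvd (by omega) (hu ▸ orderOf_dvd_of_pow_eq_one h2)
    have h4 : q ^ 2 ≤ q ^ n := Nat.pow_le_pow_right (by omega) hn.two_le
    have h5 : 2 * q ≤ q ^ 2 := by rw [pow_two]; exact Nat.mul_le_mul_right _ hq1
    omega
  · have h1 := hG 1
    rw [hσ, one_pow, show G = c • 1 from hc, Matrix.smul_mulVec, Matrix.one_mulVec] at h1
    have hΦ1 : Φ (1 : K) ≠ 0 := fun e => one_ne_zero (Φ.injective (e.trans Φ.map_zero.symm))
    have hc1 : c = 1 := smul_left_injective F hΦ1 (show c • Φ 1 = (1 : F) • Φ 1 by rw [one_smul]; exact h1)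
    have hG1 : G = 1 := by rw [show G = c • 1 from hc, hc1, one_smul]
    obtain ⟨u, hu⟩ := IsCyclic.exists_ofOrder_eq_natCard (α := Fˣ)
    letI : CommRing K := { (inferInstance : Ring K) with mul_comm := hmul }
    obtain ⟨u, hu⟩ := IsCyclic.exists_ofOrder_eq_natCard (α := Kˣ)
    rw [card_units hK hq hn.pos] at hu
    have h1 : σ (u : K) = (u : K) := by
      apply Φ.injective
      have := hG (u : K)
      rw [hG1, Matrix.one_mulVec] at this
      exact this.symm
    have hq1 : 1 < q := hq ▸ Fintype.one_lt_card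
    have h2 : u ^ (q - 1) = 1 := by
      refine mul_right_cancel (b := u) ?_
      rw [← pow_succ, Nat.sub_add_cancel hq1.le, one_mul]
      exact Units.ext (by rw [Units.val_pow_eq_pow_val, ← hσ]; exact h1)
    have h3 := Nat.le_of_dvd (by omega) (hu ▸ orderOf_dvd_of_pow_eq_one h2)
    have h4 : q ^ 2 ≤ q ^ n := Nat.pow_le_pow_right (by omega) hn.two_le
    have h5 : 2 * q ≤ q ^ 2 := by rw [pow_two]; exact Nat.mul_le_mul_right _ hq1
    omega

end Field

/-- When `q` has order `n - 1` modulo `n`, the elements of order `n` permute a basis cyclically. -/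
theorem exists_cyclic [NeZero n] (hn : n.Prime) {q : ℕ} (hq : Fintype.card F = q) (hnF : (n : F) ≠ 0) (hn3 : 2 < n)
    (hord : orderOf (q : ZMod n) = n - 1) {y : Mx} (hy : y ^ n = 1) (hy1 : y ≠ 1) :
    ∃ P : Mx, P.det ≠ 0 ∧ y * P = P * Matrix.of (fun i j : Fin n => if i = j + 1 then (1 : F) else 0) := by
  classical
  haveI : Fact n.Prime := ⟨hn⟩
  set L := (y - 1).mulVecLin with hL
  have hLv : ∀ v, L v = y *ᵥ v - v := fun v => by simp [L, Matrix.sub_mulVec]
  set Kr := LinearMap.ker L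
  set W := LinearMap.range L
  let T : (Fin n → F) ≃ (Fin n → F) :=
    { toFun := fun v => y *ᵥ v
      invFun := fun v => (y ^ (n - 1)) *ᵥ v
      left_inv := fun v => show (y ^ (n - 1)) *ᵥ (y *ᵥ v) = v by rw [Matrix.mulVec_mulVec, ← pow_succ, Nat.sub_add_cancel hn.one_lt.le, hy, Matrix.one_mulVec]
      right_inv := fun v => show y *ᵥ ((y ^ (n - 1)) *ᵥ v) = v by rw [Matrix.mulVec_mulVec, ← pow_succ', Nat.sub_add_cancel hn.one_lt.le, hy, Matrix.one_mulVec] }
  have hTp : ∀ (k : ℕ) v, ((T : Equiv.Perm (Fin n → F)) ^ k) v = (y ^ k) *ᵥ v := by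
    intro k
    induction k with
    | zero => intro v; simp
    | succ k ih => intro v; rw [pow_succ', Equiv.Perm.mul_apply, ih, pow_succ', ← Matrix.mulVec_mulVec]; rfl
  have hTn : (T : Equiv.Perm (Fin n → F)) ^ n ^ 1 = 1 := Equiv.ext fun v => by
    rw [pow_one, hTp, hy, Matrix.one_mulVec]; rfl
  have hmod := Equiv.Perm.card_compl_support_modEq hTn
  have hcard : (Equiv.Perm.support (T : Equiv.Perm (Fin n → F)))ᶜ.card = q ^ Module.finrank F Kr := by
    rw [← Forms.natCard_eq_pow (V := Kr) hq, Nat.card_eq_fintype_card, ← Fintype.card_coe]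
    refine Fintype.card_congr (Equiv.subtypeEquivRight fun v => ?_)
    simp [Kr, hLv, sub_eq_zero, T]
  rw [hcard, Fintype.card_fun, Fintype.card_fin, hq, ← ZMod.natCast_eq_natCast_iff] at hmod
  push_cast at hmod
  rw [ZMod.pow_card] at hmod
  have hle := LinearMap.finrank_range_add_finrank_ker L
  rw [Module.finrank_pi, Fintype.card_fin] at hle
  have hf : Module.finrank F Kr = 1 := by
    rcases Nat.eq_zero_or_pos (Module.finrank F Kr) with h0 | hpos
    · exfalso
      rw [h0, pow_zero] at hmod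
      rw [← hmod, orderOf_one] at hord
      omega
    obtain ⟨f, hf⟩ : ∃ f, Module.finrank F Kr = f + 1 := ⟨Module.finrank F Kr - 1, by omega⟩
    rw [hf, pow_succ] at hmod
    have hq0 : (q : ZMod n) ≠ 0 := fun e => by rw [e, orderOf_zero] at hord; omega
    have hqf : (q : ZMod n) ^ f = 1 := (mul_eq_right₀ hq0).1 hmod
    have hd : n - 1 ∣ f := hord ▸ orderOf_dvd_of_pow_eq_one hqf
    rcases Nat.eq_zero_or_pos f with e | e
    · omega
    · exfalso
      have := Nat.le_of_dvd e hd
      change Module.finrank F (LinearMap.ker L) = f + 1 at hf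
      have htop : LinearMap.range L = ⊥ := Submodule.finrank_eq_zero.1 (by omega)
      refine hy1 (sub_eq_zero.1 (Matrix.toLin'.injective ?_))
      rw [map_zero]
      exact LinearMap.range_eq_bot.1 htop
  obtain ⟨v1, hv1, hv10⟩ : ∃ v ∈ Kr, v ≠ 0 := by
    refine (Submodule.ne_bot_iff _).1 fun e => ?_
    rw [e, finrank_bot] at hf; omega
  have hdisj : ∀ w ∈ W, y *ᵥ w = w → w = 0 := by
    rintro _ ⟨u, rfl⟩ hw
    have hpow : ∀ k : ℕ, (y ^ k) *ᵥ u = u + k • L u := by
      intro k
      induction k with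
      | zero => simp
      | succ k ih => rw [pow_succ', ← Matrix.mulVec_mulVec, ih, Matrix.mulVec_add, Matrix.mulVec_smul, hw, succ_nsmul, hLv u]; abel
    have h := hpow n
    rw [hy, Matrix.one_mulVec, left_eq_add, ← Nat.cast_smul_eq_nsmul F] at h
    exact (smul_eq_zero.1 h).resolve_left hnF
  obtain ⟨w, hw, hw0⟩ : ∃ w ∈ W, w ≠ 0 := by
    refine (Submodule.ne_bot_iff _).1 fun e => ?_
    have : Module.finrank F W = 0 := by rw [e, finrank_bot]
    change Module.finrank F W + Module.finrank F Kr = n at hle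
    omega
  have hyv1 : y *ᵥ v1 = v1 := by
    have : L v1 = 0 := hv1
    rwa [hLv, sub_eq_zero] at this
  have hWinv : ∀ u ∈ W, y *ᵥ u ∈ W := by
    rintro _ ⟨u, rfl⟩
    exact ⟨y *ᵥ u, by rw [hLv, hLv, Matrix.mulVec_sub]⟩
  set v := v1 + w
  let b : Fin n → (Fin n → F) := fun j => (y ^ (j : ℕ)) *ᵥ v
  have hb : ∀ j, y *ᵥ b j = b (j + 1) := by
    intro j
    simp only [b, Matrix.mulVec_mulVec, ← pow_succ']
    congr 1
    rw [Fin.val_add, Fin.val_one', Nat.add_mod_mod, pow_eq_pow_mod ((j : ℕ) + 1) hy]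
  set S := Submodule.span F (Set.range b)
  have hSinv : ∀ u ∈ S, y *ᵥ u ∈ S := by
    intro u hu
    induction hu using Submodule.span_induction with
    | mem x hx => obtain ⟨j, rfl⟩ := hx; rw [hb]; exact Submodule.subset_span ⟨_, rfl⟩
    | zero => simp
    | add a c _ _ ha hc => rw [Matrix.mulVec_add]; exact S.add_mem ha hc
    | smul t a _ ha => rw [Matrix.mulVec_smul]; exact S.smul_mem t ha
  have hsum : (∑ j : Fin n, (y ^ (j : ℕ)) *ᵥ w) = 0 := by
    refine hdisj _ (W.sum_mem fun j _ => ?_) ?_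
    · induction (j : ℕ) with
      | zero => simpa using hw
      | succ k ih => rw [pow_succ', ← Matrix.mulVec_mulVec]; exact hWinv _ ih
    · rw [Matrix.mulVec_sum]
      refine Fintype.sum_equiv (Equiv.addRight (1 : Fin n)) _ _ fun j => ?_
      rw [Matrix.mulVec_mulVec, ← pow_succ', Equiv.coe_addRight, Fin.val_add, Fin.val_one', Nat.add_mod_mod,
        pow_eq_pow_mod ((j : ℕ) + 1) hy]
  have hv1S : v1 ∈ S := by
    have h1 : ∑ j, b j = (n : F) • v1 := by
      simp only [b, v, Matrix.mulVec_add, Finset.sum_add_distrib, hsum, add_zero]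
      rw [Finset.sum_congr rfl (g := fun _ => v1) fun j _ => ?_, Finset.sum_const, Finset.card_univ, Fintype.card_fin,
        Nat.cast_smul_eq_nsmul]
      induction (j : ℕ) with
      | zero => simp
      | succ k ih => rw [pow_succ', ← Matrix.mulVec_mulVec, ih, hyv1]
    rw [show v1 = (n : F)⁻¹ • ∑ j, b j by rw [h1, smul_smul, inv_mul_cancel₀ hnF, one_smul]]
    exact S.smul_mem _ (S.sum_mem fun j _ => Submodule.subset_span ⟨j, rfl⟩)
  have hvS : v ∈ S := Submodule.subset_span ⟨0, by simp [b]⟩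
  have hwS : w ∈ S := by simpa [v] using S.sub_mem hvS hv1S
  have hWS : W ≤ S := by
    by_contra hnot
    set U := W ⊓ S
    have hlt : U < W := inf_lt_left.2 hnot
    have hdim : Module.finrank F U < n - 1 := by
      have := Submodule.finrank_lt_finrank_of_lt hlt
      change Module.finrank F W + Module.finrank F Kr = n at hle
      omega
    have hUinv : ∀ u ∈ U, y.mulVecLin u ∈ U := fun u hu => ⟨hWinv u hu.1, hSinv u hu.2⟩
    let φ : U ≃ₗ[F] U := LinearEquiv.ofInjectiveEndo (y.mulVecLin.restrict hUinv) (fun a c h =>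
      Subtype.ext (T.injective (congrArg Subtype.val h)))
    have hφ : ∀ (k : ℕ) (a : U), ((φ ^ k) a : Fin n → F) = (y ^ k) *ᵥ (a : Fin n → F) := by
      intro k
      induction k with
      | zero => intro a; simp
      | succ k ih =>
        intro a
        rw [pow_succ, pow_succ, LinearEquiv.mul_apply, ih, ← Matrix.mulVec_mulVec]
        rfl
    have hqn : ¬ n ∣ q := fun h => by
      rw [← ZMod.natCast_eq_zero_iff] at h
      rw [h, orderOf_zero] at hord
      omega
    have hone := PolarPairDerange.eq_id_of_pow hq hqn (fun k hk hk' hd => by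
        have h1 : (q : ZMod n) ^ k = 1 := by
          have := (ZMod.natCast_eq_zero_iff _ _).2 hd
          rw [Nat.cast_sub (Nat.one_le_pow _ _ (hq ▸ Fintype.card_pos))] at this
          push_cast at this
          exact sub_eq_zero.1 this
        have := Nat.le_of_dvd hk (hord ▸ orderOf_dvd_of_pow_eq_one h1)
        omega) φ (LinearEquiv.ext fun a => Subtype.ext (by rw [hφ, hy]; simp))
    exact hw0 (hdisj w hw (congrArg Subtype.val (LinearEquiv.congr_fun hone ⟨w, hw, hwS⟩)))
  have htop : S = ⊤ := by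
    refine Submodule.eq_top_of_finrank_eq (le_antisymm (Submodule.finrank_le S) ?_)
    have hlt : W < S := lt_of_le_of_ne hWS fun e => by
      have : v1 ∈ W := e ▸ hv1S
      exact hv10 (hdisj _ this hyv1)
    have := Submodule.finrank_lt_finrank_of_lt hlt
    change Module.finrank F W + Module.finrank F Kr = n at hle
    rw [Module.finrank_pi, Fintype.card_fin]
    omega
  have hli : LinearIndependent F b := linearIndependent_of_top_le_span_of_card_eq_finrank htop.ge (by simp)
  refine ⟨Matrix.of fun i j => b j i, ?_, ?_⟩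
  · have h : IsUnit (Matrix.of fun i j => b j i) := Matrix.linearIndependent_cols_iff_isUnit.1 hli
    exact ((Matrix.isUnit_iff_isUnit_det _).1 h).ne_zero
  · ext i j
    rw [Matrix.mul_apply, Matrix.mul_apply, Finset.sum_eq_single (s := (Finset.univ : Finset (Fin n)))
      (f := fun k => (Matrix.of fun i j => b j i) i k * _) (j + 1)]
    · simpa [Matrix.mulVec, dotProduct] using congrFun (hb j) i
    · intro k _ hk; simp [hk]
    · simp

theorem exists_det_commute [NeZero n] (hnF : (n : F) ≠ 0) (s : F) :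
    ∃ C : Mx, C.det = s ∧ C * Matrix.of (fun i j : Fin n => if i = j + 1 then (1 : F) else 0) =
      Matrix.of (fun i j : Fin n => if i = j + 1 then (1 : F) else 0) * C := by
  refine ⟨1 + Matrix.vecMulVec (fun _ => (s - 1) / n) (fun _ => 1), ?_, ?_⟩
  · rw [Matrix.vecMulVec_eq Unit, Matrix.det_one_add_replicateCol_mul_replicateRow]
    simp [dotProduct]
    field_simp
    ring
  · ext i j
    simp only [Matrix.mul_apply, Matrix.add_apply, Matrix.of_apply, Matrix.vecMulVec_apply, mul_one, mul_ite, mul_zero,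
      ite_mul, one_mul, zero_mul, Finset.sum_ite_eq', Finset.mem_univ, if_true]
    rw [Finset.sum_eq_single (i - 1)]
    · simp [Matrix.one_apply, sub_eq_iff_eq_add]
    · intro k _ hk
      rw [if_neg fun e => hk (by rw [e, add_sub_cancel_right])]
    · simp

end Cfsg.Agent.GeomClasses.PrimeSinger
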