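import Cfsg.Agent.GeomClasses.PrimeSinger
import Mathlib.FieldTheory.KummerPolynomial
import Mathlib.LinearAlgebra.Eigenspace.Basic

/-!
Elements of order three of `GL_3` and the normaliser of a cubic field.
-/

set_option autoImplicit false

namespace Cfsg.Agent.GeomClasses.PrimeSingerThree

open Matrix

variable {F : Type*} [Field F] [Fintype F]

local notation "M3" => Matrix (Fin 3) (Fin 3) F

/-- Conjugating into the normaliser by a matrix of determinant one. -/
theorem conj_into {K : Subalgebra F (Matrix (Fin 3) (Fin 3) F)} (x : Matrix.SpecialLinearGroup (Fin 3) F)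
    {g : GL (Fin 3) F} (hg : g ∈ Cfsg.Geo.subalgebraNormalizer K) {P₀ : M3} (hP₀ : P₀.det ≠ 0)
    (hx : (x : M3) * P₀ = P₀ * (g : M3)) (hC : ∀ s : F, s ≠ 0 → ∃ C : M3, C.det = s ∧ C * (g : M3) = (g : M3) * C) :
    ∃ P : Matrix.SpecialLinearGroup (Fin 3) F, P⁻¹ * x * P ∈ (Cfsg.Geo.subalgebraNormalizer K).comap
      (Matrix.SpecialLinearGroup.toGL : Matrix.SpecialLinearGroup (Fin 3) F →* GL (Fin 3) F) := by
  obtain ⟨C, hCd, hCg⟩ := hC _ (inv_ne_zero hP₀)
  obtain ⟨P, hP⟩ : ∃ P : Matrix.SpecialLinearGroup (Fin 3) F, (P : M3) = P₀ * C :=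
    ⟨⟨P₀ * C, by rw [Matrix.det_mul, hCd, mul_inv_cancel₀ hP₀]⟩, rfl⟩
  refine ⟨P, ?_⟩
  have hval : Matrix.SpecialLinearGroup.toGL (P⁻¹ * x * P) = g := by
    rw [mul_assoc]
    apply Units.ext
    show ((P⁻¹ * (x * P) : Matrix.SpecialLinearGroup (Fin 3) F) : M3) = _
    rw [Matrix.SpecialLinearGroup.coe_mul, Matrix.SpecialLinearGroup.coe_mul, hP, ← mul_assoc (x : M3), hx, mul_assoc P₀,
      ← hCg, ← mul_assoc P₀, ← hP, ← mul_assoc, ← Matrix.SpecialLinearGroup.coe_mul, inv_mul_cancel,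
      Matrix.SpecialLinearGroup.coe_one, one_mul]
  show Matrix.SpecialLinearGroup.toGL (P⁻¹ * x * P) ∈ Cfsg.Geo.subalgebraNormalizer K
  rw [hval]
  exact hg

/-- A nonscalar cube root of one with determinant one has three lines as eigenspaces. -/
theorem rank_two_le (h3 : (3 : F) ≠ 0) {y : M3} (hy : y ^ 3 = 1) (hd : y.det = 1) {t : F} (ht : t ^ 3 = 1)
    (hne : y ≠ t • 1) : 2 ≤ (y - t • 1).rank := by
  by_contra hlt
  push_neg at hlt
  set N := y - t • 1 with hN
  have h1 : Module.finrank F (LinearMap.range N.mulVecLin) ≤ 1 := Nat.lt_succ_iff.1 hlt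
  obtain ⟨a, ha⟩ := finrank_le_one_iff.1 h1
  choose c hc using fun j : Fin 3 => ha ⟨N *ᵥ Pi.single j 1, ⟨_, rfl⟩⟩
  have hNe : N = Matrix.vecMulVec (a : Fin 3 → F) c := by
    ext i j
    have := congrFun (congrArg Subtype.val (hc j)) i
    simp at this
    rw [Matrix.vecMulVec_apply, mul_comm]
    exact this.symm
  have ht0 : t ≠ 0 := fun e => by rw [e] at ht; simp at ht
  have hyN : y = t • (1 + t⁻¹ • N) := by rw [smul_add, smul_smul, mul_inv_cancel₀ ht0, one_smul, hN]; abel
  have hdot : c ⬝ᵥ (a : Fin 3 → F) = 0 := by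
    rw [hyN, Matrix.det_smul, Fintype.card_fin, ht, one_mul, hNe, ← Matrix.smul_vecMulVec, Matrix.vecMulVec_eq Unit,
      Matrix.det_one_add_replicateCol_mul_replicateRow, dotProduct_smul, smul_eq_mul] at hd
    exact (mul_eq_zero.1 (show t⁻¹ * (c ⬝ᵥ (a : Fin 3 → F)) = 0 by linear_combination hd)).resolve_left (inv_ne_zero ht0)
  have hNN : N * N = 0 := by
    rw [hNe, Matrix.vecMulVec_mul_vecMulVec, hdot]
    ext i j
    simp [Matrix.vecMulVec_apply]
  rw [hyN, smul_pow, ht, one_smul] at hy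
  have hMM : t⁻¹ • N * (t⁻¹ • N) = 0 := by rw [Matrix.smul_mul, Matrix.mul_smul, hNN, smul_zero, smul_zero]
  have hcube : (1 + t⁻¹ • N) ^ 3 = 1 + (3 : F) • (t⁻¹ • N) := by
    rw [pow_three]
    simp only [mul_add, add_mul, one_mul, mul_one, hMM, mul_zero, add_zero]
    module
  have h4 : (3 : F) • (t⁻¹ • N) = 0 := by
    rw [hcube] at hy
    simpa using hy
  have h5 := (smul_eq_zero.1 ((smul_eq_zero.1 h4).resolve_left h3)).resolve_left (inv_ne_zero ht0)
  exact hne (sub_eq_zero.1 h5)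

/-- Diagonalisation by three given roots of unity. -/
theorem exists_diag {y : M3} (hy : y ^ 3 = 1) {w : F} (hw : w ^ 3 = 1) (hw1 : w ≠ 1)
    (hr : ∀ i : Fin 3, 2 ≤ (y - w ^ (i : ℕ) • 1).rank) :
    ∃ P : M3, P.det ≠ 0 ∧ y * P = P * Matrix.diagonal (fun i : Fin 3 => w ^ (i : ℕ)) := by
  classical
  have hroot : ∀ i : Fin 3, (w ^ (i : ℕ)) ^ 3 = 1 := fun i => by rw [← pow_mul, mul_comm, pow_mul, hw, one_pow]
  have hw2 : w * w + w + 1 = 0 := by
    have : (w - 1) * (w * w + w + 1) = 0 := by linear_combination hw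
    exact (mul_eq_zero.1 this).resolve_left (sub_ne_zero.2 hw1)
  have ho : orderOf w = 3 := orderOf_eq_prime hw hw1
  have hinj : Function.Injective fun i : Fin 3 => w ^ (i : ℕ) := fun i j hij =>
    Fin.ext (pow_injOn_Iio_orderOf (by rw [Set.mem_Iio, ho]; exact i.2) (by rw [Set.mem_Iio, ho]; exact j.2) hij)
  have hex : ∀ i : Fin 3, ∃ v : Fin 3 → F, v ≠ 0 ∧ y *ᵥ v = w ^ (i : ℕ) • v := by
    intro i
    set t := w ^ (i : ℕ) with ht
    by_contra hc
    push_neg at hc
    set A := y - t • 1 with hA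
    have hAu : IsUnit A := by
      rw [Matrix.isUnit_iff_isUnit_det, isUnit_iff_ne_zero]
      intro h0
      obtain ⟨v, hv, hv'⟩ := Matrix.exists_mulVec_eq_zero_iff.2 h0
      refine hc v hv ?_
      rw [hA, Matrix.sub_mulVec, Matrix.smul_mulVec, Matrix.one_mulVec, sub_eq_zero] at hv'
      exact hv'
    have h0 : A * ((y - (t * w) • 1) * (y - (t * (w * w)) • 1)) = 0 := by
      have e : t * t * t = 1 := by rw [← hroot i, ht]; ring
      simp only [hA, sub_mul, mul_sub, Matrix.smul_mul, Matrix.mul_smul, one_mul, mul_one, smul_smul, smul_sub]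
      rw [show y * (y * y) = 1 by rw [← hy]; noncomm_ring]
      match_scalars
      · linear_combination -e * (w * w * w) - hw
      all_goals first | ring1 | linear_combination hw2 * t | linear_combination -hw2 * t | linear_combination hw2 * (t * t * w) | linear_combination -hw2 * (t * t * w) | linear_combination hw2 * (t * t) | linear_combination -hw2 * (t * t)
    obtain ⟨u, hu⟩ := hAu
    have hBC : (y - (t * w) • 1) * (y - (t * (w * w)) • 1) = 0 := by
      have := congrArg (fun m => (↑u⁻¹ : M3) * m) h0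
      simpa [← hu, ← mul_assoc] using this
    have hle : (y - (t * w) • 1).rank + (y - (t * (w * w)) • 1).rank ≤ 3 := by
      simpa using Matrix.rank_add_rank_le_card_of_mul_eq_zero hBC
    have hi : ∀ k : ℕ, ∃ j : Fin 3, w ^ (j : ℕ) = t * w ^ k := fun k => ⟨⟨((i : ℕ) + k) % 3, Nat.mod_lt _ (by norm_num)⟩, by
      rw [ht, ← pow_add, pow_eq_pow_mod ((i : ℕ) + k) hw]⟩
    obtain ⟨j1, hj1⟩ := hi 1
    obtain ⟨j2, hj2⟩ := hi 2
    have h1 := hr j1
    have h2 := hr j2
    rw [hj1, pow_one] at h1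
    rw [hj2, pow_two] at h2
    omega
  choose v hv0 hv using hex
  have hli : LinearIndependent F v := Module.End.eigenvectors_linearIndependent' (Matrix.toLin' y) _ hinj v
    (fun i => ⟨Module.End.mem_eigenspace_iff.2 (by rw [Matrix.toLin'_apply]; exact hv i), hv0 i⟩)
  refine ⟨Matrix.of fun i j => v j i, ?_, ?_⟩
  · have h : IsUnit (Matrix.of fun i j => v j i) := Matrix.linearIndependent_cols_iff_isUnit.1 hli
    exact ((Matrix.isUnit_iff_isUnit_det _).1 h).ne_zero
  · ext i j
    rw [Matrix.mul_diagonal]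
    have := congrFun (hv j) i
    simp only [Matrix.mulVec, dotProduct, Pi.smul_apply, smul_eq_mul] at this
    rw [Matrix.mul_apply, Matrix.of_apply, mul_comm]
    simpa using this

/-- Two cube roots of the same non-cube are conjugate. -/
theorem exists_companion {z : F} (hz : ∀ c : F, c ^ 3 ≠ z) {y : M3} (hy : y ^ 3 = z • 1) :
    ∃ P : M3, P.det ≠ 0 ∧ y * P = P * !![0, 0, z; 1, 0, 0; 0, 1, 0] := by
  classical
  have hirr := X_pow_sub_C_irreducible_of_prime Nat.prime_three hz
  let v : Fin 3 → F := Pi.single 0 1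
  have hv : v ≠ 0 := fun h => one_ne_zero (α := F) (by simpa [v] using congrFun h 0)
  let b : Fin 3 → (Fin 3 → F) := fun j => (y ^ (j : ℕ)) *ᵥ v
  have hli : LinearIndependent F b := by
    rw [Fintype.linearIndependent_iff]
    intro a ha
    by_contra hne
    push_neg at hne
    set g : Polynomial F := ∑ j : Fin 3, Polynomial.C (a j) * Polynomial.X ^ (j : ℕ)
    have hg0 : g ≠ 0 := by
      obtain ⟨j, hj⟩ := hne
      intro h
      have := congrArg (fun p => p.coeff (j : ℕ)) h
      simp [g, Polynomial.finset_sum_coeff, Polynomial.coeff_X_pow, Fin.val_inj] at this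
      exact hj this
    have hgd : g.degree < (Polynomial.X ^ 3 - Polynomial.C z).degree := by
      rw [Polynomial.degree_X_pow_sub_C (by norm_num)]
      refine (Polynomial.degree_sum_le _ _).trans_lt ((Finset.sup_lt_iff (WithBot.bot_lt_coe _)).2 fun j _ => ?_)
      exact (Polynomial.degree_C_mul_X_pow_le _ _).trans_lt (by exact_mod_cast j.2)
    have hcop : IsCoprime (Polynomial.X ^ 3 - Polynomial.C z) g :=
      (hirr.coprime_iff_not_dvd).2 fun h => absurd (Polynomial.degree_le_of_dvd h hg0) (not_le.2 hgd)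
    obtain ⟨u, w, huw⟩ := hcop
    have := congrArg (fun p => (Polynomial.aeval y p) *ᵥ v) huw
    simp only [map_add, map_mul, map_sub, map_pow, Polynomial.aeval_X, Polynomial.aeval_C, map_one, hy,
      Algebra.algebraMap_eq_smul_one, sub_self, mul_zero, zero_add, Matrix.one_mulVec, ← Matrix.mulVec_mulVec] at this
    have hgv : (Polynomial.aeval y g) *ᵥ v = 0 := by
      rw [← ha]
      simp only [g, map_sum, map_mul, map_pow, Polynomial.aeval_X, Polynomial.aeval_C,
        Algebra.algebraMap_eq_smul_one, Matrix.sum_mulVec, Matrix.smul_mul, one_mul, Matrix.smul_mulVec, b]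
    rw [hgv, Matrix.mulVec_zero] at this
    exact hv this.symm
  refine ⟨Matrix.of fun i j => b j i, ?_, ?_⟩
  · have h : IsUnit (Matrix.of fun i j => b j i) := Matrix.linearIndependent_cols_iff_isUnit.1 hli
    exact ((Matrix.isUnit_iff_isUnit_det _).1 h).ne_zero
  · apply Matrix.toLin'.injective
    refine (Pi.basisFun F (Fin 3)).ext fun j => ?_
    have hP : ∀ k, (Matrix.of fun i j => b j i) *ᵥ Pi.single k 1 = b k := fun k => by
      funext i; simp
    rw [Pi.basisFun_apply, Matrix.toLin'_apply, Matrix.toLin'_apply, ← Matrix.mulVec_mulVec, ← Matrix.mulVec_mulVec, hP]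
    fin_cases j
    · rw [show (!![0, 0, z; 1, 0, 0; 0, 1, 0] : M3) *ᵥ Pi.single (⟨0, by norm_num⟩ : Fin 3) 1 = Pi.single 1 1 by
        funext i; fin_cases i <;> simp, hP]
      simp [b]
    · rw [show (!![0, 0, z; 1, 0, 0; 0, 1, 0] : M3) *ᵥ Pi.single (⟨1, by norm_num⟩ : Fin 3) 1 = Pi.single 2 1 by
        funext i; fin_cases i <;> simp, hP]
      simp [b, Matrix.mulVec_mulVec, pow_two]
    · rw [show (!![0, 0, z; 1, 0, 0; 0, 1, 0] : M3) *ᵥ Pi.single (⟨2, by norm_num⟩ : Fin 3) 1 = z • Pi.single 0 1 by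
        funext i; fin_cases i <;> simp, Matrix.mulVec_smul, hP]
      simp [b, Matrix.mulVec_mulVec, ← pow_succ', hy, Matrix.smul_mulVec]

end Cfsg.Agent.GeomClasses.PrimeSingerThree
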