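import Cfsg.Agent.Forms.QuadBasic
import Mathlib.GroupTheory.SpecificGroups.Quaternion
import Mathlib.Tactic.NormNum.Prime

/-!
Elements of prime order of `SL(2)` and the normaliser of a quaternion subgroup of `GL(2)`.
-/

set_option autoImplicit false

namespace Cfsg.Agent.GeomClasses.QuatTwo

open Matrix

variable {F : Type*} [Field F]

theorem scalar_or_commute {Z M N : Matrix (Fin 2) (Fin 2) F} (hM : M * Z = Z * M) (hN : N * Z = Z * N) :
    (∃ c : F, Z = c • 1) ∨ M * N = N * M := by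
  have m00 := congrFun (congrFun hM 0) 0
  have m01 := congrFun (congrFun hM 0) 1
  have m10 := congrFun (congrFun hM 1) 0
  have n00 := congrFun (congrFun hN 0) 0
  have n01 := congrFun (congrFun hN 0) 1
  have n10 := congrFun (congrFun hN 1) 0
  simp only [Matrix.mul_apply, Fin.sum_univ_two] at m00 m01 m10 n00 n01 n10
  by_cases hd : Z 0 1 = 0 ∧ Z 1 0 = 0 ∧ Z 0 0 = Z 1 1
  · refine Or.inl ⟨Z 0 0, ?_⟩
    ext i j
    fin_cases i <;> fin_cases j <;> simp [hd.1, hd.2.1, hd.2.2]
  refine Or.inr ?_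
  have e1 : M 0 1 * N 1 0 - N 0 1 * M 1 0 = 0 := by
    by_cases h1 : Z 0 1 = 0
    · by_cases h2 : Z 1 0 = 0
      · have h3 : Z 0 0 - Z 1 1 ≠ 0 := fun e => hd ⟨h1, h2, sub_eq_zero.1 e⟩
        have a : M 0 1 = 0 := (mul_eq_zero.1 (show (Z 0 0 - Z 1 1) * M 0 1 = 0 by
          linear_combination -m01 + (M 0 0 - M 1 1) * h1)).resolve_left h3
        have b : N 0 1 = 0 := (mul_eq_zero.1 (show (Z 0 0 - Z 1 1) * N 0 1 = 0 by
          linear_combination -n01 + (N 0 0 - N 1 1) * h1)).resolve_left h3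
        rw [a, b]; ring
      · exact (mul_eq_zero.1 (show Z 1 0 * (M 0 1 * N 1 0 - N 0 1 * M 1 0) = 0 by
          linear_combination N 1 0 * m00 - M 1 0 * n00)).resolve_left h2
    · exact (mul_eq_zero.1 (show Z 0 1 * (M 0 1 * N 1 0 - N 0 1 * M 1 0) = 0 by
        linear_combination -N 0 1 * -m00 - M 0 1 * n00)).resolve_left h1
  have e2 : M 0 1 * (N 0 0 - N 1 1) - N 0 1 * (M 0 0 - M 1 1) = 0 := by
    by_cases h1 : Z 0 1 = 0
    · by_cases h3 : Z 0 0 - Z 1 1 = 0
      · have h2 : Z 1 0 ≠ 0 := fun e => hd ⟨h1, e, sub_eq_zero.1 h3⟩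
        have a : M 0 1 = 0 := (mul_eq_zero.1 (show Z 1 0 * M 0 1 = 0 by
          linear_combination m00 + M 1 0 * h1)).resolve_left h2
        have b : N 0 1 = 0 := (mul_eq_zero.1 (show Z 1 0 * N 0 1 = 0 by
          linear_combination n00 + N 1 0 * h1)).resolve_left h2
        rw [a, b]; ring
      · exact (mul_eq_zero.1 (show (Z 0 0 - Z 1 1) * (M 0 1 * (N 0 0 - N 1 1) - N 0 1 * (M 0 0 - M 1 1)) = 0 by
          linear_combination -(N 0 0 - N 1 1) * m01 + (M 0 0 - M 1 1) * n01)).resolve_left h3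
    · exact (mul_eq_zero.1 (show Z 0 1 * (M 0 1 * (N 0 0 - N 1 1) - N 0 1 * (M 0 0 - M 1 1)) = 0 by
        linear_combination M 0 1 * n01 - N 0 1 * m01)).resolve_left h1
  have e3 : M 1 0 * (N 0 0 - N 1 1) - N 1 0 * (M 0 0 - M 1 1) = 0 := by
    by_cases h1 : Z 1 0 = 0
    · by_cases h3 : Z 0 0 - Z 1 1 = 0
      · have h2 : Z 0 1 ≠ 0 := fun e => hd ⟨e, h1, sub_eq_zero.1 h3⟩
        have a : M 1 0 = 0 := (mul_eq_zero.1 (show Z 0 1 * M 1 0 = 0 by
          linear_combination -m00 + M 0 1 * h1)).resolve_left h2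
        have b : N 1 0 = 0 := (mul_eq_zero.1 (show Z 0 1 * N 1 0 = 0 by
          linear_combination -n00 + N 0 1 * h1)).resolve_left h2
        rw [a, b]; ring
      · exact (mul_eq_zero.1 (show (Z 0 0 - Z 1 1) * (M 1 0 * (N 0 0 - N 1 1) - N 1 0 * (M 0 0 - M 1 1)) = 0 by
          linear_combination (N 0 0 - N 1 1) * m10 - (M 0 0 - M 1 1) * n10)).resolve_left h3
    · exact (mul_eq_zero.1 (show Z 1 0 * (M 1 0 * (N 0 0 - N 1 1) - N 1 0 * (M 0 0 - M 1 1)) = 0 by
        linear_combination N 1 0 * m10 - M 1 0 * n10)).resolve_left h1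
  ext i j
  fin_cases i <;> fin_cases j <;> simp [Matrix.mul_apply, Fin.sum_univ_two]
  · linear_combination e1
  · linear_combination -e2
  · linear_combination e3
  · linear_combination -e1

theorem cayley (M : Matrix (Fin 2) (Fin 2) F) :
    M * M = M.trace • M - M.det • (1 : Matrix (Fin 2) (Fin 2) F) := by
  ext i j
  fin_cases i <;> fin_cases j <;> simp [Matrix.mul_apply, Fin.sum_univ_two, trace_fin_two, det_fin_two] <;> ring

theorem eq_zero_of_smul {M : Matrix (Fin 2) (Fin 2) F} (hM : ∀ c : F, M ≠ c • 1) {a b : F}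
    (h : a • M = b • (1 : Matrix (Fin 2) (Fin 2) F)) : a = 0 ∧ b = 0 := by
  have ha : a = 0 := by
    by_contra ha
    refine hM (a⁻¹ * b) ?_
    rw [mul_smul, ← h, smul_smul, inv_mul_cancel₀ ha, one_smul]
  refine ⟨ha, ?_⟩
  subst ha
  simpa using (congrFun (congrFun h 0) 0).symm

/-- Elements of `SL(2)` with the same regular trace are conjugate in `SL(2)`. -/
theorem exists_conj [Fintype F] (h2 : (2 : F) ≠ 0) {X : Matrix (Fin 2) (Fin 2) F} (hX : X.det = 1)
    (ht : X.trace ^ 2 ≠ 4) : ∃ P : Matrix (Fin 2) (Fin 2) F, P.det = 1 ∧ X * P = P * !![0, -1; 1, X.trace] := by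
  rw [det_fin_two] at hX
  rw [trace_fin_two] at ht
  obtain ⟨v0, v1, hv⟩ : ∃ v0 v1 : F, X 1 0 * v0 ^ 2 + (X 1 1 - X 0 0) * v0 * v1 - X 0 1 * v1 ^ 2 = 1 := by
    by_cases hc : X 1 0 = 0
    · have hb : X 1 1 - X 0 0 ≠ 0 := fun e => ht (by linear_combination 4 * hX + (X 1 1 - X 0 0) * e + 4 * X 0 1 * hc)
      exact ⟨(1 + X 0 1) / (X 1 1 - X 0 0), 1, by rw [hc]; field_simp; ring⟩
    · have h4 : (4 : F) ≠ 0 := by rw [show (4 : F) = 2 * 2 by ring]; exact mul_ne_zero h2 h2
      have hd : -((X 1 1 - X 0 0) ^ 2 + 4 * X 0 1 * X 1 0) / (4 * X 1 0) ≠ 0 := by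
        refine div_ne_zero (fun e => ht ?_) (mul_ne_zero h4 hc)
        linear_combination 4 * hX - e
      obtain ⟨u, w, huw⟩ := Forms.exists_sq_add_sq_eq hc hd 1
      refine ⟨u - (X 1 1 - X 0 0) / (2 * X 1 0) * w, w, ?_⟩
      rw [← huw]
      field_simp
      ring
  refine ⟨!![v0, X 0 0 * v0 + X 0 1 * v1; v1, X 1 0 * v0 + X 1 1 * v1], ?_, ?_⟩
  · rw [det_fin_two_of]; linear_combination hv
  · rw [trace_fin_two]
    ext i j
    fin_cases i <;> fin_cases j <;> simp [Matrix.mul_apply, Fin.sum_univ_two]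
    · linear_combination -v0 * hX
    · linear_combination -v1 * hX

/-- The data carried by a quaternion subgroup. -/
theorem quaternion_data [Fintype F] (h2 : (2 : F) ≠ 0) (R : Subgroup (GL (Fin 2) F)) (e : ↥R ≃* QuaternionGroup 2) :
    ∃ A B : GL (Fin 2) F, A ∈ R ∧ B ∈ R ∧
      (∀ S : Subgroup (GL (Fin 2) F), A ∈ S → B ∈ S → R ≤ S) ∧
      (A : Matrix (Fin 2) (Fin 2) F) * A = -1 ∧ (B : Matrix (Fin 2) (Fin 2) F) * B = -1 ∧
      (B : Matrix (Fin 2) (Fin 2) F) * A = -((A : Matrix (Fin 2) (Fin 2) F) * B) ∧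
      (A : Matrix (Fin 2) (Fin 2) F).trace = 0 ∧ (A : Matrix (Fin 2) (Fin 2) F).det = 1 ∧
      (B : Matrix (Fin 2) (Fin 2) F).trace = 0 ∧ (B : Matrix (Fin 2) (Fin 2) F).det = 1 := by
  let a : QuaternionGroup 2 := QuaternionGroup.a 1
  let b : QuaternionGroup 2 := QuaternionGroup.xa 0
  have hz : a * a ≠ 1 ∧ b * b = a * a ∧ b * a = (a * a) * (a * b) ∧ a * b ≠ b * a ∧ (a * a) * (a * a) = 1 ∧
      (a * a) * a = a * (a * a) ∧ (a * a) * b = b * (a * a) := by decide
  obtain ⟨hz1, hz2, hz3, hz4, hz5, hz6, hz7⟩ := hz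
  let φ := e.symm.toMonoidHom
  set A : GL (Fin 2) F := (φ a : GL (Fin 2) F) with hA
  set B : GL (Fin 2) F := (φ b : GL (Fin 2) F) with hB
  have hinj : ∀ x y : QuaternionGroup 2, (φ x : GL (Fin 2) F) = φ y → x = y := fun x y h =>
    e.symm.injective (Subtype.ext h)
  have hm : ∀ x y : QuaternionGroup 2, (φ (x * y) : GL (Fin 2) F) = (φ x : GL (Fin 2) F) * φ y := fun x y => by
    rw [map_mul]; rfl
  set Am := (A : Matrix (Fin 2) (Fin 2) F) with hAm
  set Bm := (B : Matrix (Fin 2) (Fin 2) F) with hBm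
  set Z := Am * Am with hZ
  have cast : ∀ {x y : GL (Fin 2) F}, x = y → (x : Matrix (Fin 2) (Fin 2) F) = y := fun h => congrArg Units.val h
  have k2 : Bm * Bm = Z := by simpa [hm, hZ, hAm, hBm, hA, hB] using cast (congrArg (fun x => (φ x : GL (Fin 2) F)) hz2)
  have k3 : Bm * Am = Z * (Am * Bm) := by
    simpa [hm, hZ, hAm, hBm, hA, hB, mul_assoc] using cast (congrArg (fun x => (φ x : GL (Fin 2) F)) hz3)
  have k5 : Z * Z = 1 := by
    simpa [hm, hZ, hAm, hA, mul_assoc] using cast (congrArg (fun x => (φ x : GL (Fin 2) F)) hz5)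
  have k6 : Am * Z = Z * Am := by rw [hZ, mul_assoc]
  have k7 : Bm * Z = Z * Bm := by
    simpa [hm, hZ, hAm, hBm, hA, hB, mul_assoc] using (cast (congrArg (fun x => (φ x : GL (Fin 2) F)) hz7)).symm
  have k4 : Am * Bm ≠ Bm * Am := fun h => hz4 (hinj _ _ (by rw [hm, hm]; exact Units.ext h))
  have k1 : Z ≠ 1 := fun h => hz1 (hinj _ _ (by rw [hm, map_one]; exact Units.ext h))
  obtain ⟨c, hc⟩ := (scalar_or_commute k6 k7).resolve_right k4
  have hZm : Z = -1 := by
    have hcc : c * c = 1 := by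
      have := congrFun (congrFun k5 0) 0
      rw [hc] at this
      simpa using this
    rcases mul_self_eq_one_iff.1 hcc with rfl | rfl
    · exact absurd (by rw [hc, one_smul]) k1
    · rw [hc, neg_smul, one_smul]
  have htr : ∀ M N : Matrix (Fin 2) (Fin 2) F, M * M = -1 → M * N ≠ N * M → M.trace = 0 ∧ M.det = 1 := by
    intro M N hMM hMN
    have hns : ∀ c : F, M ≠ c • 1 := fun c h => hMN (by simp [h])
    have h := cayley M
    rw [hMM] at h
    have h' : M.trace • M = (M.det - 1) • (1 : Matrix (Fin 2) (Fin 2) F) := by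
      rw [sub_smul, one_smul]
      linear_combination (norm := module) -h
    obtain ⟨h1, h2⟩ := eq_zero_of_smul hns h'
    exact ⟨h1, sub_eq_zero.1 h2⟩
  obtain ⟨hAt, hAd⟩ := htr Am Bm (hZ ▸ hZm) k4
  obtain ⟨hBt, hBd⟩ := htr Bm Am (k2.trans hZm) (Ne.symm k4)
  refine ⟨A, B, (φ a).2, (φ b).2, fun S hAS hBS g hg => ?_, hZ ▸ hZm, k2.trans hZm,
    by rw [k3, hZm, neg_one_mul], hAt, hAd, hBt, hBd⟩
  have hg' : g = (φ (e ⟨g, hg⟩) : GL (Fin 2) F) := by simp [φ]
  have hgen : ∀ x : QuaternionGroup 2, ∃ i : Fin 4, x = a ^ (i : ℕ) ∨ x = b * a ^ (i : ℕ) := by decide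
  rw [hg']
  obtain ⟨i, h | h⟩ := hgen (e ⟨g, hg⟩) <;> rw [h]
  · rw [map_pow]; exact S.pow_mem hAS _
  · rw [map_mul, map_pow]; exact S.mul_mem hBS (S.pow_mem hAS _)

/-- An element of order three normalising the quaternion group. -/
theorem exists_three [Fintype F] (h2 : (2 : F) ≠ 0) {R : Subgroup (GL (Fin 2) F)} {A B : GL (Fin 2) F} (hA : A ∈ R) (hB : B ∈ R)
    (hgen : ∀ S : Subgroup (GL (Fin 2) F), A ∈ S → B ∈ S → R ≤ S)
    (hAA : (A : Matrix (Fin 2) (Fin 2) F) * A = -1) (hBB : (B : Matrix (Fin 2) (Fin 2) F) * B = -1)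
    (hBA : (B : Matrix (Fin 2) (Fin 2) F) * A = -((A : Matrix (Fin 2) (Fin 2) F) * B))
    (hAt : (A : Matrix (Fin 2) (Fin 2) F).trace = 0) (hBt : (B : Matrix (Fin 2) (Fin 2) F).trace = 0) :
    ∃ Y : GL (Fin 2) F, (Y : Matrix (Fin 2) (Fin 2) F).trace = -1 ∧ (Y : Matrix (Fin 2) (Fin 2) F).det = 1 ∧
      Y ∈ Subgroup.normalizer (R : Set (GL (Fin 2) F)) := by
  set a := (A : Matrix (Fin 2) (Fin 2) F)
  set b := (B : Matrix (Fin 2) (Fin 2) F)
  have haba : a * b * a = b := by rw [mul_assoc, hBA, mul_neg, ← mul_assoc, hAA, neg_mul, one_mul, neg_neg]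
  have habb : a * b * b = -a := by rw [mul_assoc, hBB, mul_neg_one]
  have haab : a * (a * b) = -b := by rw [← mul_assoc, hAA, neg_one_mul]
  have hbab : b * (a * b) = a := by rw [← mul_assoc, hBA, neg_mul, habb, neg_neg]
  let W := -1 + a + b + a * b
  have hWA : W * a = (a * b) * W := by
    simp only [W, add_mul, mul_add, neg_mul, mul_neg, one_mul, mul_one, hAA, hBA, haba]
    rw [habb, show a * b * (a * b) = -1 by rw [← mul_assoc, haba, hBB]]
    abel
  have hWB : W * b = a * W := by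
    simp only [W, add_mul, mul_add, neg_mul, mul_neg, one_mul, mul_one, hBB, hAA, habb, haab]
    abel
  have hWW : W * W = (-2 : F) • W - (4 : F) • (1 : Matrix (Fin 2) (Fin 2) F) := by
    simp only [W, add_mul, mul_add, neg_mul, mul_neg, one_mul, mul_one, hAA, hBB, hBA, haba, habb, haab, hbab,
      show a * b * (a * b) = -1 by rw [← mul_assoc, haba, hBB]]
    module
  have hab0 : (a * b).trace = 0 := by
    have h : (b * a).trace = (a * b).trace := Matrix.trace_mul_comm b a
    rw [hBA, Matrix.trace_neg] at h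
    exact (mul_eq_zero.1 (show (2 : F) * (a * b).trace = 0 by linear_combination -h)).resolve_left h2
  let Y := (2 : F)⁻¹ • W
  have hYt : Y.trace = -1 := by
    simp only [Y, W, Matrix.trace_smul, Matrix.trace_add, Matrix.trace_neg, Matrix.trace_one, hAt, hBt, hab0,
      Fintype.card_fin, smul_eq_mul]
    push_cast
    field_simp
    ring
  have hYY : Y * Y + Y + 1 = 0 := by
    simp only [Y, smul_mul_assoc, mul_smul_comm, smul_smul, hWW, smul_sub]
    rw [show (2 : F)⁻¹ * (2⁻¹ * -2) = -2⁻¹ by field_simp, show (2 : F)⁻¹ * (2⁻¹ * 4) = 1 by field_simp; ring]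
    module
  have hYd : Y.det = 1 := by
    have h := cayley Y
    rw [hYt] at h
    have h' : ((1 : F) - Y.det) • (1 : Matrix (Fin 2) (Fin 2) F) = 0 := by
      rw [← hYY, h]; module
    have := congrFun (congrFun h' 0) 0
    simp at this
    linear_combination -this
  let G : GL (Fin 2) F := Matrix.GeneralLinearGroup.mkOfDetNeZero Y (by rw [hYd]; exact one_ne_zero)
  refine ⟨G, hYt, hYd, ?_⟩
  have hG : (G : Matrix (Fin 2) (Fin 2) F) = Y := rfl
  have conj : ∀ x z : GL (Fin 2) F, Y * (x : Matrix (Fin 2) (Fin 2) F) = (z : Matrix (Fin 2) (Fin 2) F) * Y →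
      G * x * G⁻¹ = z := fun x z h => by
    rw [mul_inv_eq_iff_eq_mul]
    exact Units.ext (by rw [Units.val_mul, Units.val_mul, hG]; exact h)
  have hGA : G * A * G⁻¹ ∈ R := by
    rw [conj A (A * B) (by rw [Units.val_mul]; simp only [Y, smul_mul_assoc, mul_smul_comm]; exact congrArg _ hWA)]
    exact R.mul_mem hA hB
  have hGB : G * B * G⁻¹ ∈ R := by
    rw [conj B A (by simp only [Y, smul_mul_assoc, mul_smul_comm]; exact congrArg _ hWB)]
    exact hA
  refine Subgroup.mem_normalizer_fintype fun n hn => ?_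
  exact (hgen (R.comap (MulAut.conj G).toMonoidHom) hGA hGB) hn

/-- Elements of order at least five centralise the quaternion group. -/
theorem centralises {R : Subgroup (GL (Fin 2) F)} (e : ↥R ≃* QuaternionGroup 2) {r : ℕ} [Fact r.Prime]
    (hr : 5 ≤ r) {y : GL (Fin 2) F} (hy : y ∈ Subgroup.normalizer (R : Set (GL (Fin 2) F)))
    (hyr : ∀ g ∈ R, y ^ r * g = g * y ^ r) : ∀ g ∈ R, y * g = g * y := by
  classical
  have hmem : ∀ g, g ∈ R ↔ y * g * y⁻¹ ∈ R := fun g => by
    simpa using Subgroup.mem_normalizer_iff.1 hy g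
  let σ : Equiv.Perm (QuaternionGroup 2) :=
    e.symm.toEquiv.trans (({ toFun := fun g => ⟨y * g * y⁻¹, (hmem g).1 g.2⟩
                             invFun := fun g => ⟨y⁻¹ * g * y, (hmem _).2 (by simpa [mul_assoc] using g.2)⟩
                             left_inv := fun g => Subtype.ext (by simp [mul_assoc])
                             right_inv := fun g => Subtype.ext (by simp [mul_assoc]) } : ↥R ≃ ↥R).trans e.toEquiv)
  have hσ : ∀ x, σ x = e ⟨y * (e.symm x : GL (Fin 2) F) * y⁻¹, (hmem _).1 (e.symm x).2⟩ := fun x => rfl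
  have hσk : ∀ (k : ℕ) x, ((e.symm ((σ ^ k) x) : ↥R) : GL (Fin 2) F) = y ^ k * (e.symm x : GL (Fin 2) F) * (y ^ k)⁻¹ := by
    intro k
    induction k with
    | zero => intro x; simp
    | succ k ih =>
      intro x
      rw [pow_succ', Equiv.Perm.mul_apply, hσ, e.symm_apply_apply, pow_succ']
      simp only [ih, _root_.mul_inv_rev, mul_assoc]
  have hσr : σ ^ r ^ 1 = 1 := by
    refine Equiv.ext fun x => e.symm.injective (Subtype.ext ?_)
    rw [pow_one, hσk, hyr _ (e.symm x).2, mul_inv_cancel_right]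
    rfl
  have hmul : ∀ x z, σ (x * z) = σ x * σ z := fun x z => by
    rw [hσ, hσ, hσ, ← map_mul e]
    congr 1
    refine Subtype.ext ?_
    show _ = (y * _ * y⁻¹) * (y * _ * y⁻¹)
    rw [map_mul]
    simp [mul_assoc]
  let K : Subgroup (QuaternionGroup 2) :=
    { carrier := {x | σ x = x}
      one_mem' := by
        have := hmul 1 1; rw [one_mul] at this
        exact mul_left_cancel (this.symm.trans (mul_one _).symm)
      mul_mem' := fun {x z} (hx : σ x = x) (hz : σ z = z) => show σ (x * z) = x * z by rw [hmul, hx, hz]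
      inv_mem' := fun {x} (hx : σ x = x) => show σ x⁻¹ = x⁻¹ by
        have h1 : σ 1 = 1 := by
          have := hmul 1 1; rw [one_mul] at this
          exact mul_left_cancel (this.symm.trans (mul_one _).symm)
        have := hmul x⁻¹ x
        rw [inv_mul_cancel, h1, hx] at this
        exact eq_inv_of_mul_eq_one_left this.symm }
  have hmod := Equiv.Perm.card_compl_support_modEq hσr
  have hcard : σ.supportᶜ.card = Nat.card K := by
    rw [Nat.card_eq_fintype_card, ← Fintype.card_coe]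
    exact Fintype.card_congr (Equiv.subtypeEquivRight fun x => by simp [K])
  have hz : QuaternionGroup.a (2 : ZMod (2 * 2)) ∈ K := by
    show σ _ = _
    have h1 : σ 1 = 1 := by
      have := hmul 1 1; rw [one_mul] at this
      exact mul_left_cancel (this.symm.trans (mul_one _).symm)
    have huniq : ∀ x : QuaternionGroup 2, x * x = 1 → x = 1 ∨ x = QuaternionGroup.a 2 := by decide
    rcases huniq (σ (QuaternionGroup.a 2)) (by rw [← hmul, show (QuaternionGroup.a 2 * QuaternionGroup.a 2 : QuaternionGroup 2) = 1 by decide, h1]) with h | h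
    · exact absurd (σ.injective (h.trans h1.symm)) (by decide)
    · exact h
  have h2 : 2 ≤ Nat.card K := by
    refine Finite.one_lt_card_iff_nontrivial.2 ⟨⟨⟨_, hz⟩, 1, fun h => ?_⟩⟩
    exact absurd (congrArg Subtype.val h) (by simp; decide)
  have hdvd : Nat.card K ∣ 8 := by
    have := Subgroup.card_subgroup_dvd_card K
    rwa [Nat.card_eq_fintype_card (α := QuaternionGroup 2), QuaternionGroup.card] at this
  rw [hcard, QuaternionGroup.card] at hmod
  have h8 : Nat.card K = 8 := by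
    have hle := Nat.le_of_dvd (by norm_num) hdvd
    have hd : r ∣ 8 - Nat.card K := (Nat.modEq_iff_dvd' hle).1 hmod
    by_contra hne
    have hle6 : r ≤ 8 - Nat.card K := Nat.le_of_dvd (by omega) hd
    have hprime := (Fact.out : r.Prime)
    generalize Nat.card K = k at *
    interval_cases k <;> norm_num at hdvd <;> interval_cases r <;> first | omega | exact absurd hprime (by norm_num)
  have htop : K = ⊤ := Subgroup.eq_top_of_card_eq K (by rw [h8, Nat.card_eq_fintype_card, QuaternionGroup.card])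
  intro g hg
  have h : σ (e ⟨g, hg⟩) = e ⟨g, hg⟩ := (htop ▸ Subgroup.mem_top _ : e ⟨g, hg⟩ ∈ K)
  rw [hσ] at h
  have h' := congrArg Subtype.val (e.injective h)
  simp only [e.symm_apply_apply] at h'
  exact mul_inv_eq_iff_eq_mul.1 h'

end Cfsg.Agent.GeomClasses.QuatTwo
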