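import Cfsg.Agent.GeomClasses.SUStructure
import Cfsg.Agent.GeomClasses.SubspaceDerange

/-!
# Arithmetic of scalars and orders for unitary derangements
-/

set_option autoImplicit false
set_option linter.unusedSectionVars false

namespace Cfsg.Agent.GeomClasses.SUDerangeTools

open Module Cfsg.Agent.Forms Cfsg.Agent.GeomClasses.Unitary

theorem order_facts {q r : ℕ} [Fact r.Prime] (hr2 : 2 < r) (hrq : ¬ r ∣ q) {i b c : ℕ} (hi : i = orderOf (q : ZMod r))
    (hb : b = if Even i then i / 2 else i) (hc : c = if i % 4 = 0 then i else if i % 4 = 2 then i / 2 else 2 * i) :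
    0 < i ∧ b = orderOf ((q ^ 2 : ℕ) : ZMod r) ∧ c = (if (-(q : ZMod r)) ^ b = 1 then b else 2 * b) ∧
      (i = 2 ↔ r ∣ q + 1) ∧ (i = 2 → c = 1) := by
  obtain ⟨hi0, -⟩ := SubspaceDerange.dvd_pow_sub_one hrq hi
  haveI : Fact (2 < r) := ⟨hr2⟩
  have hne : (-1 : ZMod r) ≠ 1 := ZMod.neg_one_ne_one
  have hb' : b = orderOf ((q ^ 2 : ℕ) : ZMod r) := by
    rw [Nat.cast_pow, orderOf_pow' _ two_ne_zero, ← hi, hb]
    split_ifs with he
    · rw [Nat.gcd_eq_right (even_iff_two_dvd.1 he)]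
    · rw [Nat.Coprime.gcd_eq_one, Nat.div_one]
      exact (Nat.prime_two.coprime_iff_not_dvd.2 fun h => he (even_iff_two_dvd.2 h)).symm
  have hqi : (q : ZMod r) ^ i = 1 := by rw [hi, pow_orderOf_eq_one]
  have hii : i = 2 ↔ r ∣ q + 1 := by
    rw [← ZMod.natCast_eq_zero_iff, Nat.cast_add, Nat.cast_one]
    constructor
    · intro h
      rcases mul_self_eq_one_iff.1 (show (q : ZMod r) * (q : ZMod r) = 1 by rw [← pow_two, ← h, hqi]) with e | e
      · rw [hi, e, orderOf_one] at h; omega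
      · rw [e, neg_add_cancel]
    · intro h
      rw [hi, show (q : ZMod r) = -1 by linear_combination h]
      exact orderOf_eq_prime (by ring) hne
  refine ⟨hi0, hb', ?_, hii, fun h2 => by rw [hc, h2]; rfl⟩
  rcases Nat.even_or_odd i with ⟨h, hh⟩ | ho
  · have hbh : b = h := by rw [hb, if_pos ⟨h, hh⟩]; omega
    have hqh : (q : ZMod r) ^ h = -1 := by
      rcases mul_self_eq_one_iff.1 (show (q : ZMod r) ^ h * (q : ZMod r) ^ h = 1 by rw [← pow_add, ← hh, hqi]) with e | e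
      · have := Nat.le_of_dvd (by omega) (hi ▸ orderOf_dvd_of_pow_eq_one e)
        omega
      · exact e
    rw [hbh, neg_pow, hqh]
    rcases Nat.even_or_odd h with he | he
    · rw [he.neg_one_pow, one_mul, if_neg hne, hc, if_pos (by obtain ⟨t, rfl⟩ := he; omega)]
      omega
    · rw [he.neg_one_pow, neg_one_mul, neg_neg, if_pos rfl, hc,
        if_neg (by obtain ⟨t, rfl⟩ := he; omega), if_pos (by obtain ⟨t, rfl⟩ := he; omega)]
      omega
  · have hbi : b = i := by rw [hb, if_neg (Nat.not_even_iff_odd.2 ho)]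
    rw [hbi, neg_pow, ho.neg_one_pow, hqi, mul_one, if_neg hne, hc]
    obtain ⟨t, rfl⟩ := ho
    rw [if_neg (by omega), if_neg (by omega)]

theorem c_dvd {q r : ℕ} [Fact r.Prime] {b c l : ℕ} (hb : b = orderOf ((q ^ 2 : ℕ) : ZMod r))
    (hc : c = if (-(q : ZMod r)) ^ b = 1 then b else 2 * b) (hl : (-(q : ZMod r)) ^ l = 1) : c ∣ l := by
  have h2 : (-(q : ZMod r)) ^ (b * 2) = 1 := by
    rw [mul_comm, pow_mul, neg_sq, ← Nat.cast_pow, hb, pow_orderOf_eq_one]
  obtain ⟨t, rfl⟩ : b ∣ l := by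
    rw [hb]
    refine orderOf_dvd_of_pow_eq_one ?_
    rw [Nat.cast_pow, ← neg_sq, ← pow_mul, mul_comm, pow_mul, hl, one_pow]
  rw [hc]
  split_ifs with he
  · exact dvd_mul_right b t
  · rcases Nat.even_or_odd t with ⟨s, rfl⟩ | ⟨s, rfl⟩
    · exact ⟨s, by ring⟩
    · refine absurd ?_ he
      rwa [mul_add, ← mul_assoc, mul_one, pow_add, pow_mul, h2, one_pow, one_mul] at hl

variable {F : Type*} [Field F] [Fintype F] {q n : ℕ}

local notation "Vn" => (Fin n → F)
local notation "hh" => Cfsg.hermForm n F q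

theorem scalar_norm (hF : Fintype.card F = q ^ 2) (hn : 0 < n) {r : ℕ} {T : Module.End F Vn} {z : F}
    (hTB : ∀ u v, hh (T u) (T v) = hh u v) (hT : T ^ r = z • 1) : z ^ (q + 1) = 1 := by
  classical
  have key : ∀ (l : ℕ) u v, hh ((T ^ l) u) ((T ^ l) v) = hh u v := by
    intro l
    induction l with
    | zero => intro u v; rfl
    | succ l ih => intro u v; rw [pow_succ', Module.End.mul_apply, Module.End.mul_apply, hTB, ih]
  have h := key r (Pi.single ⟨0, hn⟩ 1) (Pi.single ⟨0, hn⟩ 1)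
  rw [hT] at h
  simp only [LinearMap.smul_apply, Module.End.one_apply, hh_smul_left hF, hh_smul_right hF] at h
  have h1 : hh (Pi.single ⟨0, hn⟩ 1) (Pi.single ⟨0, hn⟩ 1) = (1 : F) := by
    rw [Cfsg.hermForm, Finset.sum_eq_single ⟨0, hn⟩ (fun k _ hk => by simp [hk]) (by simp)]
    simp
  rw [h1, mul_one] at h
  rw [pow_succ']
  exact h

/-- A scaled isometry of order `r` has subspaces of every admissible dimension. -/
theorem power_case (hF : Fintype.card F = q ^ 2) {r b c m : ℕ} [Fact r.Prime] (hrF : (r : F) ≠ 0) (hrq : ¬ r ∣ q)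
    (hb : b = orderOf ((q ^ 2 : ℕ) : ZMod r)) (hc : c = if (-(q : ZMod r)) ^ b = 1 then b else 2 * b)
    {T : Module.End F Vn} {z w : F} (hTB : ∀ u v, hh (T u) (T v) = hh u v) (hT : T ^ r = z • 1) (hw : w ^ r = z)
    (hww : w * w ^ q = 1) (hm : m ≤ n) (hmc : m % c ≤ n % c) :
    ∃ W : Submodule F Vn, NonDeg q W ∧ finrank F W = m ∧ ∀ v ∈ W, T v ∈ W := by
  have hr : r.Prime := Fact.out
  have hw0 : w ≠ 0 := fun h => by rw [h, zero_mul] at hww; exact zero_ne_one hww
  have hz : z ≠ 0 := hw ▸ pow_ne_zero r hw0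
  obtain ⟨hS, hback⟩ := SubspaceDerange.scaled hw hz hT
  have hSB : ∀ u v, hh ((w⁻¹ • T) u) ((w⁻¹ • T) v) = hh u v := fun u v => by
    rw [LinearMap.smul_apply, LinearMap.smul_apply, hh_smul_left hF, hh_smul_right hF, hTB, ← mul_assoc, inv_pow,
      ← mul_inv, hww, inv_one, one_mul]
  have hmod := SUStructure.dim_mod hF hSB hS hrF hrq hb hc (W := ⊤) (fun _ _ => trivial) (SUStructure.nonDeg_top hF)
  rw [top_inf_eq, finrank_top, Module.finrank_fin_fun, Nat.ModEq] at hmod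
  set f := finrank F (LinearMap.ker (w⁻¹ • T - 1)) with hf
  have hfn : f ≤ n := (Submodule.finrank_le _).trans_eq (Module.finrank_fin_fun F)
  have hc0 : 0 < c := by
    have := (SubspaceDerange.dvd_pow_sub_one (fun h => hrq (hr.dvd_of_dvd_pow h)) hb).1
    rw [hc]; split_ifs <;> omega
  have hd : (n - f) / c * c = n - f := Nat.div_mul_cancel ((Nat.modEq_iff_dvd' hfn).1 hmod.symm)
  have hn := Nat.mod_le f c
  have hm' := Nat.div_add_mod' m c
  obtain ⟨j, e, hj, he, hje⟩ : ∃ j e, j * c ≤ n - f ∧ e ≤ f ∧ j * c + e = m := by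
    by_cases hle : m / c ≤ (n - f) / c
    · exact ⟨m / c, m % c, hd ▸ Nat.mul_le_mul_right c hle, by omega, hm'⟩
    · have h1 := Nat.mul_le_mul_right c (not_le.1 hle).le
      exact ⟨(n - f) / c, m - (n - f), hd.le, by omega, by omega⟩
  obtain ⟨U, -, hUi, hUn, hUd⟩ := SUStructure.exists_sub hF hSB hS hrF hrq hb hc (W := ⊤) (fun _ _ => trivial)
    (SUStructure.nonDeg_top hF) (j := j) (e := e)
    (by rw [top_inf_eq, finrank_top, Module.finrank_fin_fun, ← hf]; omega) (by rw [top_inf_eq, ← hf]; exact he)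
  exact ⟨U, hUn, hUd.trans hje, hback U hUi⟩

/-- An element of exact order `r ^ a` in the multiplicative group. -/
theorem exists_order (hF : Fintype.card F = q ^ 2) {r a : ℕ} (hr : r.Prime) (ha : 1 ≤ a) (hdvd : r ^ a ∣ q + 1) :
    ∃ z : F, z ^ (q + 1) = 1 ∧ z ^ r ^ a = 1 ∧ z ^ r ^ (a - 1) ≠ 1 := by
  classical
  have hq2 := two_le_q hF
  obtain ⟨g, hg⟩ := IsCyclic.exists_ofOrder_eq_natCard (α := Fˣ)
  rw [Nat.card_eq_fintype_card, Fintype.card_units, hF] at hg
  have hD : r ^ a ∣ q ^ 2 - 1 := by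
    refine hdvd.trans ⟨q - 1, ?_⟩
    rw [← Nat.sq_sub_sq, one_pow]
  obtain ⟨t, ht⟩ := hD
  have ht0 : 0 < t := by
    rcases Nat.eq_zero_or_pos t with rfl | h
    · have : 1 < q ^ 2 := Nat.one_lt_pow (by norm_num) (by omega)
      omega
    · exact h
  have h1 : (g : F) ^ (r ^ a * t) = 1 := by
    rw [← ht, ← hg, ← Units.val_pow_eq_pow_val, pow_orderOf_eq_one, Units.val_one]
  refine ⟨(g : F) ^ t, ?_, ?_, fun h => ?_⟩
  · obtain ⟨s, hs⟩ := hdvd
    rw [hs, ← pow_mul, show t * (r ^ a * s) = r ^ a * t * s by ring, pow_mul, h1, one_pow]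
  · rw [← pow_mul, mul_comm, h1]
  · rw [← pow_mul] at h
    have h2 := Nat.le_of_dvd (Nat.mul_pos ht0 (pow_pos hr.pos _))
      (orderOf_dvd_of_pow_eq_one (show g ^ (t * r ^ (a - 1)) = 1 from Units.ext (by simpa using h)))
    rw [hg, ht, mul_comm t, show r ^ a = r ^ (a - 1) * r by rw [← pow_succ, Nat.sub_add_cancel ha]] at h2
    have := pow_pos hr.pos (a - 1)
    have h3 := Nat.mul_pos this ht0
    have h4 := Nat.mul_le_mul_left (r ^ (a - 1) * t) hr.two_le
    nlinarith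

end Cfsg.Agent.GeomClasses.SUDerangeTools
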