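import Cfsg.Agent.GeomClasses.SUStructure
import Cfsg.Agent.Forms.SympSemisimple
import Cfsg.Agent.Forms.IsotropicStab
import Mathlib.RingTheory.Polynomial.Cyclotomic.Roots

/-!
# Totally isotropic invariant subspaces of unitary isometries
-/

set_option autoImplicit false
set_option linter.unusedSectionVars false

namespace Cfsg.Agent.GeomClasses.SUIsotropic

open Module Polynomial Cfsg.Agent.Forms Cfsg.Agent.GeomClasses.Unitary

variable {F : Type*} [Field F] [Fintype F] {q n : ℕ}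

local notation "Vn" => (Fin n → F)
local notation "hh" => Cfsg.hermForm n F q

variable (q) in
/-- `W` is totally isotropic. -/
def TI (W : Submodule F (Fin n → F)) : Prop := ∀ u ∈ W, ∀ v ∈ W, Cfsg.hermForm n F q u v = 0

theorem ti_bot (hF : Fintype.card F = q ^ 2) : TI q (⊥ : Submodule F Vn) := fun u hu v _ => by
  rw [Submodule.mem_bot] at hu; rw [hu, hh_zero_left hF]

theorem ti_sup (hF : Fintype.card F = q ^ 2) {U U' : Submodule F Vn} (hU : TI q U) (hU' : TI q U')
    (h : ∀ u ∈ U, ∀ v ∈ U', hh u v = 0) : TI q (U ⊔ U') := by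
  intro u hu v hv
  obtain ⟨a, ha, b, hb, rfl⟩ := Submodule.mem_sup.1 hu
  obtain ⟨a', ha', b', hb', rfl⟩ := Submodule.mem_sup.1 hv
  simp only [hh_add_left hF, hh_add_right hF, hU a ha a' ha', hU' b hb b' hb', h a ha b' hb',
    hh_comm_zero hF (h a' ha' b hb), add_zero]

/-- A totally isotropic subspace has at most half the dimension. -/
theorem ti_le (hF : Fintype.card F = q ^ 2) {X K : Submodule F Vn} (hK : NonDeg q K) (hXK : X ≤ K) (hX : TI q X) :
    2 * finrank F X ≤ finrank F K := by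
  have h := (finrank_inf_perp hF hK hXK).1
  have := Submodule.finrank_mono (show X ≤ K ⊓ perp (hermB n hF) X from
    fun x hx => ⟨hXK hx, (mem_perp_iff hF).2 fun y hy => hX x hx y hy⟩)
  omega

/-- Totally isotropic subspaces up to half the dimension. -/
theorem exists_ti_half (hF : Fintype.card F = q ^ 2) : ∀ (e : ℕ) {Z : Submodule F Vn}, NonDeg q Z →
    2 * e ≤ finrank F Z → ∃ E ≤ Z, TI q E ∧ finrank F E = e := by
  intro e
  induction e with
  | zero => exact fun _ _ => ⟨⊥, bot_le, ti_bot hF, finrank_bot F Vn⟩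
  | succ e ih =>
    intro Z hZ he
    obtain ⟨x, hx, y, hy, hxx, hyy, hyx, hxy⟩ := exists_isotropic_pair hF hZ (by omega)
    set P := Submodule.span F ({x, y} : Set Vn)
    have hPZ : P ≤ Z := Submodule.span_le.2 (Set.insert_subset hx (Set.singleton_subset_iff.2 hy))
    have hPn : NonDeg q P := fun v hv h => by
      obtain ⟨a, b, rfl⟩ := Submodule.mem_span_pair.1 hv
      have h1 := h x (Submodule.subset_span (Set.mem_insert x _))
      have h2 := h y (Submodule.subset_span (Set.mem_insert_of_mem _ rfl))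
      simp only [hh_add_left hF, hh_smul_left hF, hxx, hyy, hxy, hyx, mul_zero, mul_one, zero_add, add_zero] at h1 h2
      simp [h1, h2]
    have hPd : finrank F P ≤ 2 := by
      classical
      have h := finrank_span_finset_le_card (R := F) ({x, y} : Finset Vn)
      rw [Set.finrank] at h
      exact (le_of_eq (by rw [show ((({x, y} : Finset Vn)) : Set Vn) = {x, y} by ext; simp])).trans (h.trans Finset.card_le_two)
    obtain ⟨hYn, hYd, -⟩ := SUStructure.nd_split hF hPn hZ hPZ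
    obtain ⟨E, hEY, hEt, hEd⟩ := ih hYn (by omega)
    have hx0 : x ≠ 0 := fun h => by rw [h, hh_zero_left hF] at hxy; exact zero_ne_one hxy
    have hxt : TI q (Submodule.span F {x}) := fun u hu v hv => by
      obtain ⟨a, rfl⟩ := Submodule.mem_span_singleton.1 hu
      obtain ⟨b, rfl⟩ := Submodule.mem_span_singleton.1 hv
      simp [hh_smul_left hF, hh_smul_right hF, hxx]
    have hxP : Submodule.span F {x} ≤ P := Submodule.span_mono (by simp)
    refine ⟨Submodule.span F {x} ⊔ E, sup_le (hxP.trans hPZ) (hEY.trans inf_le_left),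
      ti_sup hF hxt hEt (fun u hu v hv => hh_comm_zero hF ((mem_perp_iff hF).1 (hEY hv).2 u (hxP hu))), ?_⟩
    rw [SubspaceDerange.finrank_sup_of_disjoint (le_bot_iff.1 ((inf_le_inf hxP (hEY.trans inf_le_right)).trans
      (isCompl_perp' hF hPn).inf_eq_bot.le)), finrank_span_singleton hx0, hEd, add_comm]

/-- The adjoint of a polynomial in an isometry as a power. -/
theorem adjoint_pow (hF : Fintype.card F = q ^ 2) {T : Module.End F Vn} (hTB : ∀ u v, hh (T u) (T v) = hh u v)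
    {s b : ℕ} (hs : b = 2 * s + 1) (hTS : T * T ^ q ^ b = 1) (A : F[X]) (u w : Vn) :
    hh (aeval T A u) w = hh u ((aeval T A ^ q ^ b) w) := by
  rw [SUStructure.adjoint hF hTB hTS A u w]
  have hfrob : ∀ (j : ℕ) (Q : F[X]), aeval T Q ^ (q ^ 2) ^ j = aeval (T ^ (q ^ 2) ^ j) Q := by
    intro j
    induction j with
    | zero => intro Q; simp
    | succ j ih =>
      intro Q
      rw [pow_succ' (q ^ 2) j, pow_mul (aeval T Q), mul_comm (q ^ 2), pow_mul T, ← expand_aeval, ← ih]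
      congr 1
      rw [← map_pow, ← hF, FiniteField.expand_card]
  rw [show aeval (T ^ q ^ b) (A.map (frobQ hF)) = aeval T A ^ q ^ b by
    rw [show q ^ b = q * (q ^ 2) ^ s by rw [← pow_mul, ← pow_succ', hs], pow_mul (aeval T A), ← map_pow (aeval T),
      hfrob, SUStructure.pow_q hF, Polynomial.aeval_comp, map_pow, aeval_X, ← pow_mul, mul_comm q, pow_mul T]]

/-- Two orthogonal irreducible pieces of the same kind contain an isotropic invariant subspace. -/
theorem exists_pair (hF : Fintype.card F = q ^ 2) {T : Module.End F Vn} (hTB : ∀ u v, hh (T u) (T v) = hh u v)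
    {s b : ℕ} (hs : b = 2 * s + 1) (hTS : T * T ^ q ^ b = 1) {P : F[X]} (hPm : P.Monic) (hPi : Irreducible P)
    (hPd : P.natDegree = b) {U U' : Submodule F Vn} (hUi : ∀ u ∈ U, T u ∈ U) (hUn : NonDeg q U)
    (hUd : finrank F U = b) (hUk : ∀ u ∈ U, aeval T P u = 0) (hU'i : ∀ u ∈ U', T u ∈ U') (hU'n : NonDeg q U')
    (hU'd : finrank F U' = b) (hU'k : ∀ u ∈ U', aeval T P u = 0) (horth : U' ≤ perp (hermB n hF) U) :
    ∃ X ≤ U ⊔ U', (∀ x ∈ X, T x ∈ X) ∧ TI q X ∧ finrank F X = b := by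
  classical
  haveI := Fact.mk hPi
  haveI : Module.Finite F (AdjoinRoot P) := (AdjoinRoot.powerBasis hPi.ne_zero).finite
  haveI : Finite (AdjoinRoot P) := Module.finite_of_finite F
  have hLd : finrank F (AdjoinRoot P) = b := by
    rw [(AdjoinRoot.powerBasis hPi.ne_zero).finrank, AdjoinRoot.powerBasis_dim, hPd]
  obtain ⟨p, k, hp, hcp, hqk⟩ := exists_q_eq_pow hF
  haveI : Fact p.Prime := ⟨hp⟩
  haveI : CharP (AdjoinRoot P) p := charP_of_injective_algebraMap (algebraMap F (AdjoinRoot P)).injective p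
  -- the involution
  let σ : AdjoinRoot P →+* AdjoinRoot P := iterateFrobenius (AdjoinRoot P) p (k * b)
  have hσ : ∀ x, σ x = x ^ q ^ b := fun x => by rw [hqk, ← pow_mul]; exact iterateFrobenius_def p (k * b) x
  have hσσ : ∀ x, σ (σ x) = x := fun x => by
    letI : Fintype (AdjoinRoot P) := Fintype.ofFinite _
    rw [hσ, hσ, ← pow_mul, ← pow_add, ← two_mul, pow_mul]
    rw [show (q ^ 2) ^ b = Fintype.card (AdjoinRoot P) by rw [Module.card_eq_pow_finrank (K := F), hLd, hF]]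
    exact FiniteField.pow_card x
  have hσm : ∃ x, σ x ≠ x := by
    obtain ⟨t, ht⟩ := exists_not_fixed hF
    refine ⟨algebraMap F _ t, fun h => ht ((algebraMap F (AdjoinRoot P)).injective ?_)⟩
    rw [hσ, ← map_pow] at h
    rw [← h]
    congr 1
    have hq' : ∀ j, t ^ (q ^ 2) ^ j = t := fun j => by
      induction j with
      | zero => simp
      | succ j ih => rw [pow_succ, pow_mul, ih, ← hF, FiniteField.pow_card]
    rw [show q ^ b = (q ^ 2) ^ s * q by rw [← pow_mul, ← pow_succ, hs], pow_mul, hq']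
  have mk : ∀ {U : Submodule F Vn}, (∀ u ∈ U, T u ∈ U) → NonDeg q U → finrank F U = b →
      (∀ u ∈ U, aeval T P u = 0) → ∃ φ : AdjoinRoot P →ₗ[F] Vn, Function.Injective φ ∧ LinearMap.range φ = U ∧
        (∀ Q x, φ (AdjoinRoot.mk P Q * x) = aeval T Q (φ x)) ∧
        (∀ y z, hh (φ y) (φ z) = hh (φ (y * σ z)) (φ 1)) ∧ (∀ y, hh (φ (σ y)) (φ 1) = (hh (φ y) (φ 1)) ^ q) ∧
        ∃ y, hh (φ y) (φ 1) ≠ 0 := by
    intro U hUi hUn hUd hUk
    have hU0 : U ≠ ⊥ := fun e => by rw [e, finrank_bot] at hUd; omega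
    obtain ⟨v, hv, hv0⟩ := (Submodule.ne_bot_iff U).1 hU0
    obtain ⟨φ, hφi, hφ1, hφ⟩ := Forms.exists_cyclic T hPi hPm hv0 (hUk v hv)
    have hA : ∀ A, φ (AdjoinRoot.mk P A) = aeval T A v := fun A => by rw [← mul_one (AdjoinRoot.mk P A), hφ, hφ1]
    have hrange : LinearMap.range φ = U := by
      refine Submodule.eq_of_le_of_finrank_eq ?_ (by rw [LinearMap.finrank_range_of_inj hφi, hLd, hUd])
      rintro _ ⟨x, rfl⟩
      obtain ⟨A, rfl⟩ := AdjoinRoot.mk_surjective x
      rw [hA]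
      exact SubspaceDerange.aeval_mem hUi A hv
    have k1 : ∀ y z, hh (φ y) (φ z) = hh (φ (y * σ z)) (φ 1) := by
      intro y z
      obtain ⟨A, rfl⟩ := AdjoinRoot.mk_surjective z
      rw [hA, hφ1, ← hh_conj hF (aeval T A v), adjoint_pow hF hTB hs hTS A v (φ y), hh_conj hF,
        ← map_pow, ← hφ, map_pow, hσ, mul_comm]
    refine ⟨φ, hφi, hrange, hφ, k1, fun y => ?_, ?_⟩
    · rw [hh_conj hF, k1 1 y, one_mul]
    · by_contra h
      push_neg at h
      refine hv0 (hUn v hv fun x hx => ?_)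
      rw [← hrange] at hx
      obtain ⟨z, rfl⟩ := hx
      rw [← hφ1, k1 1 z]
      exact h _
  obtain ⟨φ, hφi, hφU, hφ, k1, k2, y₀, hy₀⟩ := mk hUi hUn hUd hUk
  obtain ⟨φ', hφ'i, hφ'U, hφ', k1', k2', y₁, hy₁⟩ := mk hU'i hU'n hU'd hU'k
  let ψ : AdjoinRoot P →ₗ[F] F := (hermB n hF (φ 1)).comp φ
  let ψ' : AdjoinRoot P →ₗ[F] F := (hermB n hF (φ' 1)).comp φ'
  have eψ : ∀ y, ψ y = hh (φ y) (φ 1) := fun y => rfl
  have eψ' : ∀ y, ψ' y = hh (φ' y) (φ' 1) := fun y => rfl
  have hψ0 : ψ ≠ 0 := fun e => hy₀ (by rw [← eψ, e]; rfl)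
  have hψ'0 : ψ' ≠ 0 := fun e => hy₁ (by rw [← eψ', e]; rfl)
  obtain ⟨μ, hμ⟩ := Forms.exists_scale ψ' hψ'0 (-ψ)
  have hinjψ : ∀ a a' : AdjoinRoot P, (∀ y, ψ' (a * y) = ψ' (a' * y)) → a = a' := by
    intro a a' h
    by_contra hne
    refine hψ'0 (LinearMap.ext fun y => ?_)
    have h' := h ((a - a')⁻¹ * y)
    rw [← sub_eq_zero, ← map_sub, ← sub_mul, mul_inv_cancel_left₀ (sub_ne_zero.2 hne)] at h'
    simpa using h'
  have hμσ : σ μ = μ := hinjψ _ _ fun y => by
    have e2 : ψ' (σ μ * y) = (ψ' (μ * σ y)) ^ q := by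
      rw [eψ', eψ', ← k2', map_mul σ, hσσ]
    rw [e2, ← hμ, ← hμ, LinearMap.neg_apply, LinearMap.neg_apply, eψ, eψ, pow_neg_q hF, ← k2, hσσ]
  have hμ0 : μ ≠ 0 := fun e => hψ0 (LinearMap.ext fun y => by
    have := hμ y
    rw [e, zero_mul, map_zero] at this
    simpa using this)
  obtain ⟨l, hl0, hl⟩ := Forms.exists_norm_of_fixed σ hσσ hσm hμσ hμ0
  set Φ : AdjoinRoot P →ₗ[F] Vn := φ + φ'.comp (LinearMap.mulLeft F l)
  have hor : ∀ y z, hh (φ y) (φ' z) = 0 ∧ hh (φ' z) (φ y) = 0 := fun y z => by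
    have h := (mem_perp_iff hF).1 (horth (hφ'U ▸ ⟨z, rfl⟩ : φ' z ∈ U')) (φ y) (hφU ▸ ⟨y, rfl⟩)
    exact ⟨hh_comm_zero hF h, h⟩
  have hΦi : Function.Injective Φ := (injective_iff_map_eq_zero _).2 fun y hy => by
    have hm : φ y ∈ U ⊓ U' := ⟨hφU ▸ ⟨y, rfl⟩, by
      rw [← hφ'U]; exact ⟨-(l * y), by rw [map_neg]; exact (eq_neg_of_add_eq_zero_left hy).symm⟩⟩
    have hd : U ⊓ U' = ⊥ := le_bot_iff.1 ((inf_le_inf_left _ horth).trans (isCompl_perp' hF hUn).inf_eq_bot.le)
    rw [hd, Submodule.mem_bot] at hm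
    exact hφi (hm.trans (map_zero φ).symm)
  refine ⟨LinearMap.range Φ, ?_, ?_, ?_, by rw [LinearMap.finrank_range_of_inj hΦi, hLd]⟩
  · rintro _ ⟨y, rfl⟩
    exact add_mem (Submodule.mem_sup_left (hφU ▸ ⟨y, rfl⟩)) (Submodule.mem_sup_right (hφ'U ▸ ⟨l * y, rfl⟩))
  · rintro _ ⟨y, rfl⟩
    refine ⟨AdjoinRoot.mk P X * y, ?_⟩
    simp only [Φ, LinearMap.add_apply, LinearMap.comp_apply, LinearMap.mulLeft_apply, map_add]
    rw [mul_left_comm, hφ, hφ', aeval_X]
  · rintro _ ⟨y, rfl⟩ _ ⟨z, rfl⟩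
    simp only [Φ, LinearMap.add_apply, LinearMap.comp_apply, LinearMap.mulLeft_apply, hh_add_left hF, hh_add_right hF]
    rw [(hor y _).1, (hor z _).2, k1, k1', ← eψ, ← eψ',
      show l * y * σ (l * z) = l * σ l * (y * σ z) by rw [map_mul]; ring, hl, ← hμ, LinearMap.neg_apply]
    ring

/-- An atom with its polynomial. -/
theorem exists_poly (hF : Fintype.card F = q ^ 2) {T : Module.End F Vn} {r b : ℕ} [Fact r.Prime] (hT : T ^ r = 1)
    (hrq : ¬ r ∣ q) (hb : b = orderOf ((q ^ 2 : ℕ) : ZMod r)) {U : Submodule F Vn} (hU : ∀ u ∈ U, T u ∈ U)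
    (hfree : U ⊓ LinearMap.ker (T - 1) = ⊥) (hd : finrank F U = b) :
    ∃ P : F[X], P.Monic ∧ Irreducible P ∧ P ∣ cyclotomic r F ∧ P.natDegree = b ∧ ∀ u ∈ U, aeval T P u = 0 := by
  classical
  have hr : r.Prime := Fact.out
  have hrQ : ¬ r ∣ q ^ 2 := fun h => hrq (hr.dvd_of_dvd_pow h)
  obtain ⟨hb0, -⟩ := SubspaceDerange.dvd_pow_sub_one hrQ hb
  set P := (T.restrict hU).charpoly with hP
  have hPm : P.Monic := LinearMap.charpoly_monic _
  have hPd : P.natDegree = b := by rw [LinearMap.charpoly_natDegree, hd]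
  have hcomp : ∀ (A : F[X]) (u : U), ((aeval (T.restrict hU) A u : U) : Vn) = aeval T A u := by
    intro A u
    induction A using Polynomial.induction_on' with
    | add A A' hA hA' => simp [hA, hA']
    | monomial k a => simp [aeval_monomial, Module.End.pow_restrict k, LinearMap.restrict_apply]
  have hPU : ∀ u ∈ U, aeval T P u = 0 := fun u hu => by
    rw [← hcomp P ⟨u, hu⟩, hP, LinearMap.aeval_self_charpoly]; rfl
  obtain ⟨v, hv, hv0⟩ := (Submodule.ne_bot_iff U).1 (fun e => by rw [e, finrank_bot] at hd; omega)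
  have hsmall : ∀ (g : F[X]) (w : Vn), g.Monic → w ∈ U → aeval T g w = 0 → w ≠ 0 → b ≤ g.natDegree := by
    intro g w hg hw hgw hw0
    obtain ⟨Y, hwY, hYi, hYd, hYA⟩ := SUStructure.cyclic_span hg rfl hgw
    have hYU : Y ≤ U := fun y hy => by
      obtain ⟨A, rfl⟩ := hYA y hy
      exact SubspaceDerange.aeval_mem hU A hw
    have h := SubspaceDerange.dim_mod hF hrQ hb hT hYi
    rw [show Y ⊓ LinearMap.ker (T - 1) = ⊥ from le_bot_iff.1 (hfree ▸ inf_le_inf_right _ hYU), finrank_bot] at h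
    exact (Nat.le_of_dvd (Nat.pos_of_ne_zero fun e => hw0 (by
      rwa [Submodule.finrank_eq_zero.1 e, Submodule.mem_bot] at hwY)) (Nat.modEq_zero_iff_dvd.1 h)).trans hYd
  have hPi : Irreducible P := by
    rw [hPm.irreducible_iff_natDegree']
    refine ⟨fun h => by rw [h, natDegree_one] at hPd; omega, fun g h hg hh' hgh hdeg => ?_⟩
    rw [Finset.mem_Ioc] at hdeg
    have hadd : g.natDegree + h.natDegree = b := by rw [← hPd, ← hgh, hg.natDegree_mul hh']
    by_cases hw : aeval T h v = 0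
    · have := hsmall h v hh' hv hw hv0
      omega
    · have := hsmall g _ hg (SubspaceDerange.aeval_mem hU h hv) (by
        rw [← Module.End.mul_apply, ← map_mul, hgh, hPU v hv]) hw
      omega
  refine ⟨P, hPm, hPi, ?_, hPd, hPU⟩
  by_contra hnd
  obtain ⟨a, c, hac⟩ := hPi.coprime_iff_not_dvd.2 hnd
  refine hv0 ?_
  have hΦ : aeval T (cyclotomic r F) v = 0 := by
    have hmem : aeval T (cyclotomic r F) v ∈ U ⊓ LinearMap.ker (T - 1) := ⟨SubspaceDerange.aeval_mem hU _ hv, by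
      rw [SetLike.mem_coe, LinearMap.mem_ker, show T - 1 = aeval T (X - 1 : F[X]) by simp, ← Module.End.mul_apply, ← map_mul,
        mul_comm, cyclotomic_prime_mul_X_sub_one F r]
      simp [hT]⟩
    rwa [hfree, Submodule.mem_bot] at hmem
  have := congrArg (fun Q => aeval T Q v) hac
  simp only [map_add, map_mul, map_one, LinearMap.add_apply, Module.End.mul_apply, hPU v hv, hΦ, map_zero, add_zero,
    Module.End.one_apply] at this
  exact this.symm

/-- An isotropic invariant subspace inside an invariant nondegenerate subspace of twice its dimension. -/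
theorem exists_ti_atom (hF : Fintype.card F = q ^ 2) {T : Module.End F Vn} (hTB : ∀ u v, hh (T u) (T v) = hh u v)
    {r b t : ℕ} [Fact r.Prime] (hT : T ^ r = 1) (hrF : (r : F) ≠ 0) (hrq : ¬ r ∣ q)
    (hb : b = orderOf ((q ^ 2 : ℕ) : ZMod r)) (ht : t * b = r - 1) (hr2 : r ≠ 2)
    {R : Submodule F Vn} (hR : ∀ v ∈ R, T v ∈ R) (hRn : NonDeg q R) (hfree : R ⊓ LinearMap.ker (T - 1) = ⊥)
    (hbig : if (-(q : ZMod r)) ^ b = 1 then t * b < finrank F R else 0 < finrank F R) :
    ∃ Z ≤ R, (∀ z ∈ Z, T z ∈ Z) ∧ NonDeg q Z ∧ finrank F Z = 2 * b ∧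
      ∃ X ≤ Z, (∀ x ∈ X, T x ∈ X) ∧ TI q X ∧ finrank F X = b := by
  classical
  have hr : r.Prime := Fact.out
  have hrQ : ¬ r ∣ q ^ 2 := fun h => hrq (hr.dvd_of_dvd_pow h)
  obtain ⟨hb0, -⟩ := SubspaceDerange.dvd_pow_sub_one hrQ hb
  have hinj : Function.Injective T := fun a a' h => by
    have := congrArg (T ^ (r - 1)) h
    rwa [← Module.End.mul_apply, ← Module.End.mul_apply, ← pow_succ, Nat.sub_add_cancel hr.one_lt.le, hT,
      Module.End.one_apply, Module.End.one_apply] at this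
  by_cases hE : (-(q : ZMod r)) ^ b = 1
  swap
  · rw [if_neg hE] at hbig
    obtain ⟨Z, hZR, hZi, hZn, hZd⟩ := SUStructure.exists_atom hF hTB hT hrF hrq hb (c := 2 * b) (by rw [if_neg hE])
      hR hRn hfree (fun e => by rw [e, finrank_bot] at hbig; omega)
    have hfreeZ : Z ⊓ LinearMap.ker (T - 1) = ⊥ := le_bot_iff.1 (hfree ▸ inf_le_inf_right _ hZR)
    obtain ⟨U, -, hUZ, hUi, hUd⟩ := SubspaceDerange.step hF hrQ hb hT hZi hfreeZ (U := ⊥)
      (fun v hv => by rw [Submodule.mem_bot] at hv; simp [hv]) bot_le (by rw [finrank_bot]; omega)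
    rw [finrank_bot, zero_add] at hUd
    refine ⟨Z, hZR, hZi, hZn, hZd, U, hUZ, hUi, ?_, hUd⟩
    have hfreeU : U ⊓ LinearMap.ker (T - 1) = ⊥ := le_bot_iff.1 (hfreeZ ▸ inf_le_inf_right _ hUZ)
    set S := U ⊓ perp (hermB n hF) U
    have hS : ∀ v ∈ S, T v ∈ S := fun v hv => ⟨hUi v hv.1, SUStructure.orth_invariant hF hTB hinj hUi v hv.2⟩
    have hS0 : S ≠ ⊥ := fun e => hE (SUStructure.no_small hF hrq hb hTB hT hUi (fun w hw h => by
      have : w ∈ S := ⟨hw, (mem_perp_iff hF).2 h⟩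
      rwa [e, Submodule.mem_bot] at this) hfreeU hUd hb0)
    have h1 := SubspaceDerange.dim_mod hF hrQ hb hT hS
    rw [show S ⊓ LinearMap.ker (T - 1) = ⊥ from le_bot_iff.1 (hfreeU ▸ inf_le_inf_right _ inf_le_left),
      finrank_bot] at h1
    have h2 := Nat.le_of_dvd (Nat.pos_of_ne_zero fun e => hS0 (Submodule.finrank_eq_zero.1 e)) (Nat.modEq_zero_iff_dvd.1 h1)
    have hSU : S = U := Submodule.eq_of_le_of_finrank_le inf_le_left (hUd ▸ h2)
    exact fun a ha c hc => (mem_perp_iff hF).1 (hSU ▸ ha : a ∈ S).2 c hc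
  rw [if_pos hE] at hbig
  obtain ⟨s, hs⟩ : Odd b := by
    rcases Nat.even_or_odd b with he | ho
    · obtain ⟨s, hs⟩ := he
      exfalso
      have h2 : ((q ^ 2 : ℕ) : ZMod r) ^ s = 1 := by
        rw [Nat.cast_pow, ← pow_mul, two_mul, ← hs, ← (Even.neg_pow ⟨s, hs⟩), hE]
      have := Nat.le_of_dvd (by omega) (hb ▸ orderOf_dvd_of_pow_eq_one h2)
      omega
    · exact ho
  have hq1 : r ∣ 1 + q ^ b := by
    rw [← ZMod.natCast_eq_zero_iff]
    push_cast
    rw [neg_pow, show ((-1 : ZMod r)) ^ b = -1 by rw [hs]; exact (odd_two_mul_add_one s).neg_one_pow] at hE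
    linear_combination -hE
  have hTS : T * T ^ q ^ b = 1 := by
    obtain ⟨t, ht⟩ := hq1
    rw [← pow_succ', add_comm, ht, pow_mul, hT, one_pow]
  suffices key : ∀ u, u * b ≤ finrank F R → (∃ Z ≤ R, (∀ z ∈ Z, T z ∈ Z) ∧ NonDeg q Z ∧ finrank F Z = 2 * b ∧
      ∃ X ≤ Z, (∀ x ∈ X, T x ∈ X) ∧ TI q X ∧ finrank F X = b) ∨
      ∃ W ≤ R, (∀ w ∈ W, T w ∈ W) ∧ NonDeg q W ∧ finrank F W = u * b ∧ ∃ S : Finset F[X], S.card = u ∧
        ∀ f ∈ S, f.Monic ∧ Irreducible f ∧ f ∣ cyclotomic r F ∧ f.natDegree = b ∧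
          ∃ U ≤ W, (∀ x ∈ U, T x ∈ U) ∧ NonDeg q U ∧ finrank F U = b ∧ ∀ x ∈ U, aeval T f x = 0 by
    have hdvdR : b ∣ finrank F R := by
      have h := SubspaceDerange.dim_mod hF hrQ hb hT hR
      rw [hfree, finrank_bot] at h
      exact Nat.modEq_zero_iff_dvd.1 h
    obtain ⟨g, hg⟩ := hdvdR
    have hts : t < g := Nat.lt_of_mul_lt_mul_left (a := b) (by rw [← hg, mul_comm]; exact hbig)
    rcases key (t + 1) (by rw [hg, mul_comm b g]; exact Nat.mul_le_mul_right b hts) with h | ⟨W, -, -, -, -, S, hSc, hS⟩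
    · exact h
    · exfalso
      have hprod : (∏ f ∈ S, f) ∣ cyclotomic r F := Finset.prod_dvd_of_coprime (fun f hf g hg hne =>
        (hS f hf).2.1.coprime_iff_not_dvd.2 fun hd => hne
          (eq_of_monic_of_associated (hS f hf).1 (hS g hg).1 ((hS f hf).2.1.associated_of_dvd (hS g hg).2.1 hd)))
        fun f hf => (hS f hf).2.2.1
      have hle := natDegree_le_of_dvd hprod (cyclotomic_ne_zero r F)
      rw [natDegree_prod_of_monic _ _ (fun f hf => (hS f hf).1), Finset.sum_congr rfl (fun f hf => (hS f hf).2.2.2.1),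
        Finset.sum_const, hSc, smul_eq_mul, natDegree_cyclotomic, Nat.totient_prime Fact.out, ← ht] at hle
      have := Nat.le_of_mul_le_mul_right hle hb0
      omega
  intro u
  induction u with
  | zero => exact fun _ => Or.inr ⟨⊥, bot_le, fun w hw => by rw [Submodule.mem_bot] at hw; simp [hw],
      SUStructure.nonDeg_bot, by simp, ∅, rfl, by simp⟩
  | succ u ih =>
    intro hu
    rw [show (u + 1) * b = u * b + b from Nat.succ_mul u b] at hu ⊢
    rcases ih (by omega) with h | ⟨W, hWR, hW, hWn, hWd, S, hSc, hS⟩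
    · exact Or.inl h
    obtain ⟨hYn, hYd, -⟩ := SUStructure.nd_split hF hWn hRn hWR
    set Y := R ⊓ perp (hermB n hF) W
    have hYfree : Y ⊓ LinearMap.ker (T - 1) = ⊥ := le_bot_iff.1 (hfree ▸ inf_le_inf_right _ inf_le_left)
    obtain ⟨A, hAY, hAi, hAn, hAd⟩ := SUStructure.exists_atom hF hTB hT hrF hrq hb (c := b) (by rw [if_pos hE])
      (W := Y) (fun v hv => ⟨hR v hv.1, SUStructure.orth_invariant hF hTB hinj hW v hv.2⟩) hYn hYfree
      (fun e => by rw [e, finrank_bot] at hYd; omega)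
    obtain ⟨f, hfm, hfi, hfd, hfdeg, hfk⟩ := exists_poly hF hT hrq hb hAi
      (le_bot_iff.1 (hYfree ▸ inf_le_inf_right _ hAY)) hAd
    by_cases hfS : f ∈ S
    · obtain ⟨-, -, -, -, U, hUW, hUi, hUn, hUd, hUk⟩ := hS f hfS
      have hAU : A ≤ perp (hermB n hF) U := fun x hx => (mem_perp_iff hF).2 fun y hy =>
        (mem_perp_iff hF).1 (hAY hx).2 y (hUW hy)
      obtain ⟨X, hX, hXi, hXt, hXd⟩ := exists_pair hF hTB hs hTS hfm hfi hfdeg hUi hUn hUd hUk hAi hAn hAd hfk hAU
      refine Or.inl ⟨U ⊔ A, sup_le (hUW.trans hWR) (hAY.trans inf_le_left), fun z hz => ?_,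
        SUStructure.nd_sup hF hUn hAn hAU, by rw [SUStructure.finrank_sup_perp hF hUn hAU, hUd, hAd, two_mul],
        X, hX, hXi, hXt, hXd⟩
      obtain ⟨y, hy, w, hw, rfl⟩ := Submodule.mem_sup.1 hz
      rw [map_add]
      exact add_mem (Submodule.mem_sup_left (hUi y hy)) (Submodule.mem_sup_right (hAi w hw))
    · refine Or.inr ⟨W ⊔ A, sup_le hWR (hAY.trans inf_le_left), fun v hv => ?_,
        SUStructure.nd_sup hF hWn hAn (hAY.trans inf_le_right), ?_, insert f S,
        by rw [Finset.card_insert_of_notMem hfS, hSc], ?_⟩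
      · obtain ⟨y, hy, w, hw, rfl⟩ := Submodule.mem_sup.1 hv
        rw [map_add]
        exact add_mem (Submodule.mem_sup_left (hW y hy)) (Submodule.mem_sup_right (hAi w hw))
      · rw [SUStructure.finrank_sup_perp hF hWn (hAY.trans inf_le_right), hWd, hAd]
      · intro g hg
        rcases Finset.mem_insert.1 hg with rfl | hg
        · exact ⟨hfm, hfi, hfd, hfdeg, A, le_sup_right, hAi, hAn, hAd, hfk⟩
        · obtain ⟨a, c, d, e, U, hUW, h⟩ := hS g hg
          exact ⟨a, c, d, e, U, hUW.trans le_sup_left, h⟩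

/-- Invariant isotropic subspaces in the free part. -/
theorem exists_ti_sub (hF : Fintype.card F = q ^ 2) {T : Module.End F Vn} (hTB : ∀ u v, hh (T u) (T v) = hh u v)
    {r b t : ℕ} [Fact r.Prime] (hT : T ^ r = 1) (hrF : (r : F) ≠ 0) (hrq : ¬ r ∣ q)
    (hb : b = orderOf ((q ^ 2 : ℕ) : ZMod r)) (ht : t * b = r - 1) (hr2 : r ≠ 2) :
    ∀ (j : ℕ) (R : Submodule F Vn), (∀ v ∈ R, T v ∈ R) → NonDeg q R →
    R ⊓ LinearMap.ker (T - 1) = ⊥ → 2 * (j * b) ≤ finrank F R →
    (j = 0 ∨ (-(q : ZMod r)) ^ b ≠ 1 ∨ 2 * (j * b) + t * b ≤ finrank F R + b) →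
    ∃ X ≤ R, (∀ x ∈ X, T x ∈ X) ∧ TI q X ∧ finrank F X = j * b := by
  intro j
  induction j with
  | zero => exact fun R _ _ _ _ _ => ⟨⊥, bot_le, fun v hv => by rw [Submodule.mem_bot] at hv; simp [hv],
      ti_bot hF, by simp⟩
  | succ j ih =>
    intro R hR hRn hfree hle hcond
    obtain ⟨hb0, -⟩ := SubspaceDerange.dvd_pow_sub_one (fun h => hrq ((Fact.out : r.Prime).dvd_of_dvd_pow h)) hb
    have hinj : Function.Injective T := fun a a' h => by
      have := congrArg (T ^ (r - 1)) h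
      rwa [← Module.End.mul_apply, ← Module.End.mul_apply, ← pow_succ,
        Nat.sub_add_cancel (Fact.out : r.Prime).one_lt.le, hT, Module.End.one_apply, Module.End.one_apply] at this
    rw [show (j + 1) * b = j * b + b from Nat.succ_mul j b] at hle hcond ⊢
    obtain ⟨Z, hZR, hZi, hZn, hZd, U, hUZ, hUi, hUti, hUd⟩ := exists_ti_atom hF hTB hT hrF hrq hb ht hr2 hR hRn hfree
      (by
        split_ifs with hie
        · rcases hcond with h | h | h
          · exact absurd h (Nat.succ_ne_zero j)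
          · exact absurd hie h
          · omega
        · omega)
    obtain ⟨hYn, hYd, -⟩ := SUStructure.nd_split hF hZn hRn hZR
    set Y := R ⊓ perp (hermB n hF) Z
    obtain ⟨X, hXY, hXi, hXti, hXd⟩ := ih Y (fun v hv => ⟨hR v hv.1, SUStructure.orth_invariant hF hTB hinj hZi v hv.2⟩)
      hYn (le_bot_iff.1 (hfree ▸ inf_le_inf_right _ inf_le_left)) (by omega) (by
        rcases hcond with h | h | h
        · exact absurd h (Nat.succ_ne_zero j)
        · exact Or.inr (Or.inl h)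
        · exact Or.inr (Or.inr (by omega)))
    refine ⟨U ⊔ X, sup_le (hUZ.trans hZR) (hXY.trans inf_le_left), fun v hv => ?_,
      ti_sup hF hUti hXti (fun u hu x hx => hh_comm_zero hF ((mem_perp_iff hF).1 (hXY hx).2 u (hUZ hu))), ?_⟩
    · obtain ⟨y, hy, w, hw, rfl⟩ := Submodule.mem_sup.1 hv
      rw [map_add]
      exact add_mem (Submodule.mem_sup_left (hUi y hy)) (Submodule.mem_sup_right (hXi w hw))
    · rw [SubspaceDerange.finrank_sup_of_disjoint (le_bot_iff.1 ((inf_le_inf hUZ (hXY.trans inf_le_right)).trans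
        (isCompl_perp' hF hZn).inf_eq_bot.le)), hUd, hXd, add_comm]

/-- A prime dividing the number of totally isotropic subspaces. -/
theorem exists_dvd (hF : Fintype.card F = q ^ 2) {m r : ℕ} (hr : r.Prime) (hmn : 2 * m ≤ n)
    (h : r ∣ Nat.card {W : Submodule F Vn // finrank F ↥W = m ∧ (∀ u ∈ W, ∀ v ∈ W, hh u v = 0)}) :
    ∃ l, n < l + 2 * m ∧ l ≤ n ∧ (-(q : ZMod r)) ^ l = 1 := by
  classical
  set X := {W : Submodule F Vn // finrank F ↥W = m ∧ (∀ u ∈ W, ∀ v ∈ W, hh u v = 0)}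
  let N : Vn → F := fun v => hermB n hF v v
  let sp : Forms.IsoFrame (hermB n hF) N m → X := fun w =>
    ⟨Submodule.span F (Set.range w.1), by rw [finrank_span_eq_card w.2.1, Fintype.card_fin],
      fun u hu v hv => by
        induction hu using Submodule.span_induction with
        | mem x hx =>
          induction hv using Submodule.span_induction with
          | mem y hy =>
            obtain ⟨a, rfl⟩ := hx
            obtain ⟨c, rfl⟩ := hy
            exact hh_comm_zero hF (by rw [← hermB_apply hF]; exact w.2.2.1 a c)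
          | zero => exact hh_zero_right hF _
          | add a c _ _ ha hc => rw [hh_add_right hF, ha, hc, add_zero]
          | smul d a _ ha => rw [hh_smul_right hF, ha, mul_zero]
        | zero => exact hh_zero_left hF _
        | add a c _ _ ha hc => rw [hh_add_left hF, ha, hc, add_zero]
        | smul d a _ ha => rw [hh_smul_left hF, ha, mul_zero]⟩
  have hfib : ∀ W : X, Nat.card {w // sp w = W} = ∏ i : Fin m, ((q ^ 2) ^ m - (q ^ 2) ^ (i : ℕ)) := by
    intro W
    have hcard := card_linearIndependent (K := F) (V := W.1) (k := m) (by rw [W.2.1])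
    rw [hF, W.2.1] at hcard
    rw [← hcard]
    refine Nat.card_congr (Equiv.ofBijective (fun w => ⟨fun a => ⟨w.1.1 a, by
      have := congrArg Subtype.val w.2
      exact this ▸ Submodule.subset_span ⟨a, rfl⟩⟩, LinearIndependent.of_comp W.1.subtype w.1.2.1⟩) ⟨?_, ?_⟩)
    · intro w w' h
      refine Subtype.ext (Subtype.ext (funext fun a => ?_))
      exact congrArg Subtype.val (congrFun (congrArg Subtype.val h) a)
    · intro s
      have hli := s.2.map' W.1.subtype W.1.ker_subtype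
      refine ⟨⟨⟨fun a => (s.1 a : Vn), hli, fun a c => by
        rw [hermB_apply]; exact W.2.2 _ (s.1 c).2 _ (s.1 a).2, fun a => by
        show hermB n hF _ _ = 0
        rw [hermB_apply]; exact W.2.2 _ (s.1 a).2 _ (s.1 a).2⟩, Subtype.ext ?_⟩, rfl⟩
      refine Submodule.eq_of_le_of_finrank_eq (Submodule.span_le.2 (by rintro _ ⟨a, rfl⟩; exact (s.1 a).2)) ?_
      exact ((finrank_span_eq_card hli).trans (Fintype.card_fin m)).trans W.2.1.symm
  have hc := Forms.card_isoFrame_herm hF (isHerm_std (n := n) hF) (Module.finrank_fin_fun F) m hmn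
  rw [Nat.card_congr (Equiv.sigmaFiberEquiv sp).symm, Nat.card_sigma] at hc
  simp only [hfib, Finset.sum_const, smul_eq_mul, Finset.card_univ, ← Nat.card_eq_fintype_card] at hc
  have hq1 : 1 < q := two_le_q hF
  have hP : ∏ i : Fin m, ((q ^ 2) ^ m - (q ^ 2) ^ (i : ℕ)) =
      q ^ (m * (m - 1)) * ∏ i ∈ Finset.range m, ((q ^ 2) ^ (i + 1) - 1) := by
    rw [show q ^ (m * (m - 1)) = (q ^ 2) ^ (m * (m - 1) / 2) by
        rw [← pow_mul, Nat.mul_div_cancel' (Nat.even_mul_pred_self m).two_dvd],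
      Fin.prod_univ_eq_prod_range (fun i => (q ^ 2) ^ m - (q ^ 2) ^ i) m, ← Finset.sum_range_id, ← Finset.prod_pow_eq_pow_sum,
      ← Finset.prod_range_reflect (fun i => (q ^ 2) ^ (i + 1) - 1) m, ← Finset.prod_mul_distrib]
    refine Finset.prod_congr rfl fun i hi => ?_
    rw [Finset.mem_range] at hi
    rw [Nat.mul_sub, mul_one, ← pow_add, show i + (m - 1 - i + 1) = m by omega]
  rw [hP, ← Finset.prod_range_mul_prod_Ico _ (Nat.sub_le n (2 * m))] at hc
  set A := ∏ i ∈ Finset.range (n - 2 * m), (if Even i then q ^ (i + 1) + 1 else q ^ (i + 1) - 1)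
  have hA : 0 < A := Finset.prod_pos fun i _ => by
    have := Nat.one_lt_pow (n := i + 1) (by omega) hq1
    split_ifs <;> omega
  have hpow : 0 < q ^ (m * (m - 1)) := Nat.pow_pos (by omega)
  have key : Nat.card X * ∏ i ∈ Finset.range m, ((q ^ 2) ^ (i + 1) - 1) =
      ∏ i ∈ Finset.Ico (n - 2 * m) n, (if Even i then q ^ (i + 1) + 1 else q ^ (i + 1) - 1) := by
    refine mul_right_cancel₀ (Nat.mul_pos hpow hA).ne' ?_
    linear_combination hc
  obtain ⟨i, hi, hi'⟩ := (hr.prime.dvd_finsetProd_iff _).1 (key ▸ h.mul_right _)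
  rw [Finset.mem_Ico] at hi
  refine ⟨i + 1, by omega, by omega, ?_⟩
  rw [← ZMod.natCast_eq_zero_iff] at hi'
  split_ifs at hi' with he
  · rw [neg_pow, (Even.add_one he).neg_one_pow]
    push_cast at hi'
    linear_combination -hi'
  · rw [neg_pow, (Nat.even_add_one.2 he).neg_one_pow, one_mul]
    rw [Nat.cast_sub (Nat.one_le_pow _ _ (by omega)), Nat.cast_pow, Nat.cast_one, sub_eq_zero] at hi'
    exact hi'

end Cfsg.Agent.GeomClasses.SUIsotropic
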