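import Cfsg.Agent.GeomClasses.SympIsotropic
import Cfsg.Agent.Forms.SympSemisimple
import Cfsg.Agent.Linear.SpPrimeClasses

/-!
# Isometries of odd prime order and totally isotropic invariant subspaces
-/

set_option autoImplicit false
set_option linter.unusedSectionVars false

namespace Cfsg.Agent.GeomClasses.SympIsotropicOdd

open Module Polynomial SympStructure SympIsotropic Cfsg.Agent.Linear.SpPrimeClasses

variable {F : Type*} [Field F] [Fintype F] {q r i : ℕ} [Fact r.Prime]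

/-- An even order gives a power equal to minus one. -/
theorem exists_half (hrq : ¬ r ∣ q) (hi : i = orderOf (q : ZMod r)) (hie : Even i) : ∃ h, r ∣ q ^ h + 1 := by
  obtain ⟨hi0, -⟩ := SubspaceDerange.dvd_pow_sub_one hrq hi
  obtain ⟨h, hh⟩ := hie
  have h1 : ((q : ZMod r) ^ h) * (q : ZMod r) ^ h = 1 := by rw [← pow_add, ← hh, hi, pow_orderOf_eq_one]
  rcases mul_self_eq_one_iff.1 h1 with e | e
  · have := Nat.le_of_dvd (by omega) (hi ▸ orderOf_dvd_of_pow_eq_one e)
    omega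
  · exact ⟨h, (ZMod.natCast_eq_zero_iff _ _).1 (by push_cast; rw [e, neg_add_cancel])⟩

/-- Frobenius and evaluation. -/
theorem aeval_pow_card {A : Type*} [Ring A] [Algebra F A] (hq : Fintype.card F = q) (f : F[X]) (x : A) :
    ∀ l : ℕ, aeval (x ^ q ^ l) f = (aeval x f) ^ q ^ l := by
  intro l
  induction l with
  | zero => simp
  | succ l ih => rw [pow_succ, pow_mul, ← expand_aeval, ← hq, FiniteField.expand_card, map_pow, hq, ih, ← pow_mul]

/-- The irreducible factors of the cyclotomic polynomial are self reciprocal when the order is even. -/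
theorem hat_eq (hq : Fintype.card F = q) (hrq : ¬ r ∣ q) (hi : i = orderOf (q : ZMod r)) (hie : Even i) {f : F[X]}
    (hf : Irreducible f) (hm : f.Monic) (hdvd : f ∣ X ^ r - 1) : hat f = f := by
  haveI := Fact.mk hf
  obtain ⟨h, k, hk⟩ := exists_half hrq hi hie
  set x := AdjoinRoot.root f
  have hxr : x ^ r = 1 := by
    have := AdjoinRoot.mk_eq_zero.2 hdvd
    rwa [map_sub, map_pow, AdjoinRoot.mk_X, map_one, sub_eq_zero] at this
  have h1 : x * x ^ q ^ h = 1 := by rw [← pow_succ', hk, pow_mul, hxr, one_pow]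
  have hx0 : x ≠ 0 := fun e => by rw [e, zero_mul] at h1; exact zero_ne_one h1
  have hinv : aeval x⁻¹ f = 0 := by
    rw [← eq_inv_of_mul_eq_one_right h1, aeval_pow_card hq, AdjoinRoot.aeval_eq, AdjoinRoot.mk_self,
      zero_pow (pow_ne_zero _ (by rw [← hq]; exact Fintype.card_ne_zero))]
  have h0 : f.coeff 0 ≠ 0 := by
    intro e
    obtain ⟨R, hR⟩ := hdvd
    have := congrArg (fun P => P.eval 0) hR
    rw [coeff_zero_eq_eval_zero] at e
    simp [e, (Fact.out : r.Prime).ne_zero] at this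
  obtain ⟨hm', hd', -, -⟩ := hat_props hm h0
  refine eq_of_monic_of_dvd_of_natDegree_le hm hm' ?_ hd'.le
  rw [← AdjoinRoot.mk_eq_zero, ← AdjoinRoot.aeval_eq, hat, map_mul]
  letI : Invertible x⁻¹ := invertibleOfNonzero (inv_ne_zero hx0)
  have h3 := Polynomial.eval₂_reverse_eq_zero_iff (algebraMap F (AdjoinRoot f)) x⁻¹ f
  rw [invOf_eq_inv, inv_inv] at h3
  rw [show aeval x f.reverse = 0 from h3.2 hinv, mul_zero]

/-- The factors of the cyclotomic polynomial. -/
theorem exists_factors {p : ℕ} [Fact p.Prime] [CharP F p] (hq : Fintype.card F = q) (hrp : r ≠ p)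
    (hi : i = orderOf (q : ZMod r)) {u : ℕ} (hu : u * i ≤ r - 1) :
    ∃ S : Finset F[X], S.card = u ∧ ∀ f ∈ S, Irreducible f ∧ f.Monic ∧ f ∣ cyclotomic r F ∧ f.natDegree = i := by
  classical
  have hr : r.Prime := Fact.out
  have hp : p.Prime := Fact.out
  obtain ⟨f₀, -, hf₀⟩ := FiniteField.card F p
  have hcop : p.Coprime r := (Nat.coprime_primes hp hr).2 fun h => hrp h.symm
  have hrF : (r : F) ≠ 0 := fun h =>
    hrp (((Nat.prime_dvd_prime_iff_eq hp hr).1 ((CharP.cast_eq_zero_iff F p r).1 h)).symm)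
  set M := UniqueFactorizationMonoid.normalizedFactors (cyclotomic r F) with hM
  have hMp : ∀ P ∈ M, Irreducible P ∧ P.Monic := fun P hP => by
    have h1 := UniqueFactorizationMonoid.irreducible_of_normalized_factor P hP
    refine ⟨h1, ?_⟩
    rw [← UniqueFactorizationMonoid.normalize_normalized_factor P hP]
    exact monic_normalize h1.ne_zero
  have hdeg : ∀ P ∈ M, P.natDegree = i := fun P hP => by
    rw [natDegree_of_dvd_cyclotomic_of_irreducible (p := p) (f := f₀) (n := r) hf₀ hcop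
      (UniqueFactorizationMonoid.dvd_of_mem_normalizedFactors hP) (hMp P hP).1,
      hi, ← orderOf_units, ZMod.coe_unitOfCoprime, ← hf₀, hq]
  have hnodup : M.Nodup := (UniqueFactorizationMonoid.squarefree_iff_nodup_normalizedFactors (cyclotomic_ne_zero r F)).1 (by
    have := (separable_X_pow_sub_C (1 : F) hrF one_ne_zero).squarefree
    rw [C_1] at this
    exact this.squarefree_of_dvd ⟨_, (cyclotomic_prime_mul_X_sub_one F r).symm⟩)
  have hcard := Cfsg.Agent.Linear.PrimeOrderClasses.natDegree_prod_eq M (fun P hP => (hMp P hP).2) i hdeg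
  rw [hM, Cfsg.Agent.Linear.PrimeOrderClasses.prod_normalizedFactors_monic (cyclotomic.monic r F), natDegree_cyclotomic,
    Nat.totient_prime hr] at hcard
  have hi0 : 0 < i := by
    rcases Nat.eq_zero_or_pos i with h | h
    · rw [h, mul_zero] at hcard; have := hr.two_le; omega
    · exact h
  obtain ⟨S, hS, hSc⟩ := Finset.exists_subset_card_eq (s := M.toFinset) (n := u) (by
    rw [Multiset.toFinset_card_of_nodup hnodup]
    exact Nat.le_of_mul_le_mul_right (hcard ▸ hu) hi0)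
  refine ⟨S, hSc, fun f hf => ?_⟩
  have hfM := Multiset.mem_toFinset.1 (hS hf)
  exact ⟨(hMp f hfM).1, (hMp f hfM).2, UniqueFactorizationMonoid.dvd_of_mem_normalizedFactors hfM, hdeg f hfM⟩

section Isometry

variable {V : Type*} [AddCommGroup V] [Module F V] [FiniteDimensional F V] {B : LinearMap.BilinForm F V}

/-- An atom as a cyclic line. -/
def Line (B : LinearMap.BilinForm F V) (T : Module.End F V) (f : F[X]) (W : Submodule F V) : Prop :=
  ∃ φ : AdjoinRoot f →ₗ[F] V, Function.Injective φ ∧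
    (∀ P x, φ (AdjoinRoot.mk f P * x) = aeval T P (φ x)) ∧ LinearMap.range φ ≤ W ∧ Nd B (LinearMap.range φ)

theorem range_invariant {T : Module.End F V} {f : F[X]} {φ : AdjoinRoot f →ₗ[F] V}
    (hφ : ∀ P x, φ (AdjoinRoot.mk f P * x) = aeval T P (φ x)) : ∀ v ∈ LinearMap.range φ, T v ∈ LinearMap.range φ := by
  rintro _ ⟨x, rfl⟩
  exact ⟨_, (hφ X x).trans (by rw [aeval_X])⟩

variable {T : Module.End F V} (hA : B.IsAlt) (hTB : ∀ x y, B (T x) (T y) = B x y) (hT : T ^ r = 1) (hrF : (r : F) ≠ 0)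
  (hr2 : r ≠ 2) (hq : Fintype.card F = q) (hrq : ¬ r ∣ q) (hi : i = orderOf (q : ZMod r))

include hA hTB hT hrF hr2 hq hrq hi

/-- An atom with its polynomial. -/
theorem exists_line (hie : Even i) {W : Submodule F V} (hW : ∀ w ∈ W, T w ∈ W) (hWn : Nd B W)
    (hfree : W ⊓ LinearMap.ker (T - 1) = ⊥) (hne : W ≠ ⊥) :
    ∃ f : F[X], Irreducible f ∧ f.Monic ∧ f ∣ cyclotomic r F ∧ f.natDegree = i ∧ Line B T f W := by
  classical
  obtain ⟨A, hAW, hAi, hAn, hAd⟩ := SympStructure.exists_atom hA hTB hT hrF hr2 hq hrq hi (c := i)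
    (by rw [if_pos hie]) hW hWn hfree hne
  obtain ⟨hi0, -⟩ := SubspaceDerange.dvd_pow_sub_one hrq hi
  set TA := T.restrict hAi
  have hA0 : A ≠ ⊥ := fun e => by rw [e, finrank_bot] at hAd; omega
  haveI : Nontrivial A := Submodule.nontrivial_iff_ne_bot.2 hA0
  obtain ⟨f, hfm, hfi, g, hg⟩ := exists_monic_irreducible_factor _ (minpoly.not_isUnit F TA)
  obtain ⟨y, hy⟩ : ∃ y, aeval TA g y ≠ 0 := by
    by_contra h
    push_neg at h
    have hg0 : g ≠ 0 := fun e => minpoly.ne_zero (IsIntegral.of_finite F TA) (by rw [hg, e, mul_zero])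
    have h1 := natDegree_le_natDegree (minpoly.degree_le_of_ne_zero F TA hg0 (LinearMap.ext h))
    rw [hg, natDegree_mul hfi.ne_zero hg0] at h1
    have := hfi.natDegree_pos
    omega
  haveI := Fact.mk hfi
  set v : V := ((aeval TA g y : A) : V) with hv
  have hrestr : ∀ (P : F[X]) (w : A), ((aeval TA P) w : V) = aeval T P (w : V) := by
    intro P
    induction P using Polynomial.induction_on with
    | C a => intro w; simp [Module.algebraMap_end_apply]
    | add P Q hP hQ => intro w; simp [hP, hQ]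
    | monomial k a ih =>
      intro w
      rw [pow_succ, ← mul_assoc]
      generalize Polynomial.C a * X ^ k = P at ih ⊢
      simp only [map_mul, aeval_X, Module.End.mul_apply]
      rw [ih]
      rfl
  obtain ⟨φ, hφi, hφ1, hφ⟩ := Forms.exists_cyclic T hfi hfm (v := v) (fun e => hy (Subtype.ext e)) (by
    rw [hv, ← hrestr, ← Module.End.mul_apply, ← map_mul, ← hg, minpoly.aeval]; rfl)
  have hrange : LinearMap.range φ ≤ A := by
    rintro _ ⟨x, rfl⟩
    obtain ⟨P, rfl⟩ := AdjoinRoot.mk_surjective x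
    rw [← mul_one (AdjoinRoot.mk f P), hφ, hφ1]
    exact SubspaceDerange.aeval_mem hAi P (Submodule.coe_mem _)
  have hfreeA : A ⊓ LinearMap.ker (T - 1) = ⊥ := le_bot_iff.1 (hfree ▸ inf_le_inf_right _ hAW)
  have hdim : finrank F (LinearMap.range φ) = i := by
    refine le_antisymm (hAd ▸ Submodule.finrank_mono hrange) (Nat.le_of_dvd ?_ ?_)
    · refine Nat.pos_of_ne_zero fun e => hy (Subtype.ext ?_)
      have hm : φ 1 ∈ LinearMap.range φ := ⟨1, rfl⟩
      rwa [Submodule.finrank_eq_zero.1 e, Submodule.mem_bot, hφ1] at hm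
    · have h := SubspaceDerange.dim_mod hq hrq hi hT (range_invariant hφ)
      rw [show LinearMap.range φ ⊓ LinearMap.ker (T - 1) = ⊥ from le_bot_iff.1 (hfreeA ▸ inf_le_inf_right _ hrange),
        finrank_bot] at h
      exact Nat.modEq_zero_iff_dvd.1 h
  have hdegf : f.natDegree = i := by
    rw [← hdim, LinearMap.finrank_range_of_inj hφi, (AdjoinRoot.powerBasis hfi.ne_zero).finrank, AdjoinRoot.powerBasis_dim]
  have heq : LinearMap.range φ = A := Submodule.eq_of_le_of_finrank_eq hrange (hdim.trans hAd.symm)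
  have hXr : f ∣ X ^ r - 1 := AdjoinRoot.mk_eq_zero.1 (hφi (by
    rw [map_zero, ← mul_one (AdjoinRoot.mk f (X ^ r - 1)), hφ, map_sub, map_pow, aeval_X, map_one, hT, sub_self,
      LinearMap.zero_apply]))
  refine ⟨f, hfi, hfm, ?_, hdegf, φ, hφi, hφ, hrange.trans hAW, heq ▸ hAn⟩
  rw [← cyclotomic_prime_mul_X_sub_one F r] at hXr
  refine (hfi.prime.dvd_or_dvd hXr).resolve_right fun h => ?_
  have h1 : T v = v := by
    have := hφ (X - 1) 1
    rw [AdjoinRoot.mk_eq_zero.2 h, zero_mul, map_zero, map_sub, aeval_X, map_one, hφ1, LinearMap.sub_apply,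
      Module.End.one_apply] at this
    exact sub_eq_zero.1 this.symm
  refine hy (Subtype.ext ?_)
  have : v ∈ A ⊓ LinearMap.ker (T - 1) := ⟨Submodule.coe_mem _, by simp [h1]⟩
  rwa [hfreeA, Submodule.mem_bot] at this

/-- Two orthogonal lines with the same polynomial give an isotropic invariant subspace. -/
theorem exists_pair {f : F[X]} (hfi : Irreducible f) (hdeg : f.natDegree = i) {U U' : Submodule F V}
    (hU' : U' ≤ B.orthogonal U) (h : Line B T f U) (h' : Line B T f U') :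
    ∃ Z ≤ U ⊔ U', (∀ z ∈ Z, T z ∈ Z) ∧ Nd B Z ∧ finrank F Z = 2 * i ∧
      ∃ X ≤ Z, (∀ x ∈ X, T x ∈ X) ∧ TI B X ∧ finrank F X = i := by
  classical
  haveI := Fact.mk hfi
  obtain ⟨φ, hφi, hφ, hφU, hφn⟩ := h
  obtain ⟨φ', hφ'i, hφ', hφ'U, hφ'n⟩ := h'
  have hinj : Function.Injective T := fun a b h => by
    have := congrArg (T ^ (r - 1)) h
    rwa [← Module.End.mul_apply, ← Module.End.mul_apply, ← pow_succ,
      Nat.sub_add_cancel (Fact.out : r.Prime).one_lt.le, hT, Module.End.one_apply, Module.End.one_apply] at this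
  let a : V ≃ₗ[F] V := LinearEquiv.ofBijective T ⟨hinj, LinearMap.injective_iff_surjective.1 hinj⟩
  haveI : Module.Finite F (AdjoinRoot f) := (AdjoinRoot.powerBasis hfi.ne_zero).finite
  haveI : Finite (AdjoinRoot f) := Module.finite_of_finite F
  set x := AdjoinRoot.root f
  have hne : ¬ ∀ y z, B (φ y) (φ z) = 0 := by
    intro hzero
    have h1 : φ 1 = 0 := hφn _ ⟨1, rfl⟩ (by rintro _ ⟨z, rfl⟩; exact hzero 1 z)
    exact one_ne_zero (hφi (h1.trans (map_zero φ).symm))
  have hC : aeval x⁻¹ f = 0 ∧ x * x ≠ 1 := by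
    by_contra hc
    exact hne (Forms.cyclic_isotropic (a := a) hA hTB hφi hφ (by tauto))
  let σ : AdjoinRoot f →ₐ[F] AdjoinRoot f := AdjoinRoot.liftAlgHom f (Algebra.ofId F (AdjoinRoot f)) x⁻¹ hC.1
  have hσr : σ x = x⁻¹ := AdjoinRoot.liftAlgHom_root _ _ _ _
  have hσσ : ∀ y, σ (σ y) = y := fun y => AlgHom.congr_fun
    (show σ.comp σ = AlgHom.id F _ from AdjoinRoot.algHom_ext (show σ (σ x) = x by rw [hσr, map_inv₀, hσr, inv_inv])) y
  obtain ⟨k1, k2⟩ := Forms.cyclic_form (a := a) hA hTB hφi hφ σ hσr hσσ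
  obtain ⟨k1', k2'⟩ := Forms.cyclic_form (a := a) hA hTB hφ'i hφ' σ hσr hσσ
  let ψ : AdjoinRoot f →ₗ[F] F := (B.flip (φ 1)).comp φ
  let ψ' : AdjoinRoot f →ₗ[F] F := (B.flip (φ' 1)).comp φ'
  have hψ0 : ψ ≠ 0 := fun e => hne fun y z => by rw [k1]; exact LinearMap.congr_fun e _
  have hψ'0 : ψ' ≠ 0 := fun e => by
    have h1 : φ' 1 = 0 := hφ'n _ ⟨1, rfl⟩ (by rintro _ ⟨z, rfl⟩; rw [k1']; exact LinearMap.congr_fun e _)
    exact one_ne_zero (hφ'i (h1.trans (map_zero φ').symm))
  obtain ⟨μ, hμ⟩ := Forms.exists_scale ψ' hψ'0 (-ψ)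
  have hinjψ : ∀ b c : AdjoinRoot f, (∀ y, ψ' (b * y) = ψ' (c * y)) → b = c := by
    intro b c hbc
    by_contra hne'
    refine hψ'0 (LinearMap.ext fun y => ?_)
    have h := hbc ((b - c)⁻¹ * y)
    rw [← sub_eq_zero, ← map_sub, ← sub_mul, mul_inv_cancel_left₀ (sub_ne_zero.2 hne')] at h
    simpa using h
  have hμσ : σ μ = μ := hinjψ _ _ fun y => by
    have e1 : ψ' (μ * σ y) = -ψ (σ y) := (hμ _).symm
    have e2 : ψ' (σ (σ μ * y)) = -ψ' (σ μ * y) := k2' _
    have e3 : ψ (σ y) = -ψ y := k2 y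
    rw [map_mul, hσσ] at e2
    rw [show ψ' (μ * y) = -ψ y from (hμ y).symm]
    linear_combination e2 - e1 + e3
  have hμ0 : μ ≠ 0 := fun e => hψ0 (LinearMap.ext fun y => by
    have := hμ y
    rw [e, zero_mul, map_zero] at this
    simpa using this)
  obtain ⟨l, hl0, hl⟩ := Forms.exists_norm_of_fixed (σ : AdjoinRoot f →+* AdjoinRoot f) hσσ
    ⟨x, fun e => hC.2 (by
      have e' : x⁻¹ = x := hσr.symm.trans e
      calc x * x = x⁻¹ * x := by rw [e']
        _ = 1 := inv_mul_cancel₀ (Forms.cyclic_root_ne_zero (a := a) hφi hφ))⟩ hμσ hμ0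
  set Φ : AdjoinRoot f →ₗ[F] V := φ + φ'.comp (LinearMap.mulLeft F l)
  have horth : LinearMap.range φ' ≤ B.orthogonal (LinearMap.range φ) :=
    hφ'U.trans (hU'.trans (B.orthogonal_le hφU))
  have hdisj : LinearMap.range φ ⊓ LinearMap.range φ' = ⊥ :=
    le_bot_iff.1 ((inf_le_inf_left _ horth).trans (nd_isCompl hA hφn).inf_eq_bot.le)
  have hrange : ∀ {ψ : AdjoinRoot f →ₗ[F] V}, Function.Injective ψ → finrank F (LinearMap.range ψ) = i := fun hψ => by
    rw [LinearMap.finrank_range_of_inj hψ, (AdjoinRoot.powerBasis hfi.ne_zero).finrank, AdjoinRoot.powerBasis_dim, hdeg]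
  have hΦi : Function.Injective Φ := (injective_iff_map_eq_zero _).2 fun y hy => by
    have hm : φ y ∈ LinearMap.range φ ⊓ LinearMap.range φ' :=
      ⟨⟨y, rfl⟩, ⟨-(l * y), by rw [map_neg]; exact (eq_neg_of_add_eq_zero_left hy).symm⟩⟩
    rw [hdisj, Submodule.mem_bot] at hm
    exact hφi (hm.trans (map_zero φ).symm)
  refine ⟨LinearMap.range φ ⊔ LinearMap.range φ', sup_le_sup hφU hφ'U, fun z hz => ?_, nd_sup hA hφn hφ'n horth, ?_,
    LinearMap.range Φ, ?_, ?_, ?_, hrange hΦi⟩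
  · obtain ⟨y, hy, w, hw, rfl⟩ := Submodule.mem_sup.1 hz
    rw [map_add]
    exact add_mem (Submodule.mem_sup_left (range_invariant hφ y hy)) (Submodule.mem_sup_right (range_invariant hφ' w hw))
  · rw [SubspaceDerange.finrank_sup_of_disjoint hdisj, hrange hφi, hrange hφ'i, two_mul]
  · rintro _ ⟨y, rfl⟩
    exact add_mem (Submodule.mem_sup_left ⟨y, rfl⟩) (Submodule.mem_sup_right ⟨l * y, rfl⟩)
  · refine range_invariant (φ := Φ) fun P y => ?_
    simp only [Φ, LinearMap.add_apply, LinearMap.comp_apply, LinearMap.mulLeft_apply, map_add]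
    rw [mul_left_comm, hφ, hφ']
  · rintro _ ⟨y, rfl⟩ _ ⟨z, rfl⟩
    simp only [Φ, LinearMap.add_apply, LinearMap.comp_apply, LinearMap.mulLeft_apply, map_add]
    rw [show B (φ' (l * y)) (φ z) = 0 from hA.isRefl _ _ (horth ⟨_, rfl⟩ _ ⟨z, rfl⟩),
      show B (φ y) (φ' (l * z)) = 0 from horth ⟨_, rfl⟩ _ ⟨y, rfl⟩, k1, k1']
    have e := hμ (y * σ z)
    rw [← hl, RingHom.coe_coe] at e
    have e' : l * y * σ (l * z) = l * σ l * (y * σ z) := by rw [map_mul]; ring
    show ψ (y * σ z) + 0 + (0 + ψ' (l * y * σ (l * z))) = 0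
    rw [e']
    simp only [LinearMap.neg_apply] at e
    linear_combination (-1 : F) * e

/-- An invariant isotropic subspace inside an invariant nondegenerate subspace of twice its dimension. -/
theorem exists_ti_atom {t : ℕ} (ht : t * i = r - 1) {R : Submodule F V} (hR : ∀ v ∈ R, T v ∈ R) (hRn : Nd B R)
    (hfree : R ⊓ LinearMap.ker (T - 1) = ⊥) (hbig : if Even i then t * i < finrank F R else 0 < finrank F R) :
    ∃ Z ≤ R, (∀ z ∈ Z, T z ∈ Z) ∧ Nd B Z ∧ finrank F Z = 2 * i ∧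
      ∃ X ≤ Z, (∀ x ∈ X, T x ∈ X) ∧ TI B X ∧ finrank F X = i := by
  classical
  obtain ⟨hi0, -⟩ := SubspaceDerange.dvd_pow_sub_one hrq hi
  have hinj : Function.Injective T := fun a b h => by
    have := congrArg (T ^ (r - 1)) h
    rwa [← Module.End.mul_apply, ← Module.End.mul_apply, ← pow_succ,
      Nat.sub_add_cancel (Fact.out : r.Prime).one_lt.le, hT, Module.End.one_apply, Module.End.one_apply] at this
  by_cases hie : Even i
  swap
  · rw [if_neg hie] at hbig
    obtain ⟨Z, hZR, hZi, hZn, hZd⟩ := SympStructure.exists_atom hA hTB hT hrF hr2 hq hrq hi (c := 2 * i)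
      (by rw [if_neg hie]) hR hRn hfree (fun e => by rw [e, finrank_bot] at hbig; omega)
    have hfreeZ : Z ⊓ LinearMap.ker (T - 1) = ⊥ := le_bot_iff.1 (hfree ▸ inf_le_inf_right _ hZR)
    obtain ⟨U, -, hUZ, hUi, hUd⟩ := SubspaceDerange.step hq hrq hi hT hZi hfreeZ (U := ⊥)
      (fun v hv => by rw [Submodule.mem_bot] at hv; simp [hv]) bot_le (by rw [finrank_bot]; omega)
    rw [finrank_bot, zero_add] at hUd
    refine ⟨Z, hZR, hZi, hZn, hZd, U, hUZ, hUi, fun a ha b hb => ?_, hUd⟩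
    set S := U ⊓ B.orthogonal U
    have hS : ∀ v ∈ S, T v ∈ S := fun v hv => ⟨hUi v hv.1, orth_invariant hTB hinj hUi v hv.2⟩
    have h1 := SubspaceDerange.dim_mod hq hrq hi hT hS
    rw [show S ⊓ LinearMap.ker (T - 1) = ⊥ from le_bot_iff.1 (hfreeZ ▸ inf_le_inf_right _ (inf_le_left.trans hUZ)),
      finrank_bot] at h1
    have hS0 : S ≠ ⊥ := fun e => hie (hUd ▸ nd_even hA (fun w hw h => by
      have : w ∈ S := ⟨hw, fun y hy => hA.isRefl _ _ (h y hy)⟩
      rwa [e, Submodule.mem_bot] at this))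
    have h2 := Nat.le_of_dvd (Nat.pos_of_ne_zero fun e => hS0 (Submodule.finrank_eq_zero.1 e)) (Nat.modEq_zero_iff_dvd.1 h1)
    have hSU : S = U := Submodule.eq_of_le_of_finrank_le inf_le_left (hUd ▸ h2)
    exact (hSU ▸ hb : b ∈ S).2 a ha
  rw [if_pos hie] at hbig
  suffices key : ∀ u, u * i ≤ finrank F R → (∃ Z ≤ R, (∀ z ∈ Z, T z ∈ Z) ∧ Nd B Z ∧ finrank F Z = 2 * i ∧
      ∃ X ≤ Z, (∀ x ∈ X, T x ∈ X) ∧ TI B X ∧ finrank F X = i) ∨
      ∃ W ≤ R, (∀ w ∈ W, T w ∈ W) ∧ Nd B W ∧ finrank F W = u * i ∧ ∃ S : Finset F[X], S.card = u ∧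
        ∀ f ∈ S, Irreducible f ∧ f.Monic ∧ f ∣ cyclotomic r F ∧ f.natDegree = i ∧ Line B T f W by
    have hdvdR : i ∣ finrank F R := by
      have h := SubspaceDerange.dim_mod hq hrq hi hT hR
      rw [hfree, finrank_bot] at h
      exact Nat.modEq_zero_iff_dvd.1 h
    obtain ⟨s, hs⟩ := hdvdR
    have hts : t < s := Nat.lt_of_mul_lt_mul_left (a := i) (by rw [← hs, mul_comm]; exact hbig)
    rcases key (t + 1) (by rw [hs, mul_comm i s]; exact Nat.mul_le_mul_right i hts) with h | ⟨W, -, -, -, -, S, hSc, hS⟩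
    · exact h
    · exfalso
      have hprod : (∏ f ∈ S, f) ∣ cyclotomic r F := Finset.prod_dvd_of_coprime (fun f hf g hg hne =>
        (hS f hf).1.coprime_iff_not_dvd.2 fun hd => hne
          (eq_of_monic_of_associated (hS f hf).2.1 (hS g hg).2.1 ((hS f hf).1.associated_of_dvd (hS g hg).1 hd)))
        fun f hf => (hS f hf).2.2.1
      have hle := natDegree_le_of_dvd hprod (cyclotomic_ne_zero r F)
      rw [natDegree_prod_of_monic _ _ (fun f hf => (hS f hf).2.1), Finset.sum_congr rfl (fun f hf => (hS f hf).2.2.2.1),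
        Finset.sum_const, hSc, smul_eq_mul, natDegree_cyclotomic, Nat.totient_prime Fact.out, ← ht] at hle
      have := Nat.le_of_mul_le_mul_right hle hi0
      omega
  intro u
  induction u with
  | zero => exact fun _ => Or.inr ⟨⊥, bot_le, fun w hw => by rw [Submodule.mem_bot] at hw; simp [hw],
      fun w hw _ => (Submodule.mem_bot F).1 hw, by simp, ∅, rfl, by simp⟩
  | succ u ih =>
    intro hu
    rw [show (u + 1) * i = u * i + i from Nat.succ_mul u i] at hu ⊢
    rcases ih (by omega) with h | ⟨W, hWR, hW, hWn, hWd, S, hSc, hS⟩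
    · exact Or.inl h
    obtain ⟨hYn, hYd, -⟩ := nd_split hA hWn hRn hWR
    set Y := R ⊓ B.orthogonal W
    obtain ⟨f, hfi, hfm, hfd, hfdeg, φ, hφi, hφ, hφY, hφn⟩ := exists_line hA hTB hT hrF hr2 hq hrq hi hie (W := Y)
      (fun v hv => ⟨hR v hv.1, orth_invariant hTB hinj hW v hv.2⟩) hYn
      (le_bot_iff.1 (hfree ▸ inf_le_inf_right _ inf_le_left)) (fun e => by rw [e, finrank_bot] at hYd; omega)
    by_cases hfS : f ∈ S
    · obtain ⟨Z, hZ, hrest⟩ := exists_pair hA hTB hT hrF hr2 hq hrq hi hfi hfdeg (U := W) (U' := Y) inf_le_right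
        (hS f hfS).2.2.2.2 ⟨φ, hφi, hφ, hφY, hφn⟩
      exact Or.inl ⟨Z, hZ.trans (sup_le hWR inf_le_left), hrest⟩
    · haveI := Fact.mk hfi
      haveI : Module.Finite F (AdjoinRoot f) := (AdjoinRoot.powerBasis hfi.ne_zero).finite
      refine Or.inr ⟨W ⊔ LinearMap.range φ, sup_le hWR (hφY.trans inf_le_left), fun v hv => ?_,
        nd_sup hA hWn hφn (hφY.trans inf_le_right), ?_, insert f S, by rw [Finset.card_insert_of_notMem hfS, hSc], ?_⟩
      · obtain ⟨y, hy, w, hw, rfl⟩ := Submodule.mem_sup.1 hv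
        rw [map_add]
        exact add_mem (Submodule.mem_sup_left (hW y hy)) (Submodule.mem_sup_right (range_invariant hφ w hw))
      · rw [SubspaceDerange.finrank_sup_of_disjoint (le_bot_iff.1 ((inf_le_inf_left _ (hφY.trans inf_le_right)).trans
          (nd_isCompl hA hWn).inf_eq_bot.le)), hWd, LinearMap.finrank_range_of_inj hφi,
          (AdjoinRoot.powerBasis hfi.ne_zero).finrank, AdjoinRoot.powerBasis_dim, hfdeg]
      · intro g hg
        rcases Finset.mem_insert.1 hg with rfl | hg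
        · exact ⟨hfi, hfm, hfd, hfdeg, φ, hφi, hφ, le_sup_right, hφn⟩
        · obtain ⟨a, b, c, d, ψ, hψi, hψ, hψW, hψn⟩ := hS g hg
          exact ⟨a, b, c, d, ψ, hψi, hψ, hψW.trans le_sup_left, hψn⟩

/-- Invariant isotropic subspaces in the free part. -/
theorem exists_ti_sub {t : ℕ} (ht : t * i = r - 1) : ∀ (j : ℕ) (R : Submodule F V), (∀ v ∈ R, T v ∈ R) → Nd B R →
    R ⊓ LinearMap.ker (T - 1) = ⊥ → 2 * (j * i) ≤ finrank F R →
    (j = 0 ∨ Odd i ∨ 2 * (j * i) + t * i ≤ finrank F R + i) →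
    ∃ X ≤ R, (∀ x ∈ X, T x ∈ X) ∧ TI B X ∧ finrank F X = j * i := by
  intro j
  induction j with
  | zero => exact fun R _ _ _ _ _ => ⟨⊥, bot_le, fun v hv => by rw [Submodule.mem_bot] at hv; simp [hv],
      fun u hu v _ => by rw [Submodule.mem_bot] at hu; simp [hu], by simp⟩
  | succ j ih =>
    intro R hR hRn hfree hle hcond
    obtain ⟨hi0, -⟩ := SubspaceDerange.dvd_pow_sub_one hrq hi
    have hinj : Function.Injective T := fun a b h => by
      have := congrArg (T ^ (r - 1)) h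
      rwa [← Module.End.mul_apply, ← Module.End.mul_apply, ← pow_succ,
        Nat.sub_add_cancel (Fact.out : r.Prime).one_lt.le, hT, Module.End.one_apply, Module.End.one_apply] at this
    rw [show (j + 1) * i = j * i + i from Nat.succ_mul j i] at hle hcond ⊢
    obtain ⟨Z, hZR, hZi, hZn, hZd, U, hUZ, hUi, hUti, hUd⟩ := exists_ti_atom hA hTB hT hrF hr2 hq hrq hi ht hR hRn hfree
      (by
        split_ifs with hie
        · rcases hcond with h | h | h
          · exact absurd h (Nat.succ_ne_zero j)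
          · exact absurd hie (Nat.not_even_iff_odd.2 h)
          · omega
        · omega)
    obtain ⟨hYn, hYd, -⟩ := nd_split hA hZn hRn hZR
    set Y := R ⊓ B.orthogonal Z
    obtain ⟨X, hXY, hXi, hXti, hXd⟩ := ih Y (fun v hv => ⟨hR v hv.1, orth_invariant hTB hinj hZi v hv.2⟩) hYn
      (le_bot_iff.1 (hfree ▸ inf_le_inf_right _ inf_le_left)) (by omega) (by
        rcases hcond with h | h | h
        · exact absurd h (Nat.succ_ne_zero j)
        · exact Or.inr (Or.inl h)
        · exact Or.inr (Or.inr (by omega)))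
    have hXo : X ≤ B.orthogonal Z := hXY.trans inf_le_right
    refine ⟨U ⊔ X, sup_le (hUZ.trans hZR) (hXY.trans inf_le_left), fun v hv => ?_,
      ti_sup hA hUti hXti (hXo.trans (B.orthogonal_le hUZ)), ?_⟩
    · obtain ⟨y, hy, w, hw, rfl⟩ := Submodule.mem_sup.1 hv
      rw [map_add]
      exact add_mem (Submodule.mem_sup_left (hUi y hy)) (Submodule.mem_sup_right (hXi w hw))
    · rw [SubspaceDerange.finrank_sup_of_disjoint (le_bot_iff.1 ((inf_le_inf hUZ hXo).trans
        (nd_isCompl hA hZn).inf_eq_bot.le)), hUd, hXd, add_comm]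

end Isometry

end Cfsg.Agent.GeomClasses.SympIsotropicOdd
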