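import Cfsg.Agent.GeomClasses.SUIsotropic
import Cfsg.Agent.GeomClasses.SympIsotropicOdd

/-!
# Unitary isometries with pairwise different atoms
-/

set_option autoImplicit false
set_option linter.unusedSectionVars false

namespace Cfsg.Agent.GeomClasses.SUIsotropicDerange

open Module Polynomial Cfsg.Agent.Forms Cfsg.Agent.GeomClasses.Unitary Cfsg.Agent.GeomClasses.SUIsotropic

variable {F : Type*} [Field F] [Fintype F] {q n : ℕ}

local notation "Vn" => (Fin n → F)
local notation "hh" => Cfsg.hermForm n F q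

/-- A free block of order `r` on a given subspace. -/
theorem exists_block (hF : Fintype.card F = q ^ 2) {r b : ℕ} [Fact r.Prime] (hrF : (r : F) ≠ 0) (hrq : ¬ r ∣ q)
    (hb : b = orderOf ((q ^ 2 : ℕ) : ZMod r)) (hE : (-(q : ZMod r)) ^ b = 1) {W : Submodule F Vn} (hWn : NonDeg q W)
    (hWd : finrank F W = b) :
    ∃ E : Module.End F Vn, E ^ r = 1 ∧ (∀ u v, hh (E u) (E v) = hh u v) ∧ (∀ w ∈ W, E w ∈ W) ∧
      (∀ p ∈ perp (hermB n hF) W, E p = p) ∧ W ⊓ LinearMap.ker (E - 1) = ⊥ := by
  classical
  have hr : r.Prime := Fact.out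
  have hrQ : ¬ r ∣ q ^ 2 := fun h => hrq (hr.dvd_of_dvd_pow h)
  obtain ⟨hb0, -⟩ := SubspaceDerange.dvd_pow_sub_one hrQ hb
  have hH := (isHerm_std (n := n) hF).restrict (nonDeg_B hF hWn)
  have hdvd : r ∣ Nat.card (isomGroup (resForm (hermB n hF) W) (fun v => resForm (hermB n hF) W v v)) := by
    rw [hH.card_isom hF, hWd]
    refine dvd_mul_of_dvd_right ((dvd_trans ?_) (Finset.dvd_prod_of_mem _ (Finset.mem_range.2 (show b - 1 < b by omega)))) _
    have hq1 : 1 < q := two_le_q hF
    rw [← ZMod.natCast_eq_zero_iff]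
    obtain ⟨b', rfl⟩ : ∃ b', b = b' + 1 := ⟨b - 1, by omega⟩
    rw [Nat.add_sub_cancel]
    split_ifs with he
    · rw [neg_pow, (Even.add_one he).neg_one_pow] at hE
      push_cast
      linear_combination -hE
    · rw [neg_pow, (Nat.even_add_one.2 he).neg_one_pow, one_mul] at hE
      rw [Nat.cast_sub (Nat.one_le_pow _ _ (by omega)), Nat.cast_pow, Nat.cast_one, hE, sub_self]
  obtain ⟨⟨e, he⟩, hord⟩ := exists_prime_orderOf_dvd_card' r hdvd
  have hc' := isCompl_perp' hF hWn
  set P := perp (hermB n hF) W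
  set E : Module.End F Vn := LinearMap.ofIsCompl hc' (W.subtype ∘ₗ e.toLinearMap) P.subtype
  have hel : ∀ w : W, E w = ((e w : W) : Vn) := fun w => by simp [E]
  have her : ∀ w : P, E w = (w : Vn) := fun w => by simp [E]
  have hsplit : ∀ v : Vn, ∃ (w : W) (p : P), v = (w : Vn) + p := fun v => by
    obtain ⟨a, ha, a', ha', h⟩ := Submodule.mem_sup.1 (show v ∈ W ⊔ P by rw [hc'.sup_eq_top]; trivial)
    exact ⟨⟨a, ha⟩, ⟨a', ha'⟩, h.symm⟩
  have horth : ∀ (w : Vn) (p : Vn), w ∈ W → p ∈ P → hh w p = 0 ∧ hh p w = 0 := fun w p hw hp =>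
    ⟨hh_comm_zero hF ((mem_perp_iff hF).1 hp w hw), (mem_perp_iff hF).1 hp w hw⟩
  have hwi : ∀ w ∈ W, E w ∈ W := fun w hw => by rw [hel ⟨w, hw⟩]; exact (e ⟨w, hw⟩).2
  have hepow : ∀ (l : ℕ) (w : W) (p : P), (E ^ l) ((w : Vn) + p) = (((e ^ l) w : W) : Vn) + p := by
    intro l
    induction l with
    | zero => intro w p; rfl
    | succ l ih =>
      intro w p
      rw [pow_succ', Module.End.mul_apply, ih, map_add, hel, her, pow_succ', LinearEquiv.mul_apply]
  have heB : ∀ u v, hh (E u) (E v) = hh u v := fun u v => by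
    obtain ⟨w, p, rfl⟩ := hsplit u
    obtain ⟨w', p', rfl⟩ := hsplit v
    rw [map_add, map_add, hel, hel, her, her]
    simp only [hh_add_left hF, hh_add_right hF]
    rw [(horth _ _ (e w).2 p'.2).1, (horth _ _ (e w').2 p.2).2, (horth _ _ w.2 p'.2).1, (horth _ _ w'.2 p.2).2]
    congr 2
    exact he.1 w' w
  have her1 : E ^ r = 1 := LinearMap.ext fun v => by
    obtain ⟨w, p, rfl⟩ := hsplit v
    rw [hepow]
    have h1 := congrArg Subtype.val ((orderOf_eq_iff hr.pos).1 hord).1
    simp only [SubgroupClass.coe_pow, OneMemClass.coe_one] at h1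
    rw [h1]
    rfl
  refine ⟨E, her1, heB, hwi, fun p hp => her ⟨p, hp⟩, ?_⟩
  have hmod := SubspaceDerange.dim_mod hF hrQ hb her1 hwi
  by_contra hK
  set Kf := W ⊓ LinearMap.ker (E - 1)
  have hK0 : finrank F Kf ≠ 0 := fun h => hK (Submodule.finrank_eq_zero.1 h)
  rw [hWd, Nat.ModEq, Nat.mod_self] at hmod
  have hKe : Kf = W := Submodule.eq_of_le_of_finrank_le inf_le_left
    (hWd ▸ Nat.le_of_dvd (Nat.pos_of_ne_zero hK0) (Nat.dvd_of_mod_eq_zero hmod.symm))
  have he1 : (⟨e, he⟩ : isomGroup (resForm (hermB n hF) W) (fun v => resForm (hermB n hF) W v v)) = 1 := by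
    refine Subtype.ext (LinearEquiv.ext fun x => Subtype.ext ?_)
    have hx : (x : Vn) ∈ Kf := hKe.symm ▸ x.2
    rw [← hel]
    exact sub_eq_zero.1 hx.2
  rw [he1, orderOf_one] at hord
  exact hr.one_lt.ne hord

/-- Some power of a free block realises a given cyclotomic factor. -/
theorem exists_power {E : Module.End F Vn} {r b : ℕ} [Fact r.Prime] (hF : Fintype.card F = q ^ 2)
    (hrF : (r : F) ≠ 0) (hrq : ¬ r ∣ q) (hb : b = orderOf ((q ^ 2 : ℕ) : ZMod r)) (hE : E ^ r = 1)
    {W : Submodule F Vn} (hW : ∀ w ∈ W, E w ∈ W) (hfree : W ⊓ LinearMap.ker (E - 1) = ⊥) (hWd : finrank F W = b)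
    {f : F[X]} (hf : f ∣ cyclotomic r F) (hfi : Irreducible f) (hfm : f.Monic) :
    ∃ a : ℕ, ∀ w ∈ W, aeval (E ^ a) f w = 0 := by
  classical
  have hr : r.Prime := Fact.out
  have hrQ : ¬ r ∣ q ^ 2 := fun h => hrq (hr.dvd_of_dvd_pow h)
  obtain ⟨hb0, -⟩ := SubspaceDerange.dvd_pow_sub_one hrQ hb
  set G : F[X] := ∏ a ∈ Finset.range r, f.comp (X ^ a)
  let K := AlgebraicClosure F
  haveI : NeZero (r : K) := ⟨fun h => hrF ((algebraMap F K).injective (by rw [map_natCast, map_zero]; exact h))⟩
  have hdvd : cyclotomic r F ∣ G := by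
    rw [← Polynomial.map_dvd_map' (algebraMap F K), map_cyclotomic]
    obtain ⟨x, hx⟩ := IsAlgClosed.exists_root (f.map (algebraMap F K)) (by
      rw [degree_map]; exact (degree_pos_of_irreducible hfi).ne')
    have hxp : IsPrimitiveRoot x r := by
      rw [← isRoot_cyclotomic_iff, ← map_cyclotomic r (algebraMap F K)]
      exact hx.dvd (Polynomial.map_dvd _ hf)
    obtain ⟨ζ, hζ⟩ : ∃ ζ : K, IsPrimitiveRoot ζ r := ⟨x, hxp⟩
    rw [cyclotomic_eq_prod_X_sub_primitiveRoots hζ]
    refine Finset.prod_dvd_of_coprime (fun a _ a' _ hne => isCoprime_X_sub_C_of_isUnit_sub (sub_ne_zero.2 hne).isUnit)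
      fun y hy => ?_
    have hyp : IsPrimitiveRoot y r := (mem_primitiveRoots hr.pos).1 hy
    obtain ⟨a, ha, hax⟩ := hyp.eq_pow_of_pow_eq_one hxp.pow_eq_one
    rw [dvd_iff_isRoot, IsRoot.def, Polynomial.map_prod, eval_prod]
    refine Finset.prod_eq_zero (Finset.mem_range.2 ha) ?_
    rw [Polynomial.map_comp, Polynomial.map_pow, map_X, eval_comp, eval_pow, eval_X, hax]
    exact hx
  have hΦ : ∀ w ∈ W, aeval E (cyclotomic r F) w = 0 := fun w hw => by
    have hmem : aeval E (cyclotomic r F) w ∈ W ⊓ LinearMap.ker (E - 1) := ⟨SubspaceDerange.aeval_mem hW _ hw, by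
      rw [SetLike.mem_coe, LinearMap.mem_ker, show E - 1 = aeval E (X - 1 : F[X]) by simp, ← Module.End.mul_apply, ← map_mul,
        mul_comm, cyclotomic_prime_mul_X_sub_one F r]
      simp [hE]⟩
    rwa [hfree, Submodule.mem_bot] at hmem
  by_contra hno
  push_neg at hno
  have hinj : ∀ S : Finset ℕ, ∀ w ∈ W, aeval E (∏ a ∈ S, f.comp (X ^ a)) w = 0 → w = 0 := by
    intro S
    induction S using Finset.induction_on with
    | empty => intro w _ h; simpa using h
    | insert a S haS ih =>
      intro w hw h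
      rw [Finset.prod_insert haS, mul_comm, map_mul, Module.End.mul_apply] at h
      have h1 := ih _ (SubspaceDerange.aeval_mem hW _ hw) h
      rw [Polynomial.aeval_comp, map_pow, aeval_X] at h1
      by_contra hw0
      set A := W ⊓ LinearMap.ker (aeval (E ^ a) f)
      have hmem : w ∈ A := ⟨hw, h1⟩
      have hcomm : Commute (aeval (E ^ a) f) E := by
        have h2 := (Commute.all (f.comp (X ^ a)) X).map (aeval E)
        rwa [Polynomial.aeval_comp, map_pow, aeval_X] at h2
      have hAi : ∀ v ∈ A, E v ∈ A := fun v hv => ⟨hW v hv.1, by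
        rw [SetLike.mem_coe, LinearMap.mem_ker, ← Module.End.mul_apply, hcomm.eq, Module.End.mul_apply,
          show aeval (E ^ a) f v = 0 from hv.2, map_zero]⟩
      have h3 := SubspaceDerange.dim_mod hF hrQ hb hE hAi
      rw [show A ⊓ LinearMap.ker (E - 1) = ⊥ from le_bot_iff.1 (hfree ▸ inf_le_inf_right _ inf_le_left), finrank_bot] at h3
      have hAW : A = W := Submodule.eq_of_le_of_finrank_le inf_le_left (hWd ▸ Nat.le_of_dvd
        (Nat.pos_of_ne_zero fun e => hw0 (by rwa [Submodule.finrank_eq_zero.1 e, Submodule.mem_bot] at hmem))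
        (Nat.modEq_zero_iff_dvd.1 h3))
      obtain ⟨v, hv, hv0⟩ := hno a
      exact hv0 (hAW.symm ▸ hv : v ∈ A).2
  obtain ⟨w, hw, hw0⟩ := (Submodule.ne_bot_iff W).1 (fun e => by rw [e, finrank_bot] at hWd; omega)
  obtain ⟨R, hR⟩ := hdvd
  exact hw0 (hinj _ w hw (by rw [show (∏ a ∈ Finset.range r, f.comp (X ^ a)) = G from rfl, hR, mul_comm, map_mul,
    Module.End.mul_apply, hΦ w hw, map_zero]))

/-- An isometry whose atoms are pairwise different. -/
theorem exists_derangement (hF : Fintype.card F = q ^ 2) {p : ℕ} [Fact p.Prime] [CharP F p] {r b : ℕ} [Fact r.Prime]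
    (hrp : r ≠ p) (hrF : (r : F) ≠ 0) (hrq : ¬ r ∣ q) (hb : b = orderOf ((q ^ 2 : ℕ) : ZMod r))
    (hE : (-(q : ZMod r)) ^ b = 1) {u : ℕ} (hu : u * b ≤ r - 1) (hun : u * b ≤ n) :
    ∃ T : Module.End F Vn, T ^ r = 1 ∧ (∀ v w, hh (T v) (T w) = hh v w) ∧
      finrank F (LinearMap.ker (T - 1)) = n - u * b ∧
      ∀ W : Submodule F Vn, (∀ w ∈ W, T w ∈ W) → TI q W → 2 * finrank F W + u * b ≤ n := by
  classical
  have hr : r.Prime := Fact.out
  have hrQ : ¬ r ∣ q ^ 2 := fun h => hrq (hr.dvd_of_dvd_pow h)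
  obtain ⟨hb0, -⟩ := SubspaceDerange.dvd_pow_sub_one hrQ hb
  obtain ⟨S, hSc, hS⟩ := SympIsotropicOdd.exists_factors (F := F) hF hrp hb hu
  suffices key : ∀ S' ⊆ S, S'.card * b ≤ n → ∃ T : Module.End F Vn, T ^ r = 1 ∧
      (∀ v w, hh (T v) (T w) = hh v w) ∧ finrank F (LinearMap.ker (T - 1)) = n - S'.card * b ∧
      aeval T ((X - 1) * ∏ f ∈ S', f) = 0 ∧
      ∀ W : Submodule F Vn, (∀ w ∈ W, T w ∈ W) → TI q W → W ≤ LinearMap.ker (T - 1) by
    obtain ⟨T, hT, hTB, hker, -, hW⟩ := key S subset_rfl (hSc.symm ▸ hun)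
    rw [hSc] at hker
    refine ⟨T, hT, hTB, hker, fun W hWi hWt => ?_⟩
    have hKn : NonDeg q (LinearMap.ker (T - 1)) := by
      have := SUStructure.nd_fixed hF hTB hT hrF (W := ⊤) (fun _ _ => trivial) (SUStructure.nonDeg_top hF)
      rwa [top_inf_eq] at this
    have := ti_le hF hKn (hW W hWi hWt) hWt
    omega
  intro S'
  induction S' using Finset.induction_on with
  | empty => exact fun _ _ => ⟨1, one_pow r, fun v w => rfl, by
      rw [sub_self, LinearMap.ker_zero, finrank_top, Module.finrank_fin_fun]; simp, by simp,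
      fun W _ _ v _ => by simp⟩
  | insert f S' hfS ih =>
    intro hsub hcard
    rw [Finset.card_insert_of_notMem hfS, Nat.succ_mul] at hcard ⊢
    obtain ⟨T, hT, hTB, hker, hkill, hWK⟩ := ih (fun g hg => hsub (Finset.mem_insert_of_mem hg)) (by omega)
    obtain ⟨hfi, hfm, hfd, hfdeg⟩ := hS f (hsub (Finset.mem_insert_self f S'))
    have hinjT : Function.Injective T := fun a a' h => by
      have := congrArg (T ^ (r - 1)) h
      rwa [← Module.End.mul_apply, ← Module.End.mul_apply, ← pow_succ, Nat.sub_add_cancel hr.one_lt.le, hT,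
        Module.End.one_apply, Module.End.one_apply] at this
    have hKn : NonDeg q (LinearMap.ker (T - 1)) := by
      have := SUStructure.nd_fixed hF hTB hT hrF (W := ⊤) (fun _ _ => trivial) (SUStructure.nonDeg_top hF)
      rwa [top_inf_eq] at this
    obtain ⟨Y, hYK, hYn, hYd⟩ := SUStructure.exists_nd_sub hF hKn b (by omega)
    obtain ⟨E₀, hE₀, hE₀B, hE₀Y, hE₀P, hE₀f⟩ := exists_block hF hrF hrq hb hE hYn hYd
    obtain ⟨a, ha⟩ := exists_power hF hrF hrq hb hE₀ hE₀Y hE₀f hYd hfd hfi hfm
    set P := perp (hermB n hF) Y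
    have hall : ∀ k : ℕ, (∀ v w, hh ((E₀ ^ k) v) ((E₀ ^ k) w) = hh v w) ∧ (∀ w ∈ Y, (E₀ ^ k) w ∈ Y) ∧
        ∀ x ∈ P, (E₀ ^ k) x = x := by
      intro k
      induction k with
      | zero => exact ⟨fun v w => rfl, fun w hw => hw, fun x _ => rfl⟩
      | succ k ihk =>
        simp only [pow_succ', Module.End.mul_apply]
        exact ⟨fun v w => by rw [hE₀B, ihk.1], fun w hw => hE₀Y _ (ihk.2.1 w hw),
          fun x hx => by rw [ihk.2.2 x hx, hE₀P x hx]⟩
    obtain ⟨hEB, hEY, hEP⟩ := hall a
    set E := E₀ ^ a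
    have hev1 : f.eval 1 ≠ 0 := fun h => by
      obtain ⟨R, hR⟩ := hfd
      have := congrArg (fun P => P.eval (1 : F)) hR
      simp [h, eval_one_cyclotomic_prime, hrF] at this
    have hEfree : ∀ y ∈ Y, E y = y → y = 0 := by
      intro y hy hfix
      have hQ : ∀ Q : F[X], aeval E Q y = Q.eval 1 • y := by
        intro Q
        induction Q using Polynomial.induction_on with
        | C c => simp [Module.algebraMap_end_apply]
        | add A B hA hB => simp [hA, hB, add_smul]
        | monomial k c ihk =>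
          rw [pow_succ, ← mul_assoc, map_mul, aeval_X, Module.End.mul_apply, hfix, ihk]
          simp
      have h := hQ f
      rw [ha y hy] at h
      exact (smul_eq_zero.1 h.symm).resolve_left hev1
    have hTY : ∀ y ∈ Y, T y = y := fun y hy => sub_eq_zero.1 (hYK hy)
    have hTP : ∀ p ∈ P, T p ∈ P := SUStructure.orth_invariant hF hTB hinjT (fun w hw => by rwa [hTY w hw])
    set T' := T * E with hT'
    have hl : ∀ y ∈ Y, T' y = E y := fun y hy => by rw [hT', Module.End.mul_apply, hTY _ (hEY y hy)]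
    have hr' : ∀ p ∈ P, T' p = T p := fun p hp => by rw [hT', Module.End.mul_apply, hEP p hp]
    have hc' := isCompl_perp' hF hYn
    have hsplit : ∀ v : Vn, ∃ y ∈ Y, ∃ p ∈ P, v = y + p := fun v => by
      obtain ⟨y, hy, p, hp, h⟩ := Submodule.mem_sup.1 (show v ∈ Y ⊔ P by rw [hc'.sup_eq_top]; trivial)
      exact ⟨y, hy, p, hp, h.symm⟩
    have haY : ∀ (A : F[X]), ∀ y ∈ Y, aeval T' A y = aeval E A y := by
      intro A
      induction A using Polynomial.induction_on with
      | C c => intro y _; simp [Module.algebraMap_end_apply]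
      | add A B hA hB => intro y hy; simp [hA y hy, hB y hy]
      | monomial k c ihk =>
        intro y hy
        rw [pow_succ, ← mul_assoc]
        generalize Polynomial.C c * X ^ k = A at ihk ⊢
        rw [map_mul, map_mul, aeval_X, aeval_X, Module.End.mul_apply, hl y hy, Module.End.mul_apply, ihk _ (hEY y hy)]
    have haP : ∀ (A : F[X]), ∀ p ∈ P, aeval T' A p = aeval T A p := by
      intro A
      induction A using Polynomial.induction_on with
      | C c => intro y _; simp [Module.algebraMap_end_apply]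
      | add A B hA hB => intro y hy; simp [hA y hy, hB y hy]
      | monomial k c ihk =>
        intro y hy
        rw [pow_succ, ← mul_assoc]
        generalize Polynomial.C c * X ^ k = A at ihk ⊢
        rw [map_mul, map_mul, aeval_X, aeval_X, Module.End.mul_apply, hr' y hy, Module.End.mul_apply, ihk _ (hTP y hy)]
    set G : F[X] := (X - 1) * ∏ g ∈ S', g with hG
    have hT'r : T' ^ r = 1 := by
      refine LinearMap.ext fun v => ?_
      obtain ⟨y, hy, p, hp, rfl⟩ := hsplit v
      have h1 := haY (X ^ r) y hy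
      have h2 := haP (X ^ r) p hp
      simp only [map_pow, aeval_X] at h1 h2
      rw [map_add, h1, h2, hT, show E ^ r = 1 by rw [← pow_mul, mul_comm, pow_mul, hE₀, one_pow]]
      rfl
    refine ⟨T', hT'r, fun v w => by rw [hT', Module.End.mul_apply, Module.End.mul_apply, hTB, hEB], ?_, ?_,
      fun W hWi hWt => ?_⟩
    · have hKT : LinearMap.ker (T' - 1) = LinearMap.ker (T - 1) ⊓ P := by
        ext v
        obtain ⟨y, hy, p, hp, rfl⟩ := hsplit v
        rw [LinearMap.mem_ker, LinearMap.sub_apply, Module.End.one_apply, sub_eq_zero, map_add, hl y hy, hr' p hp,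
          Submodule.mem_inf]
        constructor
        · intro h
          have h1 : E y - y = p - T p := by linear_combination (norm := abel) h
          have h2 : E y - y ∈ Y ⊓ P := ⟨sub_mem (hEY y hy) hy, h1 ▸ sub_mem hp (hTP _ hp)⟩
          rw [hc'.inf_eq_bot, Submodule.mem_bot, sub_eq_zero] at h2
          obtain rfl := hEfree y hy h2
          simp only [map_zero, zero_add] at h ⊢
          exact ⟨by simp [h], hp⟩
        · rintro ⟨h1, h2⟩
          have hy0 : y ∈ Y ⊓ P := ⟨hy, by simpa using sub_mem h2 hp⟩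
          rw [hc'.inf_eq_bot, Submodule.mem_bot] at hy0
          subst hy0
          simp only [map_zero, zero_add] at h1 ⊢
          exact sub_eq_zero.1 h1
      rw [hKT]
      obtain ⟨-, hd, -⟩ := SUStructure.nd_split hF hYn hKn hYK
      change finrank F Y + finrank F ↥(LinearMap.ker (T - 1) ⊓ P) = _ at hd
      rw [hYd, hker] at hd
      omega
    · refine LinearMap.ext fun v => ?_
      obtain ⟨y, hy, p, hp, rfl⟩ := hsplit v
      rw [Finset.prod_insert hfS, show (X - 1) * (f * ∏ g ∈ S', g) = G * f by rw [hG]; ring, map_add,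
        haY _ y hy, haP _ p hp, map_mul, Module.End.mul_apply, ha y hy, map_zero, mul_comm G, map_mul,
        Module.End.mul_apply, hkill, LinearMap.zero_apply, map_zero, add_zero, LinearMap.zero_apply]
    · have hcop : IsCoprime f G := by
        rw [hG]
        refine IsCoprime.mul_right ?_ (IsCoprime.prod_right fun g hg => ?_)
        · refine hfi.coprime_iff_not_dvd.2 fun h => ?_
          obtain ⟨-, -, -, hdeg⟩ := hS f (hsub (Finset.mem_insert_self f S'))
          have h1 : f = X - C 1 := eq_of_monic_of_dvd_of_natDegree_le hfm (monic_X_sub_C 1) (by rwa [C_1])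
            (by rw [natDegree_X_sub_C]; omega) |>.symm
          exact hev1 (by simp [h1])
        · obtain ⟨hgi, hgm, -, -⟩ := hS g (hsub (Finset.mem_insert_of_mem hg))
          exact hfi.coprime_iff_not_dvd.2 fun hd => hfS ((eq_of_monic_of_associated hfm hgm
            (hfi.associated_of_dvd hgi hd)) ▸ hg)
      obtain ⟨c, d, hcd⟩ := hcop
      have hWP : W ≤ P := by
        intro v hv
        obtain ⟨y, hy, p, hp, rfl⟩ := hsplit v
        have hyW : y ∈ W := by
          have h1 : aeval T' (d * G) (y + p) = y := by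
            rw [map_add, haY _ y hy, haP _ p hp, show aeval T (d * G) p = 0 by rw [map_mul, Module.End.mul_apply, hkill]; simp,
              add_zero, show d * G = 1 - c * f by linear_combination hcd, map_sub, map_one, map_mul, LinearMap.sub_apply,
              Module.End.mul_apply, ha y hy, map_zero, sub_zero]
            rfl
          exact h1 ▸ SubspaceDerange.aeval_mem hWi (d * G) hv
        set A := W ⊓ Y
        have hAi : ∀ x ∈ A, T' x ∈ A := fun x hx => ⟨hWi x hx.1, by rw [hl x hx.2]; exact hEY x hx.2⟩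
        have hAf : A ⊓ LinearMap.ker (T' - 1) = ⊥ := (Submodule.eq_bot_iff _).2 fun x hx =>
          hEfree x hx.1.2 ((hl x hx.1.2).symm.trans (sub_eq_zero.1 hx.2))
        have h3 := SubspaceDerange.dim_mod hF hrQ hb hT'r hAi
        rw [hAf, finrank_bot] at h3
        have hy0 : y = 0 := by
          by_contra hne
          have hAY : A = Y := Submodule.eq_of_le_of_finrank_le inf_le_right (hYd ▸ Nat.le_of_dvd
            (Nat.pos_of_ne_zero fun e => hne (by
              have : y ∈ A := ⟨hyW, hy⟩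
              rwa [Submodule.finrank_eq_zero.1 e, Submodule.mem_bot] at this))
            (Nat.modEq_zero_iff_dvd.1 h3))
          exact hne (hYn y hy fun x hx => hWt y hyW x (hAY.symm ▸ hx : x ∈ A).1)
        rw [hy0, zero_add]
        exact hp
      intro v hv
      have h1 := hWK W (fun w hw => by rw [← hr' w (hWP hw)]; exact hWi w hw) hWt hv
      rw [LinearMap.mem_ker, LinearMap.sub_apply, hr' v (hWP hv), Module.End.one_apply]
      exact h1

/-- A diagonal isometry with different eigenvalues and determinant one. -/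
theorem exists_diag (hF : Fintype.card F = q ^ 2) {r : ℕ} [Fact r.Prime] (hr2 : r ≠ 2) (hdvd : r ∣ q + 1) {u : ℕ}
    (hu : u ≤ r - 1) (hun : u ≤ n) (hue : Even u) (hu2 : 2 ≤ u) :
    ∃ T : Module.End F Vn, T ^ r = 1 ∧ (∀ v w, hh (T v) (T w) = hh v w) ∧ LinearMap.det T = 1 ∧ (∀ e : F, T ≠ e • 1) ∧
      ∀ W : Submodule F Vn, (∀ w ∈ W, T w ∈ W) → TI q W → 2 * finrank F W + u ≤ n := by
  classical
  have hr : r.Prime := Fact.out
  have hr3 : 3 ≤ r := by have := hr.two_le; omega
  obtain ⟨h, rfl⟩ := hue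
  obtain ⟨ζ, hζ⟩ : ∃ ζ : F, IsPrimitiveRoot ζ r := by
    obtain ⟨g, hg⟩ := IsCyclic.exists_ofOrder_eq_natCard (α := Fˣ)
    rw [Nat.card_eq_fintype_card, Fintype.card_units, hF] at hg
    obtain ⟨t, ht⟩ : r ∣ q ^ 2 - 1 := hdvd.trans ⟨q - 1, by rw [← Nat.sq_sub_sq, one_pow]⟩
    have hgp : IsPrimitiveRoot (g : F) (q ^ 2 - 1) := by
      rw [IsPrimitiveRoot.coe_units_iff, ← hg]; exact IsPrimitiveRoot.orderOf g
    refine ⟨(g : F) ^ t, hgp.pow ?_ (by rw [ht, mul_comm])⟩
    have := Nat.one_lt_pow (n := 2) (by norm_num) (two_le_q hF)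
    omega
  have hh1 : ∀ i : ℕ, (i : ℕ) < h + h → i / 2 + 1 < r := fun i hi => by omega
  let ex : Fin n → ℕ := fun a => if (a : ℕ) < h + h then
    (if (a : ℕ) % 2 = 0 then (a : ℕ) / 2 + 1 else r - ((a : ℕ) / 2 + 1)) else 0
  let μ : Fin n → F := fun a => ζ ^ ex a
  let T : Module.End F Vn :=
    { toFun := fun v a => μ a * v a
      map_add' := fun u v => funext fun x => by simp [mul_add]
      map_smul' := fun a v => funext fun x => by simp [mul_left_comm] }
  have hTv : ∀ v a, T v a = μ a * v a := fun v a => rfl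
  have hexlt : ∀ a, ex a < r := fun a => by
    simp only [ex]; split_ifs <;> omega
  have hμr : ∀ a, μ a ^ r = 1 := fun a => by simp only [μ]; rw [← pow_mul, mul_comm, pow_mul, hζ.pow_eq_one, one_pow]
  have hμq : ∀ a, μ a * μ a ^ q = 1 := fun a => by
    obtain ⟨t, ht⟩ := hdvd
    rw [← pow_succ', ht, pow_mul, hμr, one_pow]
  have hμne : ∀ a b : Fin n, (a : ℕ) < h + h → μ a = μ b → a = b := by
    intro a b ha hab
    have he := hζ.pow_inj (hexlt a) (hexlt b) hab
    simp only [ex, if_pos ha] at he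
    refine Fin.ext ?_
    split_ifs at he <;> omega
  have hQ : ∀ (Q : F[X]) v a, aeval T Q v a = Q.eval (μ a) * v a := by
    intro Q
    induction Q using Polynomial.induction_on with
    | C c => intro v a; simp [Module.algebraMap_end_apply]
    | add A B hA hB => intro v a; simp [hA, hB, add_mul]
    | monomial k c ihk =>
      intro v a
      rw [pow_succ, ← mul_assoc]
      generalize Polynomial.C c * X ^ k = A at ihk ⊢
      rw [map_mul, aeval_X, Module.End.mul_apply, ihk, hTv, eval_mul, eval_X]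
      ring
  refine ⟨T, LinearMap.ext fun v => funext fun a => ?_, fun v w => ?_, ?_, fun e he => ?_, fun W hWi hWt => ?_⟩
  · have h1 := hQ (X ^ r) v a
    rw [map_pow, aeval_X, eval_pow, eval_X, hμr, one_mul] at h1
    exact h1
  · simp only [Cfsg.hermForm]
    refine Finset.sum_congr rfl fun a _ => ?_
    rw [hTv, hTv, mul_pow, mul_mul_mul_comm, hμq, one_mul]
  · rw [show T = Matrix.toLin' (Matrix.diagonal μ) from LinearMap.ext fun v => funext fun a => by
      rw [Matrix.toLin'_apply, Matrix.mulVec_diagonal, hTv], LinearMap.det_toLin', Matrix.det_diagonal]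
    have hrw : ∏ a : Fin n, μ a = ζ ^ (∑ i ∈ Finset.range n, if i < h + h then
        (if i % 2 = 0 then i / 2 + 1 else r - (i / 2 + 1)) else 0) := by
      rw [Finset.prod_pow_eq_pow_sum]
      congr 1
      exact Fin.sum_univ_eq_sum_range (fun i => if i < h + h then
        (if i % 2 = 0 then i / 2 + 1 else r - (i / 2 + 1)) else 0) n
    rw [hrw]
    have hsum : ∀ j, j ≤ h → ∑ i ∈ Finset.range (j + j), (if i < h + h then
        (if i % 2 = 0 then i / 2 + 1 else r - (i / 2 + 1)) else 0) = j * r := by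
      intro j
      induction j with
      | zero => intro _; simp
      | succ j ihj =>
        intro hj
        rw [show j + 1 + (j + 1) = j + j + 1 + 1 by omega, Finset.sum_range_succ, Finset.sum_range_succ, ihj (by omega),
          Nat.succ_mul, if_pos (by omega), if_pos (by omega), if_pos (by omega), if_neg (by omega),
          show (j + j) / 2 = j by omega, show (j + j + 1) / 2 = j by omega]
        omega
    rw [← Finset.sum_range_add_sum_Ico _ hun, hsum h le_rfl, Finset.sum_eq_zero (fun i hi => by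
      rw [Finset.mem_Ico] at hi; rw [if_neg (by omega)]), add_zero, mul_comm, pow_mul, hζ.pow_eq_one, one_pow]
  · have h0 : ∀ a, μ a = e := fun a => by
      have := congrArg (fun f : Module.End F Vn => f (Pi.single a 1) a) he
      simpa [hTv] using this
    have := hμne ⟨0, by omega⟩ ⟨1, by omega⟩ (show 0 < h + h by omega) ((h0 _).trans (h0 _).symm)
    exact absurd (congrArg Fin.val this) (by simp)
  · let Z : Submodule F Vn := ⨅ a : {a : Fin n // (a : ℕ) < h + h}, LinearMap.ker (LinearMap.proj (R := F) (φ := fun _ : Fin n => F) a.1)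
    have hZ : ∀ v, v ∈ Z ↔ ∀ a : Fin n, (a : ℕ) < h + h → v a = 0 := fun v => by simp [Z]
    have hWZ : W ≤ Z := by
      intro v hv
      rw [hZ]
      intro a ha
      set Q : F[X] := ∏ x ∈ (Finset.univ.image μ).erase (μ a), (X - C x) with hQdef
      have hv' := SubspaceDerange.aeval_mem hWi Q hv
      have hsingle : aeval T Q v = Pi.single a (Q.eval (μ a) * v a) := funext fun c => by
        rw [hQ]
        rcases eq_or_ne c a with rfl | hca
        · simp
        · rw [Pi.single_eq_of_ne hca]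
          have : Q.eval (μ c) = 0 := by
            rw [hQdef, eval_prod]
            exact Finset.prod_eq_zero (Finset.mem_erase.2 ⟨fun h => hca (hμne a c ha h.symm).symm,
              Finset.mem_image_of_mem μ (Finset.mem_univ c)⟩) (by simp)
          rw [this, zero_mul]
      have hiso := hWt _ hv' _ hv'
      rw [hsingle, Cfsg.hermForm, Finset.sum_eq_single a (fun c _ hc => by simp [hc]) (by simp)] at hiso
      simp only [Pi.single_eq_same] at hiso
      have hne : Q.eval (μ a) ≠ 0 := by
        rw [hQdef, eval_prod]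
        exact Finset.prod_ne_zero_iff.2 fun x hx => by
          simp only [eval_sub, eval_X, eval_C]
          exact sub_ne_zero.2 (Finset.mem_erase.1 hx).1.symm
      rw [← pow_succ'] at hiso
      exact (mul_eq_zero.1 ((pow_eq_zero_iff (Nat.succ_ne_zero q)).1 hiso)).resolve_left hne
    have hZn : NonDeg q Z := by
      intro v hv hh0
      funext a
      rcases lt_or_ge (a : ℕ) (h + h) with ha | ha
      · exact (hZ v).1 hv a ha
      · have := hh0 (Pi.single a 1) ((hZ _).2 fun c hc => by
          rw [Pi.single_eq_of_ne]; rintro rfl; omega)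
        rw [Cfsg.hermForm, Finset.sum_eq_single a (fun c _ hc => by
          rw [Pi.single_eq_of_ne hc, zero_pow (by have := two_le_q hF; omega), mul_zero]) (by simp)] at this
        simpa using this
    have hZd : finrank F Z + (h + h) ≤ n := by
      let π : Vn →ₗ[F] (Fin (h + h) → F) := LinearMap.funLeft F F (Fin.castLE hun)
      have hker : Z ≤ LinearMap.ker π := fun v hv => funext fun c => (hZ v).1 hv _ c.2
      have hrk := LinearMap.finrank_range_add_finrank_ker π
      rw [LinearMap.range_eq_top.2 (LinearMap.funLeft_surjective_of_injective F F _ (Fin.castLE_injective hun)),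
        finrank_top, Module.finrank_fin_fun, Module.finrank_fin_fun] at hrk
      have := Submodule.finrank_mono hker
      omega
    have := ti_le hF hZn hWZ hWt
    omega

end Cfsg.Agent.GeomClasses.SUIsotropicDerange
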