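import Cfsg.Agent.GeomClasses.SUStructure
import Cfsg.Agent.Linear.SURegUnipotent
import Cfsg.Agent.Forms.SubspaceStab

/-!
# Nondegenerate invariant subspaces of unitary isometries: counting and models
-/

set_option autoImplicit false
set_option linter.unusedSectionVars false

namespace Cfsg.Agent.GeomClasses.SUNondeg

open Module Polynomial Cfsg.Agent.Forms Cfsg.Agent.GeomClasses.Unitary

variable {F : Type*} [Field F] [Fintype F] {q n : ℕ}

local notation "Vn" => (Fin n → F)
local notation "hh" => Cfsg.hermForm n F q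

theorem nd_iff {W : Submodule F Vn} : NonDeg q W ↔ ∀ u ∈ W, u ≠ 0 → ∃ v ∈ W, hh u v ≠ 0 := by
  refine forall₂_congr fun w _ => ⟨fun h hw => ?_, fun h h0 => ?_⟩
  · by_contra hc
    push_neg at hc
    exact hw (h hc)
  · by_contra hw
    obtain ⟨v, hv, hv0⟩ := h hw
    exact hv0 (h0 v hv)

theorem exists_isometry (hF : Fintype.card F = q ^ 2) {X : Submodule F Vn} (hX : NonDeg q X) {m : ℕ}
    (hd : finrank F X = m) :
    ∃ e : X ≃ₗ[F] (Fin m → F), ∀ x y, hermB m hF (e x) (e y) = hermB n hF (x : Vn) (y : Vn) := by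
  subst hd
  have h := (isHerm_std (n := n) hF).restrict (nonDeg_B hF hX)
  obtain ⟨b, hb⟩ := h.exists_orthonormal hF
  refine ⟨b.equivFun, fun x y => ?_⟩
  show _ = resForm (hermB n hF) X x y
  rw [show resForm (hermB n hF) X x y = resForm (hermB n hF) X (∑ i, b.equivFun x i • b i) (∑ i, b.equivFun y i • b i) by
    rw [b.sum_equivFun, b.sum_equivFun]]
  simp only [map_sum, LinearMap.sum_apply, LinearMap.map_smulₛₗ, map_smul, LinearMap.smul_apply, hb,
    smul_eq_mul, mul_ite, mul_one, mul_zero, Finset.sum_ite_eq, Finset.sum_ite_eq', Finset.mem_univ,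
    if_true, hermB_apply, Cfsg.hermForm, frobQ_apply]

/-- A prime dividing the number of nondegenerate subspaces of dimension `m`. -/
theorem exists_dvd (hF : Fintype.card F = q ^ 2) {m r : ℕ} (hr : r.Prime) (hrq : ¬ r ∣ q) (hmn : m ≤ n)
    (h : r ∣ Nat.card {W : Submodule F Vn // finrank F ↥W = m ∧ (∀ u ∈ W, u ≠ 0 → ∃ v ∈ W, hh u v ≠ 0)}) :
    ∃ l, n < l + m ∧ l ≤ n ∧ (-(q : ZMod r)) ^ l = 1 := by
  classical
  have hI := isForm_herm (n := n) hF
  set G := isomGroup (hermB n hF) (fun v => hermB n hF v v)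
  letI : MulAction G (Submodule F Vn) :=
    { smul := fun g W => W.map ((g.1 : Vn ≃ₗ[F] Vn) : Vn →ₗ[F] Vn)
      one_smul := fun W => Submodule.map_id W
      mul_smul := fun g k W => Submodule.map_comp _ _ W }
  have hsmul : ∀ (g : G) (W : Submodule F Vn), g • W = W.map ((g.1 : Vn ≃ₗ[F] Vn) : Vn →ₗ[F] Vn) := fun _ _ => rfl
  obtain ⟨W₀, -, hW₀, hW₀d⟩ := SUStructure.exists_nd_sub hF (SUStructure.nonDeg_top (n := n) hF) m
    (by rw [finrank_top, Module.finrank_fin_fun]; exact hmn)
  have horb : MulAction.orbit G W₀ = {W : Submodule F Vn | finrank F ↥W = m ∧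
      (∀ u ∈ W, u ≠ 0 → ∃ v ∈ W, hh u v ≠ 0)} := by
    ext W
    rw [Set.mem_ofPred_eq, ← nd_iff, MulAction.mem_orbit_iff]
    constructor
    · rintro ⟨g, rfl⟩
      rw [hsmul, LinearEquiv.finrank_map_eq]
      refine ⟨hW₀d, ?_⟩
      rintro _ ⟨x, hx, rfl⟩ hz
      rw [LinearEquiv.coe_coe, hW₀ x hx fun y hy => ?_, map_zero]
      have h1 := hz _ ⟨y, hy, rfl⟩
      rw [LinearEquiv.coe_coe, ← hermB_apply hF, g.2.1 y x, hermB_apply] at h1
      exact h1
    · rintro ⟨hd, hn⟩
      obtain ⟨e₀, he₀⟩ := exists_isometry hF hW₀ hW₀d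
      obtain ⟨e₁, he₁⟩ := exists_isometry hF hn hd
      obtain ⟨g, hg⟩ := hI.exists_isom_extend W₀ (W.subtype ∘ₗ (e₀.trans e₁.symm).toLinearMap)
        (W.injective_subtype.comp (e₀.trans e₁.symm).injective)
        (fun x y => by
          show hermB n hF ((e₁.symm (e₀ x) : W) : Vn) ((e₁.symm (e₀ y) : W) : Vn) = _
          rw [← he₁, LinearEquiv.apply_symm_apply, LinearEquiv.apply_symm_apply, he₀]) (fun x => by
          show hermB n hF ((e₁.symm (e₀ x) : W) : Vn) ((e₁.symm (e₀ x) : W) : Vn) = _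
          rw [← he₁, LinearEquiv.apply_symm_apply, he₀])
      refine ⟨g, ?_⟩
      rw [hsmul]
      refine Submodule.eq_of_le_of_finrank_eq ?_ (by rw [LinearEquiv.finrank_map_eq, hW₀d, hd])
      rintro _ ⟨x, hx, rfl⟩
      rw [LinearEquiv.coe_coe, hg ⟨x, hx⟩]
      exact Submodule.coe_mem _
  have hidx := Subgroup.index_mul_card (MulAction.stabilizer G W₀)
  have hperp : finrank F ↥(perp (hermB n hF) W₀) = n - m := by
    have := hI.finrank_perp W₀
    rw [Module.finrank_fin_fun] at this
    omega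
  have hpn := hI.perp_nondeg (nonDeg_B hF hW₀)
  have hc₁ := ((isHerm_std (n := n) hF).restrict (nonDeg_B hF hW₀)).card_isom hF
  have hc₂ := ((isHerm_std (n := n) hF).restrict hpn).card_isom hF
  have hcG := (isHerm_std (n := n) hF).card_isom hF
  rw [hW₀d] at hc₁
  rw [hperp] at hc₂
  rw [Module.finrank_fin_fun] at hcG
  rw [MulAction.index_stabilizer, horb, ← Nat.card_coe_set_eq,
    Nat.card_congr (stabProdEquiv hI W₀ (nonDeg_B hF hW₀) (MulEquiv.refl G) (MulAction.stabilizer G W₀) fun g => by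
      rw [MulAction.mem_stabilizer_iff, hsmul]
      refine ⟨fun h x hx => h.le ⟨x, hx, rfl⟩, fun h => ?_⟩
      refine Submodule.eq_of_le_of_finrank_eq ?_ (LinearEquiv.finrank_map_eq _ _)
      rintro _ ⟨x, hx, rfl⟩
      exact h x hx).toEquiv, Nat.card_prod, hcG,
    ← Finset.prod_range_mul_prod_Ico _ (Nat.sub_le n m)] at hidx
  erw [hc₁, hc₂] at hidx
  have hq1 : 1 < q := two_le_q hF
  have hfac : ∀ i, 0 < (if Even i then q ^ (i + 1) + 1 else q ^ (i + 1) - 1) := fun i => by
    have := Nat.one_lt_pow (n := i + 1) (by omega) hq1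
    split_ifs <;> omega
  set P := ∏ i ∈ Finset.range (n - m), (if Even i then q ^ (i + 1) + 1 else q ^ (i + 1) - 1)
  have hP : 0 < P := Finset.prod_pos fun i _ => hfac i
  have hdvd : r ∣ q ^ (n * (n - 1) / 2) *
      ∏ i ∈ Finset.Ico (n - m) n, (if Even i then q ^ (i + 1) + 1 else q ^ (i + 1) - 1) := by
    refine (h.mul_right (q ^ (m * (m - 1) / 2) * (∏ i ∈ Finset.range m, (if Even i then q ^ (i + 1) + 1 else q ^ (i + 1) - 1)) *
      q ^ ((n - m) * (n - m - 1) / 2))).trans ?_
    refine dvd_of_eq (mul_right_cancel₀ hP.ne' ?_)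
    rw [Set.coe_ofPred] at hidx
    linear_combination hidx
  rcases (Nat.Prime.dvd_mul hr).1 hdvd with hd' | hd'
  · exact absurd (hr.dvd_of_dvd_pow hd') hrq
  · obtain ⟨i, hi, hi'⟩ := (hr.prime.dvd_finsetProd_iff _).1 hd'
    rw [Finset.mem_Ico] at hi
    refine ⟨i + 1, by omega, by omega, ?_⟩
    rw [← ZMod.natCast_eq_zero_iff] at hi'
    split_ifs at hi' with he
    · rw [neg_pow, (Even.add_one he).neg_one_pow]
      push_cast at hi'
      linear_combination -hi'
    · rw [neg_pow, (Nat.even_add_one.2 he).neg_one_pow, one_mul]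
      rw [Nat.cast_sub (Nat.one_le_pow _ _ (by omega)), Nat.cast_pow, Nat.cast_one, sub_eq_zero] at hi'
      exact hi'

/-- The determinant of an isometry has norm one. -/
theorem det_norm (hF : Fintype.card F = q ^ 2) {T : Module.End F Vn} (hTB : ∀ u v, hh (T u) (T v) = hh u v) :
    LinearMap.det T ^ (q + 1) = 1 := by
  classical
  set M := LinearMap.toMatrix' T with hM
  have h : M.transpose * M.map (frobQ hF) = 1 := Matrix.ext fun i j => by
    have h1 := hTB (Pi.single i 1) (Pi.single j 1)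
    have h2 : hh (Pi.single i 1) (Pi.single j 1) = if i = j then (1 : F) else 0 := by
      have hq0 : q ≠ 0 := by have := two_le_q hF; omega
      rcases eq_or_ne i j with rfl | hij
      · rw [if_pos rfl, Cfsg.hermForm, Finset.sum_eq_single i (fun k _ hk => by simp [hk]) (by simp)]
        simp
      · rw [if_neg hij, Cfsg.hermForm]
        refine Finset.sum_eq_zero fun k _ => ?_
        rcases eq_or_ne k i with rfl | hk
        · simp [hij, hq0]
        · simp [hk]
    rw [h2] at h1
    rw [Matrix.one_apply, ← h1]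
    simp [Matrix.mul_apply, Cfsg.hermForm, hM, LinearMap.toMatrix'_apply]
  have hd := congrArg Matrix.det h
  rw [Matrix.det_mul, Matrix.det_transpose, show (M.map (frobQ hF)) = (frobQ hF).mapMatrix M from rfl,
    ← RingHom.map_det, Matrix.det_one, hM, LinearMap.det_toMatrix', frobQ_apply] at hd
  rw [pow_succ']
  exact hd

/-- Isometries of order `r` moving a prescribed number of free blocks. -/
theorem exists_moving (hF : Fintype.card F = q ^ 2) {r b c : ℕ} [Fact r.Prime] (hrF : (r : F) ≠ 0) (hrq : ¬ r ∣ q)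
    (hb : b = orderOf ((q ^ 2 : ℕ) : ZMod r)) (hc : c = if (-(q : ZMod r)) ^ b = 1 then b else 2 * b) {j : ℕ}
    (hj : j * c ≤ n) : ∃ T : Module.End F Vn, T ^ r = 1 ∧ (∀ u v, hh (T u) (T v) = hh u v) ∧
      finrank F (LinearMap.ker (T - 1)) = n - j * c := by
  classical
  have hr : r.Prime := Fact.out
  have hb0 := (SubspaceDerange.dvd_pow_sub_one (fun h => hrq (hr.dvd_of_dvd_pow h)) hb).1
  have hcb : b ≤ c := by rw [hc]; split_ifs <;> omega
  have hrel : (-(q : ZMod r)) ^ c = 1 := by
    rw [hc]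
    split_ifs with he
    · exact he
    · rw [pow_mul, neg_sq, ← Nat.cast_pow, hb]
      exact pow_orderOf_eq_one _
  induction j with
  | zero => exact ⟨1, one_pow r, fun u v => rfl, by rw [sub_self, LinearMap.ker_zero, finrank_top, Module.finrank_fin_fun]; simp⟩
  | succ j ih =>
    rw [Nat.succ_mul] at hj ⊢
    obtain ⟨T, hT, hTB, hker⟩ := ih (by omega)
    have hKn : NonDeg q (LinearMap.ker (T - 1)) := by
      have := SUStructure.nd_fixed hF hTB hT hrF (W := ⊤) (fun _ _ => trivial) (SUStructure.nonDeg_top hF)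
      rwa [top_inf_eq] at this
    obtain ⟨W, hWK, hWn, hWd⟩ := SUStructure.exists_nd_sub hF hKn c (by omega)
    have hH := (isHerm_std (n := n) hF).restrict (nonDeg_B hF hWn)
    have hdvd : r ∣ Nat.card (isomGroup (resForm (hermB n hF) W) (fun v => resForm (hermB n hF) W v v)) := by
      rw [hH.card_isom hF, hWd]
      refine dvd_mul_of_dvd_right ((dvd_trans ?_) (Finset.dvd_prod_of_mem _ (Finset.mem_range.2 (show c - 1 < c by omega)))) _
      have hq1 : 1 < q := two_le_q hF
      rw [← ZMod.natCast_eq_zero_iff]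
      obtain ⟨c', rfl⟩ : ∃ c', c = c' + 1 := ⟨c - 1, by omega⟩
      rw [Nat.add_sub_cancel]
      split_ifs with he
      · rw [neg_pow, (Even.add_one he).neg_one_pow] at hrel
        push_cast
        linear_combination -hrel
      · rw [neg_pow, (Nat.even_add_one.2 he).neg_one_pow, one_mul] at hrel
        rw [Nat.cast_sub (Nat.one_le_pow _ _ (by omega)), Nat.cast_pow, Nat.cast_one, hrel, sub_self]
    obtain ⟨⟨e, he⟩, hord⟩ := exists_prime_orderOf_dvd_card' r hdvd
    have hc' := isCompl_perp' hF hWn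
    set P := perp (hermB n hF) W
    have hinj : Function.Injective T := fun a a' h => by
      have := congrArg (T ^ (r - 1)) h
      rwa [← Module.End.mul_apply, ← Module.End.mul_apply, ← pow_succ, Nat.sub_add_cancel hr.one_lt.le, hT,
        Module.End.one_apply, Module.End.one_apply] at this
    have hTW : ∀ w ∈ W, T w = w := fun w hw => sub_eq_zero.1 (hWK hw)
    have hTP : ∀ v ∈ P, T v ∈ P := SUStructure.orth_invariant hF hTB hinj (fun w hw => by rwa [hTW w hw])
    set T' : Module.End F Vn := LinearMap.ofIsCompl hc' (W.subtype ∘ₗ e.toLinearMap) (T ∘ₗ P.subtype)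
    have hl : ∀ w : W, T' w = ((e w : W) : Vn) := fun w => by simp [T']
    have hr' : ∀ w : P, T' w = T (w : Vn) := fun w => by simp [T']
    have hsplit : ∀ v : Vn, ∃ (w : W) (p : P), v = (w : Vn) + p := fun v => by
      obtain ⟨a, ha, a', ha', h⟩ := Submodule.mem_sup.1 (show v ∈ W ⊔ P by rw [hc'.sup_eq_top]; trivial)
      exact ⟨⟨a, ha⟩, ⟨a', ha'⟩, h.symm⟩
    have horth : ∀ (w : Vn) (p : Vn), w ∈ W → p ∈ P → hh w p = 0 ∧ hh p w = 0 := fun w p hw hp =>
      ⟨hh_comm_zero hF ((mem_perp_iff hF).1 hp w hw), (mem_perp_iff hF).1 hp w hw⟩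
    have hTl : ∀ (l : ℕ) (w : W) (p : P), (T' ^ l) ((w : Vn) + p) = (((e ^ l) w : W) : Vn) + (T ^ l) p := by
      intro l
      induction l with
      | zero => intro w p; rfl
      | succ l ih =>
        intro w p
        have hp : (T ^ l) (p : Vn) ∈ P := by
          clear ih
          induction l with
          | zero => exact p.2
          | succ l ih' =>
            rw [pow_succ', Module.End.mul_apply]
            exact hTP _ ih'
        rw [pow_succ', Module.End.mul_apply, ih, map_add, hl, show (T ^ l) (p : Vn) = ((⟨_, hp⟩ : P) : Vn) from rfl,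
          hr', pow_succ', LinearEquiv.mul_apply, pow_succ', Module.End.mul_apply]
    refine ⟨T', LinearMap.ext fun v => ?_, fun u v => ?_, ?_⟩
    · obtain ⟨w, p, rfl⟩ := hsplit v
      rw [hTl, hT]
      have h1 := congrArg Subtype.val ((orderOf_eq_iff hr.pos).1 hord).1
      simp only [SubgroupClass.coe_pow, OneMemClass.coe_one] at h1
      rw [h1]
      rfl
    · obtain ⟨w, p, rfl⟩ := hsplit u
      obtain ⟨w', p', rfl⟩ := hsplit v
      rw [map_add, map_add, hl, hl, hr', hr']
      simp only [hh_add_left hF, hh_add_right hF]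
      rw [(horth _ _ (e w).2 (hTP _ p'.2)).1, (horth _ _ (e w').2 (hTP _ p.2)).2, hTB,
        (horth _ _ w.2 p'.2).1, (horth _ _ w'.2 p.2).2]
      congr 2
      exact he.1 w' w
    · have hfix : ∀ w : W, e w = w → w = 0 := by
        set eT : Module.End F Vn := LinearMap.ofIsCompl hc' (W.subtype ∘ₗ e.toLinearMap) P.subtype
        have hel : ∀ w : W, eT w = ((e w : W) : Vn) := fun w => by simp [eT]
        have her : ∀ w : P, eT w = (w : Vn) := fun w => by simp [eT]
        have hwi : ∀ w ∈ W, eT w ∈ W := fun w hw => by rw [hel ⟨w, hw⟩]; exact (e ⟨w, hw⟩).2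
        have hepow : ∀ (l : ℕ) (w : W) (p : P), (eT ^ l) ((w : Vn) + p) = (((e ^ l) w : W) : Vn) + p := by
          intro l
          induction l with
          | zero => intro w p; rfl
          | succ l ih =>
            intro w p
            rw [pow_succ', Module.End.mul_apply, ih, map_add, hel, her, pow_succ', LinearEquiv.mul_apply]
        have heB : ∀ u v, hh (eT u) (eT v) = hh u v := fun u v => by
          obtain ⟨w, p, rfl⟩ := hsplit u
          obtain ⟨w', p', rfl⟩ := hsplit v
          rw [map_add, map_add, hel, hel, her, her]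
          simp only [hh_add_left hF, hh_add_right hF]
          rw [(horth _ _ (e w).2 p'.2).1, (horth _ _ (e w').2 p.2).2, (horth _ _ w.2 p'.2).1, (horth _ _ w'.2 p.2).2]
          congr 2
          exact he.1 w' w
        have her1 : eT ^ r = 1 := LinearMap.ext fun v => by
          obtain ⟨w, p, rfl⟩ := hsplit v
          rw [hepow]
          have h1 := congrArg Subtype.val ((orderOf_eq_iff hr.pos).1 hord).1
          simp only [SubgroupClass.coe_pow, OneMemClass.coe_one] at h1
          rw [h1]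
          rfl
        have hmod := SUStructure.dim_mod hF heB her1 hrF hrq hb hc hwi hWn
        intro w hw
        by_contra hw0
        set Kf := W ⊓ LinearMap.ker (eT - 1)
        have hmem : (w : Vn) ∈ Kf := ⟨w.2, by simp [hel, hw]⟩
        have hK0 : finrank F Kf ≠ 0 := fun h => hw0 (Subtype.ext ((Submodule.eq_bot_iff _).1 (Submodule.finrank_eq_zero.1 h) _ hmem))
        have hKc : finrank F Kf ≤ c := hWd ▸ Submodule.finrank_mono inf_le_left
        rw [hWd, Nat.ModEq, Nat.mod_self] at hmod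
        have hKe : Kf = W := Submodule.eq_of_le_of_finrank_le inf_le_left (hWd ▸ Nat.le_of_dvd (Nat.pos_of_ne_zero hK0) (Nat.dvd_of_mod_eq_zero hmod.symm))
        have he1 : (⟨e, he⟩ : isomGroup (resForm (hermB n hF) W) (fun v => resForm (hermB n hF) W v v)) = 1 := by
          refine Subtype.ext (LinearEquiv.ext fun x => Subtype.ext ?_)
          have hx : (x : Vn) ∈ Kf := hKe.symm ▸ x.2
          rw [← hel]
          exact sub_eq_zero.1 hx.2
        rw [he1, orderOf_one] at hord
        exact hr.one_lt.ne hord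
      have hKT : LinearMap.ker (T' - 1) = LinearMap.ker (T - 1) ⊓ P := by
        ext v
        obtain ⟨w, p, rfl⟩ := hsplit v
        rw [LinearMap.mem_ker, LinearMap.sub_apply, Module.End.one_apply, sub_eq_zero, map_add, hl, hr', Submodule.mem_inf]
        constructor
        · intro h
          have h1 : ((e w : W) : Vn) - w = (p : Vn) - T p := by linear_combination (norm := abel) h
          have h2 : ((e w : W) : Vn) - w ∈ W ⊓ P :=
            ⟨sub_mem (e w).2 w.2, h1 ▸ sub_mem p.2 (hTP _ p.2)⟩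
          rw [hc'.inf_eq_bot, Submodule.mem_bot, sub_eq_zero] at h2
          have hw := hfix w (Subtype.ext h2)
          subst hw
          simp only [ZeroMemClass.coe_zero, map_zero, zero_add] at h ⊢
          exact ⟨by simp [h], p.2⟩
        · rintro ⟨h1, h2⟩
          have hw : (w : Vn) ∈ W ⊓ P := ⟨w.2, by simpa using sub_mem h2 p.2⟩
          rw [hc'.inf_eq_bot, Submodule.mem_bot] at hw
          obtain rfl : w = 0 := Subtype.ext hw
          simp only [ZeroMemClass.coe_zero, map_zero, zero_add] at h1 ⊢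
          exact sub_eq_zero.1 h1
      rw [hKT]
      obtain ⟨-, hd, -⟩ := SUStructure.nd_split hF hWn hKn hWK
      change finrank F W + finrank F ↥(LinearMap.ker (T - 1) ⊓ P) = _ at hd
      rw [hWd, hker] at hd
      omega

/-- Iterating the construction of invariant nondegenerate pieces. -/
theorem iterate (hF : Fintype.card F = q ^ 2) {T : Module.End F Vn} (hTB : ∀ u v, hh (T u) (T v) = hh u v)
    (hinj : Function.Injective T) {d : ℕ}
    (step : ∀ X : Submodule F Vn, (∀ x ∈ X, T x ∈ X) → NonDeg q X → X ≠ ⊥ →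
      ∃ U ≤ X, (∀ u ∈ U, T u ∈ U) ∧ NonDeg q U ∧ finrank F U = d) :
    ∀ j, j * d ≤ n → ∃ U : Submodule F Vn, (∀ u ∈ U, T u ∈ U) ∧ NonDeg q U ∧ finrank F U = j * d := by
  intro j
  induction j with
  | zero => exact fun _ => ⟨⊥, fun u hu => by rw [Submodule.mem_bot] at hu; simp [hu], SUStructure.nonDeg_bot, by
      rw [finrank_bot, zero_mul]⟩
  | succ j ih =>
    intro hj
    rw [Nat.succ_mul] at hj ⊢
    obtain ⟨U, hUi, hUn, hUd⟩ := ih (by omega)
    obtain ⟨hYn, hYd, -⟩ := SUStructure.nd_split hF hUn (SUStructure.nonDeg_top hF) le_top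
    rw [top_inf_eq] at hYn hYd
    rw [finrank_top, Module.finrank_fin_fun] at hYd
    rcases Nat.eq_zero_or_pos d with rfl | hd
    · exact ⟨U, hUi, hUn, by omega⟩
    obtain ⟨A, hAY, hAi, hAn, hAd⟩ := step _ (SUStructure.orth_invariant hF hTB hinj hUi) hYn
      (fun e => by rw [e, finrank_bot] at hYd; omega)
    refine ⟨U ⊔ A, fun v hv => ?_, SUStructure.nd_sup hF hUn hAn hAY, ?_⟩
    · obtain ⟨a, ha, a', ha', rfl⟩ := Submodule.mem_sup.1 hv
      rw [map_add]
      exact add_mem (Submodule.mem_sup_left (hUi a ha)) (Submodule.mem_sup_right (hAi a' ha'))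
    · rw [SUStructure.finrank_sup_perp hF hUn hAY, hUd, hAd]

section Pairs

variable {w : F}

theorem root_isotropic {T : Module.End F Vn} (hF : Fintype.card F = q ^ 2) (hTB : ∀ u v, hh (T u) (T v) = hh u v) (h2 : (2 : F) ≠ 0)
    (hw : w * w ^ q = -1) {ε : F} (hε : ε = w ∨ ε = -w) {u v : Vn} (hu : T u = ε • u) (hv : T v = ε • v) :
    hh u v = 0 := by
  have h := hTB u v
  rw [hu, hv, hh_smul_left hF, hh_smul_right hF, ← mul_assoc] at h
  have he : ε * ε ^ q = -1 := by
    rcases hε with rfl | rfl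
    · exact hw
    · rw [pow_neg_q hF, neg_mul_neg, hw]
  rw [he] at h
  exact (mul_eq_zero.1 (show (2 : F) * hh u v = 0 by linear_combination -h)).resolve_left h2

theorem root_split {T : Module.End F Vn} (hw0 : w ≠ 0) (h2 : (2 : F) ≠ 0) (hT : T * T = (w * w) • 1) {X : Submodule F Vn}
    (hX : ∀ x ∈ X, T x ∈ X) {x : Vn} (hx : x ∈ X) :
    ∃ a ∈ X, ∃ a' ∈ X, T a = w • a ∧ T a' = -w • a' ∧ x = a + a' := by
  have hTT : T (T x) = (w * w) • x := by
    rw [← Module.End.mul_apply, hT]; rfl
  refine ⟨(2 * w)⁻¹ • (w • x + T x), X.smul_mem _ (add_mem (X.smul_mem _ hx) (hX x hx)),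
    (2 * w)⁻¹ • (w • x - T x), X.smul_mem _ (sub_mem (X.smul_mem _ hx) (hX x hx)), ?_, ?_, ?_⟩
  · rw [map_smul, map_add, map_smul, hTT]; module
  · rw [map_smul, map_sub, map_smul, hTT]; module
  · rw [← smul_add, add_add_sub_cancel, smul_add, smul_smul, ← add_smul]
    rw [show (2 * w)⁻¹ * w + (2 * w)⁻¹ * w = 1 by field_simp; norm_num, one_smul]

/-- A hyperbolic pair of eigenvectors. -/
theorem root_step {T : Module.End F Vn} (hF : Fintype.card F = q ^ 2) (hTB : ∀ u v, hh (T u) (T v) = hh u v) (h2 : (2 : F) ≠ 0)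
    (hw : w * w ^ q = -1) (hT : T * T = (w * w) • 1) (X : Submodule F Vn) (hX : ∀ x ∈ X, T x ∈ X) (hXn : NonDeg q X)
    (hX0 : X ≠ ⊥) : ∃ U ≤ X, (∀ u ∈ U, T u ∈ U) ∧ NonDeg q U ∧ finrank F U = 2 := by
  have hw0 : w ≠ 0 := fun h => by rw [h, zero_mul] at hw; exact one_ne_zero (neg_eq_zero.1 hw.symm)
  have hne : w ≠ -w := fun h => hw0 ((mul_eq_zero.1 (show (2 : F) * w = 0 by linear_combination h)).resolve_left h2)
  obtain ⟨x, hx, hx0⟩ := (Submodule.ne_bot_iff X).1 hX0
  obtain ⟨a, ha, a', ha', hTa, hTa', rfl⟩ := root_split hw0 h2 hT hX hx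
  obtain ⟨ε, u, hε, hu, hTu, hu0⟩ : ∃ (ε : F) (u : Vn), (ε = w ∨ ε = -w) ∧ u ∈ X ∧ T u = ε • u ∧ u ≠ 0 := by
    by_cases h0 : a = 0
    · exact ⟨-w, a', Or.inr rfl, ha', hTa', by simpa [h0] using hx0⟩
    · exact ⟨w, a, Or.inl rfl, ha, hTa, h0⟩
  obtain ⟨y, hy, hyu⟩ : ∃ y ∈ X, hh u y ≠ 0 := nd_iff.1 hXn u hu hu0
  obtain ⟨c, hc, c', hc', hTc, hTc', rfl⟩ := root_split hw0 h2 hT hX hy
  obtain ⟨δ, v, hδ, hv, hTv, huv⟩ : ∃ (δ : F) (v : Vn), (δ = w ∨ δ = -w) ∧ v ∈ X ∧ T v = δ • v ∧ hh u v ≠ 0 := by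
    by_cases h0 : hh u c = 0
    · exact ⟨-w, c', Or.inr rfl, hc', hTc', by rwa [hh_add_right hF, h0, zero_add] at hyu⟩
    · exact ⟨w, c, Or.inl rfl, hc, hTc, h0⟩
  have huu := root_isotropic hF hTB h2 hw hε hTu hTu
  have hvv := root_isotropic hF hTB h2 hw hδ hTv hTv
  have hvu : hh v u ≠ 0 := fun h => huv (hh_comm_zero hF h)
  refine ⟨Submodule.span F {u, v}, Submodule.span_le.2 (Set.insert_subset hu (Set.singleton_subset_iff.2 hv)),
    fun x hx => ?_, fun x hx h => ?_, ?_⟩
  · obtain ⟨a, b, rfl⟩ := Submodule.mem_span_pair.1 hx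
    rw [map_add, map_smul, map_smul, hTu, hTv, smul_smul, smul_smul]
    exact Submodule.mem_span_pair.2 ⟨_, _, rfl⟩
  · obtain ⟨a, b, rfl⟩ := Submodule.mem_span_pair.1 hx
    have h1 := h u (Submodule.subset_span (Set.mem_insert u _))
    have h2 := h v (Submodule.subset_span (Set.mem_insert_of_mem _ rfl))
    simp only [hh_add_left hF, hh_smul_left hF, huu, hvv, mul_zero, zero_add, add_zero] at h1 h2
    rw [(mul_eq_zero.1 h1).resolve_right hvu, (mul_eq_zero.1 h2).resolve_right huv]
    simp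
  · have hli : LinearIndependent F ![u, v] := by
      rw [LinearIndependent.pair_iff]
      intro a b h
      have h1 := congrArg (fun t => hh t u) h
      have h2 := congrArg (fun t => hh t v) h
      simp only [hh_add_left hF, hh_smul_left hF, huu, hvv, mul_zero, zero_add, add_zero, hh_zero_left hF] at h1 h2
      exact ⟨(mul_eq_zero.1 h2).resolve_right huv, (mul_eq_zero.1 h1).resolve_right hvu⟩
    have := finrank_span_eq_card hli
    rwa [show Set.range ![u, v] = ({u, v} : Set Vn) by simp [Matrix.range_cons, Set.pair_comm], Fintype.card_fin] at this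

/-- The eigenspaces of `T` fill half of any invariant nondegenerate subspace. -/
theorem root_halves {T : Module.End F Vn} (hF : Fintype.card F = q ^ 2) (hTB : ∀ u v, hh (T u) (T v) = hh u v) (h2 : (2 : F) ≠ 0)
    (hw : w * w ^ q = -1) (hT : T * T = (w * w) • 1) {X : Submodule F Vn} (hX : ∀ x ∈ X, T x ∈ X) (hXn : NonDeg q X) :
    2 * finrank F ↥(X ⊓ LinearMap.ker (T - w • 1)) = finrank F X := by
  have hw0 : w ≠ 0 := fun h => by rw [h, zero_mul] at hw; exact one_ne_zero (neg_eq_zero.1 hw.symm)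
  set A := X ⊓ LinearMap.ker (T - w • 1)
  set A' := X ⊓ LinearMap.ker (T - (-w) • 1)
  have hmem : ∀ (ε : F) (v : Vn), v ∈ LinearMap.ker (T - ε • 1) ↔ T v = ε • v := fun ε v => by
    simp [LinearMap.mem_ker, sub_eq_zero]
  have hiso : ∀ ε : F, (ε = w ∨ ε = -w) → 2 * finrank F ↥(X ⊓ LinearMap.ker (T - ε • 1)) ≤ finrank F X := by
    intro ε hε
    set Y := X ⊓ LinearMap.ker (T - ε • 1)
    have hle : Y ≤ X ⊓ perp (hermB n hF) Y := fun u hu => ⟨hu.1, (mem_perp_iff hF).2 fun v hv =>
      root_isotropic hF hTB h2 hw hε ((hmem _ _).1 hu.2) ((hmem _ _).1 hv.2)⟩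
    have h := (finrank_inf_perp hF hXn (S := Y) inf_le_left).1
    have := Submodule.finrank_mono hle
    omega
  have hsum : finrank F X ≤ finrank F A + finrank F A' := by
    refine (Submodule.finrank_mono (show X ≤ A ⊔ A' from fun x hx => ?_)).trans (Submodule.finrank_add_le_finrank_add_finrank _ _)
    obtain ⟨a, ha, a', ha', hTa, hTa', rfl⟩ := root_split hw0 h2 hT hX hx
    exact add_mem (Submodule.mem_sup_left ⟨ha, (hmem _ _).2 hTa⟩) (Submodule.mem_sup_right ⟨ha', (hmem _ _).2 hTa'⟩)
  have h1 : 2 * finrank F A ≤ finrank F X := hiso w (Or.inl rfl)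
  have h2 : 2 * finrank F A' ≤ finrank F X := hiso (-w) (Or.inr rfl)
  show 2 * finrank F A = _
  omega

/-- The determinant. -/
theorem root_det {T : Module.End F Vn} (hF : Fintype.card F = q ^ 2) (hTB : ∀ u v, hh (T u) (T v) = hh u v) (h2 : (2 : F) ≠ 0)
    (hw : w * w ^ q = -1) (hT : T * T = (w * w) • 1) {k : ℕ} (hk : n = 2 * k) :
    LinearMap.det T = (-(w * w)) ^ k := by
  have hw0 : w ≠ 0 := fun h => by rw [h, zero_mul] at hw; exact one_ne_zero (neg_eq_zero.1 hw.symm)
  set A := LinearMap.ker (T - w • 1)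
  set A' := LinearMap.ker (T - (-w) • 1)
  have hmem : ∀ (ε : F) (v : Vn), v ∈ LinearMap.ker (T - ε • 1) ↔ T v = ε • v := fun ε v => by
    simp [LinearMap.mem_ker, sub_eq_zero]
  have hc : IsCompl A A' := by
    constructor
    · rw [Submodule.disjoint_def]
      intro x h h'
      have e := ((hmem _ _).1 h).symm.trans ((hmem _ _).1 h')
      have e2 : ((2 : F) * w) • x = 0 := by
        rw [two_mul, add_smul]
        nth_rw 2 [e]
        rw [← add_smul, add_neg_cancel, zero_smul]
      exact (smul_eq_zero.1 e2).resolve_left (mul_ne_zero h2 hw0)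
    · rw [codisjoint_iff, eq_top_iff]
      intro x _
      obtain ⟨a, -, a', -, hTa, hTa', rfl⟩ := root_split hw0 h2 hT (X := ⊤) (fun _ _ => trivial) (x := x) trivial
      exact add_mem (Submodule.mem_sup_left ((hmem _ _).2 hTa)) (Submodule.mem_sup_right ((hmem _ _).2 hTa'))
  have hA : finrank F A = k := by
    have := root_halves hF hTB h2 hw hT (X := ⊤) (fun _ _ => trivial) (SUStructure.nonDeg_top hF)
    rw [top_inf_eq, finrank_top, Module.finrank_fin_fun] at this
    change 2 * finrank F A = n at this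
    omega
  have hA' : finrank F A' = k := by
    have := Submodule.finrank_add_eq_of_isCompl hc
    rw [Module.finrank_fin_fun] at this
    omega
  set e := Submodule.prodEquivOfIsCompl A A' hc
  have h : T = e.toLinearMap ∘ₗ ((w • (1 : Module.End F A)).prodMap ((-w) • (1 : Module.End F A'))) ∘ₗ e.symm.toLinearMap := by
    refine LinearMap.ext fun x => ?_
    obtain ⟨⟨a, a'⟩, rfl⟩ := e.surjective x
    simp [e, (hmem _ _).1 a.2, (hmem _ _).1 a'.2]
  rw [h, LinearMap.det_conj, LinearMap.det_prodMap, LinearMap.det_smul, LinearMap.det_smul, map_one, map_one, hA, hA',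
    mul_one, mul_one, ← mul_pow, mul_neg]

end Pairs

/-- Monomial isometries with scalar `r`-th power. -/
theorem exists_monomial (hF : Fintype.card F = q ^ 2) {z : F} (hz : z ^ (q + 1) = 1) {r k : ℕ} (hr : 2 ≤ r)
    (hn : n = r * k) : ∃ T : Module.End F Vn, T ^ r = z • 1 ∧ (∀ u v, hh (T u) (T v) = hh u v) := by
  classical
  obtain ⟨s, rfl⟩ : ∃ s, r = s + 1 := ⟨r - 1, by omega⟩
  let e : Fin (s + 1) × Fin k ≃ Fin n := finProdFinEquiv.trans (finCongr hn.symm)
  let π : Fin n ≃ Fin n := e.symm.trans ((Equiv.prodCongr (Equiv.subRight (1 : Fin (s + 1))) (Equiv.refl _)).trans e)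
  let w : Fin n → F := fun x => if (e.symm x).1 = 0 then z else 1
  let T : Module.End F Vn :=
    { toFun := fun v x => w x * v (π x)
      map_add' := fun u v => funext fun x => by simp [mul_add]
      map_smul' := fun a v => funext fun x => by simp [mul_left_comm] }
  have hπ : ∀ i a, π (e (i, a)) = e (i - 1, a) := fun i a => by simp [π]
  have hkey : ∀ l, l ≤ s + 1 → ∀ (v : Vn) i a,
      (T ^ l) v (e (i, a)) = (if (i : ℕ) < l then z else 1) * v (e (i - (Fin.ofNat (s + 1) l), a)) := by
    intro l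
    induction l with
    | zero => intro _ v i a; simp
    | succ l ih =>
      intro hl v i a
      rw [pow_succ', Module.End.mul_apply]
      show w _ * (T ^ l) v (π _) = _
      rw [hπ, ih (by omega), ← mul_assoc]
      congr 1
      · simp only [w, Equiv.symm_apply_apply, Fin.coe_sub_one]
        rcases eq_or_ne i 0 with rfl | h0
        · simp [show ¬ s < l by omega]
        · have hi : (i : ℕ) ≠ 0 := fun h => h0 (Fin.ext h)
          simp [h0, show (i : ℕ) - 1 < l ↔ (i : ℕ) < l + 1 by omega]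
      · congr 3
        rw [sub_sub]
        congr 1
        refine Fin.ext ?_
        simp [Fin.val_add, Nat.add_mod, add_comm]
  refine ⟨T, LinearMap.ext fun v => funext fun x => ?_, fun u v => ?_⟩
  · obtain ⟨⟨i, a⟩, rfl⟩ := e.surjective x
    rw [hkey _ le_rfl, if_pos i.2, show Fin.ofNat (s + 1) (s + 1) = 0 from Fin.ext (Nat.mod_self _), sub_zero]
    rfl
  · have hw : ∀ x, w x * w x ^ q = 1 := fun x => by
      rw [← pow_succ']
      show (if _ then z else 1) ^ (q + 1) = 1
      split_ifs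
      · exact hz
      · exact one_pow _
    simp only [Cfsg.hermForm]
    refine Fintype.sum_equiv π _ _ fun x => ?_
    show w x * u (π x) * (w x * v (π x)) ^ q = _
    rw [mul_pow, mul_mul_mul_comm, hw, one_mul]

end Cfsg.Agent.GeomClasses.SUNondeg
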