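import Cfsg.Agent.GeomClasses.UnitaryGen
import Cfsg.Agent.GeomClasses.SubspaceDerange
import Cfsg.Agent.Forms.HermOrder
import Mathlib.LinearAlgebra.Charpoly.Basic

/-!
# Isometries of prime order of hermitian forms: nondegenerate invariant subspaces
-/

set_option autoImplicit false
set_option linter.unusedSectionVars false

namespace Cfsg.Agent.GeomClasses.SUStructure

open Module Polynomial Cfsg.Agent.Forms Cfsg.Agent.GeomClasses.Unitary

variable {F : Type*} [Field F] [Fintype F] {q n : ℕ}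

local notation "Vn" => (Fin n → F)
local notation "hh" => Cfsg.hermForm n F q

theorem sum_pos (hF : Fintype.card F = q ^ 2) {ι : Type*} (s : Finset ι) (f : ι → Vn) (v : Vn) :
    hh v (∑ i ∈ s, f i) = ∑ i ∈ s, hh v (f i) := by
  induction s using Finset.cons_induction with
  | empty => simp [hh_zero_right hF]
  | cons a s ha ih => rw [Finset.sum_cons, Finset.sum_cons, hh_add_right hF, ih]

theorem nonDeg_top (hF : Fintype.card F = q ^ 2) : NonDeg q (⊤ : Submodule F Vn) := fun u _ h =>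
  (isForm_herm (n := n) hF).nondeg u fun v => hh_comm_zero hF (h v trivial)

theorem nonDeg_bot : NonDeg q (⊥ : Submodule F Vn) := fun u hu _ => (Submodule.mem_bot F).1 hu

theorem orth_invariant (hF : Fintype.card F = q ^ 2) {T : Module.End F Vn} (hTB : ∀ u v, hh (T u) (T v) = hh u v)
    (hinj : Function.Injective T) {W : Submodule F Vn} (hW : ∀ w ∈ W, T w ∈ W) :
    ∀ v ∈ perp (hermB n hF) W, T v ∈ perp (hermB n hF) W := by
  intro v hv
  rw [mem_perp_iff hF] at hv ⊢
  intro w hw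
  obtain ⟨w', hw'⟩ := (LinearMap.injective_iff_surjective (f := T.restrict hW)).1
    (fun a b h => Subtype.ext (hinj (congrArg Subtype.val h))) ⟨w, hw⟩
  rw [show w = T (w' : Vn) from (congrArg Subtype.val hw').symm, hTB]
  exact hv _ w'.2

/-- The orthogonal complement of a nondegenerate subspace inside another one. -/
theorem nd_split (hF : Fintype.card F = q ^ 2) {U W : Submodule F Vn} (hU : NonDeg q U) (hW : NonDeg q W) (hUW : U ≤ W) :
    NonDeg q (W ⊓ perp (hermB n hF) U) ∧ finrank F U + finrank F ↥(W ⊓ perp (hermB n hF) U) = finrank F W ∧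
      U ⊔ (W ⊓ perp (hermB n hF) U) = W := by
  have hc := isCompl_perp' hF hU
  have hsup : U ⊔ (W ⊓ perp (hermB n hF) U) = W := by
    rw [inf_comm W, ← sup_inf_assoc_of_le _ hUW, hc.sup_eq_top, top_inf_eq]
  refine ⟨fun w hw h => hW w hw.1 fun x hx => ?_, ?_, hsup⟩
  · rw [← hsup] at hx
    obtain ⟨u, hu, y, hy, rfl⟩ := Submodule.mem_sup.1 hx
    rw [hh_add_right hF, h y hy, add_zero]
    exact (mem_perp_iff hF).1 hw.2 u hu
  · have h := Submodule.finrank_sup_add_finrank_inf_eq U (W ⊓ perp (hermB n hF) U)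
    rw [hsup, show U ⊓ (W ⊓ perp (hermB n hF) U) = ⊥ from le_bot_iff.1 (hc.inf_eq_bot ▸ inf_le_inf_left _ inf_le_right),
      finrank_bot, add_zero] at h
    exact h.symm

/-- Orthogonal sums of nondegenerate subspaces are nondegenerate. -/
theorem nd_sup (hF : Fintype.card F = q ^ 2) {U U' : Submodule F Vn} (hU : NonDeg q U) (hU' : NonDeg q U')
    (h : U' ≤ perp (hermB n hF) U) : NonDeg q (U ⊔ U') := by
  intro w hw hz
  obtain ⟨a, ha, b, hb, rfl⟩ := Submodule.mem_sup.1 hw
  have ha0 : a = 0 := hU a ha fun x hx => by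
    have := hz x (Submodule.mem_sup_left hx)
    rwa [hh_add_left hF, (mem_perp_iff hF).1 (h hb) x hx, add_zero] at this
  have hb0 : b = 0 := hU' b hb fun x hx => by
    have := hz x (Submodule.mem_sup_right hx)
    rwa [ha0, zero_add] at this
  rw [ha0, hb0, add_zero]

theorem finrank_sup_perp (hF : Fintype.card F = q ^ 2) {U U' : Submodule F Vn} (hU : NonDeg q U)
    (h : U' ≤ perp (hermB n hF) U) : finrank F ↥(U ⊔ U') = finrank F U + finrank F U' :=
  SubspaceDerange.finrank_sup_of_disjoint (le_bot_iff.1 ((isCompl_perp' hF hU).inf_eq_bot ▸ inf_le_inf_left _ h))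

/-- Nondegenerate subspaces of every dimension. -/
theorem exists_nd_sub (hF : Fintype.card F = q ^ 2) {Z : Submodule F Vn} (hZ : NonDeg q Z) :
    ∀ e, e ≤ finrank F Z → ∃ U ≤ Z, NonDeg q U ∧ finrank F U = e := by
  intro e
  induction e with
  | zero => exact fun _ => ⟨⊥, bot_le, nonDeg_bot, finrank_bot F Vn⟩
  | succ e ih =>
    intro he
    obtain ⟨U, hUZ, hUn, hUd⟩ := ih (by omega)
    obtain ⟨hYn, hYd, -⟩ := nd_split hF hUn hZ hUZ
    obtain ⟨u, hu, huu⟩ := exists_unit hF hYn (fun h => by rw [h, finrank_bot] at hYd; omega)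
    have hu0 : u ≠ 0 := fun h => by rw [h, hh_zero_left hF] at huu; exact zero_ne_one huu
    have hS : NonDeg q (Submodule.span F {u}) := by
      intro w hw h
      obtain ⟨a, rfl⟩ := Submodule.mem_span_singleton.1 hw
      have h1 := h u (Submodule.mem_span_singleton_self u)
      rw [hh_smul_left hF, huu, mul_one] at h1
      rw [h1, zero_smul]
    have hle : Submodule.span F {u} ≤ perp (hermB n hF) U := (Submodule.span_singleton_le_iff_mem _ _).2 hu.2
    refine ⟨U ⊔ Submodule.span F {u}, sup_le hUZ ((Submodule.span_singleton_le_iff_mem _ _).2 hu.1),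
      nd_sup hF hUn hS hle, ?_⟩
    rw [finrank_sup_perp hF hUn hle, hUd, finrank_span_singleton hu0]

/-- The fixed part of a nondegenerate invariant subspace is nondegenerate. -/
theorem nd_fixed (hF : Fintype.card F = q ^ 2) {r : ℕ} {T : Module.End F Vn} (hTB : ∀ u v, hh (T u) (T v) = hh u v)
    (hT : T ^ r = 1) (hrF : (r : F) ≠ 0) {W : Submodule F Vn} (hW : ∀ w ∈ W, T w ∈ W) (hWn : NonDeg q W) :
    NonDeg q (W ⊓ LinearMap.ker (T - 1)) := by
  intro v hv h
  refine hWn v hv.1 fun w hw => ?_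
  have hTv : T v = v := sub_eq_zero.1 hv.2
  have hpow : ∀ l : ℕ, (T ^ l) w ∈ W ∧ hh v ((T ^ l) w) = hh v w := by
    intro l
    induction l with
    | zero => exact ⟨by simpa using hw, by simp⟩
    | succ l ih =>
      rw [pow_succ', Module.End.mul_apply]
      refine ⟨hW _ ih.1, ?_⟩
      conv_lhs => rw [← hTv]
      rw [hTB, ih.2]
  have hs : ∑ l ∈ Finset.range r, (T ^ l) w ∈ W ⊓ LinearMap.ker (T - 1) := by
    refine ⟨Submodule.sum_mem _ fun l _ => (hpow l).1, ?_⟩
    show (T - 1) _ = 0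
    rw [← LinearMap.sum_apply, ← Module.End.mul_apply, mul_geom_sum, hT, sub_self, LinearMap.zero_apply]
  have := h _ hs
  rw [sum_pos hF, Finset.sum_congr rfl (fun l _ => (hpow l).2), Finset.sum_const, Finset.card_range, nsmul_eq_mul] at this
  exact (mul_eq_zero.1 this).resolve_left hrF

/-- A free isometry of order `r` of a `b`-dimensional nondegenerate space forces `(-q)^b = 1`. -/
theorem no_small (hF : Fintype.card F = q ^ 2) {r b : ℕ} [Fact r.Prime] (hrq : ¬ r ∣ q)
    (hb : b = orderOf ((q ^ 2 : ℕ) : ZMod r)) {T : Module.End F Vn} (hTB : ∀ u v, hh (T u) (T v) = hh u v)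
    (hT : T ^ r = 1) {W : Submodule F Vn} (hW : ∀ w ∈ W, T w ∈ W) (hWn : NonDeg q W)
    (hfree : W ⊓ LinearMap.ker (T - 1) = ⊥) (hd : finrank F W = b) (hb0 : 0 < b) : (-(q : ZMod r)) ^ b = 1 := by
  have hrp := (Fact.out : r.Prime)
  have hdvd : r ∣ Nat.card (isomGroup (resForm (hermB n hF) W) (fun v => resForm (hermB n hF) W v v)) := by
    set TW := T.restrict hW
    have hTr : TW ^ r = 1 := LinearMap.ext fun w => Subtype.ext (by
      rw [Module.End.pow_restrict r, LinearMap.restrict_apply]; simp [hT])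
    let e : W ≃ₗ[F] W := LinearEquiv.ofInjectiveEndo TW fun a b hab => by
      have := congrArg (TW ^ (r - 1)) hab
      rwa [← Module.End.mul_apply, ← Module.End.mul_apply, ← pow_succ, Nat.sub_add_cancel hrp.one_lt.le, hTr] at this
    have he : e ∈ isomGroup (resForm (hermB n hF) W) (fun v => resForm (hermB n hF) W v v) :=
      ⟨fun u v => hTB (v : Vn) (u : Vn), fun v => hTB (v : Vn) (v : Vn)⟩
    have hek : ∀ (k : ℕ) (w : W), (e ^ k) w = (TW ^ k) w := by
      intro k
      induction k with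
      | zero => intro w; rfl
      | succ k ih => intro w; rw [pow_succ', pow_succ', LinearEquiv.mul_apply, Module.End.mul_apply, ih]; rfl
    have hord : orderOf (⟨e, he⟩ : isomGroup (resForm (hermB n hF) W) (fun v => resForm (hermB n hF) W v v)) = r := by
      refine orderOf_eq_prime (Subtype.ext (LinearEquiv.ext fun w => by
        show (e ^ r) w = w
        rw [hek, hTr]; rfl)) fun h1 => ?_
      have h2 : W = ⊥ := (Submodule.eq_bot_iff _).2 fun w hw => by
        have h3 := congrArg (fun t : isomGroup (resForm (hermB n hF) W) (fun v => resForm (hermB n hF) W v v) =>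
          ((((t : W ≃ₗ[F] W) ⟨w, hw⟩ : W)) : Vn)) h1
        exact (Submodule.eq_bot_iff _).1 hfree w ⟨hw, sub_eq_zero.2 h3⟩
      rw [h2, finrank_bot] at hd
      omega
    rw [← hord]
    exact orderOf_dvd_natCard _
  rw [((isHerm_std (n := n) hF).restrict (nonDeg_B hF hWn)).card_isom hF, hd] at hdvd
  have hq2 := two_le_q hF
  obtain ⟨j, hj, hj'⟩ := (hrp.prime.dvd_finsetProd_iff _).1
    ((hrp.dvd_mul.1 hdvd).resolve_left fun h => hrq (hrp.dvd_of_dvd_pow h))
  rw [Finset.mem_range] at hj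
  have h1 : (-(q : ZMod r)) ^ (j + 1) = 1 := by
    rw [← ZMod.natCast_eq_zero_iff] at hj'
    split_ifs at hj' with he
    · rw [neg_pow, (Even.add_one he).neg_one_pow]
      push_cast at hj'
      linear_combination -hj'
    · rw [neg_pow, (Nat.even_add_one.2 he).neg_one_pow, one_mul]
      rw [Nat.cast_sub (Nat.one_le_pow _ _ (by omega)), Nat.cast_pow, Nat.cast_one, sub_eq_zero] at hj'
      exact hj'
  have h2 : ((q ^ 2 : ℕ) : ZMod r) ^ (j + 1) = 1 := by
    rw [Nat.cast_pow, ← neg_sq, ← pow_mul, mul_comm 2, pow_mul, h1, one_pow]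
  have h3 := Nat.le_of_dvd (by omega) (hb ▸ orderOf_dvd_of_pow_eq_one h2)
  rwa [show j + 1 = b by omega] at h1

section Cyclic

theorem pow_q (hF : Fintype.card F = q ^ 2) (P : F[X]) : P ^ q = (P.map (frobQ hF)).comp (X ^ q) := by
  obtain ⟨p, k, hp, hcp, rfl⟩ := exists_q_eq_pow hF
  haveI : Fact p.Prime := ⟨hp⟩
  induction P using Polynomial.induction_on' with
  | add A B hA hB => rw [add_pow_char_pow, hA, hB, Polynomial.map_add, add_comp]
  | monomial l a =>
    rw [monomial_pow, Polynomial.map_monomial, monomial_comp, frobQ_apply, ← pow_mul, ← C_mul_X_pow_eq_monomial, mul_comm l]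

/-- The adjoint of a polynomial in an isometry. -/
theorem adjoint (hF : Fintype.card F = q ^ 2) {T S : Module.End F Vn} (hTB : ∀ u v, hh (T u) (T v) = hh u v)
    (hTS : T * S = 1) : ∀ (P : F[X]) (u w : Vn), hh (aeval T P u) w = hh u (aeval S (P.map (frobQ hF)) w) := by
  intro P
  induction P using Polynomial.induction_on' with
  | add A B hA hB =>
    intro u w
    simp only [map_add, Polynomial.map_add, LinearMap.add_apply, hh_add_left hF, hh_add_right hF, hA, hB]
  | monomial l a =>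
    have key : ∀ (l : ℕ) u w, hh ((T ^ l) u) w = hh u ((S ^ l) w) := by
      intro l
      induction l with
      | zero => intro u w; rfl
      | succ l ih =>
        intro u w
        have h1 : w = T (S w) := by rw [← Module.End.mul_apply, hTS, Module.End.one_apply]
        rw [pow_succ, pow_succ, Module.End.mul_apply, Module.End.mul_apply]
        rw [← Module.End.mul_apply (T ^ l), ← pow_succ, pow_succ', Module.End.mul_apply]
        conv_lhs => rw [h1, hTB]
        rw [ih]
    intro u w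
    rw [Polynomial.map_monomial, aeval_monomial, aeval_monomial, ← Algebra.smul_def, ← Algebra.smul_def,
      LinearMap.smul_apply, LinearMap.smul_apply, hh_smul_left hF, hh_smul_right hF, key, frobQ_apply, pow_q_q hF]

/-- The span of an orbit of a vector killed by a polynomial of degree `b`. -/
theorem cyclic_span {T : Module.End F Vn} {P : F[X]} {b : ℕ} (hP : P.Monic) (hPd : P.natDegree = b) {v : Vn} (hv : aeval T P v = 0) :
    ∃ U : Submodule F Vn, v ∈ U ∧ (∀ u ∈ U, T u ∈ U) ∧ finrank F U ≤ b ∧ (∀ u ∈ U, ∃ A : F[X], u = aeval T A v) := by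
  classical
  let φ : F[X] →ₗ[F] Vn := (LinearMap.applyₗ v).comp (aeval T).toLinearMap
  have hφ : ∀ A, φ A = aeval T A v := fun A => rfl
  refine ⟨LinearMap.range φ, ⟨1, by simp [hφ]⟩, ?_, ?_, fun u hu => by obtain ⟨A, rfl⟩ := hu; exact ⟨A, rfl⟩⟩
  · rintro _ ⟨A, rfl⟩
    exact ⟨X * A, by simp [hφ]⟩
  · have hle : LinearMap.range φ ≤ (degreeLT F b).map φ := by
      rintro _ ⟨A, rfl⟩
      refine ⟨A %ₘ P, ?_, ?_⟩
      · rw [SetLike.mem_coe, mem_degreeLT, ← hPd, ← degree_eq_natDegree hP.ne_zero]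
        exact degree_modByMonic_lt A hP
      · conv_rhs => rw [← modByMonic_add_div A P]
        rw [map_add, show φ (P * (A /ₘ P)) = 0 by
          rw [hφ, mul_comm, map_mul, Module.End.mul_apply, hv, map_zero], add_zero]
    refine (Submodule.finrank_mono hle).trans ((Submodule.finrank_map_le _ _).trans_eq ?_)
    rw [LinearEquiv.finrank_eq (degreeLTEquiv F b), Module.finrank_fin_fun]

/-- In a space killed by a polynomial of degree `b`, some cyclic subspace is nondegenerate. -/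
theorem exists_nd_cyclic {T : Module.End F Vn} {P : F[X]} {b : ℕ} (hF : Fintype.card F = q ^ 2) (hTB : ∀ u v, hh (T u) (T v) = hh u v)
    (hinj : Function.Injective T) (hP : P.Monic) (hPd : P.natDegree = b) {W : Submodule F Vn}
    (hW : ∀ w ∈ W, T w ∈ W) (hkill : ∀ w ∈ W, aeval T P w = 0)
    (hmin : ∀ U ≤ W, (∀ u ∈ U, T u ∈ U) → U ≠ ⊥ → b ≤ finrank F U) (hne : ∃ u ∈ W, ∃ w ∈ W, hh u w ≠ 0) :
    ∃ U ≤ W, (∀ u ∈ U, T u ∈ U) ∧ NonDeg q U ∧ finrank F U = b := by
  by_contra hcon
  have hti : ∀ v ∈ W, ∀ A C : F[X], hh (aeval T A v) (aeval T C v) = 0 := by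
    intro v hv A C
    rcases eq_or_ne v 0 with rfl | hv0
    · simp [hh_zero_left hF]
    obtain ⟨U, hvU, hUi, hUd, hUA⟩ := cyclic_span hP hPd (hkill v hv)
    have hUW : U ≤ W := fun u hu => by
      obtain ⟨A, rfl⟩ := hUA u hu
      exact SubspaceDerange.aeval_mem hW A hv
    have hUne : U ≠ ⊥ := fun h => hv0 (by rwa [h, Submodule.mem_bot] at hvU)
    have hUb : finrank F U = b := le_antisymm hUd (hmin U hUW hUi hUne)
    set R := U ⊓ perp (hermB n hF) U
    have hR : ∀ u ∈ R, T u ∈ R := fun u hu => ⟨hUi u hu.1, orth_invariant hF hTB hinj hUi u hu.2⟩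
    by_cases hR0 : R = ⊥
    · refine absurd ⟨U, hUW, hUi, fun u hu h => ?_, hUb⟩ hcon
      exact (Submodule.eq_bot_iff _).1 hR0 u ⟨hu, (mem_perp_iff hF).2 h⟩
    · have hle := hmin R (inf_le_left.trans hUW) hR hR0
      have hRU : R = U := Submodule.eq_of_le_of_finrank_le inf_le_left (by omega)
      have h1 : aeval T A v ∈ R := by rw [hRU]; exact SubspaceDerange.aeval_mem hUi A hvU
      exact (mem_perp_iff hF).1 h1.2 _ (SubspaceDerange.aeval_mem hUi C hvU)
  obtain ⟨u, hu, w, hw, huw⟩ := hne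
  obtain ⟨t, ht⟩ := exists_not_fixed hF
  have key : ∀ a : F, a ^ q * hh u w + a * hh w u = 0 := by
    intro a
    have h := hti (u + a • w) (W.add_mem hu (W.smul_mem a hw)) 1 1
    have hu' := hti u hu 1 1
    have hw' := hti w hw 1 1
    simp only [map_one, Module.End.one_apply] at h hu' hw'
    rw [hh_add_left hF, hh_add_right hF, hh_add_right hF, hh_smul_left hF, hh_smul_right hF, hh_smul_left hF,
      hh_smul_right hF, hu', hw'] at h
    linear_combination h
  have h1 := key 1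
  have h2 := key t
  rw [one_pow, one_mul, one_mul] at h1
  exact huw ((mul_eq_zero.1 (show (t ^ q - t) * hh u w = 0 by linear_combination h2 - t * h1)).resolve_left
    (sub_ne_zero.2 ht))

end Cyclic

variable {r b c : ℕ} [Fact r.Prime]

/-- A nondegenerate invariant subspace of minimal dimension without fixed points. -/
theorem exists_atom {T : Module.End F Vn} (hF : Fintype.card F = q ^ 2) (hTB : ∀ u v, hh (T u) (T v) = hh u v) (hT : T ^ r = 1)
    (hrF : (r : F) ≠ 0) (hrq : ¬ r ∣ q) (hb : b = orderOf ((q ^ 2 : ℕ) : ZMod r))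
    (hc : c = if (-(q : ZMod r)) ^ b = 1 then b else 2 * b) {W : Submodule F Vn} (hW : ∀ w ∈ W, T w ∈ W)
    (hWn : NonDeg q W) (hfree : W ⊓ LinearMap.ker (T - 1) = ⊥) (hne : W ≠ ⊥) :
    ∃ U ≤ W, (∀ u ∈ U, T u ∈ U) ∧ NonDeg q U ∧ finrank F U = c := by
  classical
  have hr : r.Prime := Fact.out
  have hrQ : ¬ r ∣ q ^ 2 := fun h => hrq (hr.dvd_of_dvd_pow h)
  obtain ⟨hb0, -⟩ := SubspaceDerange.dvd_pow_sub_one hrQ hb
  have hinj : Function.Injective T := fun a a' h => by
    have := congrArg (T ^ (r - 1)) h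
    rwa [← Module.End.mul_apply, ← Module.End.mul_apply, ← pow_succ, Nat.sub_add_cancel hr.one_lt.le, hT,
      Module.End.one_apply, Module.End.one_apply] at this
  have hmin : ∀ U : Submodule F Vn, U ≤ W → (∀ u ∈ U, T u ∈ U) → U ≠ ⊥ → b ≤ finrank F U := by
    intro U hUW hU hU0
    have h := SubspaceDerange.dim_mod hF hrQ hb hT hU
    rw [show U ⊓ LinearMap.ker (T - 1) = ⊥ from le_bot_iff.1 (hfree ▸ inf_le_inf_right _ hUW), finrank_bot] at h
    exact Nat.le_of_dvd (Nat.pos_of_ne_zero fun e => hU0 (Submodule.finrank_eq_zero.1 e)) (Nat.modEq_zero_iff_dvd.1 h)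
  obtain ⟨U, -, hUW, hU, hUd⟩ := SubspaceDerange.step hF hrQ hb hT hW hfree (U := ⊥)
    (fun v hv => by rw [Submodule.mem_bot] at hv; simp [hv]) bot_le (by
      rw [finrank_bot]; exact Nat.pos_of_ne_zero fun e => hne (Submodule.finrank_eq_zero.1 e))
  rw [finrank_bot, zero_add] at hUd
  by_cases hR0 : U ⊓ perp (hermB n hF) U = ⊥
  · have hUn : NonDeg q U := fun u hu h => (Submodule.eq_bot_iff _).1 hR0 u ⟨hu, (mem_perp_iff hF).2 h⟩
    have hE := no_small hF hrq hb hTB hT hU hUn (le_bot_iff.1 (hfree ▸ inf_le_inf_right _ hUW)) hUd hb0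
    exact ⟨U, hUW, hU, hUn, by rw [hc, if_pos hE, hUd]⟩
  have hUiso : ∀ a ∈ U, ∀ a' ∈ U, hh a a' = 0 := by
    have hinv : ∀ v ∈ U ⊓ perp (hermB n hF) U, T v ∈ U ⊓ perp (hermB n hF) U :=
      fun v hv => ⟨hU v hv.1, orth_invariant hF hTB hinj hU v hv.2⟩
    have h3 : U ⊓ perp (hermB n hF) U = U := Submodule.eq_of_le_of_finrank_le inf_le_left
      (hUd ▸ hmin _ (inf_le_left.trans hUW) hinv hR0)
    intro a ha a' ha'
    rw [← h3] at ha
    exact (mem_perp_iff hF).1 ha.2 a' ha'
  -- an invariant subspace paired with `U`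
  set TW := T.restrict hW
  have hTW : TW ^ r = 1 := LinearMap.ext fun w => Subtype.ext (by
    rw [Module.End.pow_restrict r, LinearMap.restrict_apply]; simp [hT])
  set P₀ := W ⊓ perp (hermB n hF) U
  have hP₀ : ∀ v ∈ P₀, T v ∈ P₀ := fun v hv => ⟨hW v hv.1, orth_invariant hF hTB hinj hU v hv.2⟩
  obtain ⟨C₀, hC₀, hC₀i⟩ := SubspaceDerange.exists_compl (T := TW) hr.pos hrF (one_ne_zero (α := F))
    (by rw [hTW, one_smul]) (U := P₀.comap W.subtype) (fun w hw => hP₀ _ hw)
  set C := C₀.map W.subtype with hC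
  have hCW : C ≤ W := Submodule.map_subtype_le _ _
  have hCi : ∀ v ∈ C, T v ∈ C := by rintro _ ⟨w, hw, rfl⟩; exact ⟨TW w, hC₀i w hw, rfl⟩
  have hCd : finrank F C = b := by
    have h1 := Submodule.finrank_add_eq_of_isCompl hC₀
    rw [(Submodule.comapSubtypeEquivOfLe (inf_le_left : P₀ ≤ W)).finrank_eq] at h1
    have h2 := (finrank_inf_perp hF hWn hUW).1
    rw [hC, Submodule.finrank_map_subtype_eq]
    omega
  have hCU : ∀ v ∈ C, (∀ u ∈ U, hh v u = 0) → v = 0 := by
    rintro _ ⟨w, hw, rfl⟩ h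
    have : w ∈ P₀.comap W.subtype ⊓ C₀ := ⟨⟨w.2, (mem_perp_iff hF).2 h⟩, hw⟩
    rw [hC₀.inf_eq_bot, Submodule.mem_bot] at this
    rw [this]; rfl
  have hpair : ∀ u ∈ U, (∀ v ∈ C, hh u v = 0) → u = 0 := by
    intro u hu h
    refine hWn u (hUW hu) fun x hx => ?_
    obtain ⟨a, ha, a', ha', he⟩ := Submodule.mem_sup.1
      (show (⟨x, hx⟩ : W) ∈ P₀.comap W.subtype ⊔ C₀ by rw [hC₀.sup_eq_top]; trivial)
    rw [show x = (a : Vn) + (a' : Vn) from (congrArg Subtype.val he).symm, hh_add_right hF,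
      (hh_comm_zero hF ((mem_perp_iff hF).1 ha.2 u hu) : hh u (a : Vn) = 0), (h _ ⟨a', ha', rfl⟩ : hh u (a' : Vn) = 0), add_zero]
  have hX : NonDeg q (U ⊔ C) := by
    intro x hx h
    obtain ⟨u, hu, v, hv, rfl⟩ := Submodule.mem_sup.1 hx
    have hv0 : v = 0 := hCU v hv fun u' hu' => by
      have := h u' (Submodule.mem_sup_left hu')
      rwa [hh_add_left hF, hUiso u hu u' hu', zero_add] at this
    subst hv0
    rw [add_zero] at h ⊢
    exact hpair u hu fun v' hv' => h v' (Submodule.mem_sup_right hv')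
  have hXi : ∀ x ∈ U ⊔ C, T x ∈ U ⊔ C := by
    intro x hx
    obtain ⟨u, hu, v, hv, rfl⟩ := Submodule.mem_sup.1 hx
    rw [map_add]
    exact add_mem (Submodule.mem_sup_left (hU u hu)) (Submodule.mem_sup_right (hCi v hv))
  have hUC : U ⊓ C = ⊥ := (Submodule.eq_bot_iff _).2 fun x hx => hCU x hx.2 fun u hu => hUiso x hx.1 u hu
  by_cases hE : (-(q : ZMod r)) ^ b = 1
  swap
  · exact ⟨U ⊔ C, sup_le hUW hCW, hXi, hX, by
      rw [SubspaceDerange.finrank_sup_of_disjoint hUC, hUd, hCd, hc, if_neg hE, two_mul]⟩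
  -- the self-dual case
  set P := (T.restrict hU).charpoly with hPdef
  have hPm : P.Monic := LinearMap.charpoly_monic _
  have hPd : P.natDegree = b := by rw [LinearMap.charpoly_natDegree, hUd]
  have hcomp : ∀ (A : F[X]) (u : U), ((aeval (T.restrict hU) A u : U) : Vn) = aeval T A u := by
    intro A u
    induction A using Polynomial.induction_on' with
    | add A A' hA hA' => simp [hA, hA']
    | monomial k a => simp [aeval_monomial, Module.End.pow_restrict k, LinearMap.restrict_apply]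
  have hPU : ∀ u ∈ U, aeval T P u = 0 := fun u hu => by
    rw [← hcomp P ⟨u, hu⟩, hPdef, LinearMap.aeval_self_charpoly]; rfl
  have hbodd : Odd b := by
    rcases Nat.even_or_odd b with he | ho
    · obtain ⟨s, hs⟩ := he
      exfalso
      have h2 : ((q ^ 2 : ℕ) : ZMod r) ^ s = 1 := by
        rw [Nat.cast_pow, ← pow_mul, two_mul, ← hs, ← (Even.neg_pow ⟨s, hs⟩), hE]
      have := Nat.le_of_dvd (by omega) (hb ▸ orderOf_dvd_of_pow_eq_one h2)
      omega
    · exact ho
  obtain ⟨s, hs⟩ := hbodd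
  have hq1 : r ∣ 1 + q ^ b := by
    rw [← ZMod.natCast_eq_zero_iff]
    push_cast
    rw [neg_pow, show ((-1 : ZMod r)) ^ b = -1 by rw [hs]; exact (odd_two_mul_add_one s).neg_one_pow] at hE
    linear_combination -hE
  have hTS : T * T ^ q ^ b = 1 := by
    obtain ⟨t, ht⟩ := hq1
    rw [← pow_succ', add_comm, ht, pow_mul, hT, one_pow]
  have hfrob : ∀ (j : ℕ) (Q : F[X]), aeval T Q ^ (q ^ 2) ^ j = aeval (T ^ (q ^ 2) ^ j) Q := by
    intro j
    induction j with
    | zero => intro Q; simp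
    | succ j ih =>
      intro Q
      rw [pow_succ' (q ^ 2) j, pow_mul (aeval T Q), mul_comm (q ^ 2), pow_mul T, ← expand_aeval, ← ih]
      congr 1
      rw [← map_pow, ← hF, FiniteField.expand_card]
  have hN : aeval (T ^ q ^ b) (P.map (frobQ hF)) = aeval T P ^ q ^ b := by
    rw [show q ^ b = q * (q ^ 2) ^ s by rw [← pow_mul, ← pow_succ', hs], pow_mul (aeval T P), ← map_pow (aeval T),
      hfrob, pow_q hF, Polynomial.aeval_comp, map_pow, aeval_X, ← pow_mul, mul_comm q, pow_mul T]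
  have hkillN : ∀ u ∈ U, ∀ k, 0 < k → (aeval T P ^ k) u = 0 := fun u hu k hk => by
    rw [← Nat.sub_add_cancel hk, pow_succ, Module.End.mul_apply, hPU u hu, map_zero]
  have hq0 : 0 < q ^ b := pow_pos (by have := two_le_q hF; omega) b
  -- `aeval T P ^ q ^ b` kills `C`
  have hNC : ∀ v ∈ C, (aeval T P ^ q ^ b) v = 0 := fun v hv => by
    refine hCU _ (SubspaceDerange.aeval_mem hCi _ hv |> fun h => by rwa [map_pow] at h) fun u hu => hh_comm_zero hF ?_
    have hadj := adjoint hF hTB hTS P u v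
    have h2 : ∀ x ∈ U, hh x ((aeval T P ^ q ^ b) v) = 0 := fun x hx => by
      rw [← hN, ← adjoint hF hTB hTS P x v, hPU x hx, hh_zero_left hF]
    exact h2 u hu
  set K := C ⊓ LinearMap.ker (aeval T P)
  have hKC : K = C := by
    have hK0 : K ≠ ⊥ := by
      intro hK
      have hall : ∀ k, ∀ v ∈ C, (aeval T P ^ k) v = 0 → v = 0 := by
        intro k
        induction k with
        | zero => intro v _ h; simpa using h
        | succ k ih =>
          intro v hv h
          rw [pow_succ, Module.End.mul_apply] at h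
          exact (Submodule.eq_bot_iff _).1 hK v ⟨hv, ih _ (SubspaceDerange.aeval_mem hCi P hv) h⟩
      have hC0 : C = ⊥ := (Submodule.eq_bot_iff _).2 fun v hv => hall _ v hv (hNC v hv)
      rw [hC0, finrank_bot] at hCd
      omega
    refine Submodule.eq_of_le_of_finrank_le inf_le_left (hCd ▸ hmin K (inf_le_left.trans hCW) (fun v hv => ⟨hCi v hv.1, ?_⟩) hK0)
    show aeval T P (T v) = 0
    rw [← Module.End.mul_apply]
    have hcomm : Commute (aeval T P) (T) := by simpa using (Commute.all P X).map (aeval T)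
    rw [hcomm.eq, Module.End.mul_apply, show aeval T P v = 0 from hv.2, map_zero]
  have hkill : ∀ x ∈ U ⊔ C, aeval T P x = 0 := by
    intro x hx
    obtain ⟨u, hu, v, hv, rfl⟩ := Submodule.mem_sup.1 hx
    rw [← hKC] at hv
    rw [map_add, hPU u hu, show aeval T P v = 0 from hv.2, add_zero]
  obtain ⟨u, hu, hu0⟩ := (Submodule.ne_bot_iff U).1 (fun e => by rw [e, finrank_bot] at hUd; omega)
  obtain ⟨v, hv, huv⟩ : ∃ v ∈ C, hh u v ≠ 0 := by
    by_contra h
    push_neg at h
    exact hu0 (hpair u hu h)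
  obtain ⟨Z, hZX, hZi, hZn, hZd⟩ := exists_nd_cyclic hF hTB hinj hPm hPd hXi hkill
    (fun Z hZ => hmin Z (hZ.trans (sup_le hUW hCW))) ⟨u, Submodule.mem_sup_left hu, v, Submodule.mem_sup_right hv, huv⟩
  exact ⟨Z, hZX.trans (sup_le hUW hCW), hZi, hZn, by rw [hc, if_pos hE, hZd]⟩

/-- Nondegenerate invariant subspaces of every admissible dimension. -/
theorem exists_sub {T : Module.End F Vn} (hF : Fintype.card F = q ^ 2) (hTB : ∀ u v, hh (T u) (T v) = hh u v) (hT : T ^ r = 1)
    (hrF : (r : F) ≠ 0) (hrq : ¬ r ∣ q) (hb : b = orderOf ((q ^ 2 : ℕ) : ZMod r))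
    (hc : c = if (-(q : ZMod r)) ^ b = 1 then b else 2 * b) {W : Submodule F Vn} (hW : ∀ w ∈ W, T w ∈ W)
    (hWn : NonDeg q W) {j e : ℕ}
    (hj : j * c + finrank F ↥(W ⊓ LinearMap.ker (T - 1)) ≤ finrank F W)
    (he : e ≤ finrank F ↥(W ⊓ LinearMap.ker (T - 1))) :
    ∃ U ≤ W, (∀ u ∈ U, T u ∈ U) ∧ NonDeg q U ∧ finrank F U = j * c + e := by
  classical
  have hinj : Function.Injective T := fun a b h => by
    have := congrArg (T ^ (r - 1)) h
    rwa [← Module.End.mul_apply, ← Module.End.mul_apply, ← pow_succ, Nat.sub_add_cancel (Fact.out : r.Prime).one_lt.le,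
      hT, Module.End.one_apply, Module.End.one_apply] at this
  set Kf := W ⊓ LinearMap.ker (T - 1)
  have hKn : NonDeg q Kf := nd_fixed hF hTB hT hrF hW hWn
  have hKi : ∀ v ∈ Kf, T v ∈ Kf := fun v hv => by rwa [show T v = v from sub_eq_zero.1 hv.2]
  obtain ⟨hRn, hRd, -⟩ := nd_split hF hKn hWn inf_le_left
  set R := W ⊓ perp (hermB n hF) Kf
  have hRi : ∀ v ∈ R, T v ∈ R := fun v hv => ⟨hW v hv.1, orth_invariant hF hTB hinj hKi v hv.2⟩
  have hRfree : R ⊓ LinearMap.ker (T - 1) = ⊥ := le_bot_iff.1 fun v hv => by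
    rw [← (isCompl_perp' hF hKn).inf_eq_bot]
    exact ⟨⟨hv.1.1, hv.2⟩, hv.1.2⟩
  have hc0 : 0 < c := by
    have := (SubspaceDerange.dvd_pow_sub_one (fun h => hrq ((Fact.out : r.Prime).dvd_of_dvd_pow h)) hb).1
    rw [hc]; split_ifs <;> omega
  have hgrow : ∀ j, j * c ≤ finrank F R → ∃ U ≤ R, (∀ u ∈ U, T u ∈ U) ∧ NonDeg q U ∧ finrank F U = j * c := by
    intro j
    induction j with
    | zero =>
      exact fun _ => ⟨⊥, bot_le, fun u hu => by rw [Submodule.mem_bot] at hu; simp [hu], nonDeg_bot,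
        by rw [finrank_bot, zero_mul]⟩
    | succ j ih =>
      intro hd
      rw [Nat.succ_mul] at hd ⊢
      obtain ⟨U, hUR, hUi, hUn, hUd⟩ := ih (by omega)
      obtain ⟨hYn, hYd, -⟩ := nd_split hF hUn hRn hUR
      obtain ⟨A, hAY, hAi, hAn, hAd⟩ := exists_atom hF hTB hT hrF hrq hb hc (W := R ⊓ perp (hermB n hF) U)
        (fun v hv => ⟨hRi v hv.1, orth_invariant hF hTB hinj hUi v hv.2⟩) hYn
        (le_bot_iff.1 (hRfree ▸ inf_le_inf_right _ inf_le_left)) (fun e => by rw [e, finrank_bot] at hYd; omega)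
      refine ⟨U ⊔ A, sup_le hUR (hAY.trans inf_le_left), fun v hv => ?_, nd_sup hF hUn hAn (hAY.trans inf_le_right), ?_⟩
      · obtain ⟨a, ha, b, hb, rfl⟩ := Submodule.mem_sup.1 hv
        rw [map_add]
        exact add_mem (Submodule.mem_sup_left (hUi a ha)) (Submodule.mem_sup_right (hAi b hb))
      · rw [finrank_sup_perp hF hUn (hAY.trans inf_le_right), hUd, hAd]
  obtain ⟨U, hUR, hUi, hUn, hUd⟩ := hgrow j (by omega)
  obtain ⟨E, hEK, hEn, hEd⟩ := exists_nd_sub hF hKn e he
  have hEU : E ≤ perp (hermB n hF) U := fun x hx => (mem_perp_iff hF).2 fun u hu =>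
    hh_comm_zero hF ((mem_perp_iff hF).1 (hUR hu).2 x (hEK hx))
  refine ⟨U ⊔ E, sup_le (hUR.trans inf_le_left) (hEK.trans inf_le_left), fun v hv => ?_, nd_sup hF hUn hEn hEU, ?_⟩
  · obtain ⟨a, ha, b, hb, rfl⟩ := Submodule.mem_sup.1 hv
    rw [map_add, show T b = b from sub_eq_zero.1 (hEK hb).2]
    exact add_mem (Submodule.mem_sup_left (hUi a ha)) (Submodule.mem_sup_right hb)
  · rw [finrank_sup_perp hF hUn hEU, hUd, hEd]

/-- A nondegenerate invariant subspace has dimension congruent to that of its fixed part. -/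
theorem dim_mod {T : Module.End F Vn} (hF : Fintype.card F = q ^ 2) (hTB : ∀ u v, hh (T u) (T v) = hh u v) (hT : T ^ r = 1)
    (hrF : (r : F) ≠ 0) (hrq : ¬ r ∣ q) (hb : b = orderOf ((q ^ 2 : ℕ) : ZMod r))
    (hc : c = if (-(q : ZMod r)) ^ b = 1 then b else 2 * b) {W : Submodule F Vn} (hW : ∀ w ∈ W, T w ∈ W)
    (hWn : NonDeg q W) : finrank F W ≡ finrank F ↥(W ⊓ LinearMap.ker (T - 1)) [MOD c] := by
  classical
  obtain ⟨hb0, -⟩ := SubspaceDerange.dvd_pow_sub_one (fun h => hrq ((Fact.out : r.Prime).dvd_of_dvd_pow h)) hb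
  have hinj : Function.Injective T := fun a b h => by
    have := congrArg (T ^ (r - 1)) h
    rwa [← Module.End.mul_apply, ← Module.End.mul_apply, ← pow_succ, Nat.sub_add_cancel (Fact.out : r.Prime).one_lt.le,
      hT, Module.End.one_apply, Module.End.one_apply] at this
  by_cases hE : (-(q : ZMod r)) ^ b = 1
  · rw [hc, if_pos hE]
    exact SubspaceDerange.dim_mod hF (fun h => hrq ((Fact.out : r.Prime).dvd_of_dvd_pow h)) hb hT hW
  have hKn := nd_fixed hF hTB hT hrF hW hWn
  obtain ⟨hRn, hRd, -⟩ := nd_split hF hKn hWn inf_le_left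
  set Kf := W ⊓ LinearMap.ker (T - 1)
  set R := W ⊓ perp (hermB n hF) Kf
  have hKi : ∀ v ∈ Kf, T v ∈ Kf := fun v hv => by rwa [show T v = v from sub_eq_zero.1 hv.2]
  have hRi : ∀ v ∈ R, T v ∈ R := fun v hv => ⟨hW v hv.1, orth_invariant hF hTB hinj hKi v hv.2⟩
  have hRfree : R ⊓ LinearMap.ker (T - 1) = ⊥ := le_bot_iff.1 fun v hv => by
    rw [← (isCompl_perp' hF hKn).inf_eq_bot]
    exact ⟨⟨hv.1.1, hv.2⟩, hv.1.2⟩
  have key : ∀ N (X : Submodule F Vn), finrank F X ≤ N → (∀ v ∈ X, T v ∈ X) → NonDeg q X →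
      X ⊓ LinearMap.ker (T - 1) = ⊥ → c ∣ finrank F X := by
    intro N
    induction N with
    | zero => intro X h _ _ _; rw [Nat.le_zero.1 h]; exact dvd_zero _
    | succ N ih =>
      intro X hd hXi hXn hXf
      rcases eq_or_ne X ⊥ with rfl | hX0
      · rw [finrank_bot]; exact dvd_zero _
      obtain ⟨A, hAX, hAi, hAn, hAd⟩ := exists_atom hF hTB hT hrF hrq hb hc hXi hXn hXf hX0
      obtain ⟨hYn, hYd, -⟩ := nd_split hF hAn hXn hAX
      have hc0 : 0 < c := by rw [hc, if_neg hE]; omega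
      rw [← hYd, hAd]
      exact dvd_add dvd_rfl (ih _ (by omega) (fun v hv => ⟨hXi v hv.1, orth_invariant hF hTB hinj hAi v hv.2⟩) hYn
        (le_bot_iff.1 (hXf ▸ inf_le_inf_right _ inf_le_left)))
  rw [← hRd]
  exact Nat.ModEq.trans (Nat.ModEq.add_left _ (Nat.modEq_zero_iff_dvd.2 (key _ R le_rfl hRi hRn hRfree))) (by rw [add_zero])

end Cfsg.Agent.GeomClasses.SUStructure
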