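import Cfsg.Agent.GeomClasses.SympStructure
import Cfsg.Agent.GeomClasses.JordanType

/-!
# Unipotent isometries of alternating forms: orthogonal indecomposable pieces
-/

set_option autoImplicit false
set_option linter.unusedSectionVars false

namespace Cfsg.Agent.GeomClasses.SympUnipotent

open Module SympStructure JordanType

variable {F V : Type*} [Field F] [Fintype F] [AddCommGroup V] [Module F V] [FiniteDimensional F V]
  {B : LinearMap.BilinForm F V} {T : Module.End F V}

/-- The block sizes of a family of pieces. -/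
def parts (P : Multiset (ℕ × ℕ)) : Multiset ℕ := P.bind fun x => Multiset.replicate x.2 x.1

/-- The rank profile of a type. -/
def prof (μ : Multiset ℕ) (k : ℕ) : ℕ := (μ.map fun a => a - k).sum

theorem parts_cons (x : ℕ × ℕ) (P : Multiset (ℕ × ℕ)) :
    parts (x ::ₘ P) = Multiset.replicate x.2 x.1 + parts P := Multiset.cons_bind _ _ _

theorem prof_add (μ ν : Multiset ℕ) (k : ℕ) : prof (μ + ν) k = prof μ k + prof ν k := by simp [prof]

theorem prof_replicate (s a k : ℕ) : prof (Multiset.replicate s a) k = s * (a - k) := by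
  simp [prof, Multiset.sum_replicate]

theorem prof_zero (μ : Multiset ℕ) : prof μ 0 = μ.sum := by simp [prof]

theorem prof_count (μ : Multiset ℕ) (j : ℕ) :
    prof μ j + prof μ (j + 2) = 2 * prof μ (j + 1) + μ.count (j + 1) := by
  induction μ using Multiset.induction_on with
  | empty => simp [prof]
  | cons a μ ih =>
    simp only [prof, Multiset.map_cons, Multiset.sum_cons, Multiset.count_cons] at ih ⊢
    split_ifs <;> omega

/-- The rank profile determines the type. -/
theorem eq_of_prof {μ ν : Multiset ℕ} (hμ : ∀ a ∈ μ, 0 < a) (hν : ∀ a ∈ ν, 0 < a) (h : ∀ k, prof μ k = prof ν k) :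
    μ = ν := by
  refine Multiset.ext.2 fun a => ?_
  rcases a with _ | a
  · rw [Multiset.count_eq_zero.2 fun h => absurd (hμ 0 h) (lt_irrefl 0),
      Multiset.count_eq_zero.2 fun h => absurd (hν 0 h) (lt_irrefl 0)]
  · have h1 := prof_count μ a
    have h2 := prof_count ν a
    rw [h, h, h] at h1
    omega

theorem mem_parts {P : Multiset (ℕ × ℕ)} {a : ℕ} (h : a ∈ parts P) : ∃ x ∈ P, x.1 = a ∧ x.2 ≠ 0 := by
  obtain ⟨x, hx, ha⟩ := Multiset.mem_bind.1 h
  exact ⟨x, hx, (Multiset.eq_of_mem_replicate ha).symm, fun e => by rw [e] at ha; simp at ha⟩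

/-- Parity of the types of nondegenerate spaces. -/
theorem parity {P : Multiset (ℕ × ℕ)} (hP : ∀ x ∈ P, (x.2 = 1 ∧ Even x.1) ∨ x.2 = 2) :
    ∀ a : ℕ, Odd a → Even ((parts P).count a) := by
  induction P using Multiset.induction_on with
  | empty => simp [parts]
  | cons x P ih =>
    intro a ha
    rw [parts_cons, Multiset.count_add]
    refine Even.add ?_ (ih (fun y hy => hP y (Multiset.mem_cons_of_mem hy)) a ha)
    rw [Multiset.count_replicate]
    split_ifs with h
    · rcases hP x (Multiset.mem_cons_self _ _) with ⟨-, he⟩ | h2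
      · exact absurd (h ▸ he) (Nat.not_even_iff_odd.2 ha)
      · rw [h2]; exact even_two
    · exact Even.zero

/-- Selecting pieces of a prescribed type. -/
theorem exists_select {P : Multiset (ℕ × ℕ)} (hP : ∀ x ∈ P, (x.2 = 1 ∧ Even x.1) ∨ (x.2 = 2 ∧ Odd x.1)) :
    ∀ ν : Multiset ℕ, ν ≤ parts P → (∀ a : ℕ, Odd a → Even (ν.count a)) → ∃ Q ≤ P, parts Q = ν := by
  induction P using Multiset.induction_on with
  | empty =>
    intro ν hν _
    exact ⟨0, le_rfl, (Multiset.le_zero.1 (by simpa [parts] using hν)).symm⟩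
  | cons x P ih =>
    intro ν hν hpar
    rw [parts_cons] at hν
    have hx := hP x (Multiset.mem_cons_self _ _)
    have ih' := ih fun y hy => hP y (Multiset.mem_cons_of_mem hy)
    by_cases hle : x.2 ≤ ν.count x.1
    · have hsub : Multiset.replicate x.2 x.1 ≤ ν := Multiset.le_count_iff_replicate_le.1 hle
      obtain ⟨ν', rfl⟩ := Multiset.le_iff_exists_add.1 hsub
      obtain ⟨Q, hQ, hQν⟩ := ih' ν' (le_of_add_le_add_left hν) (fun a ha => by
        have h := hpar a ha
        rw [Multiset.count_add, Multiset.count_replicate] at h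
        refine (Nat.even_add.1 h).1 ?_
        split_ifs with e
        · rcases hx with ⟨-, he⟩ | ⟨h2, -⟩
          · exact absurd (e ▸ he) (Nat.not_even_iff_odd.2 ha)
          · rw [h2]; exact even_two
        · exact Even.zero)
      exact ⟨x ::ₘ Q, Multiset.cons_le_cons x hQ, by rw [parts_cons, hQν]⟩
    · have h0 : ν.count x.1 = 0 := by
        rcases hx with ⟨h1, -⟩ | ⟨h2, ho⟩
        · omega
        · obtain ⟨b, hb⟩ := hpar x.1 ho; omega
      obtain ⟨Q, hQ, hQν⟩ := ih' ν (Multiset.le_iff_count.2 fun a => by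
        have h := Multiset.le_iff_count.1 hν a
        rw [Multiset.count_add, Multiset.count_replicate] at h
        split_ifs at h with e
        · subst e; omega
        · omega) hpar
      exact ⟨Q, hQ.trans (Multiset.le_cons_self _ _), hQν⟩

section Chains

variable (hA : B.IsAlt) (hTB : ∀ x y, B (T x) (T y) = B x y)
include hA hTB

theorem adj (x y : V) : B ((T - 1) x) y = -B (T x) ((T - 1) y) := by
  simp only [LinearMap.sub_apply, Module.End.one_apply, map_sub, hTB]
  ring

variable {W : Submodule F V} (hW : ∀ w ∈ W, T w ∈ W) {a : ℕ} (ha : ∀ w ∈ W, ((T - 1) ^ a) w = 0)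
include hW ha

theorem pow_mem (i : ℕ) : ∀ w ∈ W, ((T - 1) ^ i) w ∈ W := by
  induction i with
  | zero => intro w hw; simpa using hw
  | succ i ih =>
    intro w hw
    rw [pow_succ', Module.End.mul_apply, LinearMap.sub_apply, Module.End.one_apply]
    exact sub_mem (hW _ (ih w hw)) (ih w hw)

theorem pow_zero' {i : ℕ} (hi : a ≤ i) : ∀ w ∈ W, ((T - 1) ^ i) w = 0 := fun w hw => by
  rw [← Nat.sub_add_cancel hi, pow_add, Module.End.mul_apply, ha w hw, map_zero]

theorem pair_zero (i : ℕ) : ∀ j, a ≤ i + j → ∀ v ∈ W, ∀ w ∈ W, B (((T - 1) ^ i) v) (((T - 1) ^ j) w) = 0 := by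
  induction i with
  | zero => intro j hj v _ w hw; rw [pow_zero' hA hTB hW ha (by omega) w hw, map_zero]
  | succ i ih =>
    intro j hj v hv w hw
    rw [pow_succ', Module.End.mul_apply, adj hA hTB, ← Module.End.mul_apply (T - 1) ((T - 1) ^ j), ← pow_succ',
      ← Module.End.mul_apply T, ((Commute.refl T).sub_right (Commute.one_right T)).pow_right i |>.eq, Module.End.mul_apply,
      ih (j + 1) (by omega) _ (hW v hv) w hw, neg_zero]

theorem pair_top (i : ℕ) : ∀ j, i + j + 1 = a → ∀ v ∈ W, ∀ w ∈ W,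
    B (((T - 1) ^ i) v) (((T - 1) ^ j) w) = (-1) ^ i * B v (((T - 1) ^ (a - 1)) w) := by
  induction i with
  | zero => intro j hj v _ w _; rw [show a - 1 = j by omega]; simp
  | succ i ih =>
    intro j hj v hv w hw
    have h1 : T ((((T - 1) ^ i)) v) = ((T - 1) ^ (i + 1)) v + ((T - 1) ^ i) v := by
      rw [pow_succ', Module.End.mul_apply]; simp
    rw [pow_succ', Module.End.mul_apply, adj hA hTB, ← Module.End.mul_apply (T - 1) ((T - 1) ^ j), ← pow_succ', h1,
      map_add, LinearMap.add_apply, pair_zero hA hTB hW ha (i + 1) (j + 1) (by omega) v hv w hw,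
      ih (j + 1) (by omega) v hv w hw]
    ring

theorem top_swap {v w : V} (hv : v ∈ W) (hw : w ∈ W) (ha1 : 1 ≤ a) :
    B w (((T - 1) ^ (a - 1)) v) = (-1) ^ a * B v (((T - 1) ^ (a - 1)) w) := by
  have h := pair_top hA hTB hW ha (a - 1) 0 (by omega) v hv w hw
  rw [pow_zero, Module.End.one_apply] at h
  rw [← LinearMap.IsAlt.neg hA, h]
  conv_rhs => rw [← Nat.sub_add_cancel ha1, pow_succ]
  simp

/-- The span of chains with nonsingular top pairing. -/
theorem chains {s : ℕ} (v : Fin s → V) (hv : ∀ k, v k ∈ W)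
    (hM : ∀ c : Fin s → F, (∀ l, ∑ k, c k * B (v k) (((T - 1) ^ (a - 1)) (v l)) = 0) → c = 0) :
    ∃ Z ≤ W, (∀ z ∈ Z, T z ∈ Z) ∧ Nd B Z ∧ ∀ k, finrank F (Z.map ((T - 1) ^ k)) = s * (a - k) := by
  classical
  set N := T - 1
  let e : Fin s × Fin a → V := fun x => (N ^ (x.2 : ℕ)) (v x.1)
  have key : ∀ c : Fin s × Fin a → F, (∀ l, ∀ j : Fin a, B (∑ x, c x • e x) (e (l, j)) = 0) → c = 0 := by
    intro c hc
    suffices ∀ i : ℕ, ∀ x : Fin s × Fin a, (x.2 : ℕ) = i → c x = 0 from funext fun x => this _ x rfl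
    intro i
    induction i using Nat.strong_induction_on with
    | _ i ih =>
      rintro ⟨k₀, i₀⟩ (hi₀ : (i₀ : ℕ) = i)
      subst hi₀
      have h0 : (fun k => c (k, i₀)) = 0 := by
        refine hM _ fun l => ?_
        have h := hc l ⟨a - 1 - i₀, by omega⟩
        rw [map_sum, LinearMap.sum_apply, Fintype.sum_prod_type] at h
        simp only [map_smul, LinearMap.smul_apply, smul_eq_mul] at h
        have h' : ∀ k, ∑ j : Fin a, c (k, j) * B (e (k, j)) (e (l, ⟨a - 1 - i₀, by omega⟩)) =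
            (-1) ^ (i₀ : ℕ) * (c (k, i₀) * B (v k) ((N ^ (a - 1)) (v l))) := by
          intro k
          rw [Finset.sum_eq_single i₀]
          · rw [show B (e (k, i₀)) (e (l, ⟨a - 1 - i₀, by omega⟩)) = (-1) ^ (i₀ : ℕ) * B (v k) ((N ^ (a - 1)) (v l)) from
              pair_top hA hTB hW ha _ _ (show (i₀ : ℕ) + (a - 1 - i₀) + 1 = a by omega) _ (hv k) _ (hv l)]
            ring
          · intro j _ hj
            rcases lt_or_gt_of_ne (fun e => hj (Fin.ext e) : (j : ℕ) ≠ (i₀ : ℕ)) with hlt | hgt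
            · rw [ih _ hlt (k, j) rfl, zero_mul]
            · rw [show B (e (k, j)) (e (l, ⟨a - 1 - i₀, by omega⟩)) = 0 from
                pair_zero hA hTB hW ha _ _ (show a ≤ (j : ℕ) + (a - 1 - i₀) by omega) _ (hv k) _ (hv l), mul_zero]
          · simp
        simp only [h', ← Finset.mul_sum] at h
        exact (mul_eq_zero.1 h).resolve_left (pow_ne_zero _ (neg_ne_zero.2 one_ne_zero))
      exact congrFun h0 k₀
  have hli : LinearIndependent F e := by
    rw [Fintype.linearIndependent_iff]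
    intro c hc x
    exact congrFun (key c fun l j => by rw [hc, map_zero, LinearMap.zero_apply]) x
  set Z := Submodule.span F (Set.range e) with hZ
  have he : ∀ (k : Fin s) (i : ℕ), (N ^ i) (v k) ∈ Z := fun k i => by
    by_cases hi : i < a
    · exact Submodule.subset_span ⟨(k, ⟨i, hi⟩), rfl⟩
    · rw [pow_zero' hA hTB hW ha (not_lt.1 hi) _ (hv k)]; exact zero_mem _
  refine ⟨Z, Submodule.span_le.2 ?_, fun z hz => ?_, fun z hz h => ?_, fun m => ?_⟩
  · rintro _ ⟨x, rfl⟩; exact pow_mem hA hTB hW ha _ _ (hv x.1)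
  · refine (show Z.map T ≤ Z from ?_) ⟨z, hz, rfl⟩
    rw [hZ, Submodule.map_span_le]
    rintro _ ⟨⟨k, i⟩, rfl⟩
    have h1 : T (e (k, i)) = (N ^ ((i : ℕ) + 1)) (v k) + (N ^ (i : ℕ)) (v k) := by
      rw [pow_succ', Module.End.mul_apply]; simp [e, N]
    rw [h1]
    exact add_mem (he _ _) (he _ _)
  · obtain ⟨c, rfl⟩ := (Submodule.mem_span_range_iff_exists_fun F).1 hz
    rw [key c fun l j => h _ (Submodule.subset_span ⟨(l, j), rfl⟩)]
    simp
  · have hmap : Z.map (N ^ m) = Submodule.span F (Set.range fun x : Fin s × Fin (a - m) =>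
        e (x.1, ⟨(x.2 : ℕ) + m, by omega⟩)) := by
      refine le_antisymm ?_ (Submodule.span_le.2 ?_)
      · rw [hZ, Submodule.map_span_le]
        rintro _ ⟨⟨k, i⟩, rfl⟩
        show (N ^ m) ((N ^ (i : ℕ)) (v k)) ∈ _
        rw [← Module.End.mul_apply, ← pow_add]
        by_cases hi : m + i < a
        · exact Submodule.subset_span ⟨(k, ⟨i, by omega⟩), by simp [e, add_comm]⟩
        · rw [pow_zero' hA hTB hW ha (not_lt.1 hi) _ (hv k)]; exact zero_mem _
      · rintro _ ⟨⟨k, i⟩, rfl⟩
        refine ⟨(N ^ (i : ℕ)) (v k), he k i, ?_⟩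
        show (N ^ m) _ = (N ^ ((i : ℕ) + m)) (v k)
        rw [← Module.End.mul_apply, ← pow_add, add_comm]
    rw [hmap]
    refine (finrank_span_eq_card (hli.comp (fun x : Fin s × Fin (a - m) => (x.1, (⟨(x.2 : ℕ) + m, by omega⟩ : Fin a))) ?_)).trans ?_
    · rintro ⟨k, i⟩ ⟨k', i'⟩ hx
      simp only [Prod.mk.injEq, Fin.mk.injEq, Nat.add_right_cancel_iff] at hx
      exact Prod.ext hx.1 (Fin.ext hx.2)
    · simp

end Chains

/-- The orthogonal decomposition into pieces. -/
theorem exists_pieces (hA : B.IsAlt) (hTB : ∀ x y, B (T x) (T y) = B x y) {p : ℕ} (hp : (T - 1) ^ p = 0)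
    {W : Submodule F V} (hW : ∀ w ∈ W, T w ∈ W) (hWn : Nd B W) :
    ∃ P : Multiset (ℕ × ℕ), (∀ x ∈ P, 0 < x.1 ∧ x.1 ≤ p ∧ ((x.2 = 1 ∧ Even x.1) ∨ (x.2 = 2 ∧ ((2 : F) = 0 ∨ Odd x.1))) ∧
        (x.2 = 1 → ∃ v ∈ W, B v (((T - 1) ^ (x.1 - 1)) v) ≠ 0)) ∧
      (∀ k, finrank F (W.map ((T - 1) ^ k)) = prof (parts P) k) ∧
      ∀ Q ≤ P, ∃ U ≤ W, (∀ u ∈ U, T u ∈ U) ∧ Nd B U ∧ finrank F U = (parts Q).sum := by
  classical
  induction hd : finrank F W using Nat.strong_induction_on generalizing W with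
  | _ n ih =>
    by_cases hW0 : W = ⊥
    · subst hW0
      refine ⟨0, by simp, fun k => by simp [parts, prof], fun Q hQ => ⟨⊥, le_rfl, fun u hu => by
        rw [Submodule.mem_bot] at hu; simp [hu], fun u hu _ => (Submodule.mem_bot F).1 hu, by
        rw [Multiset.le_zero.1 hQ]; simp [parts]⟩⟩
    have hex : ∃ a : ℕ, ∀ w ∈ W, ((T - 1 : Module.End F V) ^ a) w = 0 := ⟨p, fun w _ => by rw [hp]; rfl⟩
    set a := Nat.find hex
    have ha : ∀ w ∈ W, ((T - 1) ^ a) w = 0 := Nat.find_spec hex
    have hap : a ≤ p := Nat.find_min' hex fun w _ => by rw [hp]; rfl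
    have ha1 : 1 ≤ a := by
      by_contra h
      refine hW0 (eq_bot_iff.2 fun w hw => (Submodule.mem_bot F).2 ?_)
      have := ha w hw
      rwa [show a = 0 by omega, pow_zero, Module.End.one_apply] at this
    obtain ⟨v, hv, hv0⟩ : ∃ v ∈ W, ((T - 1) ^ (a - 1)) v ≠ 0 := by
      have := Nat.find_min hex (show a - 1 < a by omega)
      push_neg at this
      exact this
    obtain ⟨w, hw, hvw⟩ : ∃ w ∈ W, B w (((T - 1) ^ (a - 1)) v) ≠ 0 := by
      by_contra h
      push_neg at h
      exact hv0 (hWn _ (pow_mem hA hTB hW ha _ v hv) fun x hx => hA.isRefl _ _ (h x hx))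
    obtain ⟨s, Z, hs, hsW, hZW, hZi, hZn, hZr⟩ : ∃ (s : ℕ) (Z : Submodule F V),
        ((s = 1 ∧ Even a) ∨ (s = 2 ∧ ((2 : F) = 0 ∨ Odd a))) ∧
        (s = 1 → ∃ v ∈ W, B v (((T - 1) ^ (a - 1)) v) ≠ 0) ∧ Z ≤ W ∧ (∀ z ∈ Z, T z ∈ Z) ∧ Nd B Z ∧
        ∀ k, finrank F (Z.map ((T - 1) ^ k)) = s * (a - k) := by
      by_cases hone : ∃ u ∈ W, B u (((T - 1) ^ (a - 1)) u) ≠ 0
      · obtain ⟨u, hu, huu⟩ := hone
        obtain ⟨Z, h1, h2, h3, h4⟩ := chains hA hTB hW ha ![u] (fun k => by simpa using hu) (fun c hc => funext fun k => by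
          have h := hc 0
          simp only [Fin.sum_univ_one, Matrix.cons_val_zero] at h
          rw [Subsingleton.elim k 0]
          exact (mul_eq_zero.1 h).resolve_right huu)
        refine ⟨1, Z, Or.inl ⟨rfl, ?_⟩, fun _ => ⟨u, hu, huu⟩, h1, h2, h3, h4⟩
        have h := h4 0
        rw [pow_zero, Module.End.one_eq_id, Submodule.map_id] at h
        have h' := nd_even hA h3
        simpa [h] using h'
      · push_neg at hone
        have hne : B v (((T - 1) ^ (a - 1)) w) ≠ 0 := fun e => hvw (by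
          rw [top_swap hA hTB hW ha hv hw ha1, e, mul_zero])
        obtain ⟨Z, h1, h2, h3, h4⟩ := chains hA hTB hW ha ![v, w] (fun k => by fin_cases k <;> assumption)
          (fun c hc => funext fun k => by
            have g0 := hc 0
            have g1 := hc 1
            simp only [Fin.sum_univ_two, Matrix.cons_val_zero, Matrix.cons_val_one, hone v hv, hone w hw,
              mul_zero, add_zero, zero_add] at g0 g1
            fin_cases k
            · exact (mul_eq_zero.1 g1).resolve_right hne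
            · exact (mul_eq_zero.1 g0).resolve_right hvw)
        refine ⟨2, Z, Or.inr ⟨rfl, ?_⟩, fun h => absurd h (by norm_num), h1, h2, h3, h4⟩
        refine or_iff_not_imp_right.2 fun hodd => ?_
        have h := hone (v + w) (add_mem hv hw)
        simp only [map_add, LinearMap.add_apply, hone v hv, hone w hw, add_zero, zero_add,
          top_swap hA hTB hW ha hv hw ha1, (Nat.not_odd_iff_even.1 hodd).neg_one_pow, one_mul] at h
        exact (mul_eq_zero.1 (show (2 : F) * B v (((T - 1) ^ (a - 1)) w) = 0 by linear_combination h)).resolve_right hne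
    have hinj : Function.Injective T := by
      refine (injective_iff_map_eq_zero T).2 fun x hx => ?_
      have h : ∀ k, ((T - 1) ^ k) x = (-1 : F) ^ k • x := by
        intro k
        induction k with
        | zero => simp
        | succ k ih' => rw [pow_succ', Module.End.mul_apply, ih']; simp [hx, pow_succ]
      have h' := h p
      rw [hp, LinearMap.zero_apply] at h'
      exact (smul_eq_zero.1 h'.symm).resolve_left (pow_ne_zero _ (neg_ne_zero.2 one_ne_zero))
    obtain ⟨hYn, hYd, hsup⟩ := nd_split hA hZn hWn hZW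
    set Y := W ⊓ B.orthogonal Z
    have hYi : ∀ y ∈ Y, T y ∈ Y := fun y hy => ⟨hW y hy.1, orth_invariant hTB hinj hZi y hy.2⟩
    have hZd : finrank F Z = s * a := by
      have h := hZr 0
      rwa [pow_zero, Module.End.one_eq_id, Submodule.map_id, Nat.sub_zero] at h
    have hsa : 0 < s * a := Nat.mul_pos (by omega) (by omega)
    obtain ⟨P, hP, hPr, hPs⟩ := ih (finrank F Y) (by omega) hYi hYn rfl
    have hpowi : ∀ (X : Submodule F V), (∀ x ∈ X, T x ∈ X) → ∀ k, X.map ((T - 1) ^ k) ≤ X := fun X hX k =>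
      JordanType.map_pow_le (Submodule.map_le_iff_le_comap.2 fun x hx => by
        show (T - 1) x ∈ X
        rw [LinearMap.sub_apply, Module.End.one_apply]; exact sub_mem (hX x hx) hx) k
    have hdisj : Z ⊓ Y = ⊥ := le_bot_iff.1 ((nd_isCompl hA hZn).inf_eq_bot ▸ inf_le_inf_left _ inf_le_right)
    refine ⟨(a, s) ::ₘ P, fun x hx => ?_, fun k => ?_, fun Q hQ => ?_⟩
    · rcases Multiset.mem_cons.1 hx with rfl | hx
      · exact ⟨by omega, hap, hs, hsW⟩
      · obtain ⟨e1, e2, e3, e4⟩ := hP x hx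
        exact ⟨e1, e2, e3, fun h => by obtain ⟨u, hu, hu'⟩ := e4 h; exact ⟨u, hu.1, hu'⟩⟩
    · rw [← hsup, Submodule.map_sup, SubspaceDerange.finrank_sup_of_disjoint (le_bot_iff.1 (hdisj ▸
        inf_le_inf (hpowi Z hZi k) (hpowi Y hYi k))), hZr, hPr, parts_cons, prof_add, prof_replicate]
    · by_cases hmem : (a, s) ∈ Q
      · obtain ⟨Q', rfl⟩ := Multiset.exists_cons_of_mem hmem
        obtain ⟨U, hUY, hUi, hUn, hUd⟩ := hPs Q' ((Multiset.cons_le_cons_iff _).1 hQ)
        refine ⟨Z ⊔ U, sup_le hZW (hUY.trans inf_le_left), fun u hu => ?_, nd_sup hA hZn hUn (hUY.trans inf_le_right), ?_⟩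
        · obtain ⟨x, hx, y, hy, rfl⟩ := Submodule.mem_sup.1 hu
          rw [map_add]
          exact add_mem (Submodule.mem_sup_left (hZi x hx)) (Submodule.mem_sup_right (hUi y hy))
        · rw [SubspaceDerange.finrank_sup_of_disjoint (le_bot_iff.1 (hdisj ▸ inf_le_inf_left _ hUY)), hUd, parts_cons,
            Multiset.sum_add, Multiset.sum_replicate, hZd, smul_eq_mul]
      · obtain ⟨U, hUY, h⟩ := hPs Q ((Multiset.le_cons_of_notMem hmem).1 hQ)
        exact ⟨U, hUY.trans inf_le_left, h⟩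

/-- Pieces with sizes two and four give every admissible dimension. -/
theorem exists_subsum {D : Multiset ℕ} (hD : ∀ x ∈ D, x = 2 ∨ x = 4) {m : ℕ} (hm : Even m) (hle : m ≤ D.sum)
    (h : D.sum % 4 = 2 ∨ m % 4 = 0) : ∃ Q ≤ D, Q.sum = m := by
  have hdec : D = Multiset.replicate (D.count 2) 2 + Multiset.replicate (D.count 4) 4 := by
    refine Multiset.ext.2 fun x => ?_
    rw [Multiset.count_add, Multiset.count_replicate, Multiset.count_replicate]
    by_cases hx : x ∈ D
    · rcases hD x hx with rfl | rfl <;> simp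
    · rw [Multiset.count_eq_zero.2 hx]
      split_ifs with h1 h2 h3 <;> first | omega | (subst_vars; simp [Multiset.count_eq_zero.2 hx])
  set A := D.count 2
  set C := D.count 4
  rw [hdec, Multiset.sum_add, Multiset.sum_replicate, Multiset.sum_replicate, smul_eq_mul, smul_eq_mul] at hle h
  obtain ⟨l, rfl⟩ := hm
  set b := min C ((l + l) / 4)
  refine ⟨Multiset.replicate (l - 2 * b) 2 + Multiset.replicate b 4, ?_, ?_⟩
  · rw [hdec]
    exact add_le_add ((Multiset.replicate_le_replicate 2).2 (by omega)) ((Multiset.replicate_le_replicate 4).2 (by omega))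
  · rw [Multiset.sum_add, Multiset.sum_replicate, Multiset.sum_replicate, smul_eq_mul, smul_eq_mul]
    omega

/-- Choosing a sub-multiset below an image. -/
theorem exists_map_eq {α β : Type*} (f : α → β) {P : Multiset α} :
    ∀ Q ≤ P.map f, ∃ Q' ≤ P, Q'.map f = Q := by
  classical
  induction P using Multiset.induction_on with
  | empty => intro Q hQ; exact ⟨0, le_rfl, (Multiset.le_zero.1 (by simpa using hQ)).symm⟩
  | cons x P ih =>
    intro Q hQ
    rw [Multiset.map_cons] at hQ
    by_cases hmem : f x ∈ Q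
    · obtain ⟨Q₁, rfl⟩ := Multiset.exists_cons_of_mem hmem
      obtain ⟨Q', h1, h2⟩ := ih Q₁ ((Multiset.cons_le_cons_iff _).1 hQ)
      exact ⟨x ::ₘ Q', Multiset.cons_le_cons x h1, by rw [Multiset.map_cons, h2]⟩
    · obtain ⟨Q', h1, h2⟩ := ih Q ((Multiset.le_cons_of_notMem hmem).1 hQ)
      exact ⟨Q', h1.trans (Multiset.le_cons_self _ _), h2⟩

end Cfsg.Agent.GeomClasses.SympUnipotent
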