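import Cfsg.Agent.GeomClasses.SUStructure
import Cfsg.Agent.GeomClasses.SympUnipotent
import Cfsg.Agent.GeomClasses.JordanType

/-!
# Unipotent isometries of hermitian forms: orthogonal decomposition into single blocks
-/

set_option autoImplicit false
set_option linter.unusedSectionVars false

namespace Cfsg.Agent.GeomClasses.SUUnipotent

open Module Polynomial Cfsg.Agent.Forms Cfsg.Agent.GeomClasses.Unitary Cfsg.Agent.GeomClasses.SympUnipotent

variable {F : Type*} [Field F] [Fintype F] {q n : ℕ}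

local notation "Vn" => (Fin n → F)
local notation "hh" => Cfsg.hermForm n F q

theorem pow_mem {T : Module.End F Vn} {W : Submodule F Vn} (hW : ∀ w ∈ W, T w ∈ W) (i : ℕ) :
    ∀ w ∈ W, ((T - 1) ^ i) w ∈ W := by
  induction i with
  | zero => intro w hw; simpa using hw
  | succ i ih =>
    intro w hw
    rw [pow_succ', Module.End.mul_apply, LinearMap.sub_apply, Module.End.one_apply]
    exact sub_mem (hW _ (ih w hw)) (ih w hw)

theorem pow_zero' {T : Module.End F Vn} {W : Submodule F Vn} {a i : ℕ} (ha : ∀ w ∈ W, ((T - 1) ^ a) w = 0)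
    (hi : a ≤ i) : ∀ w ∈ W, ((T - 1) ^ i) w = 0 := fun w hw => by
  rw [← Nat.sub_add_cancel hi, pow_add, Module.End.mul_apply, ha w hw, map_zero]

theorem adj (hF : Fintype.card F = q ^ 2) {T : Module.End F Vn} (hTB : ∀ u v, hh (T u) (T v) = hh u v) (x y : Vn) :
    hh ((T - 1) x) y = -hh (T x) ((T - 1) y) := by
  simp only [LinearMap.sub_apply, Module.End.one_apply, hh_sub_left hF, hh_sub_right hF, hTB]
  ring

theorem pair_zero (hF : Fintype.card F = q ^ 2) {T : Module.End F Vn} (hTB : ∀ u v, hh (T u) (T v) = hh u v)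
    {W : Submodule F Vn} (hW : ∀ w ∈ W, T w ∈ W) {a : ℕ} (ha : ∀ w ∈ W, ((T - 1) ^ a) w = 0) (i : ℕ) :
    ∀ j, a ≤ i + j → ∀ v ∈ W, ∀ w ∈ W, hh (((T - 1) ^ i) v) (((T - 1) ^ j) w) = 0 := by
  induction i with
  | zero => intro j hj v _ w hw; rw [pow_zero' ha (by omega) w hw, hh_zero_right hF]
  | succ i ih =>
    intro j hj v hv w hw
    rw [pow_succ', Module.End.mul_apply, adj hF hTB, ← Module.End.mul_apply (T - 1) ((T - 1) ^ j), ← pow_succ',
      ← Module.End.mul_apply T, ((Commute.refl T).sub_right (Commute.one_right T)).pow_right i |>.eq, Module.End.mul_apply,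
      ih (j + 1) (by omega) _ (hW v hv) w hw, neg_zero]

theorem pair_top (hF : Fintype.card F = q ^ 2) {T : Module.End F Vn} (hTB : ∀ u v, hh (T u) (T v) = hh u v)
    {W : Submodule F Vn} (hW : ∀ w ∈ W, T w ∈ W) {a : ℕ} (ha : ∀ w ∈ W, ((T - 1) ^ a) w = 0) (i : ℕ) :
    ∀ j, i + j + 1 = a → ∀ v ∈ W, ∀ w ∈ W,
      hh (((T - 1) ^ i) v) (((T - 1) ^ j) w) = (-1) ^ i * hh v (((T - 1) ^ (a - 1)) w) := by
  induction i with
  | zero => intro j hj v _ w _; rw [show a - 1 = j by omega]; simp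
  | succ i ih =>
    intro j hj v hv w hw
    have h1 : T ((((T - 1) ^ i)) v) = ((T - 1) ^ (i + 1)) v + ((T - 1) ^ i) v := by
      rw [pow_succ', Module.End.mul_apply]; simp
    rw [pow_succ', Module.End.mul_apply, adj hF hTB, ← Module.End.mul_apply (T - 1) ((T - 1) ^ j), ← pow_succ', h1,
      hh_add_left hF, pair_zero hF hTB hW ha (i + 1) (j + 1) (by omega) v hv w hw, ih (j + 1) (by omega) v hv w hw]
    ring

/-- The span of a chain with nonzero top pairing. -/
theorem chain (hF : Fintype.card F = q ^ 2) {T : Module.End F Vn} (hTB : ∀ u v, hh (T u) (T v) = hh u v)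
    {W : Submodule F Vn} (hW : ∀ w ∈ W, T w ∈ W) {a : ℕ} (ha : ∀ w ∈ W, ((T - 1) ^ a) w = 0)
    {v : Vn} (hv : v ∈ W) (hM : hh v (((T - 1) ^ (a - 1)) v) ≠ 0) :
    ∃ Z ≤ W, (∀ z ∈ Z, T z ∈ Z) ∧ NonDeg q Z ∧ ∀ k, finrank F (Z.map ((T - 1) ^ k)) = a - k := by
  classical
  set N := T - 1
  let e : Fin a → Vn := fun x => (N ^ (x : ℕ)) v
  have key : ∀ c : Fin a → F, (∀ j : Fin a, hh (∑ x, c x • e x) (e j) = 0) → c = 0 := by
    intro c hc
    suffices ∀ i : ℕ, ∀ x : Fin a, (x : ℕ) = i → c x = 0 from funext fun x => this _ x rfl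
    intro i
    induction i using Nat.strong_induction_on with
    | _ i ih =>
      rintro i₀ (hi₀ : (i₀ : ℕ) = i)
      subst hi₀
      have h := hc ⟨a - 1 - i₀, by omega⟩
      have hlin : hh (∑ x, c x • e x) (e ⟨a - 1 - i₀, by omega⟩) = ∑ x, c x * hh (e x) (e ⟨a - 1 - i₀, by omega⟩) := by
        rw [← hermB_apply hF, map_sum]
        exact Finset.sum_congr rfl fun x _ => by rw [map_smul, hermB_apply]; rfl
      rw [hlin, Finset.sum_eq_single i₀] at h
      · rw [show hh (e i₀) (e ⟨a - 1 - i₀, by omega⟩) = (-1) ^ (i₀ : ℕ) * hh v ((N ^ (a - 1)) v) from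
          pair_top hF hTB hW ha _ _ (show (i₀ : ℕ) + (a - 1 - i₀) + 1 = a by omega) _ hv _ hv] at h
        exact (mul_eq_zero.1 h).resolve_right (mul_ne_zero (pow_ne_zero _ (neg_ne_zero.2 one_ne_zero)) hM)
      · intro j _ hj
        rcases lt_or_gt_of_ne (fun e => hj (Fin.ext e) : (j : ℕ) ≠ (i₀ : ℕ)) with hlt | hgt
        · rw [ih _ hlt j rfl, zero_mul]
        · rw [show hh (e j) (e ⟨a - 1 - i₀, by omega⟩) = 0 from
            pair_zero hF hTB hW ha _ _ (show a ≤ (j : ℕ) + (a - 1 - i₀) by omega) _ hv _ hv, mul_zero]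
      · simp
  have hli : LinearIndependent F e := by
    rw [Fintype.linearIndependent_iff]
    intro c hc x
    exact congrFun (key c fun j => by rw [hc, hh_zero_left hF]) x
  set Z := Submodule.span F (Set.range e) with hZ
  have he : ∀ (i : ℕ), (N ^ i) v ∈ Z := fun i => by
    by_cases hi : i < a
    · exact Submodule.subset_span ⟨⟨i, hi⟩, rfl⟩
    · rw [pow_zero' ha (not_lt.1 hi) _ hv]; exact zero_mem _
  refine ⟨Z, Submodule.span_le.2 ?_, fun z hz => ?_, fun z hz h => ?_, fun m => ?_⟩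
  · rintro _ ⟨x, rfl⟩; exact pow_mem hW _ _ hv
  · refine (show Z.map T ≤ Z from ?_) ⟨z, hz, rfl⟩
    rw [hZ, Submodule.map_span_le]
    rintro _ ⟨i, rfl⟩
    have h1 : T (e i) = (N ^ ((i : ℕ) + 1)) v + (N ^ (i : ℕ)) v := by
      rw [pow_succ', Module.End.mul_apply]; simp [e, N]
    rw [h1]
    exact add_mem (he _) (he _)
  · obtain ⟨c, rfl⟩ := (Submodule.mem_span_range_iff_exists_fun F).1 hz
    rw [key c fun j => h _ (Submodule.subset_span ⟨j, rfl⟩)]
    simp
  · have hmap : Z.map (N ^ m) = Submodule.span F (Set.range fun x : Fin (a - m) => e ⟨(x : ℕ) + m, by omega⟩) := by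
      refine le_antisymm ?_ (Submodule.span_le.2 ?_)
      · rw [hZ, Submodule.map_span_le]
        rintro _ ⟨i, rfl⟩
        show (N ^ m) ((N ^ (i : ℕ)) v) ∈ _
        rw [← Module.End.mul_apply, ← pow_add]
        by_cases hi : m + i < a
        · exact Submodule.subset_span ⟨⟨i, by omega⟩, by simp [e, add_comm]⟩
        · rw [pow_zero' ha (not_lt.1 hi) _ hv]; exact zero_mem _
      · rintro _ ⟨i, rfl⟩
        refine ⟨(N ^ (i : ℕ)) v, he i, ?_⟩
        show (N ^ m) _ = (N ^ ((i : ℕ) + m)) v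
        rw [← Module.End.mul_apply, ← pow_add, add_comm]
    rw [hmap]
    refine (finrank_span_eq_card (hli.comp (fun x : Fin (a - m) => (⟨(x : ℕ) + m, by omega⟩ : Fin a)) ?_)).trans ?_
    · intro i i' hx
      simp only [Fin.mk.injEq, Nat.add_right_cancel_iff] at hx
      exact Fin.ext hx
    · simp

/-- The orthogonal decomposition into single blocks. -/
theorem exists_pieces (hF : Fintype.card F = q ^ 2) {T : Module.End F Vn} (hTB : ∀ u v, hh (T u) (T v) = hh u v)
    {p : ℕ} (hp : (T - 1) ^ p = 0) (hinj : Function.Injective T)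
    {W : Submodule F Vn} (hW : ∀ w ∈ W, T w ∈ W) (hWn : NonDeg q W) :
    ∃ μ : Multiset ℕ, (∀ x ∈ μ, 0 < x ∧ x ≤ p) ∧
      (∀ k, finrank F (W.map ((T - 1) ^ k)) = prof μ k) ∧
      ∀ ν ≤ μ, ∃ U ≤ W, (∀ u ∈ U, T u ∈ U) ∧ NonDeg q U ∧ finrank F U = ν.sum := by
  classical
  induction hd : finrank F W using Nat.strong_induction_on generalizing W with
  | _ N ih =>
    by_cases hW0 : W = ⊥
    · subst hW0
      refine ⟨0, by simp, fun k => by simp [prof], fun ν hν => ⟨⊥, le_rfl, fun u hu => by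
        rw [Submodule.mem_bot] at hu; simp [hu], SUStructure.nonDeg_bot, by rw [Multiset.le_zero.1 hν]; simp⟩⟩
    have hex : ∃ a : ℕ, ∀ w ∈ W, ((T - 1 : Module.End F Vn) ^ a) w = 0 := ⟨p, fun w _ => by rw [hp]; rfl⟩
    set a := Nat.find hex
    have ha : ∀ w ∈ W, ((T - 1) ^ a) w = 0 := Nat.find_spec hex
    have hap : a ≤ p := Nat.find_min' hex fun w _ => by rw [hp]; rfl
    have ha1 : 1 ≤ a := by
      by_contra h
      refine hW0 (eq_bot_iff.2 fun w hw => (Submodule.mem_bot F).2 ?_)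
      have := ha w hw
      rwa [show a = 0 by omega, pow_zero, Module.End.one_apply] at this
    obtain ⟨v, hv, hv0⟩ : ∃ v ∈ W, ((T - 1) ^ (a - 1)) v ≠ 0 := by
      have := Nat.find_min hex (show a - 1 < a by omega)
      push_neg at this
      exact this
    obtain ⟨w, hw, hvw⟩ : ∃ w ∈ W, hh (((T - 1) ^ (a - 1)) v) w ≠ 0 := by
      by_contra h
      push_neg at h
      exact hv0 (hWn _ (pow_mem hW _ v hv) h)
    obtain ⟨u, hu, huu⟩ : ∃ u ∈ W, hh u (((T - 1) ^ (a - 1)) u) ≠ 0 := by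
      by_contra hcon
      push_neg at hcon
      obtain ⟨t, ht⟩ := exists_not_fixed hF
      have key : ∀ s : F, s * hh w (((T - 1) ^ (a - 1)) v) + s ^ q * hh v (((T - 1) ^ (a - 1)) w) = 0 := by
        intro s
        have h := hcon (v + s • w) (W.add_mem hv (W.smul_mem s hw))
        simp only [map_add, map_smul, hh_add_left hF, hh_add_right hF, hh_smul_left hF, hh_smul_right hF,
          hcon v hv, hcon w hw, mul_zero, zero_add, add_zero] at h
        linear_combination h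
      have h1 := key 1
      have h2 := key t
      rw [one_pow, one_mul, one_mul] at h1
      exact hvw (hh_comm_zero hF ((mul_eq_zero.1 (show (t - t ^ q) * hh w (((T - 1) ^ (a - 1)) v) = 0 by
        linear_combination h2 - t ^ q * h1)).resolve_left (sub_ne_zero.2 (Ne.symm ht))))
    obtain ⟨Z, hZW, hZi, hZn, hZr⟩ := chain hF hTB hW ha hu huu
    obtain ⟨hYn, hYd, hsup⟩ := SUStructure.nd_split hF hZn hWn hZW
    set Y := W ⊓ perp (hermB n hF) Z
    have hYi : ∀ y ∈ Y, T y ∈ Y := fun y hy => ⟨hW y hy.1, SUStructure.orth_invariant hF hTB hinj hZi y hy.2⟩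
    have hZd : finrank F Z = a := by
      have h := hZr 0
      rwa [pow_zero, Module.End.one_eq_id, Submodule.map_id, Nat.sub_zero] at h
    obtain ⟨μ, hμ, hμr, hμs⟩ := ih (finrank F Y) (by omega) hYi hYn rfl
    have hpowi : ∀ (X : Submodule F Vn), (∀ x ∈ X, T x ∈ X) → ∀ k, X.map ((T - 1) ^ k) ≤ X := fun X hX k => by
      rintro _ ⟨x, hx, rfl⟩
      exact pow_mem hX k x hx
    have hdisj : Z ⊓ Y = ⊥ := le_bot_iff.1 ((isCompl_perp' hF hZn).inf_eq_bot ▸ inf_le_inf_left _ inf_le_right)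
    refine ⟨a ::ₘ μ, fun x hx => ?_, fun k => ?_, fun ν hν => ?_⟩
    · rcases Multiset.mem_cons.1 hx with rfl | hx
      · exact ⟨by omega, hap⟩
      · exact hμ x hx
    · rw [← hsup, Submodule.map_sup, SubspaceDerange.finrank_sup_of_disjoint (le_bot_iff.1 (hdisj ▸
        inf_le_inf (hpowi Z hZi k) (hpowi Y hYi k))), hZr, hμr]
      simp [prof]
    · by_cases hmem : a ∈ ν
      · obtain ⟨ν', rfl⟩ := Multiset.exists_cons_of_mem hmem
        obtain ⟨U, hUY, hUi, hUn, hUd⟩ := hμs ν' ((Multiset.cons_le_cons_iff _).1 hν)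
        refine ⟨Z ⊔ U, sup_le hZW (hUY.trans inf_le_left), fun z hz => ?_,
          SUStructure.nd_sup hF hZn hUn (hUY.trans inf_le_right), ?_⟩
        · obtain ⟨x, hx, y, hy, rfl⟩ := Submodule.mem_sup.1 hz
          rw [map_add]
          exact add_mem (Submodule.mem_sup_left (hZi x hx)) (Submodule.mem_sup_right (hUi y hy))
        · rw [SUStructure.finrank_sup_perp hF hZn (hUY.trans inf_le_right), hUd, hZd, Multiset.sum_cons]
      · obtain ⟨U, hUY, h⟩ := hμs ν ((Multiset.le_cons_of_notMem hmem).1 hν)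
        exact ⟨U, hUY.trans inf_le_left, h⟩

/-- An invariant nondegenerate subspace takes a part of the block type. -/
theorem exists_part (hF : Fintype.card F = q ^ 2) {T : Module.End F Vn} (hTB : ∀ u v, hh (T u) (T v) = hh u v)
    {p : ℕ} (hp : (T - 1) ^ p = 0) (hinj : Function.Injective T) {μ : Multiset ℕ} (hμ : ∀ x ∈ μ, 0 < x)
    (hrk : ∀ k, finrank F ((⊤ : Submodule F Vn).map ((T - 1) ^ k)) = prof μ k)
    {W : Submodule F Vn} (hW : ∀ w ∈ W, T w ∈ W) (hWn : NonDeg q W) :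
    ∃ ν ≤ μ, ν.sum = finrank F W := by
  obtain ⟨hYn, -, hsup⟩ := SUStructure.nd_split hF hWn (SUStructure.nonDeg_top hF) le_top
  rw [top_inf_eq] at hYn hsup
  set Y := perp (hermB n hF) W
  have hY := SUStructure.orth_invariant hF hTB hinj hW
  obtain ⟨ν, hν, hνr, -⟩ := exists_pieces hF hTB hp hinj hW hWn
  obtain ⟨κ, hκ, hκr, -⟩ := exists_pieces hF hTB hp hinj hY hYn
  have hpowi : ∀ (X : Submodule F Vn), (∀ x ∈ X, T x ∈ X) → ∀ k, X.map ((T - 1) ^ k) ≤ X := fun X hX k => by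
    rintro _ ⟨x, hx, rfl⟩
    exact pow_mem hX k x hx
  have he : μ = ν + κ := by
    refine eq_of_prof hμ (fun x hx => ?_) fun k => ?_
    · rcases Multiset.mem_add.1 hx with h | h
      · exact (hν x h).1
      · exact (hκ x h).1
    · rw [← hrk, prof_add, ← hνr, ← hκr, ← hsup, Submodule.map_sup]
      exact SubspaceDerange.finrank_sup_of_disjoint (le_bot_iff.1 ((isCompl_perp' hF hWn).inf_eq_bot ▸
        inf_le_inf (hpowi W hW k) (hpowi Y hY k)))
  refine ⟨ν, he ▸ Multiset.le_add_right _ _, ?_⟩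
  rw [← prof_zero, ← hνr, pow_zero, Module.End.one_eq_id, Submodule.map_id]

end Cfsg.Agent.GeomClasses.SUUnipotent
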