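import Cfsg.Agent.GeomClasses.BlockCoords

/-! # Small-field decomposition stabilisers preserve the block count -/

set_option autoImplicit false

namespace Cfsg.Agent.GeomClasses

open Matrix

variable {ι : Type} [Fintype ι] [DecidableEq ι] {F : Type*} [Field F] [DecidableEq F] {t m : ℕ}

theorem blockCount_single (i : Fin t) (k : Fin m) {c : F} (hc : c ≠ 0) :
    blockCount (Pi.single (i, k) c : Fin t × Fin m → F) = 1 := by
  rw [blockCount, Finset.card_eq_one]
  refine ⟨i, ?_⟩
  ext j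
  simp only [Finset.mem_filter, Finset.mem_univ, true_and, Finset.mem_singleton]
  refine ⟨fun ⟨l, hl⟩ => ?_, fun h => ⟨k, by subst h; simp [hc]⟩⟩
  by_contra hji
  exact hl (Pi.single_eq_of_ne (by simp [hji]) _)

theorem blockCount_two {i j : Fin t} (hij : i ≠ j) (y : Fin t × Fin m → F)
    (hi : ∃ k, y (i, k) ≠ 0) (hj : ∃ k, y (j, k) ≠ 0) (h : ∀ l, l ≠ i → l ≠ j → ∀ k, y (l, k) = 0) :
    blockCount y = 2 := by
  rw [blockCount, Finset.card_eq_two]
  refine ⟨i, j, hij, ?_⟩
  ext l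
  simp only [Finset.mem_filter, Finset.mem_univ, true_and, Finset.mem_insert, Finset.mem_singleton]
  refine ⟨fun ⟨k, hk⟩ => ?_, fun h' => h'.elim (fun e => e ▸ hi) (fun e => e ▸ hj)⟩
  by_contra hc
  rw [not_or] at hc
  exact hk (h l hc.1 hc.2 k)

theorem two_ne_one' : ((2 : ℕ) : F) ≠ ((1 : ℕ) : F) := fun h => one_ne_zero (α := F) (by
  push_cast at h; linear_combination h)

/-- Scaling one coordinate. -/
def scaleGL (a : Fin t × Fin m) (c : Fˣ) : GL (Fin t × Fin m) F where
  val := Matrix.diagonal (Function.update 1 a (c : F))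
  inv := Matrix.diagonal (Function.update 1 a ((c⁻¹ : Fˣ) : F))
  val_inv := by
    rw [Matrix.diagonal_mul_diagonal, ← Matrix.diagonal_one]; congr 1; ext b
    by_cases h : b = a
    · subst h; simp
    · simp [h]
  inv_val := by
    rw [Matrix.diagonal_mul_diagonal, ← Matrix.diagonal_one]; congr 1; ext b
    by_cases h : b = a
    · subst h; simp
    · simp [h]

theorem scaleGL_mulVec (a : Fin t × Fin m) (c : Fˣ) (y : Fin t × Fin m → F) (b : Fin t × Fin m) :
    ((scaleGL a c : GL (Fin t × Fin m) F) : Matrix _ _ F).mulVec y b = if b = a then (c : F) * y b else y b := by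
  show (Matrix.diagonal _).mulVec y b = _
  rw [Matrix.mulVec_diagonal]
  by_cases h : b = a
  · subst h; simp
  · simp [h]

theorem blockCount_scale (a : Fin t × Fin m) (c : Fˣ) (y : Fin t × Fin m → F) :
    blockCount ((scaleGL a c : Matrix (Fin t × Fin m) (Fin t × Fin m) F) *ᵥ y) = blockCount y := by
  unfold blockCount
  congr 1
  ext i
  simp only [Finset.mem_filter, Finset.mem_univ, true_and]
  refine exists_congr fun k => ?_
  rw [scaleGL_mulVec]
  split_ifs <;> simp

theorem mem_countGroup_of_coords {e : (ι → F) ≃ₗ[F] (Fin t × Fin m → F)} {A : GL (Fin t × Fin m) F}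
    (h : ∀ y, (blockCount ((A : Matrix (Fin t × Fin m) (Fin t × Fin m) F) *ᵥ y) : F) = blockCount y) :
    conjGL e A ∈ countGroup e := fun x => by
  rw [conjGL_mulVec, LinearEquiv.apply_symm_apply]; exact h _

theorem not_mem_decomp_of_coords {D : Fin t → Submodule F (ι → F)}
    {e : (ι → F) ≃ₗ[F] (Fin t × Fin m → F)} (he : ∀ i x, x ∈ D i ↔ ∀ j k, j ≠ i → e x (j, k) = 0)
    {A : GL (Fin t × Fin m) F} {i a b : Fin t} (hab : a ≠ b) {k l : Fin m} {y : Fin t × Fin m → F}
    (hy : ∀ j k, j ≠ i → y (j, k) = 0)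
    (ha : ((A : Matrix _ _ F).mulVec y) (a, k) ≠ 0) (hb : ((A : Matrix _ _ F).mulVec y) (b, l) ≠ 0) :
    conjGL e A ∉ Cfsg.Geo.decompositionStabilizer D := by
  rintro ⟨σ, hσ⟩
  have hx : e.symm y ∈ D i := (he i _).mpr fun j k hji => by rw [LinearEquiv.apply_symm_apply]; exact hy j k hji
  have hm : (conjGL e A : Matrix ι ι F) *ᵥ e.symm y ∈ D (σ i) := by
    rw [← hσ i]; exact ⟨_, hx, Matrix.toLin'_apply _ _⟩
  rw [he, conjGL_mulVec, LinearEquiv.apply_symm_apply, LinearEquiv.apply_symm_apply] at hm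
  rcases ne_or_eq a (σ i) with h | h
  · exact ha (hm a k h)
  · exact hb (hm b l (fun h' => hab (h.trans h'.symm)))

theorem exists_between_linear [Fintype F] {D : Fin t → Submodule F (ι → F)} (hD : Cfsg.Geo.IsMDecomposition m D)
    (ht : 5 ≤ t) (h : (m = 1 ∧ Fintype.card F ≤ 4) ∨ (m = 2 ∧ Fintype.card F = 2)) :
    ∃ K : Subgroup (GL ι F), Cfsg.Geo.decompositionStabilizer D ⊓ Cfsg.Geo.specialLinear ι F < K ∧
      K < Cfsg.Geo.specialLinear ι F := by
  classical
  obtain ⟨h6, φ, hφ, hid⟩ := exists_indicator (F := F) h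
  obtain ⟨e, -, he⟩ := exists_blockCoords hD fun i => Module.finBasisOfFinrankEq F (D i) (hD.finrank_eq i)
  have k0 : Fin m := ⟨0, hD.pos⟩
  let s : Fin 4 ↪ Fin t := Fin.castLEEmb (by omega)
  let i4 : Fin t := ⟨4, by omega⟩
  have hi4 : ∀ j, s j ≠ i4 := fun j h => by
    have := congrArg Fin.val h
    simp [s, i4] at this
    omega
  refine ⟨countGroup e ⊓ Cfsg.Geo.specialLinear ι F, lt_of_le_of_ne
    (inf_le_inf_right _ (decompositionStabilizer_le_countGroup he)) (fun heq => ?_),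
    lt_of_le_of_ne inf_le_right (fun heq => ?_)⟩
  · let d : Fˣ := (Matrix.GeneralLinearGroup.det (mixGL (m := m) h6 s))⁻¹
    let A := mixGL h6 s * scaleGL (i4, k0) d
    have hA : conjGL e A ∈ countGroup e ⊓ Cfsg.Geo.specialLinear ι F := by
      refine ⟨mem_countGroup_of_coords fun y => ?_, ?_⟩
      · show (blockCount ((mix (m := m) s * ((scaleGL (i4, k0) d : GL (Fin t × Fin m) F) : Matrix (Fin t × Fin m) (Fin t × Fin m) F)) *ᵥ y) : F) = _
        rw [← Matrix.mulVec_mulVec, blockCount_mix φ hφ hid, blockCount_scale]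
      · show _ ∈ Cfsg.Geo.specialLinear ι F
        rw [mem_specialLinear_iff, conjGL_det]
        show (mix (m := m) s * ((scaleGL (i4, k0) d : GL (Fin t × Fin m) F) : Matrix (Fin t × Fin m) (Fin t × Fin m) F)).det = 1
        have hdet : ((scaleGL (i4, k0) d : GL (Fin t × Fin m) F) : Matrix (Fin t × Fin m) (Fin t × Fin m) F).det = (d : F) := by
          show (Matrix.diagonal _).det = _
          rw [Matrix.det_diagonal, Finset.prod_update_of_mem (Finset.mem_univ _)]; simp
        rw [Matrix.det_mul, hdet]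
        show ((Matrix.GeneralLinearGroup.det (mixGL (m := m) h6 s) : Fˣ) : F) * _ = 1
        exact Units.mul_inv _
    rw [← heq] at hA
    refine not_mem_decomp_of_coords he (i := s 0) (a := s 1) (b := s 2) (s.injective.ne (by decide)) (k := k0) (l := k0)
      (y := Pi.single (s 0, k0) 1) (fun j k hj => Pi.single_eq_of_ne (by simp [hj]) _) ?_ ?_ hA.1
    all_goals
      show ((mix (m := m) s * ((scaleGL (i4, k0) d : GL (Fin t × Fin m) F) : Matrix (Fin t × Fin m) (Fin t × Fin m) F)) *ᵥ _) (_, k0) ≠ 0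
      rw [← Matrix.mulVec_mulVec, mix_mulVec, if_pos ⟨_, rfl⟩]
      simp [scaleGL_mulVec, Fin.sum_univ_four, Pi.single_apply, s.injective.eq_iff, hi4, Ne.symm (hi4 _)]
  · let i0 : Fin t := ⟨0, by omega⟩
    let i1 : Fin t := ⟨1, by omega⟩
    have h01 : ((i0, k0) : Fin t × Fin m) ≠ (i1, k0) := by simp [i0, i1]
    let T := tv (F := F) (Pi.single (i0, k0) (1 : F)) (Pi.single (i1, k0) (1 : F)) (by
      rw [single_dotProduct, one_mul, Pi.single_eq_of_ne h01.symm])
    have hT : conjGL e T ∈ Cfsg.Geo.specialLinear ι F := by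
      rw [mem_specialLinear_iff, conjGL_det]
      exact mem_specialLinear_iff.mp (tv_mem_specialLinear _ _ _)
    rw [← heq] at hT
    have := hT.1 (e.symm (Pi.single (i1, k0) 1))
    rw [conjGL_mulVec, LinearEquiv.apply_symm_apply, LinearEquiv.apply_symm_apply, tv_mulVec,
      single_dotProduct, Pi.single_eq_same, one_mul, one_smul, blockCount_single i1 k0 one_ne_zero] at this
    rw [blockCount_two (i := i0) (j := i1) (by simp [i0, i1]) _ ⟨k0, by simp [i0, i1]⟩
      ⟨k0, by simp [i0, i1]⟩ (fun l hl hl' k => by simp [hl, hl'])] at this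
    exact two_ne_one' this

/-- The standard alternating form on a pair of coordinates. -/
def omega2 (a b : Fin 2 → F) : F := a 0 * b 1 - a 1 * b 0

theorem sympForm_bilin (d : ℕ) : (∀ u v w : Fin d ⊕ Fin d → F, Cfsg.sympForm d F (u + v) w = Cfsg.sympForm d F u w + Cfsg.sympForm d F v w) ∧
    (∀ (c : F) (u w : Fin d ⊕ Fin d → F), Cfsg.sympForm d F (c • u) w = c * Cfsg.sympForm d F u w) ∧
    (∀ u w : Fin d ⊕ Fin d → F, Cfsg.sympForm d F u w = - Cfsg.sympForm d F w u) ∧
    (∀ u : Fin d ⊕ Fin d → F, Cfsg.sympForm d F u u = 0) := by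
  have hx : ∀ u v : Fin d ⊕ Fin d → F, Cfsg.sympForm d F u v =
      ∑ i, (u (.inr i) * v (.inl i) - u (.inl i) * v (.inr i)) := by
    intro u v
    simp only [Cfsg.sympForm, Matrix.J, dotProduct, Fintype.sum_sum_type, Matrix.mulVec, Matrix.fromBlocks_apply₁₁,
      Matrix.fromBlocks_apply₁₂, Matrix.fromBlocks_apply₂₁, Matrix.fromBlocks_apply₂₂, Matrix.zero_apply,
      Matrix.neg_apply, Matrix.one_apply]
    simp only [zero_mul, Finset.sum_const_zero, zero_add, add_zero, neg_mul, ite_mul, one_mul,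
      Finset.sum_neg_distrib, Finset.sum_ite_eq, Finset.mem_univ, if_true, mul_neg, Finset.sum_sub_distrib]
    ring
  refine ⟨fun u v w => ?_, fun c u w => ?_, fun u w => ?_, fun u => ?_⟩
  · exact add_dotProduct u v _
  · exact smul_dotProduct c u _
  · rw [hx, hx, ← Finset.sum_neg_distrib]; exact Finset.sum_congr rfl fun i _ => by ring
  · rw [hx]; exact Finset.sum_eq_zero fun i _ => by ring

theorem exists_between_symp [Fintype F] {d : ℕ} (hq : Fintype.card F = 2) {D : Fin t → Submodule F (Fin d ⊕ Fin d → F)}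
    (hD : Cfsg.Geo.IsNondegenerateMDecomposition (Cfsg.sympForm d F) 2 D) (ht : 4 ≤ t) :
    ∃ K : Subgroup (GL (Fin d ⊕ Fin d) F), Cfsg.Geo.decompositionStabilizer D ⊓ Cfsg.spGL d F < K ∧
      K < Cfsg.spGL d F := by
  classical
  obtain ⟨h6, φ, hφ, hid⟩ := exists_indicator (F := F) (m := 2) (Or.inr ⟨rfl, hq⟩)
  have hFc : ∀ x : F, x ≠ 0 → x = 1 := fun x hx => by simpa [hq] using FiniteField.pow_card_sub_one_eq_one x hx
  have h2 : (2 : F) = 0 := by
    have h0 : (Fintype.card F : F) = 0 := Nat.cast_card_eq_zero F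
    rw [hq] at h0; exact_mod_cast h0
  obtain ⟨hadd, hsmul, hskew, halt⟩ := sympForm_bilin (F := F) d
  set B := Cfsg.sympForm d F
  have hadd' : ∀ w u v, B w (u + v) = B w u + B w v := fun w u v => by
    rw [hskew w, hadd, hskew u, hskew v]; ring
  have hsmul' : ∀ c w u, B w (c • u) = c * B w u := fun c w u => by rw [hskew w, hsmul, hskew u]; ring
  let b : ∀ i, Module.Basis (Fin 2) F (D i) := fun i => Module.finBasisOfFinrankEq F (D i) (hD.decomp.finrank_eq i)
  have hb1 : ∀ i, B (b i 0 : Fin d ⊕ Fin d → F) (b i 1) = 1 := by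
    intro i
    refine hFc _ fun h0 => ?_
    obtain ⟨⟨x, hxm, hx⟩, -⟩ := hD.nondegenerate i (b i 0) (b i 0).2 (fun h => (b i).ne_zero 0 (Subtype.ext h))
    apply hx
    have hrep := (b i).sum_repr ⟨x, hxm⟩
    rw [Fin.sum_univ_two] at hrep
    have hx' : x = (b i).repr ⟨x, hxm⟩ 0 • (b i 0 : Fin d ⊕ Fin d → F) + (b i).repr ⟨x, hxm⟩ 1 • (b i 1 : Fin d ⊕ Fin d → F) :=
      (congrArg Subtype.val hrep).symm
    rw [hx', hadd, hsmul, hsmul, halt, hskew (b i 1 : Fin d ⊕ Fin d → F), h0]; ring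
  obtain ⟨e, heb, he⟩ := exists_blockCoords hD.decomp b
  have hform : ∀ x y, B x y = ∑ i : Fin t, omega2 (fun k => e x (i, k)) (fun k => e y (i, k)) := by
    intro x y
    have hx : ∀ x, x = ∑ i : Fin t, (e x (i, 0) • (b i 0 : Fin d ⊕ Fin d → F) + e x (i, 1) • (b i 1 : Fin d ⊕ Fin d → F)) := by
      intro x
      apply e.injective
      simp only [map_sum, map_add, map_smul, heb]
      ext ⟨j, k⟩
      rw [Finset.sum_apply, Finset.sum_eq_single j (fun l _ hl => by simp [Pi.single_apply, Ne.symm hl])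
        (fun h => absurd (Finset.mem_univ j) h)]
      fin_cases k <;> simp [Pi.single_apply]
    let L : (Fin d ⊕ Fin d → F) → (Fin d ⊕ Fin d → F) →ₗ[F] F := fun w =>
      { toFun := B w, map_add' := hadd' w, map_smul' := fun c u => hsmul' c w u }
    let R : (Fin d ⊕ Fin d → F) → (Fin d ⊕ Fin d → F) →ₗ[F] F := fun w =>
      { toFun := fun u => B u w, map_add' := fun u v => hadd u v w, map_smul' := fun c u => hsmul c u w }
    conv_lhs => rw [hx x]
    change R y _ = _
    rw [map_sum]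
    refine Finset.sum_congr rfl fun i _ => ?_
    have hmi : e x (i, 0) • (b i 0 : Fin d ⊕ Fin d → F) + e x (i, 1) • (b i 1 : Fin d ⊕ Fin d → F) ∈ D i :=
      add_mem (Submodule.smul_mem _ _ (b i 0).2) (Submodule.smul_mem _ _ (b i 1).2)
    show B _ y = _
    conv_lhs => rw [hx y]
    change L _ _ = _
    rw [map_sum]
    refine (Finset.sum_eq_single i (fun l _ hl => ?_) (fun h => absurd (Finset.mem_univ i) h)).trans ?_
    · show B _ _ = 0
      exact hD.orthogonal i l (Ne.symm hl) _ hmi _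
        (add_mem (Submodule.smul_mem _ _ (b l 0).2) (Submodule.smul_mem _ _ (b l 1).2))
    show B _ _ = _
    simp only [hadd, hadd', hsmul, hsmul', halt, hb1, hskew (b i 1 : Fin d ⊕ Fin d → F) (b i 0), omega2]
    ring
  have hsp : ∀ A : GL (Fin t × Fin 2) F, (∀ Y Z : Fin t × Fin 2 → F,
      ∑ i : Fin t, omega2 (fun k => ((A : Matrix _ _ F) *ᵥ Y) (i, k)) (fun k => ((A : Matrix _ _ F) *ᵥ Z) (i, k)) =
      ∑ i : Fin t, omega2 (fun k => Y (i, k)) (fun k => Z (i, k))) → conjGL e A ∈ Cfsg.spGL d F := by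
    intro A h u v
    show B ((conjGL e A : Matrix _ _ F) *ᵥ u) ((conjGL e A : Matrix _ _ F) *ᵥ v) = B u v
    rw [conjGL_mulVec, conjGL_mulVec, hform, hform, LinearEquiv.apply_symm_apply, LinearEquiv.apply_symm_apply, h]
  let s : Fin 4 ↪ Fin t := Fin.castLEEmb ht
  refine ⟨countGroup e ⊓ Cfsg.spGL d F, lt_of_le_of_ne
    (inf_le_inf_right _ (decompositionStabilizer_le_countGroup he)) (fun heq => ?_),
    lt_of_le_of_ne inf_le_right (fun heq => ?_)⟩
  · have hA : conjGL e (mixGL h6 s) ∈ countGroup e ⊓ Cfsg.spGL d F := by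
      refine ⟨mem_countGroup_of_coords fun y => blockCount_mix φ hφ hid s y, hsp _ fun Y Z => ?_⟩
      show ∑ i, omega2 (fun k => (mix s *ᵥ Y) (i, k)) (fun k => (mix s *ᵥ Z) (i, k)) = _
      rw [← Finset.sum_add_sum_compl (Finset.univ.map s), ← Finset.sum_add_sum_compl (Finset.univ.map s)
        (fun i => omega2 (fun k => Y (i, k)) (fun k => Z (i, k)))]
      congr 1
      · simp only [Finset.sum_map, omega2, mix_mulVec, Set.mem_range_self, if_true, Fin.sum_univ_four]
        linear_combination (3 * ((Y (s 0, 0) + Y (s 1, 0) + Y (s 2, 0) + Y (s 3, 0)) * (Z (s 0, 1) + Z (s 1, 1) + Z (s 2, 1) + Z (s 3, 1))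
          - (Y (s 0, 1) + Y (s 1, 1) + Y (s 2, 1) + Y (s 3, 1)) * (Z (s 0, 0) + Z (s 1, 0) + Z (s 2, 0) + Z (s 3, 0)))) * h2
      · refine Finset.sum_congr rfl fun i hi => ?_
        have hns : i ∉ Set.range s := by rintro ⟨j, rfl⟩; simp at hi
        simp only [mix_mulVec, hns, if_false]
    rw [← heq] at hA
    refine not_mem_decomp_of_coords he (i := s 0) (a := s 1) (b := s 2) (s.injective.ne (by decide)) (k := 0) (l := 0)
      (y := Pi.single (s 0, 0) 1) (fun j k hj => Pi.single_eq_of_ne (by simp [hj]) _) ?_ ?_ hA.1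
    all_goals
      show (mix s *ᵥ _) (_, (0 : Fin 2)) ≠ 0
      rw [mix_mulVec, if_pos ⟨_, rfl⟩]
      simp [Fin.sum_univ_four, Pi.single_apply, s.injective.eq_iff]
  · let i0 : Fin t := ⟨0, by omega⟩
    let i1 : Fin t := ⟨1, by omega⟩
    have h01 : i0 ≠ i1 := by simp [i0, i1]
    have h10 : i1 ≠ i0 := Ne.symm h01
    let v : Fin t × Fin 2 → F := Pi.single (i0, 0) 1 + Pi.single (i1, 0) 1
    let w : Fin t × Fin 2 → F := Pi.single (i0, 1) 1 + Pi.single (i1, 1) 1
    have hwv : w ⬝ᵥ v = 0 := by simp [w, v, add_dotProduct, single_dotProduct, Pi.single_apply, h01, h10]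
    have hT : conjGL e (tv v w hwv) ∈ Cfsg.spGL d F := by
      refine hsp _ fun Y Z => ?_
      simp only [tv_mulVec]
      have h1 : ∀ Y : Fin t × Fin 2 → F, w ⬝ᵥ Y = Y (i0, 1) + Y (i1, 1) := fun Y => by
        simp [w, add_dotProduct, single_dotProduct]
      rw [← sub_eq_zero, ← Finset.sum_sub_distrib, Fintype.sum_eq_add i0 i1 h01]
      · simp [omega2, h1, v, Pi.single_apply, h01, h10]; ring
      · intro x hx
        simp [omega2, v, Pi.single_apply, hx.1, hx.2]
    rw [← heq] at hT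
    have := hT.1 (e.symm (Pi.single (i0, 1) 1))
    rw [conjGL_mulVec, LinearEquiv.apply_symm_apply, LinearEquiv.apply_symm_apply, tv_mulVec,
      blockCount_single i0 (1 : Fin 2) one_ne_zero] at this
    rw [blockCount_two (i := i0) (j := i1) h01 _ ⟨1, by simp [w, v, add_dotProduct, single_dotProduct, Pi.single_apply, h01, h10]⟩
      ⟨0, by simp [w, v, add_dotProduct, single_dotProduct, Pi.single_apply, h01, h10]⟩
      (fun l hl hl' k => by simp [v, hl, hl'])] at this
    exact two_ne_one' this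

end Cfsg.Agent.GeomClasses
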