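import Cfsg.Agent.GeomClasses.DecompTools
import Cfsg.Agent.Core.MinimalNormal

/-! # Fixed spaces in primitive solvable linear groups -/

set_option autoImplicit false
set_option linter.unusedSectionVars false

namespace Cfsg.Agent.GeomClasses.SolFix

open Matrix

variable {F : Type*} [Field F] [Finite F] {n : ℕ}

local notation "Mx" => Matrix (Fin n) (Fin n) F

theorem exists_killed (S : Finset Mx) (hc : ∀ a ∈ S, ∀ b ∈ S, a * b = b * a) (hn : ∀ a ∈ S, IsNilpotent a)
    {v : Fin n → F} (hv : v ≠ 0) : ∃ w : Fin n → F, w ≠ 0 ∧ ∀ a ∈ S, a *ᵥ w = 0 := by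
  classical
  induction S using Finset.induction_on with
  | empty => exact ⟨v, hv, fun a ha => absurd ha (Finset.notMem_empty a)⟩
  | @insert a S haS ih =>
    obtain ⟨w, hw, hwS⟩ := ih (fun x hx y hy => hc x (Finset.mem_insert_of_mem hx) y (Finset.mem_insert_of_mem hy))
      fun x hx => hn x (Finset.mem_insert_of_mem hx)
    obtain ⟨k, hk⟩ := hn a (Finset.mem_insert_self a S)
    have hex : ∃ j, (a ^ j) *ᵥ w = 0 := ⟨k, by rw [hk, Matrix.zero_mulVec]⟩
    have hj := Nat.find_spec hex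
    have hpos : Nat.find hex ≠ 0 := fun h => hw (by rw [h, pow_zero, Matrix.one_mulVec] at hj; exact hj)
    refine ⟨(a ^ (Nat.find hex - 1)) *ᵥ w, Nat.find_min hex (by omega), fun b hb => ?_⟩
    rcases Finset.mem_insert.mp hb with rfl | hb'
    · rw [Matrix.mulVec_mulVec, ← pow_succ', Nat.sub_add_cancel (by omega)]
      exact hj
    · rw [Matrix.mulVec_mulVec,
        ((Commute.pow_right (show Commute b a from hc b hb a (Finset.mem_insert_self a S))) _).eq,
        ← Matrix.mulVec_mulVec, hwS b hb', Matrix.mulVec_zero]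

variable (G : Subgroup (GL (Fin n) F))

/-- The hypothesis that no decomposition is preserved. -/
def NoDecomp : Prop :=
  ∀ (m t : ℕ) (D : Fin t → Submodule F (Fin n → F)), 2 ≤ t → Cfsg.Geo.IsMDecomposition m D →
    ¬ G ≤ Cfsg.Geo.decompositionStabilizer D

/-- In a primitive group the nontrivial elements of an abelian normal subgroup fix no nonzero vector. -/
theorem fpf_of_abelian_normal (hirr : Cfsg.Geo.ActsIrreducibly (Cfsg.Geo.matrixSet G)) (hprim : NoDecomp G)
    (A : Subgroup G) [A.Normal] (hA : ∀ x ∈ A, ∀ y ∈ A, x * y = y * x) {x : G} (hx : x ∈ A) (hx1 : x ≠ 1)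
    {v : Fin n → F} (hv : ((x : GL (Fin n) F) : Mx) *ᵥ v = v) : v = 0 := by
  classical
  by_contra hv0
  haveI : Fintype F := Fintype.ofFinite F
  set R : Subalgebra F Mx := Algebra.adjoin F ((fun y : G => ((y : GL (Fin n) F) : Mx)) '' (A : Set G)) with hR
  have hmem : ∀ y ∈ A, ((y : GL (Fin n) F) : Mx) ∈ R := fun y hy => Algebra.subset_adjoin ⟨y, hy, rfl⟩
  have hcomm : ∀ a ∈ R, ∀ b ∈ R, a * b = b * a := by
    intro a ha b hb
    refine Algebra.commute_of_mem_adjoin_of_forall_mem_commute hb ?_ |>.eq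
    rintro _ ⟨y, hy, rfl⟩
    refine (Algebra.commute_of_mem_adjoin_of_forall_mem_commute ha ?_).symm
    rintro _ ⟨z, hz, rfl⟩
    show _ * _ = _ * _
    rw [← Units.val_mul, ← Units.val_mul, ← Subgroup.coe_mul, ← Subgroup.coe_mul, hA y hy z hz]
  have hconj : ∀ g : G, ∀ a ∈ R, ((g : GL (Fin n) F) : Mx) * a * (((g⁻¹ : G) : GL (Fin n) F) : Mx) ∈ R := by
    intro g a ha
    have hgg : (((g⁻¹ : G) : GL (Fin n) F) : Mx) * ((g : GL (Fin n) F) : Mx) = 1 := by
      rw [← Units.val_mul, ← Subgroup.coe_mul, inv_mul_cancel, Subgroup.coe_one, Units.val_one]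
    induction ha using Algebra.adjoin_induction with
    | mem y hy =>
      obtain ⟨z, hz, rfl⟩ := hy
      have := hmem _ (‹A.Normal›.conj_mem z hz g)
      simpa [Units.val_mul, mul_assoc] using this
    | algebraMap c =>
      rw [← Algebra.commutes, mul_assoc, ← Units.val_mul, ← Subgroup.coe_mul, mul_inv_cancel, Subgroup.coe_one,
        Units.val_one, mul_one]
      exact R.algebraMap_mem c
    | add a b _ _ ha hb => rw [mul_add, add_mul]; exact R.add_mem ha hb
    | mul a b _ _ ha hb =>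
      have e : ((g : GL (Fin n) F) : Mx) * (a * b) * (((g⁻¹ : G) : GL (Fin n) F) : Mx) =
          (((g : GL (Fin n) F) : Mx) * a * (((g⁻¹ : G) : GL (Fin n) F) : Mx)) *
            (((g : GL (Fin n) F) : Mx) * b * (((g⁻¹ : G) : GL (Fin n) F) : Mx)) := by
        simp only [mul_assoc]
        rw [← mul_assoc (((g⁻¹ : G) : GL (Fin n) F) : Mx), hgg, one_mul]
      rw [e]
      exact R.mul_mem ha hb
  have hinvmat : ∀ (W : Submodule F (Fin n → F)), (∀ g : G, ∀ w ∈ W, ((g : GL (Fin n) F) : Mx) *ᵥ w ∈ W) →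
      W = ⊥ ∨ W = ⊤ := by
    intro W hW
    refine hirr W ?_
    rintro _ ⟨g, hg, rfl⟩
    rintro _ ⟨w, hw, rfl⟩
    simpa using hW ⟨g, hg⟩ w hw
  -- no nilpotents
  have hred : ∀ a ∈ R, IsNilpotent a → a = 0 := by
    intro a ha hna
    let W : Submodule F (Fin n → F) :=
      { carrier := {w | ∀ b ∈ R, IsNilpotent b → b *ᵥ w = 0}
        zero_mem' := fun b _ _ => Matrix.mulVec_zero b
        add_mem' := fun {p q} hp hq b hb hnb => by rw [Matrix.mulVec_add, hp b hb hnb, hq b hb hnb, add_zero]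
        smul_mem' := fun c p hp b hb hnb => by rw [Matrix.mulVec_smul, hp b hb hnb, smul_zero] }
    obtain ⟨w, hw0, hw⟩ := exists_killed (Finset.univ.filter fun b : Mx => b ∈ R ∧ IsNilpotent b)
      (fun p hp q hq => hcomm p (Finset.mem_filter.mp hp).2.1 q (Finset.mem_filter.mp hq).2.1)
      (fun p hp => (Finset.mem_filter.mp hp).2.2) hv0
    have hWtop : W = ⊤ := by
      refine (hinvmat W fun g u hu b hb hnb => ?_).resolve_left fun h => hw0 ?_
      · have hb' := hconj g⁻¹ b hb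
        rw [inv_inv] at hb'
        have hnb' : IsNilpotent ((((g⁻¹ : G) : GL (Fin n) F) : Mx) * b * ((g : GL (Fin n) F) : Mx)) := by
          obtain ⟨k, hk⟩ := hnb
          refine ⟨k, ?_⟩
          have := Units.conj_pow' (g : GL (Fin n) F) b k
          rw [show (((g⁻¹ : G) : GL (Fin n) F)) = (g : GL (Fin n) F)⁻¹ from rfl, this, hk]; simp
        have h1 := congrArg (((g : GL (Fin n) F) : Mx) *ᵥ ·) (hu _ hb' hnb')
        simp only [Matrix.mulVec_mulVec, Matrix.mulVec_zero, ← mul_assoc, ← Units.val_mul, ← Subgroup.coe_mul,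
          mul_inv_cancel, Subgroup.coe_one, Units.val_one, one_mul] at h1
        rw [Matrix.mulVec_mulVec]
        exact h1
      · have : w ∈ W := fun b hb hnb => hw b (Finset.mem_filter.mpr ⟨Finset.mem_univ b, hb, hnb⟩)
        rwa [h, Submodule.mem_bot] at this
    refine Matrix.ext_iff_mulVec.mpr fun u => ?_
    rw [Matrix.zero_mulVec]
    exact (hWtop ▸ Submodule.mem_top : u ∈ W) a ha hna
  -- every element is regular
  have hreg : ∀ a ∈ R, ∃ d, 1 ≤ d ∧ a ^ (d + 1) = a := by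
    intro a ha
    obtain ⟨i, j, hne, hij⟩ := Finite.exists_ne_map_eq_of_infinite fun k : ℕ => a ^ k
    wlog hlt : i < j generalizing i j
    · exact this j i (Ne.symm hne) hij.symm (by omega)
    refine ⟨j - i, by omega, sub_eq_zero.mp (hred _ (R.sub_mem (R.pow_mem ha _) ha) ?_)⟩
    refine ⟨i + 1, ?_⟩
    have e : a ^ (j - i + 1) - a = a * (a ^ (j - i) - 1) := by rw [mul_sub, mul_one, ← pow_succ']
    have hc : Commute a (a ^ (j - i) - 1) := ((Commute.refl a).pow_right _).sub_right (Commute.one_right a)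
    rw [e, hc.mul_pow, pow_succ a i, mul_assoc, pow_succ', ← mul_assoc a, ← mul_assoc, ← mul_assoc]
    have h0 : a ^ i * a * (a ^ (j - i) - 1) = 0 := by
      rw [← pow_succ, mul_sub, mul_one, ← pow_add, show i + 1 + (j - i) = j + 1 by omega, pow_succ, pow_succ, hij,
        sub_self]
    rw [h0, zero_mul]
  -- a smallest idempotent
  have hxR : ((x : GL (Fin n) F) : Mx) - 1 ∈ R := R.sub_mem (hmem x hx) R.one_mem
  have hne : ((x : GL (Fin n) F) : Mx) - 1 ≠ 0 := fun h => hx1 (Subtype.ext (Units.ext (sub_eq_zero.mp h)))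
  obtain ⟨d, hd, hdx⟩ := hreg _ hxR
  set e₀ := (((x : GL (Fin n) F) : Mx) - 1) ^ d with he₀
  have he₀i : e₀ * e₀ = e₀ := by
    rw [he₀]
    conv_lhs => arg 2; rw [← Nat.sub_add_cancel hd, pow_succ']
    rw [← mul_assoc, ← pow_succ, hdx, ← pow_succ', Nat.sub_add_cancel hd]
  have he₀0 : e₀ ≠ 0 := fun h => hne (by rw [← hdx, pow_succ, ← he₀, h, zero_mul])
  have he₀v : e₀ *ᵥ v = 0 := by
    rw [he₀, ← Nat.sub_add_cancel hd, pow_succ, ← Matrix.mulVec_mulVec, Matrix.sub_mulVec, hv, Matrix.one_mulVec,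
      sub_self, Matrix.mulVec_zero]
  obtain ⟨e, he, hmin⟩ := Finset.exists_min_image (Finset.univ.filter fun b : Mx => b ∈ R ∧ b * b = b ∧ b ≠ 0)
    (fun b => Module.finrank F (LinearMap.range (Matrix.toLin' b)))
    ⟨e₀, Finset.mem_filter.mpr ⟨Finset.mem_univ _, R.pow_mem hxR d, he₀i, he₀0⟩⟩
  obtain ⟨-, heR, hei, he0⟩ := Finset.mem_filter.mp he
  have hle : ∀ b ∈ R, b * b = b → b * e = 0 ∨ b * e = e := by
    intro b hbR hb
    by_cases h0 : b * e = 0
    · exact Or.inl h0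
    refine Or.inr ?_
    have hi : b * e * (b * e) = b * e := by
      rw [mul_assoc, ← mul_assoc e, hcomm e heR b hbR, mul_assoc b e, hei, ← mul_assoc, hb]
    have h1 := hmin _ (Finset.mem_filter.mpr ⟨Finset.mem_univ _, R.mul_mem hbR heR, hi, h0⟩)
    have hsub : LinearMap.range (Matrix.toLin' (b * e)) ≤ LinearMap.range (Matrix.toLin' e) := by
      rw [hcomm b hbR e heR, Matrix.toLin'_mul]
      exact LinearMap.range_comp_le_range _ _
    have heq := Submodule.eq_of_le_of_finrank_le hsub h1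
    refine Matrix.ext_iff_mulVec.mpr fun u => ?_
    have hu : e *ᵥ u ∈ LinearMap.range (Matrix.toLin' (b * e)) := heq ▸ ⟨u, by simp⟩
    obtain ⟨w, hw⟩ := hu
    rw [Matrix.toLin'_apply] at hw
    rw [← Matrix.mulVec_mulVec, ← hw, Matrix.mulVec_mulVec, ← mul_assoc, hb]
  -- its conjugates
  let cj : G → Mx := fun g => ((g : GL (Fin n) F) : Mx) * e * (((g⁻¹ : G) : GL (Fin n) F) : Mx)
  have hcj : ∀ g h : G, cj (g * h) = ((g : GL (Fin n) F) : Mx) * cj h * (((g⁻¹ : G) : GL (Fin n) F) : Mx) := fun g h => by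
    simp only [cj]
    rw [_root_.mul_inv_rev, Subgroup.coe_mul, Subgroup.coe_mul, Units.val_mul, Units.val_mul]
    simp only [mul_assoc]
  have hgg : ∀ g : G, (((g⁻¹ : G) : GL (Fin n) F) : Mx) * ((g : GL (Fin n) F) : Mx) = 1 := fun g => by
    rw [← Units.val_mul, ← Subgroup.coe_mul, inv_mul_cancel, Subgroup.coe_one, Units.val_one]
  have hcjR : ∀ g, cj g ∈ R := fun g => hconj g e heR
  have hcji : ∀ g, cj g * cj g = cj g := fun g => by
    simp only [cj, mul_assoc]
    rw [← mul_assoc (((g⁻¹ : G) : GL (Fin n) F) : Mx), hgg, one_mul, ← mul_assoc e, hei]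
  have hconjmul : ∀ (g : G) (a b : Mx), ((g : GL (Fin n) F) : Mx) * a * (((g⁻¹ : G) : GL (Fin n) F) : Mx) *
      (((g : GL (Fin n) F) : Mx) * b * (((g⁻¹ : G) : GL (Fin n) F) : Mx)) =
      ((g : GL (Fin n) F) : Mx) * (a * b) * (((g⁻¹ : G) : GL (Fin n) F) : Mx) := fun g a b => by
    simp only [mul_assoc]
    rw [← mul_assoc (((g⁻¹ : G) : GL (Fin n) F) : Mx), hgg, one_mul]
  have horth : ∀ g h, cj g ≠ cj h → cj g * cj h = 0 := by
    intro g h hne'
    have e1 : cj g = ((h : GL (Fin n) F) : Mx) * cj (h⁻¹ * g) * (((h⁻¹ : G) : GL (Fin n) F) : Mx) := by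
      rw [← hcj, mul_inv_cancel_left]
    rcases hle _ (hcjR (h⁻¹ * g)) (hcji _) with h0 | h0
    · rw [e1, show cj h = ((h : GL (Fin n) F) : Mx) * e * (((h⁻¹ : G) : GL (Fin n) F) : Mx) from rfl, hconjmul, h0]
      simp
    · have h1 : cj g * cj h = cj h := by
        rw [e1, show cj h = ((h : GL (Fin n) F) : Mx) * e * (((h⁻¹ : G) : GL (Fin n) F) : Mx) from rfl, hconjmul, h0]
      have e2 : cj h = ((g : GL (Fin n) F) : Mx) * cj (g⁻¹ * h) * (((g⁻¹ : G) : GL (Fin n) F) : Mx) := by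
        rw [← hcj, mul_inv_cancel_left]
      rcases hle _ (hcjR (g⁻¹ * h)) (hcji _) with h2 | h2
      · rw [hcomm _ (hcjR g) _ (hcjR h), e2,
          show cj g = ((g : GL (Fin n) F) : Mx) * e * (((g⁻¹ : G) : GL (Fin n) F) : Mx) from rfl, hconjmul, h2]
        simp
      · refine absurd ?_ hne'
        rw [← h1, hcomm _ (hcjR g) _ (hcjR h), e2]
        show _ = _ * (((g : GL (Fin n) F) : Mx) * e * (((g⁻¹ : G) : GL (Fin n) F) : Mx))
        rw [hconjmul, h2]
  haveI : Fintype G := Fintype.ofFinite G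
  set S := Finset.univ.image cj with hS
  set t := S.card with ht
  let f : Fin t → Mx := fun i => (S.equivFin.symm i : Mx)
  have hf : ∀ i, ∃ g, cj g = f i := fun i => by
    obtain ⟨g, -, hg⟩ := Finset.mem_image.mp (S.equivFin.symm i).2
    exact ⟨g, hg⟩
  have hfinj : Function.Injective f := Subtype.val_injective.comp S.equivFin.symm.injective
  have hfsur : ∀ g, ∃ i, f i = cj g := fun g =>
    ⟨S.equivFin ⟨cj g, Finset.mem_image_of_mem cj (Finset.mem_univ g)⟩, by simp [f]⟩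
  have hff : ∀ i j, f i * f j = if i = j then f j else 0 := by
    intro i j
    obtain ⟨g, hg⟩ := hf i
    obtain ⟨h, hh⟩ := hf j
    split_ifs with hij
    · subst hij; rw [← hg, hcji]
    · rw [← hg, ← hh]; exact horth g h (by rw [hg, hh]; exact fun hh' => hij (hfinj hh'))
  let D : Fin t → Submodule F (Fin n → F) := fun i => LinearMap.range (Matrix.toLin' (f i))
  have hDfix : ∀ i, ∀ u ∈ D i, ∀ j, f j *ᵥ u = if j = i then u else 0 := by
    rintro i _ ⟨w, rfl⟩ j
    rw [Matrix.toLin'_apply, Matrix.mulVec_mulVec, hff]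
    split_ifs <;> simp
  have hG : ∀ (g : G) (i : Fin t), ∃ j, ∀ u ∈ D i, ((g : GL (Fin n) F) : Mx) *ᵥ u ∈ D j := by
    intro g i
    obtain ⟨h, hh⟩ := hf i
    obtain ⟨j, hj⟩ := hfsur (g * h)
    refine ⟨j, ?_⟩
    rintro _ ⟨w, rfl⟩
    refine ⟨((g : GL (Fin n) F) : Mx) *ᵥ w, ?_⟩
    rw [Matrix.toLin'_apply, Matrix.toLin'_apply, Matrix.mulVec_mulVec, Matrix.mulVec_mulVec, hj, hcj, hh,
      mul_assoc, hgg, mul_one]
  have htop : iSup D = ⊤ := by
    refine (hinvmat _ fun g u hu => ?_).resolve_left fun h => ?_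
    · induction hu using Submodule.iSup_induction' with
      | mem i u hu =>
        obtain ⟨j, hj⟩ := hG g i
        exact Submodule.mem_iSup_of_mem j (hj u hu)
      | zero => simp
      | add p q _ _ hp hq => rw [Matrix.mulVec_add]; exact add_mem hp hq
    · obtain ⟨i, hi⟩ := hfsur 1
      have h1 : D i = ⊥ := iSup_eq_bot.mp h i
      refine he0 ?_
      have h2 : f i = e := by rw [hi]; simp [cj]
      rw [← h2]
      refine Matrix.toLin'.map_eq_zero_iff.mp ?_
      exact LinearMap.range_eq_bot.mp h1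
  have hindep : iSupIndep D := by
    refine fun i => Submodule.disjoint_def.mpr fun u hu hu' => ?_
    have h0 : f i *ᵥ u = 0 := by
      have hk : ∀ j ≠ i, D j ≤ LinearMap.ker (Matrix.toLin' (f i)) := fun j hj w hw => by
        rw [LinearMap.mem_ker, Matrix.toLin'_apply, hDfix j w hw i, if_neg (Ne.symm hj)]
      exact LinearMap.mem_ker.mp ((iSup₂_le hk) hu')
    rwa [hDfix i u hu i, if_pos rfl] at h0
  have hone : ∀ u, (∑ i, f i) *ᵥ u = u := by
    intro u
    have hu : u ∈ iSup D := htop ▸ Submodule.mem_top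
    induction hu using Submodule.iSup_induction' with
    | mem i w hw =>
      rw [Matrix.sum_mulVec, Finset.sum_eq_single i (fun j _ hj => by rw [hDfix i w hw j, if_neg hj])
        (fun h => absurd (Finset.mem_univ i) h), hDfix i w hw i, if_pos rfl]
    | zero => simp
    | add p q _ _ hp hq => rw [Matrix.mulVec_add, hp, hq]
  have hrank : ∀ i, Module.finrank F (D i) = Module.finrank F (LinearMap.range (Matrix.toLin' e)) := by
    intro i
    obtain ⟨g, hg⟩ := hf i
    show Module.finrank F (LinearMap.range (Matrix.toLin' (f i))) = _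
    rw [← hg]
    show Matrix.rank (((g : GL (Fin n) F) : Mx) * e * (((g⁻¹ : G) : GL (Fin n) F) : Mx)) = Matrix.rank e
    rw [Matrix.rank_mul_eq_left_of_isUnit_det _ _ ((Matrix.isUnit_iff_isUnit_det _).mp (Units.isUnit _)),
      Matrix.rank_mul_eq_right_of_isUnit_det _ _ ((Matrix.isUnit_iff_isUnit_det _).mp (Units.isUnit _))]
  have ht2 : 2 ≤ t := by
    by_contra hcon
    have h1 : 1 ≤ t := by
      obtain ⟨i, -⟩ := hfsur 1
      exact Nat.lt_of_le_of_lt (Nat.zero_le _) i.isLt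
    have ht1 : t = 1 := by omega
    obtain ⟨i, hi⟩ := hfsur 1
    have hie : f i = e := by rw [hi]; simp [cj]
    haveI : Subsingleton (Fin t) := by rw [ht1]; infer_instance
    have hev : ∀ u, e *ᵥ u = u := fun u => by
      have hu := hone u
      rwa [Fintype.sum_subsingleton _ i, hie] at hu
    rcases hle e₀ (R.pow_mem hxR d) he₀i with h | h
    · refine he₀0 (Matrix.ext_iff_mulVec.mpr fun u => ?_)
      rw [← hev u, Matrix.mulVec_mulVec, h, Matrix.zero_mulVec, Matrix.zero_mulVec]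
    · refine hv0 ?_
      rw [← hev v, ← h, ← Matrix.mulVec_mulVec, hev, he₀v]
  refine hprim (Module.finrank F (LinearMap.range (Matrix.toLin' e))) t D ht2 ⟨ht2, ?_, hrank, hindep, htop⟩ ?_
  · exact Nat.pos_of_ne_zero fun h => he0 (Matrix.toLin'.map_eq_zero_iff.mp
      (LinearMap.range_eq_bot.mp (Submodule.finrank_eq_zero.mp h)))
  · intro g hg
    exact mem_decomp_of_forall ⟨ht2, Nat.pos_of_ne_zero fun h => he0 (Matrix.toLin'.map_eq_zero_iff.mp
      (LinearMap.range_eq_bot.mp (Submodule.finrank_eq_zero.mp h))), hrank, hindep, htop⟩ (hG ⟨g, hg⟩)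

/-- The fixed space. -/
noncomputable def fix (g : GL (Fin n) F) : Submodule F (Fin n → F) :=
  LinearMap.ker (Matrix.toLin' ((g : Mx) - 1))

theorem mem_fix {g : GL (Fin n) F} {v : Fin n → F} : v ∈ fix g ↔ (g : Mx) *ᵥ v = v := by
  rw [fix, LinearMap.mem_ker, Matrix.toLin'_apply, Matrix.sub_mulVec, Matrix.one_mulVec, sub_eq_zero]

theorem fix_comm_le (a b : GL (Fin n) F) :
    2 * Module.finrank F (fix a) ≤ n + Module.finrank F (fix (a * b * a⁻¹ * b⁻¹)) := by
  set W := (fix a).map (Matrix.toLin' (b : Mx)) with hW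
  have hinj : Function.Injective (Matrix.toLin' (b : Mx)) := fun p q h => by
    have := congrArg (((b⁻¹ : GL (Fin n) F) : Mx) *ᵥ ·) h
    simpa [Matrix.mulVec_mulVec, ← Units.val_mul] using this
  have hWd : Module.finrank F W = Module.finrank F (fix a) :=
    ((fix a).equivMapOfInjective _ hinj).finrank_eq.symm
  have hsub : fix a ⊓ W ≤ fix (a * b * a⁻¹ * b⁻¹) := by
    rintro _ ⟨h1, w, hw, rfl⟩
    rw [SetLike.mem_coe, mem_fix, Matrix.toLin'_apply] at h1
    rw [SetLike.mem_coe, mem_fix] at hw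
    rw [mem_fix, Matrix.toLin'_apply]
    have hw' : ((a⁻¹ : GL (Fin n) F) : Mx) *ᵥ w = w := by
      conv_lhs => rw [← hw]
      rw [Matrix.mulVec_mulVec, ← Units.val_mul, inv_mul_cancel, Units.val_one, Matrix.one_mulVec]
    rw [Matrix.mulVec_mulVec, ← Units.val_mul, inv_mul_cancel_right, Units.val_mul, Units.val_mul,
      ← Matrix.mulVec_mulVec, ← Matrix.mulVec_mulVec, hw', h1]
  have h1 := Submodule.finrank_sup_add_finrank_inf_eq (fix a) W
  have h2 := Submodule.finrank_le (fix a ⊔ W)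
  have h3 := Submodule.finrank_mono hsub
  rw [Module.finrank_fin_fun] at h2
  omega

/-- A nontrivial element of a solvable primitive group fixes at most three quarters of the space. -/
theorem four_fix_le [Finite G] [Group.IsSolvable G] (hirr : Cfsg.Geo.ActsIrreducibly (Cfsg.Geo.matrixSet G))
    (hprim : NoDecomp G) {g : G} (hg1 : g ≠ 1) : 4 * Module.finrank F (fix (g : GL (Fin n) F)) ≤ 3 * n := by
  obtain ⟨X, ⟨hXn, hX2⟩, hXmax⟩ := (Set.toFinite
    {X : Subgroup G | X.Normal ∧ ∀ a ∈ X, ∀ b ∈ X, ∀ c ∈ X, (a * b * a⁻¹ * b⁻¹) * c = c * (a * b * a⁻¹ * b⁻¹)}).exists_maximal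
      ⟨⊥, inferInstance, by simp⟩
  haveI := hXn
  set C := Subgroup.centralizer (X : Set G) with hC
  set Z := C ⊓ X with hZ
  have hZc : ∀ z ∈ Z, ∀ c ∈ C, z * c = c * z := fun z hz c hc => Subgroup.mem_centralizer_iff.mp hc z hz.2
  have hCX : C ≤ X := by
    by_contra hnot
    set π := QuotientGroup.mk' Z with hπ
    have hne : C.map π ≠ ⊥ := fun h => hnot fun c hc => by
      have : π c ∈ (⊥ : Subgroup (G ⧸ Z)) := h ▸ Subgroup.mem_map_of_mem π hc
      rw [Subgroup.mem_bot, hπ, QuotientGroup.mk'_apply, QuotientGroup.eq_one_iff] at this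
      exact this.2
    obtain ⟨Mb, hMb, hMbC⟩ := Core.exists_isMinNormal_le
      ((inferInstance : C.Normal).map π (QuotientGroup.mk'_surjective Z)) hne
    have hab : IsMulCommutative Mb := hMb.isMulCommutative inferInstance
    haveI := hMb.1
    set M := Mb.comap π with hM
    have hMC : M ≤ C := fun m hm => by
      obtain ⟨c, hc, hcm⟩ := Subgroup.mem_map.mp (hMbC hm)
      have hz : c⁻¹ * m ∈ Z := (QuotientGroup.eq.mp hcm)
      simpa using C.mul_mem hc hz.1
    have hMM : ∀ a ∈ M, ∀ b ∈ M, a * b * a⁻¹ * b⁻¹ ∈ Z := fun a ha b hb => by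
      rw [← QuotientGroup.eq_one_iff]
      have e : π a * π b = π b * π a := congrArg Subtype.val (hab.is_comm.comm ⟨π a, ha⟩ ⟨π b, hb⟩)
      show π (a * b * a⁻¹ * b⁻¹) = 1
      simp only [map_mul, map_inv, e]
      group
    have key : ∀ a ∈ M ⊔ X, ∀ b ∈ M ⊔ X, ∀ c ∈ M ⊔ X,
        (a * b * a⁻¹ * b⁻¹) * c = c * (a * b * a⁻¹ * b⁻¹) := by
      intro a ha b hb
      obtain ⟨m, hm, x, hx, rfl⟩ := Subgroup.mem_sup_of_normal_right.mp ha
      obtain ⟨m', hm', x', hx', rfl⟩ := Subgroup.mem_sup_of_normal_right.mp hb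
      have c1 : ∀ y ∈ X, ∀ k ∈ C, k * y = y * k := fun y hy k hk => (Subgroup.mem_centralizer_iff.mp hk y hy).symm
      have hxx : x * x' * x⁻¹ * x'⁻¹ ∈ X := X.mul_mem (X.mul_mem (X.mul_mem hx hx') (X.inv_mem hx)) (X.inv_mem hx')
      have e : (m * x) * (m' * x') * (m * x)⁻¹ * (m' * x')⁻¹ = (m * m' * m⁻¹ * m'⁻¹) * (x * x' * x⁻¹ * x'⁻¹) := by
        calc (m * x) * (m' * x') * (m * x)⁻¹ * (m' * x')⁻¹
            = m * (x * m') * (x' * x⁻¹) * m⁻¹ * x'⁻¹ * m'⁻¹ := by group
          _ = m * (m' * x) * (x' * x⁻¹) * m⁻¹ * x'⁻¹ * m'⁻¹ := by rw [← c1 x hx m' (hMC hm')]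
          _ = m * m' * ((x * x' * x⁻¹) * m⁻¹) * x'⁻¹ * m'⁻¹ := by group
          _ = m * m' * (m⁻¹ * (x * x' * x⁻¹)) * x'⁻¹ * m'⁻¹ := by
            rw [c1 _ (X.mul_mem (X.mul_mem hx hx') (X.inv_mem hx)) _ (C.inv_mem (hMC hm))]
          _ = m * m' * m⁻¹ * ((x * x' * x⁻¹ * x'⁻¹) * m'⁻¹) := by group
          _ = m * m' * m⁻¹ * (m'⁻¹ * (x * x' * x⁻¹ * x'⁻¹)) := by rw [c1 _ hxx _ (C.inv_mem (hMC hm'))]
          _ = _ := by group
      intro c hc
      rw [e]
      obtain ⟨m'', hm'', x'', hx'', rfl⟩ := Subgroup.mem_sup_of_normal_right.mp hc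
      set z := m * m' * m⁻¹ * m'⁻¹
      set w := x * x' * x⁻¹ * x'⁻¹
      have hz : z ∈ Z := hMM m hm m' hm'
      calc z * w * (m'' * x'') = z * (w * m'') * x'' := by group
        _ = z * (m'' * w) * x'' := by rw [c1 w hxx m'' (hMC hm'')]
        _ = (z * m'') * (w * x'') := by group
        _ = (m'' * z) * (x'' * w) := by rw [hZc z hz m'' (hMC hm''), hX2 x hx x' hx' x'' hx'']
        _ = m'' * (z * x'') * w := by group
        _ = m'' * (x'' * z) * w := by rw [c1 x'' hx'' z hz.1]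
        _ = _ := by group
    have hle : M ⊔ X ≤ X := hXmax ⟨inferInstance, key⟩ le_sup_right
    have hMZ : M ≤ Z := fun m hm => ⟨hMC hm, hle (le_sup_left (b := X) hm)⟩
    refine hMb.2.1 (eq_bot_iff.mpr fun y hy => ?_)
    obtain ⟨m, rfl⟩ := QuotientGroup.mk'_surjective Z y
    rw [Subgroup.mem_bot, QuotientGroup.mk'_apply, QuotientGroup.eq_one_iff]
    exact hMZ hy
  have hfpf : ∀ z : G, (∀ y ∈ X, y * z = z * y) → z ≠ 1 → fix (z : GL (Fin n) F) = ⊥ := by
    intro z hz hz1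
    have hzC : z ∈ C := Subgroup.mem_centralizer_iff.mpr hz
    refine eq_bot_iff.mpr fun v hv => ?_
    exact (Submodule.mem_bot F).mpr (fpf_of_abelian_normal G hirr hprim Z (fun a ha b hb => hZc a ha b hb.1)
      (x := z) ⟨hzC, hCX hzC⟩ hz1 (mem_fix.mp hv))
  have hhalf : ∀ c ∈ X, c ≠ 1 → 2 * Module.finrank F (fix (c : GL (Fin n) F)) ≤ n := by
    intro c hc hc1
    by_cases hcen : ∀ y ∈ X, y * c = c * y
    · rw [hfpf c hcen hc1, finrank_bot]; omega
    push Not at hcen
    obtain ⟨y, hy, hne⟩ := hcen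
    have h1 := fix_comm_le (c : GL (Fin n) F) (y : GL (Fin n) F)
    have h2 : fix (((c * y * c⁻¹ * y⁻¹ : G)) : GL (Fin n) F) = ⊥ :=
      hfpf _ (fun w hw => (hX2 c hc y hy w hw).symm) fun e => hne (by
        have := mul_eq_one_iff_eq_inv.mp e
        rw [inv_inv, mul_inv_eq_iff_eq_mul] at this
        exact this.symm)
    simp only [Subgroup.coe_mul, Subgroup.coe_inv] at h2
    rw [h2, finrank_bot] at h1
    omega
  by_cases hcen : ∀ y ∈ X, y * g = g * y
  · rw [hfpf g hcen hg1, finrank_bot]; omega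
  push Not at hcen
  obtain ⟨y, hy, hne⟩ := hcen
  have h1 := fix_comm_le (g : GL (Fin n) F) (y : GL (Fin n) F)
  have hc : g * y * g⁻¹ * y⁻¹ ∈ X := X.mul_mem (hXn.conj_mem y hy g) (X.inv_mem hy)
  have h2 := hhalf _ hc fun e => hne (by
    have := mul_eq_one_iff_eq_inv.mp e
    rw [inv_inv, mul_inv_eq_iff_eq_mul] at this
    exact this.symm)
  simp only [Subgroup.coe_mul, Subgroup.coe_inv] at h2
  omega

end Cfsg.Agent.GeomClasses.SolFix
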