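import Cfsg.Agent.GeomClasses.SympNondegModels
import Cfsg.Agent.GeomClasses.SympMax
import Cfsg.Agent.GeomClasses.OrthStab
import Cfsg.Agent.Forms.HermOrder

/-!
# Quadratic extension structures on symplectic spaces and elements of prime order
-/

set_option autoImplicit false
set_option linter.unusedSectionVars false

namespace Cfsg.Agent.GeomClasses.SympQuadExt

open Module Matrix SympStructure Cfsg.Agent.Forms

variable {F : Type*} [Field F] [Fintype F] {d : ℕ}

local notation "Vd" => (Fin d ⊕ Fin d → F)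
local notation "Mx" => Matrix (Fin d ⊕ Fin d) (Fin d ⊕ Fin d) F
local notation "BB" => sympB d F

/-- A skew endomorphism with scalar square. -/
structure Skew (J : Module.End F Vd) (ε : F) : Prop where
  sq : ∀ v, J (J v) = ε • v
  skew : ∀ u v, BB (J u) v = -BB u (J v)

theorem Skew.symm {J : Module.End F Vd} {ε : F} (hJ : Skew J ε) (u v : Vd) : BB u (J v) = BB v (J u) := by
  have h := LinearMap.IsAlt.neg (sympB_isAlt (F := F) (m := d)) (J u) v
  rw [hJ.skew, neg_neg] at h
  exact h

/-- A family of orthogonal normalised planes stable under a skew map. -/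
theorem exists_planes {J : Module.End F Vd} {ε : F} (hJ : Skew J ε) (h2 : (2 : F) ≠ 0) (hε : ε ≠ 0) :
    ∃ u : Fin d → Vd, IsSympFamily BB (Sum.elim u fun i => J (u i)) := by
  classical
  have hA : (BB).IsAlt := sympB_isAlt
  have hB : (BB).Nondegenerate := sympB_nondegenerate
  have hV : finrank F Vd = 2 * d := by
    rw [Module.finrank_pi, Fintype.card_sum, Fintype.card_fin]; omega
  suffices ∀ k ≤ d, ∃ u : Fin k → Vd, IsSympFamily BB (Sum.elim u fun i => J (u i)) from this d le_rfl
  intro k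
  induction k with
  | zero => exact fun _ => ⟨fun i => i.elim0, ⟨fun i => i.elim0, fun i => i.elim0, fun i => i.elim0⟩⟩
  | succ k ih =>
    intro hk
    obtain ⟨u, hu⟩ := ih (by omega)
    set W := Submodule.span F (Set.range (Sum.elim u fun i => J (u i)))
    have hWd : finrank F W = 2 * k := by
      rw [finrank_span_eq_card (hu.linearIndependent hA), Fintype.card_sum, Fintype.card_fin]; omega
    have hWn : Nd BB W := by
      intro w hw h
      obtain ⟨c, rfl⟩ := (Submodule.mem_span_range_iff_exists_fun F).1 hw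
      refine Finset.sum_eq_zero fun s _ => ?_
      rcases s with a | a
      · have := h _ (Submodule.subset_span ⟨Sum.inr a, rfl⟩)
        have e1 : ∀ x, BB (u x) (J (u a)) = if x = a then 1 else 0 := fun x => hu.lr x a
        have e2 : ∀ x, BB (J (u x)) (J (u a)) = 0 := fun x => hu.rr x a
        simp [Fintype.sum_sum_type, e1, e2] at this
        simp [this]
      · have := h _ (Submodule.subset_span ⟨Sum.inl a, rfl⟩)
        have e1 : ∀ x, BB (J (u x)) (u a) = -(if a = x then (1 : F) else 0) := fun x => by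
          rw [← LinearMap.IsAlt.neg hA]; exact congrArg Neg.neg (hu.lr a x)
        have e2 : ∀ x, BB (u x) (u a) = 0 := fun x => hu.ll x a
        simp [Fintype.sum_sum_type, e1, e2] at this
        simp [this]
    set Y := (BB).orthogonal W
    have hYd : 2 ≤ finrank F Y := by
      rw [LinearMap.BilinForm.finrank_orthogonal hB, hWd, hV]; omega
    have hWJ : ∀ w ∈ W, J w ∈ W := fun w hw => (show W.map J ≤ W by
      rw [Submodule.map_span_le]
      rintro _ ⟨a | a, rfl⟩
      · exact Submodule.subset_span ⟨Sum.inr a, rfl⟩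
      · show J (J (u a)) ∈ W
        rw [hJ.sq]
        exact W.smul_mem _ (Submodule.subset_span ⟨Sum.inl a, rfl⟩)) ⟨w, hw, rfl⟩
    have hYJ : ∀ y ∈ Y, J y ∈ Y := fun y hy w hw => by
      show BB w (J y) = 0
      rw [← neg_eq_zero, ← hJ.skew]
      exact hy _ (hWJ w hw)
    obtain ⟨v, hv, hv0⟩ : ∃ v ∈ Y, BB v (J v) ≠ 0 := by
      by_contra hc
      push_neg at hc
      obtain ⟨y, hy, hy0⟩ := (Submodule.ne_bot_iff Y).1 fun h => by rw [h, finrank_bot] at hYd; omega
      have hYn : Nd BB Y := by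
        have := (nd_split hA hWn (nd_top hB) le_top).1
        rwa [top_inf_eq] at this
      have hJy : J y = 0 := hYn _ (hYJ y hy) fun x hx => by
        have h := hc (x + y) (add_mem hx hy)
        simp only [map_add, LinearMap.add_apply, hc x hx, hc y hy, zero_add, add_zero, hJ.symm y x] at h
        rw [← LinearMap.IsAlt.neg hA, neg_eq_zero]
        exact (mul_eq_zero.1 (show (2 : F) * BB x (J y) = 0 by linear_combination h)).resolve_left h2
      have := hJ.sq y
      rw [hJy, map_zero] at this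
      exact hy0 ((smul_eq_zero.1 this.symm).resolve_left hε)
    set a := BB v (J v)
    obtain ⟨s, t, hst⟩ := FiniteField.exists_root_sum_quadratic
      (f := Polynomial.C a * Polynomial.X ^ 2 + Polynomial.C (-1)) (g := Polynomial.C (-(ε * a)) * Polynomial.X ^ 2)
      (by
        rw [Polynomial.degree_add_eq_left_of_degree_lt] <;> rw [Polynomial.degree_C_mul_X_pow 2 hv0]
        · norm_num
        · exact lt_of_le_of_lt Polynomial.degree_C_le (by norm_num))
      (by rw [Polynomial.degree_C_mul_X_pow 2 (neg_ne_zero.2 (mul_ne_zero hε hv0))]; norm_num)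
      (FiniteField.odd_card_of_char_ne_two fun h => h2 (by
        have : ((2 : ℕ) : F) = 0 := by
          haveI := ringChar.charP F
          rw [← h]; exact CharP.cast_eq_zero F (ringChar F)
        exact_mod_cast this))
    simp only [Polynomial.eval_add, Polynomial.eval_mul, Polynomial.eval_C, Polynomial.eval_pow, Polynomial.eval_X] at hst
    set w := s • v + t • J v
    have hw : w ∈ Y := add_mem (Y.smul_mem s hv) (Y.smul_mem t (hYJ v hv))
    have hww : BB w (J w) = 1 := by
      simp only [w, map_add, map_smul, hJ.sq, LinearMap.add_apply, LinearMap.smul_apply, smul_eq_mul, hA v, hA (J v)]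
      rw [← LinearMap.IsAlt.neg hA v (J v)]
      linear_combination hst
    have ho : ∀ x ∈ W, ∀ y ∈ Y, BB x y = 0 ∧ BB y x = 0 := fun x hx y hy => ⟨hy x hx, hA.isRefl _ _ (hy x hx)⟩
    have hm : ∀ x, u x ∈ W ∧ J (u x) ∈ W := fun x =>
      ⟨Submodule.subset_span ⟨Sum.inl x, rfl⟩, Submodule.subset_span ⟨Sum.inr x, rfl⟩⟩
    refine ⟨Fin.cons w u, ⟨fun x y => ?_, fun x y => ?_, fun x y => ?_⟩⟩
    · simp only [Sum.elim_inl, Sum.elim_inr]
      refine Fin.cases ?_ (fun x => ?_) x <;> refine Fin.cases ?_ (fun y => ?_) y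
      · simpa using hww
      · simp [(ho _ (hm y).2 w hw).2, (Fin.succ_ne_zero y).symm]
      · simp [(ho _ (hm x).1 _ (hYJ w hw)).1, Fin.succ_ne_zero x]
      · simpa using hu.lr x y
    · simp only [Sum.elim_inl]
      refine Fin.cases ?_ (fun x => ?_) x <;> refine Fin.cases ?_ (fun y => ?_) y
      · simp only [Fin.cons_zero]; exact hA w
      · simp only [Fin.cons_zero, Fin.cons_succ]; exact (ho _ (hm y).1 w hw).2
      · simp only [Fin.cons_zero, Fin.cons_succ]; exact (ho _ (hm x).1 w hw).1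
      · simpa using hu.ll x y
    · simp only [Sum.elim_inr]
      refine Fin.cases ?_ (fun x => ?_) x <;> refine Fin.cases ?_ (fun y => ?_) y
      · simp only [Fin.cons_zero]; exact hA (J w)
      · simp only [Fin.cons_zero, Fin.cons_succ]; exact (ho _ (hm y).2 _ (hYJ w hw)).2
      · simp only [Fin.cons_zero, Fin.cons_succ]; exact (ho _ (hm x).2 _ (hYJ w hw)).1
      · simpa using hu.rr x y

/-- The basis of a symplectic family of full size. -/
noncomputable def familyBasis {v : Fin d ⊕ Fin d → Vd} (hv : IsSympFamily BB v) : Basis (Fin d ⊕ Fin d) F Vd :=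
  basisOfLinearIndependentOfCardEqFinrank' v (hv.linearIndependent sympB_isAlt)
    (by rw [Module.finrank_pi])

theorem familyBasis_apply {v : Fin d ⊕ Fin d → Vd} (hv : IsSympFamily BB v) (s : Fin d ⊕ Fin d) :
    familyBasis hv s = v s := by simp [familyBasis]

theorem gram_eq {v w : Fin d ⊕ Fin d → Vd} (hv : IsSympFamily BB v) (hw : IsSympFamily BB w) :
    ∀ s s', BB (v s) (v s') = BB (w s) (w s') := by
  have hA : (BB).IsAlt := sympB_isAlt
  rintro (a | a) (b | b)
  · rw [hv.ll, hw.ll]
  · rw [hv.lr, hw.lr]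
  · rw [← LinearMap.IsAlt.neg hA, hv.lr, ← LinearMap.IsAlt.neg hA (w (Sum.inl b)), hw.lr]
  · rw [hv.rr, hw.rr]

/-- An element of the symplectic group from a bijective isometry. -/
theorem exists_gl (e : Vd ≃ₗ[F] Vd) (he : ∀ u v, BB (e u) (e v) = BB u v) :
    ∃ g ∈ Cfsg.spGL d F, ∀ v, (g : Mx) *ᵥ v = e v := by
  refine ⟨(glEquiv _ F).symm e, GeomClasses.mem_spGL_iff.2 fun u v => ?_, fun v => glEquiv_symm_mulVec e v⟩
  rw [glEquiv_symm_mulVec, glEquiv_symm_mulVec, he]

/-- Skew maps with the same scalar square are conjugate by an isometry. -/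
theorem exists_conj {J₁ J₂ : Module.End F Vd} {ε : F} (h₁ : Skew J₁ ε) (h₂ : Skew J₂ ε) (h2 : (2 : F) ≠ 0) (hε : ε ≠ 0) :
    ∃ g ∈ Cfsg.spGL d F, ∀ v, (g : Mx) *ᵥ (J₁ v) = J₂ ((g : Mx) *ᵥ v) := by
  obtain ⟨u, hu⟩ := exists_planes h₁ h2 hε
  obtain ⟨w, hw⟩ := exists_planes h₂ h2 hε
  let e : Vd ≃ₗ[F] Vd := (familyBasis hu).equiv (familyBasis hw) (Equiv.refl _)
  have he : ∀ s, e (familyBasis hu s) = familyBasis hw s := fun s => by simp [e]
  have heB : (BB).compl₁₂ e.toLinearMap e.toLinearMap = BB := by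
    refine (familyBasis hu).ext fun s => (familyBasis hu).ext fun s' => ?_
    rw [LinearMap.compl₁₂_apply, LinearEquiv.coe_coe, he, he, familyBasis_apply, familyBasis_apply, familyBasis_apply,
      familyBasis_apply]
    exact gram_eq hw hu s s'
  obtain ⟨g, hg, hge⟩ := exists_gl e fun x y => LinearMap.congr_fun (LinearMap.congr_fun heB x) y
  refine ⟨g, hg, fun v => ?_⟩
  rw [hge, hge]
  have : (e : Vd →ₗ[F] Vd) ∘ₗ J₁ = J₂ ∘ₗ (e : Vd →ₗ[F] Vd) := by
    refine (familyBasis hu).ext fun s => ?_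
    have hl : ∀ a, e (u a) = w a := fun a => by
      have := he (Sum.inl a); rwa [familyBasis_apply, familyBasis_apply] at this
    have hr' : ∀ a, e (J₁ (u a)) = J₂ (w a) := fun a => by
      have := he (Sum.inr a); rwa [familyBasis_apply, familyBasis_apply] at this
    rcases s with a | a
    · simp [familyBasis_apply, hl, hr']
    · simp [familyBasis_apply, hl, hr', h₁.sq, h₂.sq]
  exact LinearMap.congr_fun this v

/-- The field structure of an adjoint closed quadratic subfield that is not self adjoint. -/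
theorem exists_str (hd : 1 ≤ d) (htwo : (2 : F) ≠ 0) (K : Subalgebra F Mx) (hK : Cfsg.Geo.IsFieldSubalgebra 2 K)
    (hac : Cfsg.Geo.IsAdjointClosedFor (Cfsg.sympForm d F) K)
    (hnsa : ¬ Cfsg.Geo.IsSelfAdjointFor (Cfsg.sympForm d F) K) :
    ∃ (j : Mx) (δ : F), j ∈ K ∧ (∀ c : F, c * c ≠ δ) ∧ Skew (Matrix.toLin' j) δ ∧
      ∀ z ∈ K, ∃ a b : F, z = a • (1 : Mx) + b • j := by
  classical
  haveI : Nonempty (Fin d) := Fin.pos_iff_nonempty.mp (by omega)
  obtain ⟨k, hk, hkn⟩ : ∃ k ∈ K, k ∉ (⊥ : Subalgebra F Mx) := by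
    refine SetLike.not_le_iff_exists.mp fun hle => ?_
    have := hK.finrank_eq
    rw [le_bot_iff.mp hle, Subalgebra.finrank_bot] at this
    omega
  have hli : LinearIndependent F ![(1 : Mx), k] := by
    refine LinearIndependent.pair_iff.mpr fun s t h => ?_
    by_cases ht : t = 0
    · refine ⟨?_, ht⟩
      rw [ht, zero_smul, add_zero] at h
      exact (smul_eq_zero.mp h).resolve_right one_ne_zero
    · refine absurd ?_ hkn
      rw [Algebra.mem_bot]
      refine ⟨-(t⁻¹ * s), ?_⟩
      rw [Algebra.algebraMap_eq_smul_one, neg_smul, mul_smul, ← smul_neg, neg_eq_of_add_eq_zero_right h,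
        inv_smul_smul₀ ht]
  have hspan : ∀ x ∈ K, ∃ a b : F, x = a • (1 : Mx) + b • k := by
    intro x hx
    have hle : Submodule.span F (Set.range ![(1 : Mx), k]) ≤ Subalgebra.toSubmodule K := by
      rw [Submodule.span_le]
      rintro _ ⟨i, rfl⟩
      fin_cases i
      · exact K.one_mem
      · exact hk
    have heq := Submodule.eq_of_le_of_finrank_eq hle (by
      rw [finrank_span_eq_card hli, Fintype.card_fin]
      exact hK.finrank_eq.symm)
    have hx' : x ∈ Submodule.span F (Set.range ![(1 : Mx), k]) := heq ▸ hx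
    obtain ⟨c, hc⟩ := (Submodule.mem_span_range_iff_exists_fun F).mp hx'
    exact ⟨c 0, c 1, by rw [← hc, Fin.sum_univ_two]; rfl⟩
  obtain ⟨a, b, hab⟩ := hspan (k * k) (K.mul_mem hk hk)
  set j : Mx := (2 : F) • k - b • (1 : Mx) with hj
  set δ : F := 4 * a + b * b with hδ
  have hjK : j ∈ K := K.sub_mem (K.smul_mem hk 2) (K.smul_mem K.one_mem b)
  have hjj : j * j = δ • (1 : Mx) := by
    simp only [hj, hδ, mul_sub, sub_mul, smul_mul_assoc, mul_smul_comm, one_mul, mul_one, hab]
    module
  have hjn : ∀ c : F, j ≠ c • (1 : Mx) := by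
    intro c hc
    have := LinearIndependent.pair_iff.mp hli (-(b + c)) 2 (by
      rw [hj] at hc
      linear_combination (norm := module) hc)
    exact htwo this.2
  have nsq : ∀ c : F, c * c ≠ δ := by
    intro c hc
    obtain ⟨y, hy, hy1⟩ := hK.inv (j - c • (1 : Mx)) (K.sub_mem hjK (K.smul_mem K.one_mem c))
      (sub_ne_zero.mpr (hjn c))
    have h0 : (j + c • (1 : Mx)) * (j - c • (1 : Mx)) = 0 := by
      simp only [add_mul, mul_sub, smul_mul_assoc, mul_smul_comm, one_mul, mul_one, hjj, ← hc]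
      module
    have h1 := congrArg (· * y) h0
    simp only [mul_assoc, hy1, mul_one, zero_mul] at h1
    exact hjn (-c) (by rw [neg_smul]; exact eq_neg_of_add_eq_zero_left h1)
  obtain ⟨j', hj', hadj⟩ := hac j hjK
  obtain ⟨a', b', hj'e⟩ := hspan j' hj'
  have hkj : k = (2 : F)⁻¹ • j + ((2 : F)⁻¹ * b) • (1 : Mx) := by
    rw [hj, smul_sub, inv_smul_smul₀ htwo, smul_smul]; module
  obtain ⟨x, y, hxy⟩ : ∃ x y : F, j' = x • (1 : Mx) + y • j :=
    ⟨a' + b' * ((2 : F)⁻¹ * b), b' * (2 : F)⁻¹, by rw [hj'e, hkj]; module⟩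
  have hadjB : ∀ u v : Vd, BB (j *ᵥ u) v = BB u (j' *ᵥ v) := fun u v => by simpa using hadj u v
  have hA : (BB).IsAlt := sympB_isAlt
  have hB : (BB).Nondegenerate := sympB_nondegenerate
  have hprod : ∀ u v, BB u (j' *ᵥ (j' *ᵥ v)) = δ * BB u v := fun u v => by
    rw [← hadjB, ← hadjB, Matrix.mulVec_mulVec, hjj, Matrix.smul_mulVec, Matrix.one_mulVec, map_smul,
      LinearMap.smul_apply, smul_eq_mul]
  have hsq' : j' * j' = δ • (1 : Mx) := Matrix.toLin'.injective (LinearMap.ext fun v => by
    simp only [Matrix.toLin'_apply, ← Matrix.mulVec_mulVec, Matrix.smul_mulVec, Matrix.one_mulVec]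
    refine sub_eq_zero.1 (hB.2 _ fun u => ?_)
    rw [map_sub, hprod, map_smul, smul_eq_mul, sub_self])
  have hcoef : x * x + y * y * δ = δ ∧ x * y = 0 := by
    have h : (x * x + y * y * δ - δ) • (1 : Mx) + (2 * (x * y)) • j = 0 := by
      have e := hsq'
      rw [hxy] at e
      simp only [add_mul, mul_add, smul_mul_assoc, mul_smul_comm, one_mul, mul_one, hjj] at e
      linear_combination (norm := module) e
    have hxy0 : x * y = 0 := by
      by_contra hne
      refine hjn (-(x * x + y * y * δ - δ) / (2 * (x * y))) ?_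
      have hne2 : (2 : F) * (x * y) ≠ 0 := mul_ne_zero htwo hne
      rw [add_comm] at h
      rw [div_eq_inv_mul, mul_smul, neg_smul, ← eq_neg_of_add_eq_zero_left h, inv_smul_smul₀ hne2]
    refine ⟨sub_eq_zero.1 ?_, hxy0⟩
    rw [hxy0, mul_zero, zero_smul, add_zero] at h
    exact (smul_eq_zero.1 h).resolve_right one_ne_zero
  have hx : x = 0 := by
    rcases mul_eq_zero.1 hcoef.2 with h | h
    · exact h
    · exfalso
      rw [h] at hcoef
      exact nsq x (by linear_combination hcoef.1)
  have hy : y = -1 := by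
    have hδ0 : δ ≠ 0 := fun h => nsq 0 (by rw [h, zero_mul])
    rw [hx] at hcoef
    rcases mul_self_eq_one_iff.1 (mul_right_cancel₀ hδ0 (by linear_combination hcoef.1 : y * y * δ = 1 * δ)) with h | h
    · exfalso
      refine hnsa fun z hz u v => ?_
      obtain ⟨s, t, rfl⟩ := hspan z hz
      rw [← sympB_apply, ← sympB_apply]
      have hjs : ∀ u v : Vd, BB (j *ᵥ u) v = BB u (j *ᵥ v) := fun u v => by
        rw [hadjB, hxy, hx, h, zero_smul, zero_add, one_smul]
      simp only [hkj, Matrix.add_mulVec, Matrix.smul_mulVec, Matrix.one_mulVec, map_add, map_smul, LinearMap.add_apply,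
        LinearMap.smul_apply, smul_eq_mul, hjs]
    · exact h
  refine ⟨j, δ, hjK, nsq, ⟨fun v => by simp [Matrix.mulVec_mulVec, hjj, Matrix.smul_mulVec], fun u v => ?_⟩, fun z hz => ?_⟩
  · simp only [Matrix.toLin'_apply]
    rw [hadjB, hxy, hx, hy, zero_smul, zero_add, neg_smul, one_smul, Matrix.neg_mulVec, map_neg]
  · obtain ⟨s, t, rfl⟩ := hspan z hz
    exact ⟨s + t * ((2 : F)⁻¹ * b), t * (2 : F)⁻¹, by rw [hkj]; module⟩

variable {K : Subalgebra F (Matrix (Fin d ⊕ Fin d) (Fin d ⊕ Fin d) F)} {j : Matrix (Fin d ⊕ Fin d) (Fin d ⊕ Fin d) F} {δ : F}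

/-- The semilinear maps normalise the field. -/
theorem mem_normalizer (hj : j ∈ K) (hspan : ∀ k ∈ K, ∃ a b : F, k = a • (1 : Mx) + b • j)
    {g : GL (Fin d ⊕ Fin d) F} {β : F} (hβ : β = 1 ∨ β = -1) (hg : (g : Mx) * j = β • (j * (g : Mx))) :
    g ∈ Cfsg.Geo.subalgebraNormalizer K := by
  have hb2 : β * β = 1 := by rcases hβ with rfl | rfl <;> norm_num
  have hconj : ∀ a b : F, (g : Mx) * (a • (1 : Mx) + b • j) * ((g⁻¹ : GL (Fin d ⊕ Fin d) F) : Mx) =
      a • (1 : Mx) + (b * β) • j := fun a b => by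
    simp only [mul_add, add_mul, mul_smul_comm, smul_mul_assoc, mul_one, hg, mul_assoc, ← Units.val_mul,
      mul_inv_cancel, Units.val_one, smul_smul]
  intro k
  constructor
  · intro hk
    obtain ⟨a, b, rfl⟩ := hspan k hk
    rw [hconj]
    exact K.add_mem (K.smul_mem K.one_mem a) (K.smul_mem hj _)
  · intro hk
    obtain ⟨a, b, hab⟩ := hspan _ hk
    have : k = a • (1 : Mx) + (b * β) • j := by
      have h1 := hconj a (b * β)
      rw [mul_assoc b, hb2, mul_one, ← hab] at h1
      have h2 := congrArg (fun A : Mx => ((g⁻¹ : GL (Fin d ⊕ Fin d) F) : Mx) * A * (g : Mx)) h1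
      simp only [← mul_assoc, ← Units.val_mul, inv_mul_cancel, Units.val_one, one_mul] at h2
      simp only [mul_assoc, ← Units.val_mul, inv_mul_cancel, Units.val_one, mul_one] at h2
      exact h2.symm
    rw [this]
    exact K.add_mem (K.smul_mem K.one_mem a) (K.smul_mem hj _)

/-- Normalising elements of odd order up to a scalar commute with the field. -/
theorem commute_of_mem (hd : 1 ≤ d) (h2 : (2 : F) ≠ 0) (hnsq : ∀ c : F, c * c ≠ δ) (hJ : Skew (Matrix.toLin' j) δ) (hj : j ∈ K)
    (hspan : ∀ k ∈ K, ∃ a b : F, k = a • (1 : Mx) + b • j) {g : GL (Fin d ⊕ Fin d) F}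
    (hg : g ∈ Cfsg.Geo.subalgebraNormalizer K) {r : ℕ} (hr : Odd r) {z : F}
    (hgr : ((g ^ r : GL (Fin d ⊕ Fin d) F) : Mx) = z • (1 : Mx)) : (g : Mx) * j = j * (g : Mx) := by
  have hjj : j * j = δ • (1 : Mx) := Matrix.toLin'.injective (LinearMap.ext fun v => by
    have := hJ.sq v
    simpa [← Matrix.mulVec_mulVec, Matrix.smul_mulVec] using this)
  obtain ⟨a, b, hab⟩ := hspan _ ((hg j).mp hj)
  have hgj : (g : Mx) * j = (a • (1 : Mx) + b • j) * (g : Mx) := by
    rw [← hab, mul_assoc, ← Units.val_mul, inv_mul_cancel, Units.val_one, mul_one]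
  have hδ0 : δ ≠ 0 := fun h => hnsq 0 (by rw [h, zero_mul])
  haveI : Nonempty (Fin d ⊕ Fin d) := ⟨Sum.inl ⟨0, hd⟩⟩
  have hindep : ∀ s t : F, s • (1 : Mx) + t • j = 0 → s = 0 ∧ t = 0 := fun s t h => by
    by_cases ht : t = 0
    · rw [ht, zero_smul, add_zero] at h
      exact ⟨(smul_eq_zero.1 h).resolve_right one_ne_zero, ht⟩
    · exfalso
      have hjs : j = (-(t⁻¹ * s)) • (1 : Mx) := by
        rw [neg_smul, mul_smul, ← smul_neg, neg_eq_of_add_eq_zero_right h, inv_smul_smul₀ ht]
      rw [hjs] at hjj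
      simp only [smul_mul_assoc, one_mul, smul_smul] at hjj
      exact hnsq _ (smul_left_injective F (one_ne_zero (α := Mx)) hjj)
  have hone : ∀ s t : F, (s • (1 : Mx) + t • j) * (g : Mx) = 0 → s = 0 ∧ t = 0 := fun s t h => hindep s t (by
    have h' := congrArg (· * ((g⁻¹ : GL (Fin d ⊕ Fin d) F) : Mx)) h
    simpa only [mul_assoc, ← Units.val_mul, mul_inv_cancel, Units.val_one, mul_one, zero_mul] using h')
  have hb : a = 0 ∧ b * b = 1 := by
    have h : (g : Mx) * (j * j) = (a • (1 : Mx) + b • j) * ((a • (1 : Mx) + b • j) * (g : Mx)) := by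
      rw [← mul_assoc, hgj, mul_assoc, hgj]
    have h' : ((a * a + b * b * δ - δ) • (1 : Mx) + (2 * a * b) • j) * (g : Mx) = 0 := by
      simp only [hjj, mul_smul_comm, mul_one, ← mul_assoc, add_mul, mul_add, smul_mul_assoc, one_mul] at h
      simp only [add_mul, smul_mul_assoc, one_mul]
      linear_combination (norm := module) -(1 : F) • h
    obtain ⟨e1, e2⟩ := hone _ _ h'
    have hb0 : b ≠ 0 := fun hb0 => hnsq a (by rw [hb0] at e1; linear_combination e1)
    have ha : a = 0 := by
      simpa [h2, hb0] using e2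
    exact ⟨ha, mul_right_cancel₀ hδ0 (by rw [ha] at e1; linear_combination e1)⟩
  rw [hb.1, zero_smul, zero_add, smul_mul_assoc] at hgj
  have hpow : ∀ k : ℕ, ((g ^ k : GL (Fin d ⊕ Fin d) F) : Mx) * j = b ^ k • (j * ((g ^ k : GL (Fin d ⊕ Fin d) F) : Mx)) := by
    intro k
    induction k with
    | zero => simp
    | succ k ih =>
      rw [pow_succ', Units.val_mul, mul_assoc, ih, mul_smul_comm, ← mul_assoc, hgj, smul_mul_assoc, smul_smul, pow_succ,
        mul_assoc]
  have h := hpow r
  obtain ⟨k, rfl⟩ := hr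
  rw [hgr, pow_succ, pow_mul, pow_two, hb.2, one_pow, one_mul] at h
  simp only [smul_mul_assoc, one_mul, mul_smul_comm, mul_one, smul_smul] at h
  have hz : z ≠ 0 := fun hz => by
    have := (g ^ (2 * k + 1)).ne_zero
    rw [hgr, hz, zero_smul] at this
    exact this rfl
  obtain ⟨-, e⟩ := hindep 0 (z - b * z) (by rw [zero_smul, zero_add, sub_smul, ← h, sub_self])
  have hb1 : b = 1 := by
    have := (mul_eq_zero.1 (show (1 - b) * z = 0 by linear_combination e)).resolve_right hz
    linear_combination -this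
  rw [hgj, hb1, one_smul]

/-- The order of the centraliser of a field structure. -/
theorem dvd_card_normalizer {q : ℕ} (hq : Fintype.card F = q) (h2 : (2 : F) ≠ 0) (hnsq : ∀ c : F, c * c ≠ δ)
    (hJ : Skew (Matrix.toLin' j) δ) (hj : j ∈ K) (hspan : ∀ k ∈ K, ∃ a b : F, k = a • (1 : Mx) + b • j) :
    q ^ (d * (d - 1) / 2) * ∏ i ∈ Finset.range d, (if Even i then q ^ (i + 1) + 1 else q ^ (i + 1) - 1) ∣
      Nat.card ↥(Cfsg.Geo.subalgebraNormalizer K ⊓ Cfsg.spGL d F) := by
  classical
  set P : Polynomial F := Polynomial.X ^ 2 - Polynomial.C δ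
  have hPd : P.natDegree = 2 := Polynomial.natDegree_X_pow_sub_C
  have hPi : Irreducible P := (Polynomial.irreducible_iff_roots_eq_zero_of_degree_le_three (by omega) (by omega)).2
    (Multiset.eq_zero_iff_forall_notMem.2 fun a ha => hnsq a (by
      have := (Polynomial.mem_roots'.1 ha).2
      simp [P, sub_eq_zero] at this
      linear_combination this))
  haveI := Fact.mk hPi
  let F' := AdjoinRoot P
  haveI : Module.Finite F F' := (AdjoinRoot.powerBasis hPi.ne_zero).finite
  haveI : Finite F' := Module.finite_of_finite F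
  letI : Fintype F' := Fintype.ofFinite F'
  have hF' : Fintype.card F' = q ^ 2 := by
    rw [← hq, ← Nat.card_eq_fintype_card, ← Nat.card_eq_fintype_card, Module.natCard_eq_pow_finrank (K := F) (V := F'),
      (AdjoinRoot.powerBasis hPi.ne_zero).finrank, AdjoinRoot.powerBasis_dim, hPd]
  set ρ : F' := AdjoinRoot.root P
  have hρ2 : ρ * ρ = algebraMap F F' δ := by
    have := AdjoinRoot.eval₂_root P
    simp only [P, Polynomial.eval₂_sub, Polynomial.eval₂_pow, Polynomial.eval₂_X, Polynomial.eval₂_C, sub_eq_zero] at this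
    rw [← pow_two]; exact this
  let pb : Basis (Fin 2) F F' := ((AdjoinRoot.powerBasis hPi.ne_zero).basis).reindex
    (finCongr (by rw [AdjoinRoot.powerBasis_dim, hPd]))
  have hpb : pb 0 = 1 ∧ pb 1 = ρ := by
    constructor <;> simp [pb, ρ, PowerBasis.coe_basis, AdjoinRoot.powerBasis_gen]
  have hdec : ∀ x : F', x = pb.repr x 0 • (1 : F') + pb.repr x 1 • ρ := fun x => by
    conv_lhs => rw [← pb.sum_repr x, Fin.sum_univ_two, hpb.1, hpb.2]
  have hco : ∀ a b : F, pb.repr (a • (1 : F') + b • ρ) 0 = a ∧ pb.repr (a • (1 : F') + b • ρ) 1 = b := fun a b => by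
    rw [← hpb.1, ← hpb.2]; simp [Finsupp.single_apply]
  have hδ0 : δ ≠ 0 := fun h => hnsq 0 (by rw [h, zero_mul])
  have hq2 : q % 2 = 1 := by
    rw [← hq]; exact FiniteField.odd_card_of_char_ne_two fun h => h2 (by
      have : ((2 : ℕ) : F) = 0 := by
        haveI := ringChar.charP F
        rw [← h]; exact CharP.cast_eq_zero F (ringChar F)
      exact_mod_cast this)
  have hρq : ρ ^ q = -ρ := by
    have hrc : ringChar F ≠ 2 := fun h => h2 (by
      have : ((2 : ℕ) : F) = 0 := by
        haveI := ringChar.charP F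
        rw [← h]; exact CharP.cast_eq_zero F (ringChar F)
      exact_mod_cast this)
    have h1 : δ ^ (q / 2) = -1 := by
      rcases FiniteField.pow_dichotomy hrc hδ0 with h | h
      · exact absurd ((FiniteField.isSquare_iff hrc hδ0).2 h) (fun ⟨c, hc⟩ => hnsq c hc.symm)
      · rw [← hq]; exact h
    rw [show q = 2 * (q / 2) + 1 by omega, pow_succ, pow_mul, pow_two, hρ2, ← map_pow, h1, map_neg, map_one, neg_one_mul]
  let σ := frobQ hF'
  have hσ : ∀ a b : F, σ (a • (1 : F') + b • ρ) = a • (1 : F') + (-b) • ρ := fun a b => by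
    have hfix : ∀ c : F, (algebraMap F F' c) ^ q = algebraMap F F' c := fun c => by
      rw [← map_pow, ← hq, FiniteField.pow_card]
    simp only [Algebra.smul_def]
    rw [map_add, map_mul, map_mul, map_one,
      frobQ_apply, frobQ_apply, frobQ_apply, hfix, hfix, hρq, map_neg]
    ring
  have him : ∀ x y : F', pb.repr (σ x * y) 1 = pb.repr x 0 * pb.repr y 1 - pb.repr x 1 * pb.repr y 0 := fun x y => by
    conv_lhs => rw [hdec x, hdec y, hσ]
    have e : ((pb.repr x 0) • (1 : F') + (-pb.repr x 1) • ρ) * ((pb.repr y 0) • (1 : F') + (pb.repr y 1) • ρ) =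
        (pb.repr x 0 * pb.repr y 0 - pb.repr x 1 * pb.repr y 1 * δ) • (1 : F') +
          (pb.repr x 0 * pb.repr y 1 - pb.repr x 1 * pb.repr y 0) • ρ := by
      simp only [Algebra.smul_def, map_sub, map_mul, map_neg]
      linear_combination (-(algebraMap F F' (pb.repr x 1)) * algebraMap F F' (pb.repr y 1)) * hρ2
    rw [e]
    exact (hco _ _).2
  obtain ⟨u, hu⟩ := exists_planes hJ h2 hδ0
  let Φ : (Fin d → F') ≃ₗ[F] Vd :=
    { toFun := fun x => ∑ k, (pb.repr (x k) 0 • u k + pb.repr (x k) 1 • Matrix.toLin' j (u k))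
      map_add' := fun x y => by simp [add_smul, Finset.sum_add_distrib]; abel
      map_smul' := fun c x => by simp [mul_smul, Finset.smul_sum, smul_add]
      invFun := fun v k => (familyBasis hu).repr v (Sum.inl k) • (1 : F') + (familyBasis hu).repr v (Sum.inr k) • ρ
      left_inv := fun x => funext fun k => by
        have e : (∑ k, (pb.repr (x k) 0 • u k + pb.repr (x k) 1 • Matrix.toLin' j (u k))) =
            ∑ s, (Sum.elim (fun k => pb.repr (x k) 0) (fun k => pb.repr (x k) 1) : Fin d ⊕ Fin d → F) s • familyBasis hu s := by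
          simp [Fintype.sum_sum_type, familyBasis_apply, Finset.sum_add_distrib]
        simp only [e, Basis.repr_sum_self, Sum.elim_inl, Sum.elim_inr]
        exact (hdec (x k)).symm
      right_inv := fun v => by
        simp only [(hco _ _).1, (hco _ _).2]
        conv_rhs => rw [← (familyBasis hu).sum_repr v]
        simp [Fintype.sum_sum_type, familyBasis_apply, Finset.sum_add_distrib] }
  have hΦ : ∀ x, Φ x = ∑ k, (pb.repr (x k) 0 • u k + pb.repr (x k) 1 • Matrix.toLin' j (u k)) := fun x => rfl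
  have hΦρ : ∀ x, Φ (ρ • x) = Matrix.toLin' j (Φ x) := fun x => by
    rw [hΦ, hΦ, map_sum]
    refine Finset.sum_congr rfl fun k _ => ?_
    have e : ρ * x k = (pb.repr (x k) 1 * δ) • (1 : F') + pb.repr (x k) 0 • ρ := by
      conv_lhs => rw [hdec (x k)]
      simp only [Algebra.smul_def, map_mul]
      linear_combination (algebraMap F F' (pb.repr (x k) 1)) * hρ2
    rw [Pi.smul_apply, smul_eq_mul, e, (hco _ _).1, (hco _ _).2, map_add, map_smul, map_smul, hJ.sq, smul_smul, add_comm]
  have hΦB : ∀ x y, BB (Φ x) (Φ y) = pb.repr (Cfsg.hermForm d F' q y x) 1 := fun x y => by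
    have e1 : ∀ a b, BB (u a) (u b) = 0 := fun a b => hu.ll a b
    have e2 : ∀ a b, BB (Matrix.toLin' j (u a)) (Matrix.toLin' j (u b)) = 0 := fun a b => hu.rr a b
    have e3 : ∀ a b, BB (u a) (Matrix.toLin' j (u b)) = if a = b then (1 : F) else 0 := fun a b => hu.lr a b
    have e4 : ∀ a b, BB (Matrix.toLin' j (u a)) (u b) = -(if b = a then (1 : F) else 0) := fun a b => by
      rw [← LinearMap.IsAlt.neg (sympB_isAlt (F := F) (m := d)), e3]
    rw [hΦ, hΦ, Cfsg.hermForm, map_sum (pb.repr), Finsupp.finsetSum_apply]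
    simp only [map_sum, map_add, map_smul, LinearMap.add_apply, LinearMap.sum_apply, LinearMap.smul_apply, e1, e2, e3,
      e4, smul_eq_mul, mul_zero, add_zero, zero_add, mul_ite, mul_one, mul_neg, Finset.sum_add_distrib,
      Finset.sum_ite_eq, Finset.sum_ite_eq', Finset.mem_univ, if_true, Finset.sum_neg_distrib]
    simp only [Finset.sum_const_zero, zero_add, add_zero, ← Finset.sum_add_distrib]
    refine Finset.sum_congr rfl fun k _ => ?_
    rw [show y k * x k ^ q = σ (x k) * y k by rw [frobQ_apply, mul_comm], him]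
    ring
  let ψ : Cfsg.GU d F' q →* GL (Fin d ⊕ Fin d) F :=
    { toFun := fun g => (glEquiv _ F).symm ((Φ.symm.trans
        (((glEquiv (Fin d) F' (g : GL (Fin d) F'))).restrictScalars F)).trans Φ)
      map_one' := by
        rw [← (glEquiv _ F).symm.map_one]
        congr 1
        refine LinearEquiv.ext fun v => ?_
        simp
      map_mul' := fun g g' => by
        rw [← map_mul]
        congr 1
        refine LinearEquiv.ext fun v => ?_
        simp [LinearEquiv.mul_apply] }
  have hψ : ∀ (g : Cfsg.GU d F' q) v, (ψ g : Mx) *ᵥ v = Φ (((g : GL (Fin d) F') : Matrix (Fin d) (Fin d) F') *ᵥ Φ.symm v) :=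
    fun g v => by
      show (((glEquiv _ F).symm _ : GL (Fin d ⊕ Fin d) F) : Mx) *ᵥ v = _
      rw [glEquiv_symm_mulVec]
      rfl
  have hmem : ∀ g, ψ g ∈ Cfsg.Geo.subalgebraNormalizer K ⊓ Cfsg.spGL d F := fun g => by
    refine ⟨mem_normalizer hj hspan (Or.inl rfl) ?_, GeomClasses.mem_spGL_iff.2 fun x y => ?_⟩
    · rw [one_smul]
      refine Matrix.toLin'.injective (LinearMap.ext fun v => ?_)
      simp only [Matrix.toLin'_apply, ← Matrix.mulVec_mulVec]
      rw [hψ, hψ]
      have e : Φ.symm (j *ᵥ v) = ρ • Φ.symm v := Φ.injective (by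
        rw [Φ.apply_symm_apply, hΦρ, Φ.apply_symm_apply, Matrix.toLin'_apply])
      rw [e, Matrix.mulVec_smul, hΦρ, Matrix.toLin'_apply]
    · rw [hψ, hψ, hΦB]
      conv_rhs => rw [← Φ.apply_symm_apply x, ← Φ.apply_symm_apply y, hΦB]
      congr 2
      exact g.2 _ _
  have hinj : Function.Injective ψ := fun g g' h => Subtype.ext (Units.ext (Matrix.toLin'.injective (LinearMap.ext fun v => by
    have := congrArg (fun G : GL (Fin d ⊕ Fin d) F => (G : Mx) *ᵥ Φ v) h
    simp only [hψ, Φ.symm_apply_apply] at this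
    exact Φ.injective this)))
  rw [← card_GU hF' d, Nat.card_congr (MonoidHom.ofInjective hinj).toEquiv]
  exact Subgroup.card_dvd_of_le (by rintro _ ⟨g, rfl⟩; exact hmem g)

end Cfsg.Agent.GeomClasses.SympQuadExt
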