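import Cfsg.Agent.GeomClasses.TensorFrame
import Cfsg.Agent.GeomClasses.FrameRefine
import Cfsg.Agent.GeomClasses.SympMax

/-!
Tensor products with a three-dimensional orthogonal factor over three elements.
-/

set_option autoImplicit false

namespace Cfsg.Agent.GeomClasses.TensorFrameThree

open Matrix Cfsg.Agent.GeomClasses.TensorFrame

variable {F : Type*} [Field F] [Fintype F]

theorem exists_frame (hF : Fintype.card F = 3) (g : (Fin 3 → F) → (Fin 3 → F) → F)
    (hg : Cfsg.Geo.IsSymmetricForm g) :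
    ∃ (d : F) (w : Fin 3 → Fin 3 → F), d ≠ 0 ∧ (∀ l l', l ≠ l' → g (w l) (w l') = 0) ∧
      (∀ l, g (w l) (w l) = d) ∧
      ∀ A : GL (Fin 3) F, (∃ t : F, t ≠ 0 ∧ ∀ x y, g ((A : Matrix (Fin 3) (Fin 3) F) *ᵥ x)
        ((A : Matrix (Fin 3) (Fin 3) F) *ᵥ y) = t * g x y) →
        ∀ l, ∃ j, ∃ μ : F, (A : Matrix (Fin 3) (Fin 3) F) *ᵥ w l = μ • w j := by
  classical
  have h3 := FrameRefine.three_eq_zero hF
  have h2 : (2 : F) ≠ 0 := fun e => one_ne_zero (α := F) (by linear_combination h3 - e)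
  let B : LinearMap.BilinForm F (Fin 3 → F) := LinearMap.mk₂ F g hg.bilinear.add_left
    (fun c m n => by rw [hg.bilinear.smul_left, smul_eq_mul]) hg.bilinear.add_right
    (fun c m n => by rw [hg.bilinear.smul_right, smul_eq_mul])
  have hB : ∀ x y, B x y = g x y := fun _ _ => rfl
  clear_value B
  have hS : B.IsSymm := ⟨fun x y => by rw [hB, hB]; exact hg.symm x y⟩
  have key : ∀ x : Fin 3 → F, (∀ y, B x y = 0) → x = 0 := by
    intro x hx
    by_contra h0
    obtain ⟨-, v, hv⟩ := hg.nondegenerate x h0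
    exact hv (hB x v ▸ hx v)
  have hnd : B.Nondegenerate := ⟨key, fun y hy => key y fun x => (hS.eq x y ▸ hy x : B y x = 0)⟩
  obtain ⟨b, hb0, hb1, hb2⟩ := Cfsg.Agent.Forms.exists_orth_family h2 2 hS hnd
    (by rw [Module.finrank_fin_fun])
  obtain ⟨d, w, hd, hw0, hw1⟩ : ∃ (d : F) (w : Fin 3 → Fin 3 → F), d ≠ 0 ∧
      (∀ l l', l ≠ l' → B (w l) (w l') = 0) ∧ ∀ l, B (w l) (w l) = d := by
    have e0 : B (b 0) (b 0) = 1 := hb1 _ (by decide)
    have e1 : B (b 1) (b 1) = 1 := hb1 _ (by decide)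
    rcases FrameRefine.three_cases hF (B (b (Fin.last 2)) (b (Fin.last 2))) with h | h | h
    · exact absurd h hb2
    · refine ⟨1, b, one_ne_zero, hb0, fun l => ?_⟩
      by_cases hl : l = Fin.last 2
      · rw [hl, h]
      · exact hb1 l hl
    · refine ⟨-1, ![b 0 + b 1, b 0 - b 1, b (Fin.last 2)], neg_ne_zero.2 one_ne_zero, ?_, ?_⟩
      · intro l l' hll
        fin_cases l <;> fin_cases l' <;>
          first
            | exact absurd rfl hll
            | simp [hb0 0 1 (by decide), hb0 1 0 (by decide), hb0 0 (Fin.last 2) (by decide),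
            hb0 1 (Fin.last 2) (by decide), hb0 (Fin.last 2) 0 (by decide), hb0 (Fin.last 2) 1 (by decide), hb0 0 2 (by decide),
              hb0 1 2 (by decide), hb0 2 0 (by decide), hb0 2 1 (by decide), e0, e1]
      · intro l
        fin_cases l
        · simp [hb0 0 1 (by decide), hb0 1 0 (by decide), e0, e1]; linear_combination h3
        · simp [hb0 0 1 (by decide), hb0 1 0 (by decide), e0, e1]; linear_combination h3
        · simpa using h
  refine ⟨d, w, hd, fun l l' h => (hB _ _).symm.trans (hw0 l l' h),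
    fun l => (hB _ _).symm.trans (hw1 l), fun A ⟨t, ht, hA⟩ l => ?_⟩
  have hli : LinearIndependent F w :=
    LinearMap.BilinForm.linearIndependent_of_iIsOrtho (B := B)
      (LinearMap.BilinForm.iIsOrtho_def.2 hw0) fun l => by rw [hw1]; exact hd
  let bw := basisOfLinearIndependentOfCardEqFinrank hli (by simp)
  have hexp : ∀ x, ∑ j, bw.repr x j • w j = x := by
    intro x
    conv_rhs => rw [← bw.sum_repr x]
    simp [bw, coe_basisOfLinearIndependentOfCardEqFinrank]
  let M : Matrix (Fin 3) (Fin 3) F := fun i j => bw.repr ((A : Matrix (Fin 3) (Fin 3) F) *ᵥ w i) j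
  have hMM : M * Mᵀ = t • 1 := by
    ext i i'
    have h := hA (w i) (w i')
    rw [← hB, ← hB (w i), ← hexp ((A : Matrix (Fin 3) (Fin 3) F) *ᵥ w i),
      ← hexp ((A : Matrix (Fin 3) (Fin 3) F) *ᵥ w i')] at h
    simp only [map_sum, map_smul, LinearMap.sum_apply, LinearMap.smul_apply, smul_eq_mul] at h
    rw [Finset.sum_congr rfl (g := fun j => M i j * M i' j * d) (fun j _ => by
      rw [Finset.sum_eq_single j (fun j' _ h' => by rw [hw0 _ _ h']; simp)
        (fun h' => absurd (Finset.mem_univ j) h'), hw1]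
      simp only [M]; ring), ← Finset.sum_mul] at h
    rw [Matrix.mul_apply]
    simp only [Matrix.transpose_apply, Matrix.smul_apply, Matrix.one_apply, smul_eq_mul]
    by_cases hii : i = i'
    · subst hii
      rw [hw1] at h
      rw [if_pos rfl, mul_one]
      exact mul_right_cancel₀ hd h
    · rw [hw0 _ _ hii, mul_zero] at h
      rw [if_neg hii, mul_zero]
      exact (mul_eq_zero.1 h).resolve_right hd
  have ht1 : t = 1 := by
    have h := congrArg Matrix.det hMM
    rw [Matrix.det_mul, Matrix.det_transpose, Matrix.det_smul, Matrix.det_one, Fintype.card_fin, mul_one] at h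
    rcases FrameRefine.three_cases hF t with e | e | e
    · exact absurd e ht
    · exact e
    · exfalso
      rw [e] at h
      rcases FrameRefine.three_cases hF M.det with e' | e' | e' <;> rw [e'] at h
      · exact one_ne_zero (α := F) (by linear_combination h)
      · exact h2 (by linear_combination h)
      · exact h2 (by linear_combination h)
  have hsum : ∑ j, M l j * M l j = 1 := by
    have h := congrFun (congrFun hMM l) l
    rw [Matrix.mul_apply, Matrix.smul_apply, Matrix.one_apply_eq, ht1, smul_eq_mul, mul_one] at h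
    simpa [Matrix.transpose_apply] using h
  obtain ⟨j, -, hzero⟩ := FrameRefine.sq_sum_eq_one hF (Or.inr rfl) _ hsum
  refine ⟨j, M l j, ?_⟩
  conv_lhs => rw [← hexp ((A : Matrix (Fin 3) (Fin 3) F) *ᵥ w l)]
  exact Finset.sum_eq_single j (fun j' _ h' => by
    rw [show bw.repr ((A : Matrix (Fin 3) (Fin 3) F) *ᵥ w l) j' = 0 from hzero j' h', zero_smul])
    (fun h' => absurd (Finset.mem_univ j) h')

omit [Fintype F] in
theorem notMem_other {ι : Type} [Fintype ι] [DecidableEq ι] {k p : ℕ} {D : Fin p → Submodule F (ι → F)}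
    (hD : Cfsg.Geo.IsMDecomposition k D) {i j : Fin p} (hij : i ≠ j) {x : ι → F} (hx : x ∈ D i)
    (hx0 : x ≠ 0) : x ∉ D j := fun h =>
  hx0 (Submodule.disjoint_def.1 (hD.indep.pairwiseDisjoint hij) x hx h)

theorem exists_between_symp (hF : Fintype.card F = 3) {m n₁ : ℕ} (hn : 0 < n₁)
    (e : (Fin m ⊕ Fin m) ≃ Fin n₁ × Fin 3) (P : GL (Fin m ⊕ Fin m) F)
    (f₁ : (Fin n₁ → F) → (Fin n₁ → F) → F) (f₂ : (Fin 3 → F) → (Fin 3 → F) → F)
    (hf₁ : Cfsg.Geo.IsSymplecticForm f₁) (hf₂ : Cfsg.Geo.IsSymmetricForm f₂)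
    (hT : Cfsg.Geo.IsTensorFormStructure id (Cfsg.sympForm m F) f₁ f₂ e P) :
    ∃ K : Subgroup (GL (Fin m ⊕ Fin m) F),
      Cfsg.Geo.tensorProductSubgroup n₁ 3 e P ⊓ Cfsg.spGL m F < K ∧ K < Cfsg.spGL m F := by
  classical
  obtain ⟨d, w, hd, hw0, hw1, hcl⟩ := exists_frame hF f₂ hf₂
  obtain ⟨c, hc, hform⟩ := hT
  let τ : (Fin 3 → F) →ₗ[F] (Fin n₁ → F) →ₗ[F] (Fin m ⊕ Fin m → F) :=
    LinearMap.mk₂ F (fun x u => coord e P (tens u x))
      (fun a b u => by rw [← map_add]; congr 1; ext p; simp [tens, mul_add])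
      (fun s a u => by rw [← map_smul]; congr 1; ext p; simp [tens, mul_left_comm])
      (fun a u v => by rw [← map_add]; congr 1; ext p; simp [tens, add_mul])
      (fun s a u => by rw [← map_smul]; congr 1; ext p; simp [tens, mul_assoc])
  let B : (Fin m ⊕ Fin m → F) → (Fin m ⊕ Fin m → F) → F := fun x y => Cfsg.Agent.Forms.sympB m F x y
  have hBτ : ∀ x y u v, B (τ x u) (τ y v) = c * (f₂ x y * f₁ u v) := by
    intro x y u v
    show Cfsg.Agent.Forms.sympB m F _ _ = _
    rw [Cfsg.Agent.Forms.sympB_apply]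
    show Cfsg.sympForm m F ((P : Matrix _ _ F) *ᵥ (tens u x ∘ e)) ((P : Matrix _ _ F) *ᵥ (tens v y ∘ e)) = _
    rw [hform, formOfGram_tens (fun a b => rfl),
      ← eq_formOfGram (σ := id) f₁ hf₁.bilinear.add_left hf₁.bilinear.smul_left hf₁.bilinear.add_right
        (fun s v x => hf₁.bilinear.smul_right s v x),
      ← eq_formOfGram (σ := id) f₂ hf₂.bilinear.add_left hf₂.bilinear.smul_left hf₂.bilinear.add_right
        (fun s v x => hf₂.bilinear.smul_right s v x)]
    ring
  have D : Data B (Cfsg.Geo.tensorProductSubgroup n₁ 3 e P) τ f₂ f₁ w :=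
    { add_left := fun x y v => LinearMap.congr_fun ((Cfsg.Agent.Forms.sympB m F).map_add x y) v
      smul_left := fun s x v => LinearMap.congr_fun ((Cfsg.Agent.Forms.sympB m F).map_smul s x) v
      g_add := hf₂.bilinear.add_left
      g_smul := hf₂.bilinear.smul_left
      h_add := hf₁.bilinear.add_left
      h_smul := hf₁.bilinear.smul_left
      h_nondeg := fun u hu => (hf₁.nondegenerate u hu).2
      form := ⟨c, hc, hBτ⟩
      frame_orth := hw0
      frame_ne := fun l => by rw [hw1]; exact hd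
      top := fun v => by
        obtain ⟨z, rfl⟩ := coord_surjective e P v
        rw [tens_span z, map_sum]
        refine Submodule.sum_mem _ fun i _ => ?_
        rw [map_sum]
        refine Submodule.sum_mem _ fun j _ => ?_
        rw [map_smul]
        exact Submodule.smul_mem _ _ (Submodule.subset_span ⟨Pi.single j 1, Pi.single i 1, rfl⟩)
      act := fun G hG => by
        obtain ⟨A, C, h⟩ := mem_tensor_iff_action hG
        exact ⟨C, A, fun x u => h u x⟩
      classify := hcl }
  have hdec := D.isMDecomposition (by norm_num) hn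
  haveI : Nonempty (Fin n₁) := ⟨⟨0, hn⟩⟩
  obtain ⟨u, hu⟩ := exists_ne (0 : Fin n₁ → F)
  obtain ⟨-, v', hv'⟩ := hf₁.nondegenerate u hu
  set v := (f₁ u v')⁻¹ • v' with hvdef
  have huv : f₁ u v = 1 := by rw [hvdef, hf₁.bilinear.smul_right, inv_mul_cancel₀ hv']
  have hvu : f₁ v u = -1 := by rw [hf₁.skew, huv]
  have hmem : ∀ l z, τ (w l) z ∈ blocks τ w l := fun l z => ⟨z, rfl⟩
  refine D.exists_between (by norm_num) hn (fun G hG x y => mem_spGL_iff.1 hG x y) ?_ ?_
  · refine ⟨spT (τ (w 0) u) 1, spT_mem _ _, mem_decomp_of_forall hdec fun l => ⟨l, ?_⟩,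
      D.notMem (l₀ := 0) (l₁ := 1) (fun z => ?_) (u := v) (v := v) (hf₁.alternating v) ?_⟩
    · rintro _ ⟨z, rfl⟩
      rw [spT_mulVec]
      by_cases hl : l = 0
      · subst hl; exact add_mem (hmem 0 z) (Submodule.smul_mem _ _ (hmem 0 u))
      · rw [show Cfsg.Agent.Forms.sympB m F (τ (w l) z) (τ (w 0) u) = c * (f₂ (w l) (w 0) * f₁ z u) from
          hBτ _ _ _ _, hw0 l 0 hl, zero_mul, mul_zero, mul_zero, zero_smul, add_zero]
        exact hmem l z
    · rw [spT_mulVec, show Cfsg.Agent.Forms.sympB m F (τ (w 1) z) (τ (w 0) u) = c * (f₂ (w 1) (w 0) * f₁ z u) from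
          hBτ _ _ _ _, hw0 1 0 (by decide), zero_mul, mul_zero, mul_zero, zero_smul, add_zero]
    · rw [spT_mulVec, D.add_left, D.smul_left, hBτ, hBτ,
        show Cfsg.Agent.Forms.sympB m F (τ (w 0) v) (τ (w 0) u) = c * (f₂ (w 0) (w 0) * f₁ v u) from hBτ _ _ _ _,
        hf₁.alternating, huv, hvu, hw1, mul_zero, mul_zero, zero_add]
      simp only [one_mul, mul_one, mul_neg, neg_mul, neg_ne_zero]
      exact mul_ne_zero (mul_ne_zero hc hd) (mul_ne_zero hc hd)
  · set z := τ (w 0) u + τ (w 1) u with hz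
    refine ⟨spT z 1, spT_mem _ _, fun hst => ?_⟩
    obtain ⟨σ, hσ⟩ := hst
    have himg : ∀ x, x ∈ blocks τ w 0 →
        x + (1 * Cfsg.Agent.Forms.sympB m F x z) • z ∈ blocks τ w (σ 0) := fun x hx => by
      rw [← hσ 0, ← spT_mulVec]; exact ⟨x, hx, Matrix.toLin'_apply _ _⟩
    have hBz : ∀ s, Cfsg.Agent.Forms.sympB m F (τ (w 0) s) z = c * (d * f₁ s u) := by
      intro s
      have a1 : Cfsg.Agent.Forms.sympB m F (τ (w 0) s) (τ (w 0) u) = c * (d * f₁ s u) := by
        rw [← hw1 0]; exact hBτ _ _ _ _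
      have a2 : Cfsg.Agent.Forms.sympB m F (τ (w 0) s) (τ (w 1) u) = 0 := by
        have := hBτ (w 0) (w 1) s u
        rwa [hw0 0 1 (by decide), zero_mul, mul_zero] at this
      rw [hz, map_add, a1, a2, add_zero]
    have hne : ∀ l, τ (w l) u ≠ 0 := fun l e0 => by
      have := hBτ (w l) (w l) u v
      rw [e0, huv, hw1, mul_one] at this
      have h0 : B 0 (τ (w l) v) = 0 := LinearMap.congr_fun (Cfsg.Agent.Forms.sympB m F).map_zero _
      rw [h0] at this
      exact mul_ne_zero hc hd this.symm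
    have h0 := himg _ (hmem 0 u)
    rw [hBz, hf₁.alternating, mul_zero, mul_zero, mul_zero, zero_smul, add_zero] at h0
    have hσ0 : σ 0 = 0 := by
      by_contra h
      exact notMem_other hdec (Ne.symm h) (hmem 0 u) (hne 0) h0
    have h1 := himg _ (hmem 0 v)
    rw [hBz, hvu, hσ0] at h1
    have h2 : (1 * (c * (d * -1))) • τ (w 1) u ∈ blocks τ w 0 := by
      have := sub_mem h1 (add_mem (hmem 0 v) (Submodule.smul_mem _ (1 * (c * (d * -1))) (hmem 0 u)))
      convert this using 1
      rw [hz]; module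
    exact notMem_other hdec (show (1 : Fin 3) ≠ 0 by decide) (hmem 1 u) (hne 1)
      ((Submodule.smul_mem_iff _ (by simp [hc, hd])).1 h2)

theorem exists_between_orth (hF : Fintype.card F = 3) {ι : Type} [Fintype ι] [DecidableEq ι]
    (Q : QuadraticForm F (ι → F)) {n₂ : ℕ} (hn : 4 ≤ n₂) (e : ι ≃ Fin 3 × Fin n₂) (P : GL ι F)
    (f₁ : (Fin 3 → F) → (Fin 3 → F) → F) (f₂ : (Fin n₂ → F) → (Fin n₂ → F) → F)
    (hf₁ : Cfsg.Geo.IsSymmetricForm f₁) (hf₂ : Cfsg.Geo.IsSymmetricForm f₂)
    (hT : Cfsg.Geo.IsTensorFormStructure id (QuadraticMap.polar ⇑Q) f₁ f₂ e P) :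
    ∃ K : Subgroup (GL ι F),
      Cfsg.Geo.tensorProductSubgroup 3 n₂ e P ⊓ Cfsg.Geo.omegaGL ⇑Q < K ∧ K < Cfsg.Geo.omegaGL ⇑Q := by
  classical
  have h3 := FrameRefine.three_eq_zero hF
  have h2 : (2 : F) ≠ 0 := fun e => one_ne_zero (α := F) (by linear_combination h3 - e)
  obtain ⟨d, w, hd, hw0, hw1, hcl⟩ := exists_frame hF f₁ hf₁
  obtain ⟨c, hc, hform⟩ := hT
  let τ : (Fin 3 → F) →ₗ[F] (Fin n₂ → F) →ₗ[F] (ι → F) :=
    LinearMap.mk₂ F (fun x u => coord e P (tens x u))
      (fun a b u => by rw [← map_add]; congr 1; ext p; simp [tens, add_mul])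
      (fun s a u => by rw [← map_smul]; congr 1; ext p; simp [tens, mul_assoc])
      (fun a u v => by rw [← map_add]; congr 1; ext p; simp [tens, mul_add])
      (fun s a u => by rw [← map_smul]; congr 1; ext p; simp [tens, mul_left_comm])
  have hBτ : ∀ x y u v, QuadraticMap.polar Q (τ x u) (τ y v) = c * (f₁ x y * f₂ u v) := by
    intro x y u v
    show QuadraticMap.polar Q ((P : Matrix _ _ F) *ᵥ (tens x u ∘ e)) ((P : Matrix _ _ F) *ᵥ (tens y v ∘ e)) = _
    rw [hform, formOfGram_tens (fun a b => rfl),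
      ← eq_formOfGram (σ := id) f₁ hf₁.bilinear.add_left hf₁.bilinear.smul_left hf₁.bilinear.add_right
        (fun s v x => hf₁.bilinear.smul_right s v x),
      ← eq_formOfGram (σ := id) f₂ hf₂.bilinear.add_left hf₂.bilinear.smul_left hf₂.bilinear.add_right
        (fun s v x => hf₂.bilinear.smul_right s v x)]
  have D : Data (QuadraticMap.polar ⇑Q) (Cfsg.Geo.tensorProductSubgroup 3 n₂ e P) τ f₁ f₂ w :=
    { add_left := fun x y v => QuadraticMap.polar_add_left Q x y v
      smul_left := fun s x v => by rw [QuadraticMap.polar_smul_left, smul_eq_mul]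
      g_add := hf₁.bilinear.add_left
      g_smul := hf₁.bilinear.smul_left
      h_add := hf₂.bilinear.add_left
      h_smul := hf₂.bilinear.smul_left
      h_nondeg := fun u hu => (hf₂.nondegenerate u hu).2
      form := ⟨c, hc, hBτ⟩
      frame_orth := hw0
      frame_ne := fun l => by rw [hw1]; exact hd
      top := fun v => by
        obtain ⟨z, rfl⟩ := coord_surjective e P v
        rw [tens_span z, map_sum]
        refine Submodule.sum_mem _ fun i _ => ?_
        rw [map_sum]
        refine Submodule.sum_mem _ fun j _ => ?_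
        rw [map_smul]
        exact Submodule.smul_mem _ _ (Submodule.subset_span ⟨Pi.single i 1, Pi.single j 1, rfl⟩)
      act := fun G hG => mem_tensor_iff_action hG
      classify := hcl }
  have hdec := D.isMDecomposition (by norm_num) (by omega)
  let Bh : LinearMap.BilinForm F (Fin n₂ → F) := LinearMap.mk₂ F f₂ hf₂.bilinear.add_left
    (fun c m n => by rw [hf₂.bilinear.smul_left, smul_eq_mul]) hf₂.bilinear.add_right
    (fun c m n => by rw [hf₂.bilinear.smul_right, smul_eq_mul])
  have hS : Bh.IsSymm := ⟨fun x y => hf₂.symm x y⟩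
  have key : ∀ x : Fin n₂ → F, (∀ y, Bh x y = 0) → x = 0 := by
    intro x hx
    by_contra h0
    obtain ⟨-, v, hv⟩ := hf₂.nondegenerate x h0
    exact hv (hx v)
  have hnd : Bh.Nondegenerate := ⟨key, fun y hy => key y fun x => (hS.eq x y ▸ hy x : Bh y x = 0)⟩
  obtain ⟨b, hb0, hb1, -⟩ := Cfsg.Agent.Forms.exists_orth_family h2 (n₂ - 1) hS hnd
    (by rw [Module.finrank_fin_fun]; omega)
  let pv : Fin 3 → (Fin n₂ → F) := fun j => b ⟨j, by omega⟩
  have hpv : ∀ j j', f₂ (pv j) (pv j') = if j = j' then 1 else 0 := by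
    intro j j'
    by_cases h : j = j'
    · subst h
      rw [if_pos rfl]
      exact hb1 _ (fun e => by have := congrArg Fin.val e; simp at this; omega)
    · rw [if_neg h]
      exact hb0 _ _ (fun e => h (Fin.ext (Fin.mk.inj e)))
  let E : Fin 3 → Fin 3 → (ι → F) := fun l j => τ (w l) (pv j)
  set K := c * d with hK
  have hK0 : K ≠ 0 := mul_ne_zero hc hd
  have hEE : ∀ l j l' j', QuadraticMap.polar Q (E l j) (E l' j') = if l = l' ∧ j = j' then K else 0 := by
    intro l j l' j'
    rw [hBτ, hpv]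
    by_cases h : l = l'
    · subst h
      by_cases h' : j = j'
      · subst h'; rw [if_pos rfl, if_pos ⟨rfl, rfl⟩, hw1, mul_one]
      · rw [if_neg h', if_neg (fun e => h' e.2), mul_zero, mul_zero]
    · rw [hw0 l l' h, zero_mul, mul_zero, if_neg (fun e => h e.1)]
  have hQE : ∀ l j, 2 * Q (E l j) = K := fun l j => by
    rw [← Cfsg.Agent.Forms.polar_self_two_mul, hEE, if_pos ⟨rfl, rfl⟩]
  have hQE0 : ∀ l j, Q (E l j) ≠ 0 := fun l j h => hK0 (by rw [← hQE l j, h, mul_zero])
  have hQsame : ∀ l j l' j', Q (E l j) = Q (E l' j') := fun l j l' j' =>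
    mul_left_cancel₀ h2 ((hQE l j).trans (hQE l' j').symm)
  have hmem : ∀ l z, τ (w l) z ∈ blocks τ w l := fun l z => ⟨z, rfl⟩
  refine D.exists_between (by norm_num) (by omega)
    (fun G hG x y => by
      simp only [QuadraticMap.polar, ← Matrix.mulVec_add, omegaGL_preserves Q hG]) ?_ ?_
  · obtain ⟨G, hG, hGapp⟩ := FrameRefine.exists_refl_pair Q h2 (hQE0 0 0) (hQsame 0 1 0 0)
      (by rw [hEE]; exact if_neg (by decide))
    refine ⟨G, hG, mem_decomp_of_forall hdec fun l => ⟨l, ?_⟩,
      D.notMem (l₀ := 0) (l₁ := 1) (fun z => ?_) (u := pv 0 + pv 2) (v := pv 0 - pv 2) ?_ ?_⟩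
    · rintro _ ⟨z, rfl⟩
      rw [hGapp, reflGL_mulVec, reflGL_mulVec]
      by_cases hl : l = 0
      · subst hl
        exact sub_mem (sub_mem (hmem 0 z) (Submodule.smul_mem _ _ (hmem 0 _)))
          (Submodule.smul_mem _ _ (hmem 0 _))
      · have e1 : ∀ j, QuadraticMap.polar Q (E 0 j) (τ (w l) z) = 0 := fun j => by
          rw [hBτ, hw0 0 l (Ne.symm hl), zero_mul, mul_zero]
        rw [e1, mul_zero, zero_smul, sub_zero, e1, mul_zero, zero_smul, sub_zero]
        exact hmem l z
    · have e1 : ∀ j, QuadraticMap.polar Q (E 0 j) (τ (w 1) z) = 0 := fun j => by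
        rw [hBτ, hw0 0 1 (by decide), zero_mul, mul_zero]
      rw [hGapp, reflGL_mulVec, reflGL_mulVec, e1, mul_zero, zero_smul, sub_zero, e1, mul_zero,
        zero_smul, sub_zero]
    · rw [← show Bh (pv 0 + pv 2) (pv 0 - pv 2) = f₂ (pv 0 + pv 2) (pv 0 - pv 2) from rfl]
      simp only [map_add, map_sub, LinearMap.add_apply, show ∀ x y, Bh x y = f₂ x y from fun _ _ => rfl, hpv]
      simp
    · rw [show τ (w 0) (pv 0 + pv 2) = E 0 0 + E 0 2 from map_add _ _ _,
        show τ (w 0) (pv 0 - pv 2) = E 0 0 - E 0 2 from map_sub _ _ _, hGapp, reflGL_mulVec, reflGL_mulVec]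
      simp only [QuadraticMap.polar_add_right, QuadraticMap.polar_add_left, QuadraticMap.polar_sub_left,
        QuadraticMap.polar_sub_right, QuadraticMap.polar_smul_left, QuadraticMap.polar_smul_right, hEE,
        smul_eq_mul, Fin.reduceEq, and_false, and_true, if_false, if_true, mul_zero, add_zero, zero_add,
        sub_zero, zero_sub]
      intro h
      have hi : (Q (E 0 0))⁻¹ * K = 2 := by
        rw [← hQE 0 0, mul_left_comm, inv_mul_cancel₀ (hQE0 0 0), mul_one]
      rw [hi] at h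
      have : (2 : F) * K = 0 := by linear_combination -h
      exact mul_ne_zero h2 hK0 this
  · have hQs : ∀ j, Q (E 0 j + E 1 j) = K := by
      intro j
      rw [QuadraticMap.map_add Q, hEE, if_neg (by simp), add_zero, hQsame 1 j 0 j, ← two_mul, hQE]
    obtain ⟨G, hG, hGapp⟩ := FrameRefine.exists_refl_pair Q h2 (u := E 0 0 + E 1 0) (u' := E 0 1 + E 1 1)
      (by rw [hQs]; exact hK0) (by rw [hQs, hQs])
      (by simp only [QuadraticMap.polar_add_left, QuadraticMap.polar_add_right, hEE]; simp)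
    refine ⟨G, hG, fun hst => ?_⟩
    obtain ⟨σ, hσ⟩ := hst
    have himg : ∀ j, (G : Matrix ι ι F) *ᵥ E 0 j ∈ blocks τ w (σ 0) := fun j => by
      rw [← hσ 0]; exact ⟨_, hmem 0 _, Matrix.toLin'_apply _ _⟩
    have hne : ∀ l j, E l j ≠ 0 := fun l j e0 => hQE0 l j (by rw [e0, QuadraticMap.map_zero])
    have m0 : E 1 0 ∈ blocks τ w (σ 0) := by
      have h := himg 0
      rw [hGapp, reflGL_mulVec, reflGL_mulVec, hQs, hQs] at h
      simp only [QuadraticMap.polar_add_left, hEE, Fin.reduceEq, and_false, and_true, false_and, if_false,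
        if_true, add_zero, mul_zero, zero_smul, sub_zero, inv_mul_cancel₀ hK0, one_smul, sub_add_cancel_left,
        and_self] at h
      exact neg_mem_iff.1 h
    have m1 : E 0 2 ∈ blocks τ w (σ 0) := by
      have h := himg 2
      rw [hGapp, reflGL_mulVec, reflGL_mulVec, hQs, hQs] at h
      simp only [QuadraticMap.polar_add_left, hEE, Fin.reduceEq, and_false, and_true, false_and, if_false,
        if_true, add_zero, mul_zero, zero_smul, sub_zero] at h
      exact h
    have e0 : (1 : Fin 3) = σ 0 := by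
      by_contra h; exact notMem_other hdec h (hmem 1 _) (hne 1 0) m0
    have e1 : (0 : Fin 3) = σ 0 := by
      by_contra h; exact notMem_other hdec h (hmem 0 _) (hne 0 2) m1
    exact absurd (e0.trans e1.symm) (by decide)

end Cfsg.Agent.GeomClasses.TensorFrameThree
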