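import Mathlib

/-!
In characteristic two, the span of the site operators `E_s`, `F_s` and `1` on a tensor power of two-dimensional
spaces is stable under the similitude wreath product and under some two-site root elements.
-/

set_option autoImplicit false
set_option linter.unusedSectionVars false

namespace Cfsg.Agent.GeomClasses.SpinWreath

open Matrix

variable {F : Type*} [Field F] {t m : ℕ}

local notation "Di" => (Fin m → Fin 2)
local notation "Ax" => (Fin t → Fin m → Fin 2)
local notation "St" => (Fin t × Fin m)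

/-- The tensor product of factor matrices followed by a permutation of factors. -/
def tens (σ : Equiv.Perm (Fin t)) (g : Fin t → Matrix Di Di F) : Matrix Ax Ax F :=
  Matrix.of fun x y => ∏ i, g i (x i) (y (σ i))

theorem tens_mul (σ σ' : Equiv.Perm (Fin t)) (g g' : Fin t → Matrix Di Di F) :
    tens σ g * tens σ' g' = tens (σ.trans σ') (fun i => g i * g' (σ i)) := by
  classical
  ext x z
  simp only [tens, Matrix.mul_apply, Matrix.of_apply, Equiv.trans_apply]
  rw [Fintype.prod_sum]
  refine Fintype.sum_equiv (Equiv.arrowCongr σ.symm (Equiv.refl Di)) _ _ fun y => ?_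
  rw [← Equiv.prod_comp σ (fun i => g' i (y i) (z (σ' i))), ← Finset.prod_mul_distrib]
  rfl

theorem tens_one [DecidableEq F] : tens (1 : Equiv.Perm (Fin t)) (fun _ => (1 : Matrix Di Di F)) = 1 := by
  ext x y
  by_cases h : x = y
  · subst h
    rw [Matrix.one_apply_eq]
    simp only [tens, Matrix.of_apply]
    refine Finset.prod_eq_one fun i _ => ?_
    show (1 : Matrix Di Di F) (x i) (x i) = 1
    exact Matrix.one_apply_eq _
  · rw [Matrix.one_apply_ne h]
    obtain ⟨i, hi⟩ := Function.ne_iff.1 h
    exact Finset.prod_eq_zero (Finset.mem_univ i) (Matrix.one_apply_ne hi)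

/-- The normal forms of the standard wreath product. -/
def twGroup (F : Type*) [Field F] [Fintype F] [DecidableEq F] (t m : ℕ) : Subgroup (GL (Fin t → Fin m → Fin 2) F) where
  carrier := {u | ∃ (σ : Equiv.Perm (Fin t)) (g : Fin t → GL (Fin m → Fin 2) F),
    (u : Matrix (Fin t → Fin m → Fin 2) (Fin t → Fin m → Fin 2) F) = tens σ (fun i => (g i : Matrix (Fin m → Fin 2) (Fin m → Fin 2) F))}
  one_mem' := ⟨1, fun _ => 1, by rw [Units.val_one]; exact tens_one.symm⟩
  mul_mem' := by
    rintro u v ⟨σ, g, hu⟩ ⟨σ', g', hv⟩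
    exact ⟨σ.trans σ', fun i => g i * g' (σ i), by rw [Units.val_mul, hu, hv, tens_mul]; rfl⟩
  inv_mem' := by
    intro u hu
    have key : ∀ j : ℕ, ∃ (σ : Equiv.Perm (Fin t)) (g : Fin t → GL (Fin m → Fin 2) F),
        ((u ^ j : GL (Fin t → Fin m → Fin 2) F) : Matrix (Fin t → Fin m → Fin 2) (Fin t → Fin m → Fin 2) F) = tens σ (fun i => (g i : Matrix (Fin m → Fin 2) (Fin m → Fin 2) F)) := by
      intro j
      induction j with
      | zero => exact ⟨1, fun _ => 1, by rw [pow_zero, Units.val_one]; exact tens_one.symm⟩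
      | succ j ih =>
        obtain ⟨σ, g, h⟩ := ih
        obtain ⟨σ', g', h'⟩ := hu
        exact ⟨σ.trans σ', fun i => g i * g' (σ i), by rw [pow_succ, Units.val_mul, h, h', tens_mul]; rfl⟩
    have e : u⁻¹ = u ^ (orderOf u - 1) := by
      refine inv_eq_of_mul_eq_one_right ?_
      rw [← pow_succ', Nat.sub_add_cancel (orderOf_pos u), pow_orderOf_eq_one]
    exact e ▸ key _

/-- The operator with entry one at `(x, τ x)` for the `x` satisfying `p`. -/
def op (F : Type*) [Field F] {A : Type} [DecidableEq A] (p : A → Prop) [DecidablePred p] (τ : A → A) : Matrix A A F :=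
  Matrix.of fun x y => if p x ∧ y = τ x then 1 else 0

theorem op_mul {A : Type} [DecidableEq A] [Fintype A] (p p' : A → Prop) [DecidablePred p] [DecidablePred p'] (τ τ' : A → A) :
    op F p τ * op F p' τ' = op F (fun x => p x ∧ p' (τ x)) (fun x => τ' (τ x)) := by
  ext x z
  by_cases hx : p x
  · rw [Matrix.mul_apply, Finset.sum_eq_single (τ x)]
    · simp [op, hx]
    · intro y _ hy; simp [op, hy]
    · simp
  · simp [op, Matrix.mul_apply, hx]

theorem op_eq_zero {A : Type} [DecidableEq A] (p : A → Prop) [DecidablePred p] (τ : A → A) (h : ∀ x, ¬ p x) :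
    op F p τ = 0 := by
  ext x y; simp [op, h x]

theorem op_congr {A : Type} [DecidableEq A] {p p' : A → Prop} [DecidablePred p] [DecidablePred p'] {τ τ' : A → A}
    (h : ∀ x, p x ↔ p' x) (h' : ∀ x, p x → τ x = τ' x) : op F p τ = op F p' τ' := by
  ext x y
  by_cases hx : p x
  · simp [op, hx, (h x).1 hx, h' x hx]
  · simp [op, hx, mt (h x).2 hx]

theorem op_add {A : Type} [DecidableEq A] (p p' p'' : A → Prop) [DecidablePred p] [DecidablePred p'] [DecidablePred p'']
    (τ : A → A) (h : ∀ x, ¬ (p x ∧ p' x)) (h' : ∀ x, p'' x ↔ p x ∨ p' x) : op F p τ + op F p' τ = op F p'' τ := by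
  ext x y
  by_cases hy : y = τ x
  · by_cases hx : p x
    · have : ¬ p' x := fun h1 => h x ⟨hx, h1⟩
      simp [op, hy, hx, this, h' x]
    · by_cases hx' : p' x <;> simp [op, hy, hx, hx', h' x]
  · simp [op, hy]

/-- Flip the digits on a set of sites. -/
def flipOn (D : Finset (Fin t × Fin m)) (x : Ax) : Ax :=
  fun i s => if (i, s) ∈ D then Fin.rev (x i s) else x i s

theorem flipOn_flipOn_self (D : Finset (Fin t × Fin m)) (x : Ax) : flipOn D (flipOn D x) = x := by
  funext i s; by_cases h : (i, s) ∈ D <;> simp [flipOn, h]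

theorem flipOn_flipOn (D D' : Finset (Fin t × Fin m)) (x : Ax) : flipOn D' (flipOn D x) = flipOn (symmDiff D D') x := by
  funext i s
  by_cases h : (i, s) ∈ D <;> by_cases h' : (i, s) ∈ D' <;> simp [flipOn, h, h', Finset.mem_symmDiff]

/-- The complementary index. -/
def bar (x : Ax) : Ax := fun i s => Fin.rev (x i s)

/-- The product of the one-site operators prescribed by `v` on the sites of `D`. -/
def nop (F : Type*) [Field F] (D : Finset (Fin t × Fin m)) (v : Fin t → Fin m → Fin 2) : Matrix Ax Ax F :=
  op F (fun x : Ax => ∀ p ∈ D, x p.1 p.2 = v p.1 p.2) (flipOn D)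

theorem fin2_rev_ne (a : Fin 2) : Fin.rev a ≠ a := by
  revert a; decide

theorem fin2_cases (a b : Fin 2) : a = b ∨ a = Fin.rev b := by
  revert a b; decide

theorem nop_sq {D : Finset (Fin t × Fin m)} (hD : D.Nonempty) (v : Fin t → Fin m → Fin 2) :
    nop F D v * nop F D v = 0 := by
  rw [nop, op_mul]
  refine op_eq_zero _ _ fun x ⟨h1, h2⟩ => ?_
  obtain ⟨p, hp⟩ := hD
  have h := h2 p hp
  rw [flipOn, if_pos hp, h1 p hp] at h
  exact fin2_rev_ne _ h

/-- A two-factor commutator: operators sharing one site with opposite digits. -/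
theorem nop_pair {A' B' : Finset (Fin t × Fin m)} {l : Fin t × Fin m} (hd : Disjoint A' B') (hA : l ∉ A') (hB : l ∉ B')
    (hA0 : A'.Nonempty) (hB0 : B'.Nonempty) {v w : Fin t → Fin m → Fin 2}
    (hvw : ∀ p, p ≠ l → v p.1 p.2 = w p.1 p.2) (hl : v l.1 l.2 ≠ w l.1 l.2) :
    let A := nop F (insert l A') v; let B := nop F (insert l B') w
    A * B + B * A = nop F (A' ∪ B') v ∧ A * B * A = 0 ∧ B * A * B = 0 := by
  have hrev : w l.1 l.2 = Fin.rev (v l.1 l.2) := (fin2_cases _ _).resolve_left (Ne.symm hl)
  have hrev' : v l.1 l.2 = Fin.rev (w l.1 l.2) := by rw [hrev, Fin.rev_rev]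
  have hτ : symmDiff (insert l A') (insert l B') = A' ∪ B' := by
    ext p
    simp only [Finset.mem_symmDiff, Finset.mem_insert, Finset.mem_union]
    by_cases hp : p = l
    · subst hp; simp [hA, hB]
    · have : ¬ (p ∈ A' ∧ p ∈ B') := fun h => Finset.disjoint_left.1 hd h.1 h.2
      tauto
  have hne : ∀ p ∈ A' ∪ B', p ≠ l := fun p hp e => by subst e; simp [hA, hB] at hp
  intro A B
  refine ⟨?_, ?_, ?_⟩
  · have e1 : A * B = op F (fun x : Ax => (∀ p ∈ A' ∪ B', x p.1 p.2 = v p.1 p.2) ∧ x l.1 l.2 = v l.1 l.2)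
        (flipOn (A' ∪ B')) := by
      simp only [A, B, nop, op_mul]
      refine op_congr ?_ (fun x _ => by rw [flipOn_flipOn, hτ])
      intro x
      constructor
      · rintro ⟨h1, h2⟩
        refine ⟨fun p hp => ?_, h1 l (Finset.mem_insert_self _ _)⟩
        rcases Finset.mem_union.1 hp with h | h
        · exact h1 p (Finset.mem_insert_of_mem h)
        · have := h2 p (Finset.mem_insert_of_mem h)
          rw [flipOn, if_neg (by simp [hne p hp, Finset.disjoint_right.1 hd h])] at this
          rw [this, hvw p (hne p hp)]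
      · rintro ⟨h1, h2⟩
        refine ⟨fun p hp => ?_, fun p hp => ?_⟩
        · rcases Finset.mem_insert.1 hp with rfl | h
          · exact h2
          · exact h1 p (Finset.mem_union_left _ h)
        · rcases Finset.mem_insert.1 hp with rfl | h
          · rw [flipOn, if_pos (Finset.mem_insert_self _ _), h2, hrev]
          · rw [flipOn, if_neg (by simp [hne p (Finset.mem_union_right _ h), Finset.disjoint_right.1 hd h]),
              ← hvw p (hne p (Finset.mem_union_right _ h))]
            exact h1 p (Finset.mem_union_right _ h)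
    have e2 : B * A = op F (fun x : Ax => (∀ p ∈ A' ∪ B', x p.1 p.2 = v p.1 p.2) ∧ x l.1 l.2 = w l.1 l.2)
        (flipOn (A' ∪ B')) := by
      simp only [A, B, nop, op_mul]
      refine op_congr ?_ (fun x _ => by rw [flipOn_flipOn, symmDiff_comm, hτ])
      intro x
      constructor
      · rintro ⟨h1, h2⟩
        refine ⟨fun p hp => ?_, ?_⟩
        · rcases Finset.mem_union.1 hp with h | h
          · have := h2 p (Finset.mem_insert_of_mem h)
            rw [flipOn, if_neg (by simp [hne p hp, Finset.disjoint_left.1 hd h])] at this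
            exact this
          · rw [h1 p (Finset.mem_insert_of_mem h), hvw p (hne p hp)]
        · exact h1 l (Finset.mem_insert_self _ _)
      · rintro ⟨h1, h2⟩
        refine ⟨fun p hp => ?_, fun p hp => ?_⟩
        · rcases Finset.mem_insert.1 hp with rfl | h
          · exact h2
          · rw [h1 p (Finset.mem_union_right _ h), hvw p (hne p (Finset.mem_union_right _ h))]
        · rcases Finset.mem_insert.1 hp with rfl | h
          · rw [flipOn, if_pos (Finset.mem_insert_self _ _), h2, ← hrev']
          · rw [flipOn, if_neg (by simp [hne p (Finset.mem_union_left _ h), Finset.disjoint_left.1 hd h])]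
            exact h1 p (Finset.mem_union_left _ h)
    rw [e1, e2, nop]
    refine op_add _ _ _ _ (fun x h => hl (h.1.2.symm.trans h.2.2)) fun x => ?_
    constructor
    · intro h
      rcases fin2_cases (x l.1 l.2) (v l.1 l.2) with e | e
      · exact Or.inl ⟨h, e⟩
      · exact Or.inr ⟨h, e.trans hrev.symm⟩
    · rintro (h | h) <;> exact h.1
  · simp only [A, B, nop, op_mul]
    refine op_eq_zero _ _ fun x ⟨⟨h1, _⟩, h3⟩ => ?_
    obtain ⟨p, hp⟩ := hA0
    have h := h3 p (Finset.mem_insert_of_mem hp)
    rw [flipOn_flipOn, hτ, flipOn, if_pos (Finset.mem_union_left _ hp), h1 p (Finset.mem_insert_of_mem hp)] at h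
    exact fin2_rev_ne _ h
  · simp only [A, B, nop, op_mul]
    refine op_eq_zero _ _ fun x ⟨⟨h1, _⟩, h3⟩ => ?_
    obtain ⟨p, hp⟩ := hB0
    have h := h3 p (Finset.mem_insert_of_mem hp)
    rw [flipOn_flipOn, symmDiff_comm, hτ, flipOn, if_pos (Finset.mem_union_right _ hp), h1 p (Finset.mem_insert_of_mem hp)] at h
    exact fin2_rev_ne _ h

/-- The span of the identity and the one-site operators. -/
def siteSpan (F : Type*) [Field F] (t m : ℕ) : Submodule F (Matrix (Fin t → Fin m → Fin 2) (Fin t → Fin m → Fin 2) F) :=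
  Submodule.span F (insert 1 (Set.range fun pa : (Fin t × Fin m) × Fin 2 => nop F {pa.1} (fun _ _ => pa.2)))

theorem nop_single_mem (p : Fin t × Fin m) (v : Fin t → Fin m → Fin 2) : nop F {p} v ∈ siteSpan F t m := by
  refine Submodule.subset_span (Or.inr ⟨(p, v p.1 p.2), ?_⟩)
  exact op_congr (fun x => by simp only [Finset.mem_singleton, forall_eq]) fun x _ => rfl

/-- Elements of the span vanish between indices differing in two sites. -/
theorem siteSpan_entry {X : Matrix Ax Ax F} (hX : X ∈ siteSpan F t m) {x y : Ax} {p p' : Fin t × Fin m} (hpp : p ≠ p')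
    (h : x p.1 p.2 ≠ y p.1 p.2) (h' : x p'.1 p'.2 ≠ y p'.1 p'.2) : X x y = 0 := by
  induction hX using Submodule.span_induction with
  | mem Y hY =>
    rcases hY with rfl | ⟨⟨r, a⟩, rfl⟩
    · exact Matrix.one_apply_ne fun e => h (by rw [e])
    · simp only [nop, op, Matrix.of_apply]
      rw [if_neg]
      rintro ⟨-, rfl⟩
      by_cases hr : p = r
      · refine h' ?_
        rw [flipOn, if_neg (by rw [Finset.mem_singleton]; exact fun e => hpp (hr.trans e.symm))]
      · refine h ?_
        rw [flipOn, if_neg (by rw [Finset.mem_singleton]; exact hr)]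
  | zero => rfl
  | add a b _ _ ha hb => rw [Matrix.add_apply, ha, hb, add_zero]
  | smul c a _ ha => rw [Matrix.smul_apply, ha, smul_zero]

/-- The stabiliser of the span under conjugation. -/
def siteStab (F : Type*) [Field F] [Fintype F] [DecidableEq F] (t m : ℕ) : Subgroup (GL (Fin t → Fin m → Fin 2) F) where
  carrier := {u | ∀ X ∈ siteSpan F t m, (u : Matrix (Fin t → Fin m → Fin 2) (Fin t → Fin m → Fin 2) F) * X * ((u⁻¹ : GL (Fin t → Fin m → Fin 2) F) : Matrix (Fin t → Fin m → Fin 2) (Fin t → Fin m → Fin 2) F) ∈ siteSpan F t m}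
  one_mem' := fun X hX => by simpa using hX
  mul_mem' := by
    intro u v hu hv X hX
    have := hu _ (hv X hX)
    simpa [mul_assoc, _root_.mul_inv_rev] using this
  inv_mem' := by
    intro u hu
    have key : ∀ j : ℕ, ∀ X ∈ siteSpan F t m,
        ((u ^ j : GL (Fin t → Fin m → Fin 2) F) : Matrix (Fin t → Fin m → Fin 2) (Fin t → Fin m → Fin 2) F) * X * (((u ^ j)⁻¹ : GL (Fin t → Fin m → Fin 2) F) : Matrix (Fin t → Fin m → Fin 2) (Fin t → Fin m → Fin 2) F) ∈ siteSpan F t m := by
      intro j
      induction j with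
      | zero => intro X hX; simpa using hX
      | succ j ih =>
        intro X hX
        have := ih _ (hu X hX)
        simpa [pow_succ, mul_assoc, _root_.mul_inv_rev] using this
    intro X hX
    have e : u⁻¹ = u ^ (orderOf u - 1) := by
      refine inv_eq_of_mul_eq_one_right ?_
      rw [← pow_succ', Nat.sub_add_cancel (orderOf_pos u), pow_orderOf_eq_one]
    rw [e]
    exact key _ X hX

theorem mem_siteStab [Fintype F] [DecidableEq F] {u : GL Ax F}
    (h : ∀ (p : Fin t × Fin m) (a : Fin 2), (u : Matrix Ax Ax F) * nop F {p} (fun _ _ => a) *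
      ((u⁻¹ : GL Ax F) : Matrix Ax Ax F) ∈ siteSpan F t m) : u ∈ siteStab F t m := by
  intro X hX
  induction hX using Submodule.span_induction with
  | mem Y hY =>
    rcases hY with rfl | ⟨⟨p, a⟩, rfl⟩
    · rw [mul_one, ← Units.val_mul, mul_inv_cancel, Units.val_one]
      exact Submodule.subset_span (Or.inl rfl)
    · exact h p a
  | zero => simp
  | add a b _ _ ha hb => rw [mul_add, add_mul]; exact add_mem ha hb
  | smul c a _ ha => rw [Matrix.mul_smul, Matrix.smul_mul]; exact Submodule.smul_mem _ c ha

/-- `1 + N` as an invertible matrix. -/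
def unitOp (F : Type*) [Field F] [CharP F 2] {D : Finset (Fin t × Fin m)} (hD : D.Nonempty)
    (v : Fin t → Fin m → Fin 2) : GL Ax F where
  val := 1 + nop F D v
  inv := 1 + nop F D v
  val_inv := by
    rw [mul_add, add_mul, add_mul, one_mul, one_mul, mul_one, nop_sq hD, add_zero, add_assoc, CharTwo.add_self_eq_zero, add_zero]
  inv_val := by
    rw [mul_add, add_mul, add_mul, one_mul, one_mul, mul_one, nop_sq hD, add_zero, add_assoc, CharTwo.add_self_eq_zero, add_zero]

theorem unitOp_mem_siteStab [CharP F 2] [Fintype F] [DecidableEq F] {i j : Fin t × Fin m} (hij : i ≠ j)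
    (v : Fin t → Fin m → Fin 2) :
    unitOp F (Finset.insert_nonempty i {j}) v ∈ siteStab F t m := by
  refine mem_siteStab fun r a => ?_
  set G := nop F ({i, j} : Finset (Fin t × Fin m)) v with hG
  set X := nop F ({r} : Finset (Fin t × Fin m)) (fun _ _ => a) with hX
  show (1 + G) * X * (1 + G) ∈ _
  rw [add_mul, one_mul, mul_add, mul_one, add_mul]
  have hXm : X ∈ siteSpan F t m := nop_single_mem r _
  by_cases hr : r = i ∨ r = j
  · -- a site of the root element
    obtain ⟨i', j', hij', hr', hset⟩ : ∃ i' j', i' ≠ j' ∧ r = i' ∧ ({i, j} : Finset (Fin t × Fin m)) = {i', j'} := by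
      rcases hr with h | h
      · exact ⟨i, j, hij, h, rfl⟩
      · exact ⟨j, i, hij.symm, h, Finset.pair_comm i j⟩
    subst r
    rw [hset] at hG
    by_cases ha : a = v i'.1 i'.2
    · have h1 : G * X = 0 := by
        rw [hG, hX, nop, nop, op_mul]
        refine op_eq_zero _ _ fun x ⟨h1, h2⟩ => ?_
        have h := h2 i' (Finset.mem_singleton_self _)
        rw [flipOn, if_pos (by simp), h1 i' (by simp), ha] at h
        exact fin2_rev_ne _ h
      have h2 : X * G = 0 := by
        rw [hG, hX, nop, nop, op_mul]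
        refine op_eq_zero _ _ fun x ⟨h1, h2⟩ => ?_
        have h := h2 i' (by simp)
        rw [flipOn, if_pos (Finset.mem_singleton_self _), h1 i' (Finset.mem_singleton_self _), ha] at h
        exact fin2_rev_ne _ h
      rw [h1, h2, zero_mul, add_zero, add_zero]
      simpa using hXm
    · have har : a = Fin.rev (v i'.1 i'.2) := (fin2_cases a _).resolve_left ha
      have h1 : G * X = op F (fun x : Ax => x i'.1 i'.2 = v i'.1 i'.2 ∧ x j'.1 j'.2 = v j'.1 j'.2) (flipOn {j'}) := by
        rw [hG, hX, nop, nop, op_mul]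
        refine op_congr (fun x => ?_) (fun x _ => ?_)
        · simp [flipOn, har]
          tauto
        · rw [flipOn_flipOn]; congr 1; ext p; simp [Finset.mem_symmDiff]; aesop
      have h2 : X * G = op F (fun x : Ax => x i'.1 i'.2 = a ∧ x j'.1 j'.2 = v j'.1 j'.2) (flipOn {j'}) := by
        rw [hG, hX, nop, nop, op_mul]
        refine op_congr (fun x => ?_) (fun x _ => ?_)
        · simp [flipOn, Ne.symm hij']
          intro h; rw [h, har, Fin.rev_rev]; simp
        · rw [flipOn_flipOn]; congr 1; ext p; simp [Finset.mem_symmDiff]; aesop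
      have h3 : G * X * G = 0 := by
        rw [h1, hG, nop, op_mul]
        refine op_eq_zero _ _ fun x ⟨h1, h2⟩ => ?_
        have h := h2 j' (by simp)
        rw [flipOn, if_pos (Finset.mem_singleton_self _), h1.2] at h
        exact fin2_rev_ne _ h
      have h4 : G * X + X * G = nop F {j'} v := by
        rw [h1, h2, nop]
        refine op_add _ _ _ _ (fun x h => ha (h.2.1.symm.trans h.1.1)) fun x => ?_
        simp only [Finset.mem_singleton, forall_eq]
        constructor
        · intro h
          rcases fin2_cases (x i'.1 i'.2) (v i'.1 i'.2) with e | e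
          · exact Or.inl ⟨e, h⟩
          · exact Or.inr ⟨e.trans har.symm, h⟩
        · rintro (h | h) <;> exact h.2
      rw [h3, add_zero, show X + G * X + X * G = X + (G * X + X * G) by abel, h4]
      exact add_mem hXm (nop_single_mem _ _)
  · push_neg at hr
    have hc : G * X = X * G := by
      rw [hG, hX, nop, nop, op_mul, op_mul]
      refine op_congr (fun x => ?_) (fun x _ => ?_)
      · simp [flipOn, hr.1, hr.2, Ne.symm hr.1, Ne.symm hr.2]
        tauto
      · rw [flipOn_flipOn, flipOn_flipOn, symmDiff_comm]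
    have h3 : G * X * G = 0 := by
      rw [hc, mul_assoc, hG, nop_sq (Finset.insert_nonempty i {j}), mul_zero]
    rw [h3, hc, add_zero, add_assoc, CharTwo.add_self_eq_zero, add_zero]
    exact hXm

/-- The conjugate `(1 + N₃) F (1 + N₃)` leaves the span. -/
theorem unitOp_notMem_siteStab [CharP F 2] [Fintype F] [DecidableEq F] {i j s : Fin t × Fin m} (hij : i ≠ j) (his : i ≠ s)
    (hjs : j ≠ s) : unitOp F (Finset.insert_nonempty i {j, s}) (fun _ _ => (0 : Fin 2)) ∉ siteStab F t m := by
  intro h
  set G := nop F ({i, j, s} : Finset (Fin t × Fin m)) (fun _ _ => (0 : Fin 2)) with hG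
  set X := nop F ({i} : Finset (Fin t × Fin m)) (fun _ _ => (1 : Fin 2)) with hX
  have h1 : (1 + G) * X * (1 + G) ∈ siteSpan F t m := h X (nop_single_mem i _)
  let x : Ax := fun _ _ => 0
  let y : Ax := flipOn {j, s} x
  have h2 := siteSpan_entry h1 (x := x) (y := y) hjs (by simp [x, y, flipOn]) (by simp [x, y, flipOn])
  rw [add_mul, one_mul, mul_add, mul_one, add_mul] at h2
  have e1 : X x y = 0 := by
    simp [hX, nop, op, x]
  have e2 : (G * X) x y = 1 := by
    rw [hG, hX, nop, nop, op_mul]
    simp only [op, Matrix.of_apply]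
    rw [if_pos]
    refine ⟨⟨fun p _ => rfl, by simp [flipOn, x]⟩, ?_⟩
    rw [flipOn_flipOn]
    show flipOn {j, s} x = _
    congr 1
    ext p
    simp [Finset.mem_symmDiff]
    aesop
  have e3 : (X * G) x y = 0 := by
    rw [hG, hX, nop, nop, op_mul]
    simp [op, x]
  have e4 : (G * X * G) x y = 0 := by
    rw [hG, hX, nop, nop, op_mul, op_mul]
    simp only [op, Matrix.of_apply]
    rw [if_neg]
    rintro ⟨⟨-, h⟩, -⟩
    have := h j (by simp)
    simp [flipOn, x, hij.symm, hij, hjs] at this
  simp [e1, e2, e3, e4] at h2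

/-- Root elements of this kind preserve a quadratic form of plus-type tensor shape. -/
theorem unitOp_isometry [CharP F 2] {R : QuadraticForm F (Ax → F)} {c : F}
    (hR0 : ∀ y : Ax, R (Pi.single y 1) = 0)
    (hR : ∀ x y : Ax, QuadraticMap.polar ⇑R (Pi.single x 1) (Pi.single y 1) = if y = bar x then c else 0)
    {D : Finset (Fin t × Fin m)} (hD : D.Nonempty) {r : Fin t × Fin m} (hr : r ∉ D) (v : Fin t → Fin m → Fin 2) (z : Ax → F) :
    R ((unitOp F hD v : Matrix Ax Ax F) *ᵥ z) = R z := by
  classical
  set p : Ax → Prop := fun x => ∀ q ∈ D, x q.1 q.2 = v q.1 q.2 with hp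
  set L := Matrix.toLin' (unitOp F hD v : Matrix Ax Ax F) with hL
  have hcol : ∀ y : Ax, L (Pi.single y 1) = Pi.single y 1 + (if p (flipOn D y) then Pi.single (flipOn D y) 1 else 0) := by
    intro y
    rw [hL, Matrix.toLin'_apply, show (unitOp F hD v : Matrix Ax Ax F) = 1 + nop F D v from rfl, Matrix.add_mulVec,
      Matrix.one_mulVec, Matrix.mulVec_single_one]
    congr 1
    funext x
    simp only [Matrix.col_apply, nop, op, Matrix.of_apply]
    by_cases hx : x = flipOn D y
    · subst hx
      rw [flipOn_flipOn_self]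
      by_cases hq : p (flipOn D y)
      · rw [if_pos ⟨hq, rfl⟩, if_pos hq, Pi.single_eq_same]
      · rw [if_neg (fun h => hq h.1), if_neg hq, Pi.zero_apply]
    · rw [if_neg (fun h => hx (by rw [h.2, flipOn_flipOn_self]))]
      split_ifs <;> simp [hx]
  have hbar : ∀ y, flipOn D y ≠ bar y := fun y e => by
    have := congrFun (congrFun e r.1) r.2
    rw [flipOn, if_neg (by simpa using hr)] at this
    exact fin2_rev_ne _ this.symm
  have hfb : ∀ y, bar (flipOn D y) = flipOn D (bar y) := fun y => by
    funext i s; by_cases h : (i, s) ∈ D <;> simp [bar, flipOn, h]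
  have hp1 : ∀ y, p (bar y) ↔ p (flipOn D y) := fun y => by
    refine forall₂_congr fun q hq => ?_
    simp [bar, flipOn, hq]
  have hp2 : ∀ y, p y → ¬ p (bar y) := fun y h h' => by
    obtain ⟨q, hq⟩ := hD
    have := h' q hq
    rw [bar, h q hq] at this
    exact fin2_rev_ne _ this
  have hRadd : ∀ a b, R (a + b) = R a + R b + QuadraticMap.polar ⇑R a b := fun a b => by
    rw [QuadraticMap.polar]; ring
  have hval : ∀ y, R (L (Pi.single y 1)) = 0 := by
    intro y
    rw [hcol]
    split_ifs
    · rw [hRadd, hR0, hR0, hR, if_neg (hbar y), add_zero, add_zero]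
    · rw [add_zero, hR0]
  have hpol : ∀ x y, QuadraticMap.polar ⇑R (L (Pi.single x 1)) (L (Pi.single y 1)) =
      QuadraticMap.polar ⇑R (Pi.single x 1) (Pi.single y 1) := by
    intro x y
    have hb1 : flipOn D y = bar x ↔ y = bar (flipOn D x) := by
      rw [hfb]; exact ⟨fun h => by rw [← h, flipOn_flipOn_self], fun h => by rw [h, flipOn_flipOn_self]⟩
    have hb2 : p (flipOn D x) → p (flipOn D y) → flipOn D y ≠ bar (flipOn D x) := fun h1 h2 e =>
      hp2 _ h1 (e ▸ h2)
    rw [hcol, hcol]
    by_cases hx : p (flipOn D x) <;> by_cases hy : p (flipOn D y) <;>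
      simp only [hx, hy, if_true, if_false, add_zero, QuadraticMap.polar_add_left, QuadraticMap.polar_add_right, hR]
    · rw [if_neg (hb2 hx hy), add_zero]
      by_cases h : y = bar (flipOn D x)
      · rw [if_pos h, if_pos (hb1.2 h), add_assoc, CharTwo.add_self_eq_zero, add_zero]
      · rw [if_neg h, if_neg (mt hb1.1 h), add_zero, add_zero]
    · rw [if_neg (c := y = bar (flipOn D x)), add_zero]
      intro h
      exact hy (by rw [hb1.2 h]; exact (hp1 x).2 hx)
    · rw [if_neg (c := flipOn D y = bar x), add_zero]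
      intro h
      exact hx ((hp1 x).1 (h ▸ hy))
  -- two quadratic forms with the same polar form and the same values on a basis
  set δ : (Ax → F) → F := fun z => R (L z) - R z with hδ
  have hadd : ∀ a b, δ (a + b) = δ a + δ b := by
    intro a b
    have hpl : QuadraticMap.polar ⇑R (L a) (L b) = QuadraticMap.polar ⇑R a b := by
      have : (R.polarBilin.compl₁₂ L L) = R.polarBilin := by
        refine (Pi.basisFun F Ax).ext fun x => (Pi.basisFun F Ax).ext fun y => ?_
        simpa [Pi.basisFun_apply] using hpol x y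
      exact LinearMap.congr_fun (LinearMap.congr_fun this a) b
    simp only [hδ, map_add, hRadd, hpl]
    ring
  have hzero : ∀ z, δ z = 0 := by
    intro z
    have hsum : ∀ s : Finset Ax, δ (∑ y ∈ s, z y • Pi.single y (1 : F)) = 0 := by
      intro s
      induction s using Finset.induction_on with
      | empty => simp [hδ]
      | insert y s hy ih =>
        rw [Finset.sum_insert hy, hadd, ih, add_zero]
        simp only [hδ, map_smul, QuadraticMap.map_smul, hval, hR0, smul_zero, sub_zero]
    convert hsum Finset.univ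
    exact pi_eq_sum_univ' z
  exact sub_eq_zero.1 (hzero z)

/-- A root element moving two factors is not in the wreath product. -/
theorem unitOp_notMem_tw [CharP F 2] [Fintype F] [DecidableEq F] {i j : Fin t × Fin m} (hij : i.1 ≠ j.1) :
    unitOp F (Finset.insert_nonempty i {j}) (fun _ _ => (0 : Fin 2)) ∉ twGroup F t m := by
  classical
  rintro ⟨σ, g, hu⟩
  replace hu : 1 + nop F ({i, j} : Finset (Fin t × Fin m)) (fun _ _ => (0 : Fin 2)) = tens σ (fun l => (g l : Matrix Di Di F)) := hu
  let z : Ax := fun _ _ => 0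
  let y : Ax := flipOn {i, j} z
  have hyz : y ≠ z := fun e => by
    have := congrFun (congrFun e i.1) i.2
    simp [y, z, flipOn] at this
  have hyy := congrFun (congrFun hu y) y
  have hzy := congrFun (congrFun hu z) y
  simp [nop, op, y, z, flipOn, tens, Ne.symm hyz] at hyy hzy
  let w : Ax := fun l => if l = i.1 then y l else z l
  have hw : (1 + nop F ({i, j} : Finset (Fin t × Fin m)) (fun _ _ => (0 : Fin 2))) w y = 0 := by
    have h1 : w ≠ y := fun e => by
      have := congrFun (congrFun e j.1) j.2
      simp [w, Ne.symm hij, y, z, flipOn] at this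
    rw [Matrix.add_apply, Matrix.one_apply_ne h1, zero_add]
    simp only [nop, op, Matrix.of_apply]
    rw [if_neg]
    rintro ⟨h, -⟩
    have := h i (by simp)
    simp [w, y, z, flipOn] at this
  rw [hu] at hw
  simp only [tens, Matrix.of_apply] at hw
  obtain ⟨l, -, hl⟩ := Finset.prod_eq_zero_iff.1 hw
  by_cases hli : l = i.1
  · simp only [w, hli, if_true] at hl
    exact one_ne_zero (hyy.trans (Finset.prod_eq_zero (Finset.mem_univ i.1) hl))
  · simp only [w, hli, if_false] at hl
    exact one_ne_zero (hzy.trans (Finset.prod_eq_zero (Finset.mem_univ l) hl))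

/-- One factor placed at position `l`. -/
def embed (l : Fin t) : Matrix Di Di F →ₗ[F] Matrix Ax Ax F where
  toFun X := Matrix.of fun x y => if (∀ i, i ≠ l → x i = y i) then X (x l) (y l) else 0
  map_add' X Y := by ext x y; simp only [Matrix.of_apply, Matrix.add_apply]; split_ifs <;> simp
  map_smul' c X := by ext x y; simp only [Matrix.of_apply, Matrix.smul_apply, RingHom.id_apply]; split_ifs <;> simp

theorem embed_eq_tens (l : Fin t) (X : Matrix Di Di F) :
    embed l X = tens 1 (fun i => if i = l then X else 1) := by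
  classical
  ext x y
  simp only [embed, tens, LinearMap.coe_mk, AddHom.coe_mk, Matrix.of_apply, Equiv.Perm.one_apply]
  by_cases h : ∀ i, i ≠ l → x i = y i
  · rw [if_pos h, Finset.prod_eq_single l (fun i _ hi => by rw [if_neg hi, h i hi, Matrix.one_apply_eq]) (by simp), if_pos rfl]
  · rw [if_neg h]
    push_neg at h
    obtain ⟨i, hi, hne⟩ := h
    exact (Finset.prod_eq_zero (Finset.mem_univ i) (by rw [if_neg hi]; exact Matrix.one_apply_ne hne)).symm

/-- The one-site operator inside one factor. -/
def sop (F : Type*) [Field F] (s : Fin m) (a : Fin 2) : Matrix Di Di F :=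
  op F (fun x : Di => x s = a) (fun x => Function.update x s (Fin.rev (x s)))

theorem embed_sop (l : Fin t) (s : Fin m) (a : Fin 2) :
    embed l (sop F s a) = nop F {(l, s)} (fun _ _ => a) := by
  classical
  ext x y
  simp only [embed, sop, nop, op, LinearMap.coe_mk, AddHom.coe_mk, Matrix.of_apply, Finset.mem_singleton, forall_eq]
  have key : ((∀ i, i ≠ l → x i = y i) ∧ y l = Function.update (x l) s (Fin.rev (x l s))) ↔ y = flipOn {(l, s)} x := by
    constructor
    · rintro ⟨h1, h2⟩
      funext i s'
      by_cases hi : i = l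
      · subst hi
        rw [h2]
        by_cases hs : s' = s
        · subst hs; simp [flipOn]
        · simp [flipOn, hs]
      · rw [← h1 i hi]; simp [flipOn, hi]
    · rintro rfl
      refine ⟨fun i hi => funext fun s' => by simp [flipOn, hi], funext fun s' => ?_⟩
      by_cases hs : s' = s
      · subst hs; simp [flipOn]
      · simp [flipOn, hs]
  by_cases hA : x l s = a <;> simp [hA] <;> split_ifs <;> simp_all

theorem sop_sq (s : Fin m) (a : Fin 2) : sop F s a * sop F s a = 0 := by
  rw [sop, op_mul]
  refine op_eq_zero _ _ fun x ⟨h1, h2⟩ => ?_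
  rw [Function.update_self, h1] at h2
  exact fin2_rev_ne _ h2

/-- The standard form of one factor. -/
def jd (F : Type*) [Field F] (m : ℕ) : Matrix Di Di F :=
  Matrix.of fun a b => if b = (fun s => Fin.rev (a s)) then 1 else 0

theorem fun_one (x : Fin 1 → Fin 2) : x = ![x 0] := by
  funext s; fin_cases s; rfl

theorem fun_two (x : Fin 2 → Fin 2) : x = ![x 0, x 1] := by
  funext s; fin_cases s <;> rfl

/-- Square-zero self-adjoint alternating operators of one factor lie in the span of the site operators. -/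
theorem site_mem [CharP F 2] (hm : m = 1 ∨ m = 2) {X : Matrix Di Di F} (hX : X * X = 0)
    (hA : m = 2 → ∀ w : Di → F, w ⬝ᵥ (jd F m *ᵥ (X *ᵥ w)) = 0) :
    X ∈ Submodule.span F (insert (1 : Matrix Di Di F) (Set.range fun sa : Fin m × Fin 2 => sop F sa.1 sa.2)) := by
  classical
  have mem1 : (1 : Matrix Di Di F) ∈ Submodule.span F (insert (1 : Matrix Di Di F)
      (Set.range fun sa : Fin m × Fin 2 => sop F sa.1 sa.2)) := Submodule.subset_span (Or.inl rfl)
  have mems : ∀ s a, sop F s a ∈ Submodule.span F (insert (1 : Matrix Di Di F)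
      (Set.range fun sa : Fin m × Fin 2 => sop F sa.1 sa.2)) := fun s a => Submodule.subset_span (Or.inr ⟨(s, a), rfl⟩)
  rcases hm with rfl | rfl
  · have hd : X ![0] ![0] = X ![1] ![1] := by
      have h0 := congrFun (congrFun hX ![0]) ![0]
      have h1 := congrFun (congrFun hX ![1]) ![1]
      rw [Matrix.mul_apply, show (Finset.univ : Finset (Fin 1 → Fin 2)) = {![0], ![1]} by decide,
        Finset.sum_pair (by decide), Matrix.zero_apply] at h0 h1
      refine CharTwo.sq_inj.1 ?_
      have h2 := h0.trans h1.symm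
      linear_combination h2
    have e : X = X ![0] ![0] • 1 + (X ![0] ![1] • sop F 0 0 + X ![1] ![0] • sop F 0 1) := by
      ext x y
      rw [fun_one x, fun_one y]
      generalize x 0 = a; generalize y 0 = b
      fin_cases a <;> fin_cases b <;> simp [sop, op, Matrix.one_apply, hd, funext_iff, Fin.forall_fin_one]
    rw [e]
    exact add_mem (Submodule.smul_mem _ _ mem1) (add_mem (Submodule.smul_mem _ _ (mems 0 0)) (Submodule.smul_mem _ _ (mems 0 1)))
  · have hA' := hA rfl
    let rv : (Fin 2 → Fin 2) → (Fin 2 → Fin 2) := fun a s => Fin.rev (a s)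
    have hform : ∀ w : (Fin 2 → Fin 2) → F, ∑ a, w a * (X *ᵥ w) (rv a) = 0 := by
      intro w
      rw [← hA' w, dotProduct]
      refine Finset.sum_congr rfl fun a _ => ?_
      simp [jd, Matrix.mulVec, dotProduct, rv]
    have hdiag : ∀ b, X (rv b) b = 0 := by
      intro b
      have := hform (Pi.single b 1)
      rwa [Finset.sum_eq_single b (fun a _ h => by rw [Pi.single_eq_of_ne h, zero_mul]) (by simp), Pi.single_eq_same,
        one_mul, Matrix.mulVec_single_one, Matrix.col_apply] at this
    have hpair : ∀ a b, X (rv a) b = X (rv b) a := by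
      intro a b
      rcases eq_or_ne a b with rfl | hab
      · rfl
      have := hform (Pi.single a 1 + Pi.single b 1)
      rw [← Finset.sum_subset (Finset.subset_univ {a, b}) (fun c _ hc => by
          simp at hc; simp [hc.1, hc.2]), Finset.sum_pair hab] at this
      simp [Matrix.mulVec_add, hab, Ne.symm hab, hdiag] at this
      exact CharTwo.add_eq_zero.1 this
    have p1 := hpair ![0, 0] ![0, 1]
    have p2 := hpair ![0, 0] ![1, 0]
    have p3 := hpair ![1, 1] ![0, 1]
    have p4 := hpair ![1, 1] ![1, 0]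
    have p5 := hpair ![0, 0] ![1, 1]
    have p6 := hpair ![0, 1] ![1, 0]
    have q1 := hdiag ![0, 0]
    have q2 := hdiag ![0, 1]
    have q3 := hdiag ![1, 0]
    have q4 := hdiag ![1, 1]
    have r00 : rv ![0, 0] = ![1, 1] := by decide
    have r01 : rv ![0, 1] = ![1, 0] := by decide
    have r10 : rv ![1, 0] = ![0, 1] := by decide
    have r11 : rv ![1, 1] = ![0, 0] := by decide
    rw [r00] at p1 p2 p5 q1
    rw [r01] at p1 p3 p6 q2
    rw [r10] at p2 p4 p6 q3
    rw [r11] at p3 p4 p5 q4
    have hd : X ![0, 0] ![0, 0] = X ![0, 1] ![0, 1] := by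
      have h0 := congrFun (congrFun hX ![0, 0]) ![0, 0]
      have h1 := congrFun (congrFun hX ![0, 1]) ![0, 1]
      rw [Matrix.mul_apply, show (Finset.univ : Finset (Fin 2 → Fin 2)) = {![0, 0], ![0, 1], ![1, 0], ![1, 1]} by decide,
        Finset.sum_insert (by decide), Finset.sum_insert (by decide), Finset.sum_pair (by decide), Matrix.zero_apply] at h0 h1
      refine CharTwo.sq_inj.1 ?_
      linear_combination h0 - h1 - X ![0, 0] ![1, 1] * q1 + X ![0, 1] ![1, 0] * q2 + X ![0, 1] ![1, 1] * p1 -
        X ![1, 0] ![0, 0] * p4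
    have e : X = X ![0, 0] ![0, 0] • 1 + (X ![0, 0] ![1, 0] • sop F 0 0 + (X ![1, 0] ![0, 0] • sop F 0 1 +
        (X ![0, 0] ![0, 1] • sop F 1 0 + X ![0, 1] ![0, 0] • sop F 1 1))) := by
      ext x y
      rw [fun_two x, fun_two y]
      generalize x 0 = a; generalize x 1 = a'; generalize y 0 = b; generalize y 1 = b'
      fin_cases a <;> fin_cases a' <;> fin_cases b <;> fin_cases b' <;>
        simp [sop, op, Matrix.one_apply, funext_iff, Fin.forall_fin_two] <;>
        simp_all
    rw [e]
    exact add_mem (Submodule.smul_mem _ _ mem1) (add_mem (Submodule.smul_mem _ _ (mems 0 0))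
      (add_mem (Submodule.smul_mem _ _ (mems 0 1)) (add_mem (Submodule.smul_mem _ _ (mems 1 0)) (Submodule.smul_mem _ _ (mems 1 1)))))

theorem sop_alt [CharP F 2] (s : Fin 2) (a : Fin 2) (w : (Fin 2 → Fin 2) → F) :
    w ⬝ᵥ (jd F 2 *ᵥ (sop F s a *ᵥ w)) = 0 := by
  have hu : (Finset.univ : Finset (Fin 2 → Fin 2)) = {![0, 0], ![0, 1], ![1, 0], ![1, 1]} := by decide
  simp only [dotProduct, Matrix.mulVec, hu]
  fin_cases s <;> fin_cases a <;>
    simp [sop, op, jd, funext_iff, Fin.forall_fin_two] <;>
    rw [mul_comm] <;> exact CharTwo.add_self_eq_zero _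

/-- Wreath products of similitudes stabilise the span. -/
theorem tw_mem_siteStab [CharP F 2] [Fintype F] [DecidableEq F] (hm : m = 1 ∨ m = 2) {u : GL Ax F}
    {σ : Equiv.Perm (Fin t)} {g : Fin t → GL Di F} (hu : (u : Matrix Ax Ax F) = tens σ (fun i => (g i : Matrix Di Di F)))
    (hg : ∀ i, ∃ μ : F, (g i : Matrix Di Di F)ᵀ * jd F m * (g i : Matrix Di Di F) = μ • jd F m) :
    u ∈ siteStab F t m := by
  refine mem_siteStab fun ⟨l, s⟩ a => ?_
  rw [← embed_sop]
  set i := σ.symm l
  set G := (g i : Matrix Di Di F)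
  set G' := ((g i)⁻¹ : GL Di F)
  set X' : Matrix Di Di F := G * sop F s a * (G' : Matrix Di Di F) with hX'
  have hcomm : (u : Matrix Ax Ax F) * embed l (sop F s a) = embed i X' * (u : Matrix Ax Ax F) := by
    rw [hu, embed_eq_tens, embed_eq_tens, tens_mul, tens_mul]
    congr 1
    funext j
    simp only [Equiv.Perm.one_apply]
    by_cases hj : j = i
    · subst hj
      rw [if_pos (σ.apply_symm_apply l), if_pos rfl, hX', mul_assoc _ (G' : Matrix Di Di F),
        show (G' : Matrix Di Di F) * (g (σ.symm l) : Matrix Di Di F) = 1 by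
          rw [← Units.val_mul, inv_mul_cancel, Units.val_one], mul_one]
    · rw [if_neg (fun e => hj (by rw [show i = σ.symm l from rfl, ← e, σ.symm_apply_apply])), if_neg hj, mul_one, one_mul]
  rw [hcomm, mul_assoc, ← Units.val_mul, mul_inv_cancel, Units.val_one, mul_one]
  have hGG : G * (G' : Matrix Di Di F) = 1 := by rw [← Units.val_mul, mul_inv_cancel, Units.val_one]
  have hG'G : (G' : Matrix Di Di F) * G = 1 := by rw [← Units.val_mul, inv_mul_cancel, Units.val_one]
  have hX2 : X' * X' = 0 := by
    rw [hX', show G * sop F s a * (G' : Matrix Di Di F) * (G * sop F s a * (G' : Matrix Di Di F)) =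
      G * (sop F s a * ((G' : Matrix Di Di F) * G) * sop F s a) * (G' : Matrix Di Di F) by simp only [mul_assoc],
      hG'G, mul_one, sop_sq, mul_zero, zero_mul]
  have hmem := site_mem (F := F) hm hX2 fun hm2 w => by
    subst hm2
    obtain ⟨μ, hμ⟩ := hg i
    set w' := (G' : Matrix (Fin 2 → Fin 2) (Fin 2 → Fin 2) F) *ᵥ w
    have hw : w = G *ᵥ w' := by rw [Matrix.mulVec_mulVec, hGG, Matrix.one_mulVec]
    rw [show X' *ᵥ w = G *ᵥ (sop F s a *ᵥ w') by rw [hX', ← Matrix.mulVec_mulVec, ← Matrix.mulVec_mulVec]]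
    conv_lhs => rw [hw]
    rw [Matrix.mulVec_mulVec _ (jd F 2), Matrix.dotProduct_mulVec, Matrix.vecMul_mulVec, ← mul_assoc, hμ,
      ← Matrix.dotProduct_mulVec, Matrix.smul_mulVec, dotProduct_smul, sop_alt, smul_zero]
  generalize X' = Y at hmem
  induction hmem using Submodule.span_induction with
  | mem Y hY =>
    rcases hY with rfl | ⟨⟨s', a'⟩, rfl⟩
    · rw [embed_eq_tens, show (fun j => if j = i then (1 : Matrix Di Di F) else 1) = fun _ => 1 from funext fun j => ite_self _,
        tens_one]
      exact Submodule.subset_span (Or.inl rfl)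
    · rw [embed_sop]; exact nop_single_mem _ _
  | zero => rw [map_zero]; exact zero_mem _
  | add a b _ _ ha hb => rw [map_add]; exact add_mem ha hb
  | smul c a _ ha => rw [map_smul]; exact Submodule.smul_mem _ c ha

end Cfsg.Agent.GeomClasses.SpinWreath
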