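import Cfsg.Agent.GeomClasses.SubfieldInUnitary
import Cfsg.Agent.GeomClasses.UnitaryInSLGeneral

/-! # Subfield groups of rational structures in special unitary groups -/

set_option autoImplicit false
set_option linter.unusedSectionVars false

namespace Cfsg.Agent.GeomClasses.SubfieldSU

open Matrix Cfsg.Agent.GeomClasses Cfsg.Agent.GeomClasses.SubfieldSL Cfsg.Agent.GeomClasses.Unitary

variable {F : Type*} [Field F] [Fintype F] {q n r : ℕ}

local notation "hh" => Cfsg.hermForm n F q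
local notation "Vec" => (Fin n → F)
local notation "Mx" => Matrix (Fin n) (Fin n) F

/-- A rational structure differs from the standard one by a rational change of basis. -/
theorem exists_std {F₀ : Subfield F} (D : Field' q n r F₀) (P : GL (Fin n) F)
    (hP : Cfsg.Geo.IsFormRationalStructure (Cfsg.hermForm n F q) F₀ 1 P) :
    ∃ R ∈ (Matrix.GeneralLinearGroup.map (n := Fin n) (F₀.subtype : F₀ →+* F)).range, P * R ∈ Cfsg.GU n F q := by
  classical
  obtain ⟨q₀, h₀, hq⟩ := D.exists_q₀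
  letI : Fintype F₀ := Fintype.ofFinite _
  have hF₀ := D.card_sub h₀
  have hemb : ∀ x : F₀, (x : F) ^ q = ((Cfsg.Agent.Forms.frobQ hF₀ x : F₀) : F) := fun x => D.pow_sub h₀ hq x
  set em : (Fin n → F₀) → Vec := fun u i => (u i : F) with hem
  have hadd : ∀ u v, em (u + v) = em u + em v := fun u v => rfl
  have hsmul : ∀ (c : F₀) u, em (c • u) = (c : F) • em u := fun c u => rfl
  let f : (Fin n → F₀) → (Fin n → F₀) → F₀ := fun u v =>
    ⟨hh ((P : Mx) *ᵥ em u) ((P : Mx) *ᵥ em v), by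
      have := hP (em u) (em v) (fun i => (u i).2) (fun i => (v i).2)
      rwa [one_mul] at this⟩
  have hf : ∀ u v, ((f u v : F₀) : F) = hh ((P : Mx) *ᵥ em u) ((P : Mx) *ᵥ em v) := fun u v => rfl
  let σ : F₀ ≃+* F₀ := RingEquiv.ofBijective (Cfsg.Agent.Forms.frobQ hF₀)
    (Function.Involutive.bijective (Cfsg.Agent.Forms.frobQ_frobQ hF₀))
  have hu : Cfsg.Geo.IsUnitaryForm σ f := by
    refine
      { involutive := fun a => Cfsg.Agent.Forms.frobQ_frobQ hF₀ a
        ne_refl := fun h => ?_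
        add_left := fun u v w => Subtype.ext ?_
        smul_left := fun c u w => Subtype.ext ?_
        herm := fun u v => Subtype.ext ?_
        nondegenerate := fun v hv => ?_ }
    · exact Cfsg.Agent.Forms.frobQ_ne_id hF₀ (RingHom.ext fun a => (congrArg (fun e : F₀ ≃+* F₀ => e a) h : _))
    · rw [AddMemClass.coe_add, hf, hf, hf, hadd, Matrix.mulVec_add, hh_add_left D.hF]
    · rw [MulMemClass.coe_mul, hf, hf, hsmul, Matrix.mulVec_smul, hh_smul_left D.hF]
    · show hh _ _ = ((Cfsg.Agent.Forms.frobQ hF₀ (f v u) : F₀) : F)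
      rw [← hemb, hf, hh_conj D.hF]
    · have hne : (P : Mx) *ᵥ em v ≠ 0 := fun e => hv (funext fun i => Subtype.ext (by
        have h1 := congrArg (((P⁻¹ : GL (Fin n) F) : Mx) *ᵥ ·) e
        simp only [Matrix.mulVec_mulVec, ← Units.val_mul, inv_mul_cancel, Units.val_one, Matrix.one_mulVec,
          Matrix.mulVec_zero] at h1
        exact congrFun h1 i))
      obtain ⟨i, hi⟩ : ∃ i, hh ((P : Mx) *ᵥ Pi.single i 1) ((P : Mx) *ᵥ em v) ≠ 0 := by
        by_contra hcon
        push Not at hcon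
        refine hne ((Cfsg.Agent.Forms.isForm_herm (n := n) D.hF).nondeg _ fun w => ?_)
        have h2 : (Cfsg.Agent.Forms.hermB n D.hF ((P : Mx) *ᵥ em v)).comp (Matrix.mulVecLin (P : Mx)) = 0 :=
          (Pi.basisFun F (Fin n)).ext fun i => by
            rw [Pi.basisFun_apply, LinearMap.comp_apply, Matrix.mulVecLin_apply, LinearMap.zero_apply]
            exact hcon i
        have h3 := LinearMap.congr_fun h2 (((P⁻¹ : GL (Fin n) F) : Mx) *ᵥ w)
        rwa [LinearMap.comp_apply, Matrix.mulVecLin_apply, Matrix.mulVec_mulVec, ← Units.val_mul, mul_inv_cancel,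
          Units.val_one, Matrix.one_mulVec] at h3
      have he : em (Pi.single i 1) = Pi.single i 1 := funext fun j => by
        rcases eq_or_ne j i with rfl | hji <;> simp [hem, *]
      refine ⟨⟨Pi.single i 1, fun h => hi ?_⟩, ⟨Pi.single i 1, fun h => hi ?_⟩⟩ <;>
        first
        | (have h1 := congrArg Subtype.val h; rw [hf, he] at h1; exact hh_comm_zero D.hF h1)
        | (have h1 := congrArg Subtype.val h; rw [hf, he] at h1; exact h1)
  obtain ⟨q', R, hF', hR⟩ := exists_congr_std hu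
  obtain rfl : q' = q₀ := Nat.pow_left_injective two_ne_zero (hF'.symm.trans hF₀)
  let φ := Matrix.GeneralLinearGroup.map (n := Fin n) (F₀.subtype : F₀ →+* F)
  refine ⟨φ R⁻¹, ⟨_, rfl⟩, fun u v => ?_⟩
  have hφ : ∀ (g : GL (Fin n) F₀) x, (φ g : Mx) *ᵥ em x = em ((g : Matrix (Fin n) (Fin n) F₀) *ᵥ x) := fun g x => by
    funext i
    simp [φ, hem, Matrix.mulVec, dotProduct]
  set A := ((P * φ R⁻¹ : GL (Fin n) F) : Mx) with hA
  have hrr : ∀ x y : Fin n → F₀, hh (A *ᵥ em x) (A *ᵥ em y) = hh (em x) (em y) := by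
    intro x y
    have h1 := congrArg Subtype.val (hR (((R⁻¹ : GL (Fin n) F₀) : Matrix (Fin n) (Fin n) F₀) *ᵥ x)
      (((R⁻¹ : GL (Fin n) F₀) : Matrix (Fin n) (Fin n) F₀) *ᵥ y))
    simp only [Matrix.mulVec_mulVec, ← Units.val_mul, mul_inv_cancel, Units.val_one, Matrix.one_mulVec] at h1
    rw [hf] at h1
    rw [hA, Units.val_mul, ← Matrix.mulVec_mulVec, ← Matrix.mulVec_mulVec, hφ, hφ, h1]
    simp only [Cfsg.hermForm, AddSubmonoidClass.coe_finsetSum, MulMemClass.coe_mul, hem, ← D.pow_sub h₀ hq]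
  have hsingle : ∀ i, (Pi.single i 1 : Vec) = em (Pi.single i 1) := fun i => funext fun j => by
    rcases eq_or_ne j i with rfl | hji <;> simp [hem, *]
  have h1 : ∀ (u : Vec) (y : Fin n → F₀), hh (A *ᵥ u) (A *ᵥ em y) = hh u (em y) := fun u y => by
    have h2 : (Cfsg.Agent.Forms.hermB n D.hF (A *ᵥ em y)).comp (Matrix.mulVecLin A) =
        Cfsg.Agent.Forms.hermB n D.hF (em y) := (Pi.basisFun F (Fin n)).ext fun i => by
      rw [Pi.basisFun_apply, LinearMap.comp_apply, Matrix.mulVecLin_apply]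
      show hh _ _ = hh _ _
      rw [hsingle, hrr]
    exact LinearMap.congr_fun h2 u
  have h3 : (Cfsg.Agent.Forms.hermB n D.hF (A *ᵥ v)).comp (Matrix.mulVecLin A) =
      Cfsg.Agent.Forms.hermB n D.hF v := (Pi.basisFun F (Fin n)).ext fun i => by
    rw [Pi.basisFun_apply, LinearMap.comp_apply, Matrix.mulVecLin_apply]
    show hh _ _ = hh _ _
    rw [← hh_conj D.hF (A *ᵥ v), ← hh_conj D.hF v, hsingle, h1]
  exact LinearMap.congr_fun h3 u

/-- The subfield group of a rational structure is maximal. -/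
theorem maximal {F₀ : Subfield F} (D : Field' q n r F₀) (P : GL (Fin n) F)
    (hP : Cfsg.Geo.IsFormRationalStructure (Cfsg.hermForm n F q) F₀ 1 P) :
    Cfsg.Geo.IsMaximalIn (SUgl n F q) (Cfsg.Geo.subfieldSubgroup F₀ P ⊓ SUgl n F q) := by
  obtain ⟨R, hR, hPR⟩ := exists_std D P hP
  set P' := P * R
  set K := (Matrix.GeneralLinearGroup.map (n := Fin n) (F₀.subtype : F₀ →+* F)).range ⊔ Cfsg.Geo.scalars (Fin n) F
  have hRK : R ∈ K := Subgroup.mem_sup_left hR
  let e := MulAut.conj P'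
  have hsub : Cfsg.Geo.subfieldSubgroup F₀ P = K.map e.toMonoidHom := by
    ext g
    rw [SubfieldScaled.mem_subfieldSubgroup_iff, Subgroup.mem_map]
    constructor
    · intro h
      refine ⟨P'⁻¹ * g * P', ?_, by simp [e]; group⟩
      rw [show P'⁻¹ * g * P' = R⁻¹ * (P⁻¹ * g * P) * R by simp [P']; group]
      exact K.mul_mem (K.mul_mem (K.inv_mem hRK) h) hRK
    · rintro ⟨k, hk, rfl⟩
      rw [show P⁻¹ * e.toMonoidHom k * P = R * k * R⁻¹ by simp [e, P']; group]
      exact K.mul_mem (K.mul_mem hRK hk) (K.inv_mem hRK)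
  have hS : (SUgl n F q).map e.toMonoidHom = SUgl n F q := by
    haveI : (Cfsg.Geo.specialLinear (Fin n) F).Normal := MonoidHom.normal_ker _
    ext x
    rw [Subgroup.mem_map]
    constructor
    · rintro ⟨y, ⟨hy, hy'⟩, rfl⟩
      exact ⟨(Cfsg.GU n F q).mul_mem ((Cfsg.GU n F q).mul_mem hPR hy) ((Cfsg.GU n F q).inv_mem hPR), Subgroup.Normal.conj_mem inferInstance y hy' P'⟩
    · rintro ⟨hx, hx'⟩
      refine ⟨P'⁻¹ * x * P', ⟨(Cfsg.GU n F q).mul_mem ((Cfsg.GU n F q).mul_mem ((Cfsg.GU n F q).inv_mem hPR) hx) hPR, ?_⟩, by simp [e]; group⟩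
      simpa using Subgroup.Normal.conj_mem inferInstance x hx' P'⁻¹
  have h := isMaximalIn_map e D.maximal
  rw [Subgroup.map_inf K (SUgl n F q) _ e.injective, hS] at h
  rwa [hsub]

end Cfsg.Agent.GeomClasses.SubfieldSU
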