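import Cfsg.Agent.GeomClasses.SubfieldInvolution
import Cfsg.Agent.GeomClasses.OrthPreserveDerange
import Cfsg.Agent.Linear.PrimeOrderClasses

/-!
Elements with scalar prime power inside subfield subgroups of `SL_n`: a conjugate lies in the subgroup as soon as a
scalar multiple has its characteristic polynomial over the subfield.
-/

set_option autoImplicit false

namespace Cfsg.Agent.GeomClasses.SubfieldPrimeOrder

open Matrix Polynomial UniqueFactorizationMonoid

variable {F : Type*} [Field F] [Fintype F] {n : ℕ} {F₀ : Subfield F}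

local notation "Mx" => Matrix (Fin n) (Fin n) F
local notation "SLn" => Matrix.SpecialLinearGroup (Fin n) F
set_option quotPrecheck false in
local notation "Hsub" => (Cfsg.Geo.subfieldSubgroup F₀ (1 : GL (Fin n) F)).comap
      (Matrix.SpecialLinearGroup.toGL : Matrix.SpecialLinearGroup (Fin n) F →* GL (Fin n) F)

theorem mem_iff {q₀ : ℕ} (hF₀ : Nat.card F₀ = q₀) (a : F) : a ∈ F₀ ↔ a ^ q₀ = a := by
  classical
  haveI := Fintype.ofFinite F₀
  have hF₀' : Fintype.card F₀ = q₀ := by rw [← hF₀, Nat.card_eq_fintype_card]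
  have hfix : ∀ b : F₀, (b : F) ^ q₀ = b := fun b => by
    rw [← hF₀']
    exact_mod_cast congrArg Subtype.val (FiniteField.pow_card b)
  refine ⟨fun h => hfix ⟨a, h⟩, fun h => ?_⟩
  by_contra ha
  have h2 : 1 < q₀ := hF₀' ▸ Fintype.one_lt_card
  set P : F[X] := X ^ q₀ - X
  have hP : P ≠ 0 := FiniteField.X_pow_card_sub_X_ne_zero F h2
  have hdeg : P.natDegree = q₀ := FiniteField.X_pow_card_sub_X_natDegree_eq F h2
  have hle : insert a ((Finset.univ : Finset F₀).image Subtype.val) ⊆ P.roots.toFinset := by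
    intro b hb
    rw [Multiset.mem_toFinset, mem_roots hP]
    rcases Finset.mem_insert.1 hb with rfl | hb
    · simp [P, h]
    · obtain ⟨b, -, rfl⟩ := Finset.mem_image.1 hb
      simp [P, hfix b]
  have hc := (Finset.card_le_card hle).trans ((Multiset.toFinset_card_le _).trans (card_roots' P))
  rw [Finset.card_insert_of_notMem (fun hb => by
      obtain ⟨b, -, rfl⟩ := Finset.mem_image.1 hb
      exact ha b.2), Finset.card_image_of_injective _ Subtype.val_injective, Finset.card_univ, hF₀', hdeg] at hc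
  omega

/-- A scalar multiple with characteristic polynomial over the subfield puts a conjugate into the subgroup. -/
theorem conj_of_charpoly (hn : 1 ≤ n) (x : SLn) {c : F} (hc : c ≠ 0) {m : ℕ} (hm : (m : F) ≠ 0)
    (hx : (c • (x : Mx)) ^ m = 1) (hP : ∀ j, (c • (x : Mx)).charpoly.coeff j ∈ F₀) :
    ∃ P : SLn, P⁻¹ * x * P ∈ Hsub := by
  classical
  haveI : Nonempty (Fin n) := ⟨⟨0, hn⟩⟩
  haveI := Fintype.ofFinite F₀
  have hlift : (c • (x : Mx)).charpoly ∈ lifts F₀.subtype :=
    (lifts_iff_coeff_lifts _).2 fun j => ⟨⟨_, hP j⟩, rfl⟩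
  obtain ⟨P₀, hP₀, hdeg, hmon⟩ := lifts_and_degree_eq_and_monic hlift (Matrix.charpoly_monic _)
  have hdeg' : P₀.natDegree = n := by
    rw [natDegree_eq_of_degree_eq hdeg, Matrix.charpoly_natDegree_eq_dim, Fintype.card_fin]
  have h0 : P₀.coeff 0 ≠ 0 := fun h => by
    have h1 := Matrix.det_eq_sign_charpoly_coeff (c • (x : Mx))
    rw [← hP₀, coeff_map, h, map_zero, mul_zero, Matrix.det_smul, x.2, mul_one] at h1
    exact pow_ne_zero _ hc h1
  obtain ⟨a, m', hm', ha, hca⟩ := Forms.exists_semisimple_charpoly n P₀ hmon hdeg' h0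
  have hm'F : (m' : F) ≠ 0 := fun h => hm' (F₀.subtype.injective (by rw [map_natCast, map_zero]; exact h))
  set A : Mx := (LinearMap.toMatrix' a).map F₀.subtype with hA
  have hA1 : A ^ m' = 1 := by
    rw [hA, ← RingHom.mapMatrix_apply, ← map_pow,
      show LinearMap.toMatrix' a ^ m' = LinearMap.toMatrix' (a ^ m') from (map_pow LinearMap.toMatrixAlgEquiv' a m').symm,
      ha, LinearMap.toMatrix'_one, map_one]
  have hAc : A.charpoly = (c • (x : Mx)).charpoly := by
    rw [hA, Matrix.charpoly_map, show (LinearMap.toMatrix' a).charpoly = a.charpoly by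
      rw [← Matrix.charpoly_toLin', Matrix.toLin'_toMatrix'], hca, hP₀]
  obtain ⟨e, he1, he⟩ := Forms.exists_conj_of_charpoly_eq (m := m * m') (by rw [Nat.cast_mul]; exact mul_ne_zero hm hm'F) n
    (Matrix.toLin' (c • (x : Mx))) (Matrix.toLin' A)
    (show Matrix.toLinAlgEquiv' (c • (x : Mx)) ^ (m * m') = 1 by rw [← map_pow, pow_mul, hx, one_pow, map_one])
    (show Matrix.toLinAlgEquiv' A ^ (m * m') = 1 by rw [← map_pow, mul_comm, pow_mul, hA1, one_pow, map_one])
    (by rw [Matrix.charpoly_toLin', Matrix.charpoly_toLin', hAc])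
  set M := LinearMap.toMatrix' (e : Module.End F (Fin n → F)) with hM
  have hdM : M.det = 1 := by rw [hM, LinearMap.det_toMatrix', he1]
  have hMx : M * (c • (x : Mx)) = A * M := by
    apply Matrix.toLin'.injective
    rw [Matrix.toLin'_mul, Matrix.toLin'_mul, hM, Matrix.toLin'_toMatrix']
    exact LinearMap.ext he
  let Q : SLn := ⟨M, hdM⟩
  refine ⟨Q⁻¹, ?_⟩
  rw [inv_inv, Subgroup.mem_comap, SubfieldScaled.mem_subfieldSubgroup_iff, inv_one, one_mul, mul_one]
  set g := Matrix.SpecialLinearGroup.toGL (Q * x * Q⁻¹)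
  have hg : (g : Mx) = c⁻¹ • A := by
    show ((Q * x * Q⁻¹ : SLn) : Mx) = _
    rw [Matrix.SpecialLinearGroup.coe_mul, Matrix.SpecialLinearGroup.coe_mul, show (Q : Mx) = M from rfl,
      show M * (x : Mx) = c⁻¹ • (A * M) by rw [← hMx, Matrix.mul_smul, smul_smul, inv_mul_cancel₀ hc, one_smul],
      Matrix.smul_mul, mul_assoc, show M * ((Q⁻¹ : SLn) : Mx) = 1 by
        rw [show M = (Q : Mx) from rfl, ← Matrix.SpecialLinearGroup.coe_mul, mul_inv_cancel, Matrix.SpecialLinearGroup.coe_one],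
      mul_one]
  let s : GL (Fin n) F := Units.map (Matrix.scalar (Fin n) : F →+* Mx).toMonoidHom (Units.mk0 c⁻¹ (inv_ne_zero hc))
  have hs : ((s⁻¹ : GL (Fin n) F) : Mx) = c • 1 := by
    rw [Matrix.smul_one_eq_diagonal]
    show Matrix.diagonal (fun _ => (c⁻¹)⁻¹) = _
    rw [inv_inv]
  rw [show g = s * (s⁻¹ * g) by group]
  refine mul_mem (Subgroup.mem_sup_right ⟨_, rfl⟩) (Subgroup.mem_sup_left ?_)
  refine SubfieldSp.mem_range_of_rat' fun i j => ?_
  rw [Units.val_mul, hs, hg, Matrix.smul_mul, one_mul, smul_smul, mul_inv_cancel₀ hc, one_smul, hA]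
  exact (LinearMap.toMatrix' a i j).2

/-- A conjugate in the subgroup gives a scalar multiple over the subfield. -/
theorem of_mem (hn : 1 ≤ n) {x P : SLn} (h : P⁻¹ * x * P ∈ Hsub) :
    ∃ c : F, c ≠ 0 ∧ (∀ d ∈ F₀, ∀ j, ((d * c) • (x : Mx)).charpoly.coeff j ∈ F₀) ∧
      ∀ (r : ℕ) (z : F), (x : Mx) ^ r = z • 1 → c ^ r * z ∈ F₀ := by
  classical
  haveI : Nonempty (Fin n) := ⟨⟨0, hn⟩⟩
  rw [Subgroup.mem_comap, SubfieldScaled.mem_subfieldSubgroup_iff, inv_one, one_mul, mul_one] at h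
  obtain ⟨c, hc, hcm⟩ := SubfieldScaled.scaled_of_mem F₀ h
  let B : Matrix (Fin n) (Fin n) F₀ := Matrix.of fun i j => ⟨_, hcm i j⟩
  set Pu := Matrix.SpecialLinearGroup.toGL P
  have hB : B.map F₀.subtype = ((Pu⁻¹ : GL (Fin n) F) : Mx) * (c • (x : Mx)) * (Pu : Mx) := by
    rw [Matrix.mul_smul, Matrix.smul_mul]
    ext i j
    show c * _ = _
    rw [Matrix.smul_apply, smul_eq_mul]
    congr 2
  refine ⟨c, hc, fun d hd j => ?_, fun r z hz => ?_⟩
  · have h0 : ((⟨d, hd⟩ : F₀) • B).map F₀.subtype = d • B.map F₀.subtype := by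
      ext a b; rfl
    have h1 : (((⟨d, hd⟩ : F₀) • B).map F₀.subtype).charpoly = ((d * c) • (x : Mx)).charpoly := by
      rw [h0, hB, ← Matrix.smul_mul, ← Matrix.mul_smul, smul_smul, Matrix.coe_units_inv]
      exact Matrix.charpoly_units_conj' Pu _
    rw [← h1, Matrix.charpoly_map, coeff_map]
    exact (((⟨d, hd⟩ : F₀) • B).charpoly.coeff j).2
  · have h1 : (B.map F₀.subtype) ^ r = (c ^ r * z) • 1 := by
      rw [hB, Units.conj_pow', _root_.smul_pow, hz, smul_smul, Matrix.mul_smul, mul_one, Matrix.smul_mul, ← Units.val_mul,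
        inv_mul_cancel, Units.val_one]
    rw [← RingHom.mapMatrix_apply, ← map_pow] at h1
    have h2 := congrFun (congrFun h1 ⟨0, hn⟩) ⟨0, hn⟩
    simp only [RingHom.mapMatrix_apply, Matrix.map_apply, Matrix.smul_apply, Matrix.one_apply_eq, smul_eq_mul, mul_one] at h2
    rw [← h2]
    exact ((B ^ r) ⟨0, hn⟩ ⟨0, hn⟩).2

/-- Diagonal matrices with characteristic polynomial over the subfield have eigenvalues permuted by `a ↦ a^q₀`. -/
theorem perm_roots [DecidableEq F] {q₀ : ℕ} (hF₀ : Nat.card F₀ = q₀) (e : Fin n → F)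
    (hP : ∀ j, (Matrix.diagonal e).charpoly.coeff j ∈ F₀) (j : Fin n) :
    ∃ l, e l = e j ^ q₀ ∧ (Finset.univ.filter fun i => e i = e j).card = (Finset.univ.filter fun i => e i = e l).card := by
  haveI := Fintype.ofFinite F₀
  have hF₀' : Fintype.card F₀ = q₀ := by rw [← hF₀, Nat.card_eq_fintype_card]
  let σ : F →+* F := (FiniteField.frobeniusAlgHom F₀ F).toRingHom
  have hσ : ∀ a, σ a = a ^ q₀ := fun a => by
    show FiniteField.frobeniusAlgHom F₀ F a = _
    rw [FiniteField.coe_frobeniusAlgHom, hF₀']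
  have hfix : (Matrix.diagonal e).charpoly.map σ = (Matrix.diagonal e).charpoly := by
    ext i
    rw [coeff_map, hσ]
    exact (mem_iff hF₀ _).1 (hP i)
  rw [Matrix.charpoly_diagonal, Polynomial.map_prod] at hfix
  simp only [Polynomial.map_sub, Polynomial.map_X, map_C] at hfix
  have hms : (Finset.univ : Finset (Fin n)).val.map (fun i => σ (e i)) = (Finset.univ : Finset (Fin n)).val.map e := by
    have := congrArg Polynomial.roots hfix
    rwa [Finset.prod_eq_multiset_prod, Finset.prod_eq_multiset_prod,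
      show (fun i => X - C (σ (e i))) = (fun a => X - C a) ∘ (fun i => σ (e i)) from rfl, ← Multiset.map_map,
      roots_multiset_prod_X_sub_C, show (fun i => X - C (e i)) = (fun a => X - C a) ∘ e from rfl, ← Multiset.map_map,
      roots_multiset_prod_X_sub_C] at this
  have hmem : σ (e j) ∈ (Finset.univ : Finset (Fin n)).val.map e :=
    hms ▸ Multiset.mem_map.2 ⟨j, Finset.mem_univ j, rfl⟩
  obtain ⟨l, -, hl⟩ := Multiset.mem_map.1 hmem
  refine ⟨l, hl.trans (hσ _), ?_⟩
  have h1 := congrArg (Multiset.count (σ (e j))) hms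
  rw [Multiset.count_map, Multiset.count_map, ← hl] at h1
  have h2 : ∀ i, e l = σ (e i) ↔ e i = e j := fun i => by
    rw [hl]; exact ⟨fun h => (σ.injective h).symm, fun h => by rw [h]⟩
  simp only [h2, eq_comm (a := e l)] at h1
  exact h1

/-- The irreducible factors of the characteristic polynomial of an element of order `r` are defined over the
subfield when `q ≡ q₀` modulo `r`. -/
theorem coeff_mem {q q₀ r : ℕ} (hF₀ : Nat.card F₀ = q₀) (hq : Fintype.card F = q) (hqq : q₀ % r = q % r) (hr : 0 < r)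
    {Y : Mx} (hY : Y ^ r = 1) : ∀ j, Y.charpoly.coeff j ∈ F₀ := by
  classical
  haveI := Fintype.ofFinite F₀
  have hF₀' : Fintype.card F₀ = q₀ := by rw [← hF₀, Nat.card_eq_fintype_card]
  let σ : F →+* F := (FiniteField.frobeniusAlgHom F₀ F).toRingHom
  have hσ : ∀ a, σ a = a ^ q₀ := fun a => by
    show FiniteField.frobeniusAlgHom F₀ F a = _
    rw [FiniteField.coe_frobeniusAlgHom, hF₀']
  have hfac : ∀ f ∈ normalizedFactors Y.charpoly, f.map σ = f := by
    intro f hf
    have hirr := irreducible_of_normalized_factor f hf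
    have hmon : f.Monic := by
      rw [← normalize_normalized_factor f hf]
      exact monic_normalize hirr.ne_zero
    haveI := Fact.mk hirr
    have hdvd : f ∣ (Matrix.toLin' Y).charpoly := by
      rw [Matrix.charpoly_toLin']; exact dvd_of_mem_normalizedFactors hf
    obtain ⟨v, hv0, hv⟩ := Forms.exists_ker_of_dvd_charpoly _ hirr hdvd
    have hXr : f ∣ X ^ r - 1 := by
      refine (hirr.coprime_iff_not_dvd.not_left.1 fun hco => ?_)
      obtain ⟨u, w, huw⟩ := hco
      have h1 := congrArg (fun P => aeval (Matrix.toLin' Y) P v) huw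
      simp only [map_add, map_mul, map_one, map_sub, map_pow, aeval_X, LinearMap.add_apply, Module.End.mul_apply,
        Module.End.one_apply, hv, map_zero, zero_add] at h1
      rw [show Matrix.toLin' Y ^ r = 1 from (map_pow Matrix.toLinAlgEquiv' Y r).symm.trans (by rw [hY, map_one]), sub_self,
        LinearMap.zero_apply, map_zero] at h1
      exact hv0 h1.symm
    set θ := AdjoinRoot.root f with hθ
    have hfθ : f.eval₂ (algebraMap F (AdjoinRoot f)) θ = 0 := AdjoinRoot.eval₂_root f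
    have hθr : θ ^ r = 1 := by
      have h1 := (AdjoinRoot.mk_eq_zero).2 hXr
      rwa [map_sub, map_pow, AdjoinRoot.mk_X, map_one, sub_eq_zero] at h1
    have h1 : (f.map σ).eval₂ (algebraMap F (AdjoinRoot f)) (θ ^ q₀) = 0 := by
      haveI : Algebra F₀ (AdjoinRoot f) := inferInstance
      let φ : AdjoinRoot f →+* AdjoinRoot f := (FiniteField.frobeniusAlgHom F₀ (AdjoinRoot f)).toRingHom
      have hφ : ∀ a, φ a = a ^ q₀ := fun a => by
        show FiniteField.frobeniusAlgHom F₀ (AdjoinRoot f) a = _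
        rw [FiniteField.coe_frobeniusAlgHom, hF₀']
      have e1 := hom_eval₂ f (algebraMap F (AdjoinRoot f)) φ θ
      rw [hfθ, map_zero, hφ θ, show φ.comp (algebraMap F (AdjoinRoot f)) = (algebraMap F (AdjoinRoot f)).comp σ from
        RingHom.ext fun a => by rw [RingHom.comp_apply, RingHom.comp_apply, hφ, hσ, map_pow], ← eval₂_map] at e1
      exact e1.symm
    have h2 : aeval (θ ^ q) f = 0 := by
      have e1 := aeval_algHom_apply (FiniteField.frobeniusAlgHom F (AdjoinRoot f)) θ f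
      rw [FiniteField.coe_frobeniusAlgHom, hq] at e1
      simp only [aeval_def, hfθ] at e1 ⊢
      rw [e1, zero_pow (hq ▸ Fintype.card_pos).ne']
    have hθq : θ ^ q₀ = θ ^ q := by rw [pow_eq_pow_mod q₀ hθr, hqq, ← pow_eq_pow_mod q hθr]
    rw [← aeval_def, hθq] at h1
    have e1 := minpoly.eq_of_irreducible_of_monic hirr h2 hmon
    have hirr' : Irreducible (f.map σ) := by
      have hbij : Function.Bijective σ := Finite.injective_iff_bijective.1 σ.injective
      exact (MulEquiv.irreducible_iff (f := (Polynomial.mapEquiv (RingEquiv.ofBijective σ hbij)))).2 hirr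
    have e2 := minpoly.eq_of_irreducible_of_monic hirr' h1 (hmon.map σ)
    exact e2.trans e1.symm
  intro j
  rw [mem_iff hF₀, ← hσ, ← coeff_map]
  congr 1
  conv_rhs => rw [← Linear.PrimeOrderClasses.prod_normalizedFactors_monic Y.charpoly_monic]
  conv_lhs => rw [← Linear.PrimeOrderClasses.prod_normalizedFactors_monic Y.charpoly_monic]
  rw [Polynomial.map_multiset_prod, Multiset.map_congr rfl hfac, Multiset.map_id']

/-- When `r` is prime to the degree, `r` divides the index only through a factor `(q^m - 1)/(q₀^m - 1)`, `m ≥ 2`. -/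
theorem index_factor (hn : 2 ≤ n) {q k q₀ r : ℕ} [Fact r.Prime] (hq : Fintype.card F = q) (hF₀ : Nat.card F₀ = q₀)
    (hqk : q = q₀ ^ k) (hk : k.Prime) (hrk : r ≠ k) (hrq : ¬ r ∣ q)
    (h : r ∣ (Hsub).index) : ∃ m, 2 ≤ m ∧ m ≤ n ∧ r ∣ q ^ m - 1 ∧ ¬ r ∣ q₀ ^ m - 1 := by
  classical
  have hr := (Fact.out : r.Prime)
  let ψ : Matrix.SpecialLinearGroup (Fin n) F₀ →* SLn := Matrix.SpecialLinearGroup.map F₀.subtype
  have hψ : Function.Injective ψ := fun a b h => by
    ext i j
    exact congrFun (congrFun (congrArg Subtype.val h) i) j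
  have hle : ψ.range ≤ Hsub := by
    rintro _ ⟨a, rfl⟩
    show _ ∈ Cfsg.Geo.subfieldSubgroup F₀ 1
    haveI : Nonempty (Fin n) := ⟨⟨0, by omega⟩⟩
    rw [SubfieldScaled.mem_subfieldSubgroup_iff, inv_one, one_mul, mul_one]
    exact Subgroup.mem_sup_left ⟨Matrix.SpecialLinearGroup.toGL a, Units.ext rfl⟩
  replace h := h.trans (Subgroup.index_dvd_of_le hle)
  haveI := Fintype.ofFinite F₀
  have hF₀' : Fintype.card F₀ = q₀ := by rw [← hF₀, Nat.card_eq_fintype_card]
  have h1 := ψ.range.card_mul_index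
  rw [← Nat.card_congr (MonoidHom.ofInjective hψ).toEquiv] at h1
  have h2 := SubfieldInvolution.card_SL (n := n) (by omega) hq
  have h3 := SubfieldInvolution.card_SL (n := n) (by omega) hF₀'
  obtain ⟨N, hN⟩ := OrthPreserveDerange.prod_gl q n
  obtain ⟨N₀, hN₀⟩ := OrthPreserveDerange.prod_gl q₀ n
  rw [hN] at h2
  rw [hN₀] at h3
  have hq0 : 1 < q₀ := hF₀' ▸ Fintype.one_lt_card
  have hdiv : ∀ m, ∃ o, q ^ m - 1 = (q₀ ^ m - 1) * o := fun m => by
    obtain ⟨o, ho⟩ := Nat.sub_dvd_pow_sub_pow (q₀ ^ m) 1 k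
    exact ⟨o, by rw [hqk, ← pow_mul, mul_comm, pow_mul]; simpa using ho⟩
  choose o ho using hdiv
  obtain ⟨n, rfl⟩ : ∃ n', n = n' + 1 := ⟨n - 1, by omega⟩
  rw [Finset.prod_range_succ'] at h2 h3
  simp only [zero_add, pow_one] at h2 h3
  have key : ψ.range.index * q₀ ^ N₀ = q ^ N * ∏ j ∈ Finset.range n, o (j + 2) := by
    have hpos : 0 < (∏ j ∈ Finset.range n, (q₀ ^ (j + 1 + 1) - 1)) * (q₀ - 1) * (q - 1) := by
      refine Nat.mul_pos (Nat.mul_pos (Finset.prod_pos fun j _ => ?_) (by omega)) ?_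
      · have := Nat.one_lt_pow (show j + 1 + 1 ≠ 0 by omega) hq0
        omega
      · have : 1 < q := hq ▸ Fintype.one_lt_card
        omega
    refine Nat.eq_of_mul_eq_mul_right hpos ?_
    have hsplit : (∏ j ∈ Finset.range n, (q₀ ^ (j + 1 + 1) - 1)) * ∏ j ∈ Finset.range n, o (j + 2) =
        ∏ j ∈ Finset.range n, (q ^ (j + 1 + 1) - 1) := by
      rw [← Finset.prod_mul_distrib]
      exact Finset.prod_congr rfl fun j _ => (ho _).symm
    calc ψ.range.index * q₀ ^ N₀ * ((∏ j ∈ Finset.range n, (q₀ ^ (j + 1 + 1) - 1)) * (q₀ - 1) * (q - 1))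
        = ψ.range.index * (q₀ ^ N₀ * ((∏ j ∈ Finset.range n, (q₀ ^ (j + 1 + 1) - 1)) * (q₀ - 1))) * (q - 1) := by ring
      _ = Nat.card (Matrix.SpecialLinearGroup (Fin (n + 1)) F₀) * ψ.range.index * (q₀ - 1) * (q - 1) := by
          rw [← h3]; ring
      _ = Nat.card (Matrix.SpecialLinearGroup (Fin (n + 1)) F) * (q - 1) * (q₀ - 1) := by rw [h1]; ring
      _ = _ := by rw [h2, ← hsplit]; ring
  have h4 : r ∣ q ^ N * ∏ j ∈ Finset.range n, o (j + 2) := key ▸ h.mul_right _
  obtain ⟨j, hj, hj'⟩ := (hr.prime.dvd_finsetProd_iff _).1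
    ((hr.dvd_mul.1 h4).resolve_left fun hd => hrq (hr.dvd_of_dvd_pow hd))
  refine ⟨j + 2, by omega, by rw [Finset.mem_range] at hj; omega, ho (j + 2) ▸ hj'.mul_left _, fun hd => ?_⟩
  -- the cofactor is congruent to `k`
  have hcast : ((q₀ ^ (j + 2) : ℕ) : ZMod r) = 1 := by
    rw [← Nat.sub_add_cancel (Nat.one_le_pow (j + 2) q₀ (by omega)), Nat.cast_add, (ZMod.natCast_eq_zero_iff _ _).2 hd,
      zero_add, Nat.cast_one]
  have hgeo : o (j + 2) = ∑ i ∈ Finset.range k, (q₀ ^ (j + 2)) ^ i := by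
    have e1 := Nat.geomSum_eq (show 2 ≤ q₀ ^ (j + 2) from Nat.one_lt_pow (by omega) hq0) k
    have e2 := ho (j + 2)
    rw [hqk, ← pow_mul, mul_comm k, pow_mul] at e2
    rw [e1, e2, Nat.mul_div_cancel_left _ (by have := Nat.one_lt_pow (show j + 2 ≠ 0 by omega) hq0; omega)]
  have : (k : ZMod r) = 0 := by
    rw [← ZMod.natCast_eq_zero_iff, hgeo, Nat.cast_sum] at hj'
    push_cast at hj' hcast
    simpa [hcast] using hj'
  exact hrk ((Nat.prime_dvd_prime_iff_eq hr hk).1 ((ZMod.natCast_eq_zero_iff _ _).1 this))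

end Cfsg.Agent.GeomClasses.SubfieldPrimeOrder
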