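import Cfsg.Agent.GeomClasses.SympFieldExtDerange

/-!
# The factor of an atom of odd order
-/

set_option autoImplicit false
set_option linter.unusedSectionVars false

namespace Cfsg.Agent.GeomClasses.SympAtomFactor

open Module Polynomial SympStructure Cfsg.Agent.Forms Cfsg.Agent.Linear.SpPrimeClasses

variable {F : Type*} [Field F] [Fintype F] {d q r i : ℕ} [Fact r.Prime]

local notation "Vd" => (Fin d ⊕ Fin d → F)
local notation "BB" => sympB d F

variable {T : Module.End F (Fin d ⊕ Fin d → F)}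

/-- For odd order a single atom has a factor with kernel of odd dimension. -/
theorem exists_poly (hq : Fintype.card F = q) (hrF : (r : F) ≠ 0) (hr2 : r ≠ 2) (hrq : ¬ r ∣ q)
    (hi : i = orderOf (q : ZMod r)) {c : ℕ} (hc : c = if Even i then i else 2 * i) (hie : ¬ Even i)
    (hT : T ^ r = 1) (hTB : ∀ x y, BB (T x) (T y) = BB x y) (hcd : c ≤ 2 * d)
    (hker : finrank F (LinearMap.ker (T - 1)) = 2 * d - c) : ∃ P : F[X], finrank F (LinearMap.ker (aeval T P)) = i := by
  classical
  have hr : r.Prime := Fact.out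
  obtain ⟨hi0, hidvd⟩ := SubspaceDerange.dvd_pow_sub_one hrq hi
  have hA : (BB).IsAlt := sympB_isAlt
  have hB : (BB).Nondegenerate := sympB_nondegenerate
  have hV : finrank F Vd = 2 * d := by
    rw [Module.finrank_pi, Fintype.card_sum, Fintype.card_fin]; omega
  have hinj : Function.Injective T := fun a b h => by
    have := congrArg (T ^ (r - 1)) h
    rwa [← Module.End.mul_apply, ← Module.End.mul_apply, ← pow_succ, Nat.sub_add_cancel hr.one_lt.le, hT,
      Module.End.one_apply, Module.End.one_apply] at this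
  set K := LinearMap.ker (T - 1)
  have hKn : Nd BB K := by
    have := nd_fixed hA hTB hT hrF (W := ⊤) (fun _ _ => trivial) (nd_top hB)
    rwa [top_inf_eq] at this
  have hKi : ∀ v ∈ K, T v ∈ K := fun v hv => by rwa [show T v = v from sub_eq_zero.1 hv]
  set R := (BB).orthogonal K
  have hRn : Nd BB R := by
    have := (nd_split hA hKn (nd_top hB) le_top).1
    rwa [top_inf_eq] at this
  have hRi : ∀ v ∈ R, T v ∈ R := orth_invariant hTB hinj hKi
  have hfree : R ⊓ LinearMap.ker (T - 1) = ⊥ := by rw [inf_comm]; exact (nd_isCompl hA hKn).inf_eq_bot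
  have hRd : finrank F R = c := by
    rw [LinearMap.BilinForm.finrank_orthogonal hB, hker, hV]; omega
  have hc0 : 0 < c := by rw [hc]; split_ifs <;> omega
  have hR0 : R ≠ ⊥ := fun e => by rw [e, finrank_bot] at hRd; omega
  obtain ⟨U, -, hUR, hUi, hUd⟩ := SubspaceDerange.step hq hrq hi hT hRi hfree (U := ⊥)
    (fun v hv => by rw [Submodule.mem_bot] at hv; simp [hv]) bot_le (by rw [finrank_bot, hRd]; exact hc0)
  rw [finrank_bot, zero_add] at hUd
  have hdiv : ∀ W : Submodule F Vd, W ≤ R → (∀ v ∈ W, T v ∈ W) → i ∣ finrank F W := fun W hWR hW => by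
    have h := SubspaceDerange.dim_mod hq hrq hi hT hW
    rw [show W ⊓ LinearMap.ker (T - 1) = ⊥ from le_bot_iff.1 (hfree ▸ inf_le_inf_right _ hWR), finrank_bot] at h
    exact Nat.modEq_zero_iff_dvd.1 h
  haveI : Nontrivial U := Submodule.nontrivial_iff_ne_bot.2 fun e => by rw [e, finrank_bot] at hUd; omega
  set TU : Module.End F U := T.restrict hUi
  obtain ⟨f, hfm, hfi, g, hg⟩ := exists_monic_irreducible_factor _ (minpoly.not_isUnit F TU)
  obtain ⟨y, hy⟩ : ∃ y, aeval TU g y ≠ 0 := by
    by_contra h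
    push_neg at h
    have hg0 : g ≠ 0 := fun e => minpoly.ne_zero (IsIntegral.of_finite F TU) (by rw [hg, e, mul_zero])
    have h1 := natDegree_le_natDegree (minpoly.degree_le_of_ne_zero F TU hg0 (LinearMap.ext h))
    rw [hg, natDegree_mul hfi.ne_zero hg0] at h1
    have := hfi.natDegree_pos
    omega
  haveI := Fact.mk hfi
  haveI : Module.Finite F (AdjoinRoot f) := (AdjoinRoot.powerBasis hfi.ne_zero).finite
  have hrestr : ∀ (P : F[X]) (w : U), ((aeval TU P) w : Vd) = aeval T P (w : Vd) := by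
    intro P
    induction P using Polynomial.induction_on with
    | C a => intro w; simp [Module.algebraMap_end_apply]
    | add A B hA hB => intro w; simp [hA, hB]
    | monomial k a ih =>
      intro w
      rw [pow_succ, ← mul_assoc]
      generalize Polynomial.C a * X ^ k = P at ih ⊢
      simp only [map_mul, aeval_X, Module.End.mul_apply]
      rw [ih]
      rfl
  set v : Vd := ((aeval TU g y : U) : Vd) with hv
  obtain ⟨φ, hφi, hφ1, hφ⟩ := exists_cyclic T hfi hfm (v := v) (fun e => hy (Subtype.ext e)) (by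
    rw [hv, ← hrestr, ← Module.End.mul_apply, ← map_mul, ← hg, show aeval TU (minpoly F TU) = 0 from minpoly.aeval F TU]; rfl)
  have hrange : LinearMap.range φ = U := by
    have hle : LinearMap.range φ ≤ U := by
      rintro _ ⟨x, rfl⟩
      obtain ⟨P, rfl⟩ := AdjoinRoot.mk_surjective x
      rw [← mul_one (AdjoinRoot.mk f P), hφ, hφ1]
      exact SubspaceDerange.aeval_mem hUi P (Submodule.coe_mem _)
    refine Submodule.eq_of_le_of_finrank_le hle (hUd ▸ Nat.le_of_dvd ?_ (hdiv _ (hle.trans hUR)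
      (SympIsotropicOdd.range_invariant hφ)))
    refine Nat.pos_of_ne_zero fun e => hy (Subtype.ext ?_)
    have hm : φ 1 ∈ LinearMap.range φ := ⟨1, rfl⟩
    rwa [Submodule.finrank_eq_zero.1 e, Submodule.mem_bot, hφ1] at hm
  have hfdeg : f.natDegree = i := by
    rw [← hUd, ← hrange, LinearMap.finrank_range_of_inj hφi, (AdjoinRoot.powerBasis hfi.ne_zero).finrank,
      AdjoinRoot.powerBasis_dim]
  have hfU : ∀ u ∈ U, aeval T f u = 0 := fun u hu => by
    rw [← hrange] at hu
    obtain ⟨x, rfl⟩ := hu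
    rw [← hφ, AdjoinRoot.mk_self, zero_mul, map_zero]
  have hio : Odd i := Nat.not_even_iff_odd.1 hie
  rw [hc, if_neg hie] at hRd
  set Z := LinearMap.ker (aeval T f) ⊓ R
  have hUZ : U ≤ Z := fun u hu => ⟨hfU u hu, hUR hu⟩
  have hZi : ∀ v ∈ Z, T v ∈ Z := fun v hv => ⟨by
    show aeval T f (T v) = 0
    have h := congrArg (fun Q : F[X] => aeval T Q v) (mul_comm f X)
    simp only [map_mul, aeval_X, Module.End.mul_apply] at h
    rw [h, show aeval T f v = 0 from hv.1, map_zero], hRi v hv.2⟩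
  by_cases hZU : Z = U
  · refine ⟨f, ?_⟩
    have hker : LinearMap.ker (aeval T f) ≤ R := fun v hv => by
      obtain ⟨a, ha, b, hb, rfl⟩ := Submodule.mem_sup.1
        ((nd_isCompl hA hKn).sup_eq_top ▸ Submodule.mem_top : v ∈ K ⊔ (BB).orthogonal K)
      have hTa : aeval T f a = f.eval 1 • a := by
        exact Module.End.aeval_apply_of_mem_apply_eq_smul (μ := (1 : F))
          (by rw [one_smul]; exact sub_eq_zero.1 ha)
      have hab : aeval T f a + aeval T f b = 0 := by rw [← map_add]; exact hv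
      have hbR : aeval T f b ∈ R := SubspaceDerange.aeval_mem hRi f hb
      have h0 : f.eval 1 • a = 0 := Submodule.disjoint_def.1 (nd_isCompl hA hKn).disjoint _ (K.smul_mem _ ha) (by
        rw [← hTa, eq_neg_of_add_eq_zero_left hab]; exact R.neg_mem hbR)
      rcases smul_eq_zero.1 h0 with h1 | h1
      · exfalso
        have hf1 : aeval T f (φ 1) = 0 := hfU _ (hrange ▸ ⟨1, rfl⟩)
        have hfX : f = (X - C 1 : F[X]) := (eq_of_monic_of_associated (monic_X_sub_C 1) hfm
          ((irreducible_X_sub_C 1).associated_of_dvd hfi (dvd_iff_isRoot.2 h1))).symm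
        have h2 : aeval T f (φ 1) = aeval T (X - C (1 : F) : F[X]) (φ 1) := congrArg (fun P : F[X] => aeval T P (φ 1)) hfX
        rw [hf1] at h2
        simp only [map_sub, aeval_X, map_one, LinearMap.sub_apply, Module.End.one_apply] at h2
        replace hf1 := h2.symm
        have hm : φ 1 ∈ R ⊓ LinearMap.ker (T - 1) := ⟨hUR (hrange ▸ ⟨1, rfl⟩), hf1⟩
        rw [hfree, Submodule.mem_bot] at hm
        exact one_ne_zero (hφi (hm.trans (map_zero φ).symm))
      · rw [h1, zero_add]; exact hb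
    rw [show LinearMap.ker (aeval T f) = Z from (inf_eq_left.2 hker).symm, hZU, hUd]
  exfalso
  obtain ⟨t, ht⟩ := hdiv Z inf_le_right hZi
  have hlt : i < finrank F Z := hUd ▸ Submodule.finrank_lt_finrank_of_lt (lt_of_le_of_ne hUZ (Ne.symm hZU))
  have hZR : Z = R := Submodule.eq_of_le_of_finrank_le inf_le_right (by
    have := Nat.mul_le_mul_left i (show 2 ≤ t by
      rcases Nat.lt_or_ge t 2 with h | h
      · interval_cases t <;> omega
      · exact h)
    rw [hRd, ht]; omega)
  have hfR : ∀ w ∈ R, aeval T f w = 0 := fun w hw => (hZR.ge hw).1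
  let a : Vd ≃ₗ[F] Vd := LinearEquiv.ofBijective T ⟨hinj, LinearMap.injective_iff_surjective.1 hinj⟩
  have h0 := cyclic_root_ne_zero (a := a) hφi hφ
  have hinv : aeval (AdjoinRoot.root f)⁻¹ f = 0 := by
    by_contra hne
    have : φ 1 = 0 := hRn _ (hUR (hrange ▸ ⟨1, rfl⟩)) fun w hw => by
      rw [show φ (1 : AdjoinRoot f) = aeval (a.symm : Module.End F Vd) f (φ ((aeval (AdjoinRoot.root f)⁻¹ f)⁻¹)) by
        rw [cyclic_inv (a := a) hφ h0, mul_inv_cancel₀ hne], ← LinearMap.IsAlt.neg hA, neg_eq_zero,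
        ← aeval_adjoint _ (a := a) hTB, show aeval (a : Module.End F Vd) f w = 0 from hfR w hw, map_zero,
        LinearMap.zero_apply]
    exact one_ne_zero (hφi (this.trans (map_zero φ).symm))
  set x := AdjoinRoot.root f
  have hxr : x ^ r = 1 := hφi (by
    rw [← mul_one (x ^ r), show x ^ r = AdjoinRoot.mk f (X ^ r) by rw [map_pow, AdjoinRoot.mk_X], hφ, map_pow, aeval_X, hT]; rfl)
  have hx1 : x ≠ 1 := fun e => by
    have hm : φ 1 ∈ R ⊓ LinearMap.ker (T - 1) := ⟨hUR (hrange ▸ ⟨1, rfl⟩), by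
      show (T - 1) (φ 1) = 0
      have h := cyclic_root (a := a) hφ 1
      rw [show AdjoinRoot.root f = 1 from e, one_mul] at h
      rw [LinearMap.sub_apply, Module.End.one_apply, sub_eq_zero]
      exact h⟩
    rw [hfree, Submodule.mem_bot] at hm
    exact one_ne_zero (hφi (hm.trans (map_zero φ).symm))
  haveI : Finite (AdjoinRoot f) := Module.finite_of_finite F
  let τ : AdjoinRoot f →ₐ[F] AdjoinRoot f := AdjoinRoot.liftAlgHom f (Algebra.ofId F _) x⁻¹ hinv
  let σ : AdjoinRoot f ≃ₐ[F] AdjoinRoot f := AlgEquiv.ofBijective τ (Finite.injective_iff_bijective.1 τ.toRingHom.injective)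
  have hσx : σ x = x⁻¹ := AdjoinRoot.liftAlgHom_root f (Algebra.ofId F _) x⁻¹ hinv
  have hσ2 : σ ^ 2 = 1 := by
    refine AlgEquiv.coe_toAlgHom_injective (AdjoinRoot.algHom_ext ?_)
    show σ (σ x) = x
    rw [hσx, map_inv₀, hσx, inv_inv]
  have hσi : orderOf σ ∣ i := by
    have h := orderOf_dvd_natCard σ
    rwa [IsGalois.card_aut_eq_finrank, (AdjoinRoot.powerBasis hfi.ne_zero).finrank, AdjoinRoot.powerBasis_dim,
      hfdeg] at h
  have hσ1 : σ = 1 := orderOf_eq_one_iff.1 (Nat.eq_one_of_dvd_coprimes (Nat.coprime_two_right.2 hio) hσi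
    (orderOf_dvd_of_pow_eq_one hσ2))
  rw [hσ1, AlgEquiv.one_apply] at hσx
  have hx2 : x * x = 1 := by nth_rw 2 [hσx]; exact mul_inv_cancel₀ h0
  obtain ⟨s, hs⟩ := hr.odd_of_ne_two hr2
  rw [hs, pow_succ, pow_mul, pow_two, hx2, one_pow, one_mul] at hxr
  exact hx1 hxr

end Cfsg.Agent.GeomClasses.SympAtomFactor
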