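import Cfsg.Agent.GeomClasses.SympStructure
import Cfsg.Agent.GeomClasses.DecompDerange

/-!
# Orthogonal decompositions of symplectic spaces and isometries of prime order
-/

set_option autoImplicit false
set_option linter.unusedSectionVars false

namespace Cfsg.Agent.GeomClasses.SympDecompDerange

open Module SympStructure

section Transport

variable {F V : Type*} [Field F] [Fintype F] [AddCommGroup V] [Module F V] [FiniteDimensional F V]
  {n a t r : ℕ} [Fact r.Prime]

/-- Fixed vectors of decompositions: a coordinate free form. -/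
theorem bounds (e : V ≃ₗ[F] (Fin n → F)) (hn : n = a * t) (ha : 1 ≤ a) (ht : 2 ≤ t) {T : Module.End F V}
    (hT : T ^ r = 1) {D : Fin t → Submodule F V} (hdim : ∀ j, finrank F (D j) = a) (hsup : iSup D = ⊤)
    {σ : Equiv.Perm (Fin t)} (hσ : ∀ j, (D j).map T = D (σ j)) :
    (∀ j, σ j ≠ j → a ≤ finrank F (LinearMap.ker (T - 1)) ∧ (r - 1) * a ≤ finrank F (LinearMap.range (T - 1))) ∧
    ((∀ j, σ j = j) → ∑ j, finrank F ↥(D j ⊓ LinearMap.ker (T - 1)) ≤ finrank F (LinearMap.ker (T - 1))) := by
  set T' : Module.End F (Fin n → F) := e.conjAlgEquiv F T with hT'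
  have hT'r : T' ^ r = 1 := by rw [hT', ← map_pow, hT, map_one]
  set D' : Fin t → Submodule F (Fin n → F) := fun j => (D j).map (e : V →ₗ[F] (Fin n → F))
  have hcomp : T' ∘ₗ (e : V →ₗ[F] (Fin n → F)) = (e : V →ₗ[F] (Fin n → F)) ∘ₗ T := LinearMap.ext fun v => by
    simp [hT', LinearEquiv.conjAlgEquiv_apply]
  have hD' : Cfsg.Geo.IsMDecomposition a D' := (DecompDerange.of_iSup ha ht hn
    (fun j => by rw [LinearEquiv.finrank_map_eq, hdim])
    (by rw [← Submodule.map_iSup, hsup, Submodule.map_top, LinearEquiv.range])).1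
  have hσ' : ∀ j, (D' j).map T' = D' (σ j) := fun j => by
    show ((D j).map _).map T' = _
    rw [← Submodule.map_comp, hcomp, Submodule.map_comp, hσ]
  have hker : LinearMap.ker (T' - 1) = (LinearMap.ker (T - 1)).map (e : V →ₗ[F] (Fin n → F)) := Submodule.ext fun v => by
    rw [Submodule.mem_map_equiv]
    simp [hT', LinearEquiv.conjAlgEquiv_apply, sub_eq_zero, ← LinearEquiv.eq_symm_apply]
  have hrange : LinearMap.range (T' - 1) = (LinearMap.range (T - 1)).map (e : V →ₗ[F] (Fin n → F)) := by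
    rw [← LinearMap.range_comp, show (e : V →ₗ[F] (Fin n → F)) ∘ₗ (T - 1) = (T' - 1) ∘ₗ (e : V →ₗ[F] (Fin n → F)) from
      LinearMap.ext fun v => by simp [hT', LinearEquiv.conjAlgEquiv_apply],
      LinearMap.range_comp_of_range_eq_top _ (LinearEquiv.range e)]
  refine ⟨fun j hj => ?_, fun hfix => ?_⟩
  · have h := DecompDerange.moved_bound hT'r hn hD' hσ' hj
    rwa [hker, hrange, LinearEquiv.finrank_map_eq, LinearEquiv.finrank_map_eq] at h
  · have h := DecompDerange.fixed_bound hT'r hn hD' hσ' hfix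
    rw [hker, LinearEquiv.finrank_map_eq] at h
    refine le_of_eq_of_le (Finset.sum_congr rfl fun j _ => ?_) h
    rw [← Submodule.map_inf _ e.injective, LinearEquiv.finrank_map_eq]

end Transport

variable {F V : Type*} [Field F] [Fintype F] [AddCommGroup V] [Module F V] [FiniteDimensional F V]
  {B : LinearMap.BilinForm F V} {a : ℕ}

/-- Orthogonal decompositions by repeatedly splitting off nondegenerate subspaces. -/
theorem decomp_of (hA : B.IsAlt) {t : ℕ} (P : Submodule F V → Prop)
    (hstep : ∀ s < t, ∀ W, P W → Nd B W → finrank F W = (s + 1) * a →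
      ∃ U ≤ W, Nd B U ∧ finrank F U = a ∧ P U ∧ P (W ⊓ B.orthogonal U)) :
    ∀ s ≤ t, ∀ W, P W → Nd B W → finrank F W = s * a →
      ∃ D : Fin s → Submodule F V, (∀ j, finrank F (D j) = a ∧ Nd B (D j) ∧ P (D j)) ∧
        (∀ j j', j ≠ j' → ∀ u ∈ D j, ∀ v ∈ D j', B u v = 0) ∧ iSup D = W := by
  intro s
  induction s with
  | zero =>
    intro _ W _ _ hW
    refine ⟨Fin.elim0, fun j => j.elim0, fun j => j.elim0, ?_⟩
    rw [zero_mul, Submodule.finrank_eq_zero] at hW
    simp [hW]
  | succ s ih =>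
    intro hs W hP hn hW
    obtain ⟨U, hUW, hUn, hUd, hPU, hP'⟩ := hstep s hs W hP hn hW
    obtain ⟨hn', hd', hsup'⟩ := nd_split hA hUn hn hUW
    obtain ⟨D, hD, horth, hsup⟩ := ih (by omega) _ hP' hn' (by rw [Nat.succ_mul] at hW; omega)
    refine ⟨Fin.cons U D, ?_, ?_, ?_⟩
    · intro j
      refine Fin.cases ?_ (fun j => ?_) j
      · simp only [Fin.cons_zero]; exact ⟨hUd, hUn, hPU⟩
      · simp only [Fin.cons_succ]; exact hD j
    · have hle : ∀ j, D j ≤ B.orthogonal U := fun j => ((le_iSup D j).trans hsup.le).trans inf_le_right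
      intro j j'
      refine Fin.cases ?_ (fun j => ?_) j <;> refine Fin.cases ?_ (fun j' => ?_) j' <;> intro hne u hu v hv <;>
        simp only [Fin.cons_zero, Fin.cons_succ] at hu hv
      · exact absurd rfl hne
      · exact hle j' hv u hu
      · exact hA.isRefl _ _ (hle j hu v hv)
      · exact horth j j' (fun h => hne (h ▸ rfl)) u hu v hv
    · rw [show iSup (Fin.cons U D : Fin (s + 1) → Submodule F V) = U ⊔ iSup D from
        le_antisymm (iSup_le fun j => Fin.cases le_sup_left (fun j => by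
            simp only [Fin.cons_succ]; exact le_sup_of_le_right (le_iSup D j)) j)
          (sup_le (le_iSup_of_le 0 (by simp)) (iSup_le fun j => le_iSup_of_le j.succ (by simp))),
        hsup, hsup']

variable {q r i c : ℕ} [Fact r.Prime] {T : Module.End F V}

/-- Invariant nondegenerate bins. -/
theorem exists_bins (hA : B.IsAlt) (hB : B.Nondegenerate) (hTB : ∀ x y, B (T x) (T y) = B x y) (hT : T ^ r = 1)
    (hrF : (r : F) ≠ 0) (hr2 : r ≠ 2) (hq : Fintype.card F = q) (hrq : ¬ r ∣ q) (hi : i = orderOf (q : ZMod r))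
    (hc : c = if Even i then i else 2 * i) (hae : Even a) {t : ℕ} (hV : finrank F V = t * a) (hk : t * (a % c) < c) :
    ∃ D : Fin t → Submodule F V, (∀ j, finrank F (D j) = a ∧ Nd B (D j) ∧ ∀ v ∈ D j, T v ∈ D j) ∧
      (∀ j j', j ≠ j' → ∀ u ∈ D j, ∀ v ∈ D j', B u v = 0) ∧ iSup D = ⊤ := by
  have hinj : Function.Injective T := fun a b h => by
    have := congrArg (T ^ (r - 1)) h
    rwa [← Module.End.mul_apply, ← Module.End.mul_apply, ← pow_succ, Nat.sub_add_cancel (Fact.out : r.Prime).one_lt.le,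
      hT, Module.End.one_apply, Module.End.one_apply] at this
  refine decomp_of hA (fun W => ∀ v ∈ W, T v ∈ W) ?_ t le_rfl ⊤ (fun _ _ => trivial) (nd_top hB) (by rw [finrank_top, hV])
  intro s hs W hW hWn hWd
  set f := finrank F ↥(W ⊓ LinearMap.ker (T - 1)) with hf
  have hmod := SympStructure.dim_mod hA hTB hT hrF hq hrq hi hc hW hWn
  rw [hWd, ← hf] at hmod
  have hfn : f ≤ (s + 1) * a := hWd ▸ Submodule.finrank_mono inf_le_left
  obtain ⟨K, hK⟩ := (Nat.modEq_iff_dvd' hfn).1 hmod.symm
  have hce : Even c := by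
    rw [hc]; split_ifs with h
    · exact h
    · exact even_two_mul i
  have hf' : a % c ≤ f := by
    have hlt : (s + 1) * (a % c) < c := (Nat.mul_le_mul_right _ hs).trans_lt hk
    have h1 : f % c = (s + 1) * (a % c) := by
      rw [← hmod, Nat.mul_mod, Nat.mod_mul_mod, Nat.mod_eq_of_lt hlt]
    have := Nat.mod_le f c
    have h2 : a % c ≤ (s + 1) * (a % c) := Nat.le_mul_of_pos_left _ (by omega)
    omega
  set j := min K (a / c) with hj
  have hjK : j * c ≤ K * c := Nat.mul_le_mul_right c (min_le_left _ _)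
  have hja : j * c ≤ a := (Nat.mul_le_mul_right c (min_le_right _ _)).trans (Nat.div_mul_le_self a c)
  obtain ⟨e, he⟩ : Even (a - j * c) := (Nat.even_sub hja).2 (iff_of_true hae (hce.mul_left j))
  have hae' : a - j * c ≤ f := by
    rcases le_total (a / c) K with h | h
    · rw [hj, min_eq_right h]
      have := Nat.div_add_mod' a c
      omega
    · rw [hj, min_eq_left h, mul_comm K c, ← hK]
      have : a ≤ (s + 1) * a := Nat.le_mul_of_pos_left _ (by omega)
      omega
  obtain ⟨U, hUW, hUi, hUn, hUd⟩ := SympStructure.exists_sub hA hTB hT hrF hr2 hq hrq hi hc hW hWn (j := j) (e := e)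
    (by rw [mul_comm K c, ← hK] at hjK; omega) (by omega)
  exact ⟨U, hUW, hUn, by omega, hUi, fun v hv => ⟨hW v hv.1, orth_invariant hTB hinj hUi v hv.2⟩⟩

/-- An isometry of order `r` moving exactly the nondegenerate subspace `W`. -/
theorem exists_isometry (hA : B.IsAlt) (hrF : (r : F) ≠ 0) (hq : Fintype.card F = q) (hrq : ¬ r ∣ q)
    (hi : i = orderOf (q : ZMod r)) (hc : c = if Even i then i else 2 * i) :
    ∀ (j : ℕ) (W : Submodule F V), Nd B W → finrank F W = j * c → ∃ δ : Module.End F V,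
      (∀ x y, B (x + δ x) (y + δ y) = B x y) ∧ (1 + δ) ^ r = 1 ∧ (∀ v, δ v ∈ W) ∧
        (∀ v, δ v = 0 ↔ v ∈ B.orthogonal W) := by
  classical
  obtain ⟨hi0, hidvd⟩ := SubspaceDerange.dvd_pow_sub_one hrq hi
  intro j
  induction j with
  | zero =>
    intro W _ hW
    rw [zero_mul, Submodule.finrank_eq_zero] at hW
    subst hW
    exact ⟨0, by simp, by simp, fun v => by simp, fun v => by simp⟩
  | succ j ih =>
    intro W hWn hW
    rw [Nat.succ_mul] at hW
    obtain ⟨m, hm⟩ : Even c := by
      rw [hc]; split_ifs with h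
      · exact h
      · exact even_two_mul i
    obtain ⟨A, hAW, hAn, hAd⟩ := exists_nd_sub hA hWn m (by omega)
    obtain ⟨hYn, hYd, hYsup⟩ := nd_split hA hAn hWn hAW
    obtain ⟨δ', hδ'B, hδ'r, hδ'W, hδ'k⟩ := ih _ hYn (by omega)
    -- the element on `A`
    have hI : Cfsg.Agent.Forms.IsForm (RingHom.id F) (B.restrict A) (fun _ => (0 : F)) := by
      refine Cfsg.Agent.Forms.isForm_alt _ ⟨fun u hu => Subtype.ext (hAn u u.2 fun x hx => hu ⟨x, hx⟩),
        fun u hu => Subtype.ext (hAn u u.2 fun x hx => hA.isRefl _ _ (hu ⟨x, hx⟩))⟩ fun x => hA (x : V)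
    obtain ⟨m', v, hm', hv⟩ := Cfsg.Agent.Forms.exists_symp_family hI
    obtain rfl : m' = m := by omega
    let b := basisOfLinearIndependentOfCardEqFinrank' v (hv.linearIndependent (fun x => hA (x : V)))
      (by rw [Fintype.card_sum, Fintype.card_fin]; omega)
    let b' := b.reindex (Equiv.sumComm _ _)
    have hb : ∀ s, (b' s : V) = v (Sum.swap s) := fun s => by simp [b', b]
    let φ : (Fin m' ⊕ Fin m' → F) ≃ₗ[F] A := b'.equivFun.symm
    have hφ : ∀ x y, B (φ x : V) (φ y) = Cfsg.sympForm m' F x y := by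
      intro x y
      have hlr : ∀ p s, B (v (Sum.inl p) : V) (v (Sum.inr s)) = if p = s then (1 : F) else 0 := hv.lr
      have hll : ∀ p s, B (v (Sum.inl p) : V) (v (Sum.inl s)) = 0 := hv.ll
      have hrr : ∀ p s, B (v (Sum.inr p) : V) (v (Sum.inr s)) = 0 := hv.rr
      have hskew : ∀ p s, B (v (Sum.inr p) : V) (v (Sum.inl s)) = -(if s = p then (1 : F) else 0) := fun p s => by
        rw [← LinearMap.IsAlt.neg hA, hlr s p]
      have hsum : ∀ z, (φ z : V) = ∑ k, z (Sum.inl k) • (v (Sum.inr k) : V) + ∑ k, z (Sum.inr k) • (v (Sum.inl k) : V) :=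
        fun z => by simp [φ, Basis.equivFun_symm_apply, Submodule.coe_sum, hb, Fintype.sum_sum_type]
      rw [hsum, hsum, Cfsg.Agent.Forms.sympForm_eq]
      simp only [map_add, map_sum, map_smul, LinearMap.add_apply, LinearMap.sum_apply, LinearMap.smul_apply, smul_eq_mul,
        hlr, hll, hrr, hskew, mul_zero, Finset.sum_const_zero, add_zero, zero_add, mul_neg, mul_ite, mul_one,
        Finset.sum_neg_distrib, Finset.sum_ite_eq, Finset.sum_ite_eq', Finset.mem_univ, if_true]
      rw [Finset.sum_sub_distrib]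
      simp only [mul_comm (y _) (x _)]
      ring
    obtain ⟨g, hg⟩ := exists_prime_orderOf_dvd_card' (G := ↥(Matrix.symplecticGroup (Fin m') F)) r (by
      rw [Cfsg.Agent.Forms.card_symplecticGroup hq]
      refine dvd_mul_of_dvd_right (dvd_trans ?_ (Finset.dvd_prod_of_mem _ (Finset.mem_range.2 (show m' - 1 < m' by
        rw [hc] at hm; split_ifs at hm <;> omega)))) _
      have h2 : 2 * (m' - 1 + 1) = c := by rw [hc] at hm ⊢; split_ifs at hm ⊢ <;> omega
      rw [h2, hc]
      split_ifs
      · exact hidvd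
      · exact hidvd.trans (Nat.pow_sub_one_dvd_pow_sub_one q (Dvd.intro_left 2 rfl)))
    set G : Module.End F (Fin m' ⊕ Fin m' → F) := Matrix.toLinAlgEquiv' (g : Matrix (Fin m' ⊕ Fin m') (Fin m' ⊕ Fin m') F) with hG
    have hGr : G ^ r = 1 := by
      rw [hG, ← map_pow, ← SubmonoidClass.coe_pow, ← hg, pow_orderOf_eq_one]; exact map_one _
    have hG1 : G ≠ 1 := fun h => (Fact.out : r.Prime).one_lt.ne' (by
      rw [← hg, show g = 1 from Subtype.ext (Matrix.toLinAlgEquiv'.injective (h.trans (map_one _).symm)), orderOf_one])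
    have hGB : ∀ x y, Cfsg.sympForm m' F (G x) (G y) = Cfsg.sympForm m' F x y :=
      fun x y => Cfsg.Agent.Forms.mem_symplectic_iff.1 g.2 x y
    have hfree : ∀ x, G x = x → x = 0 := by
      have h := SympStructure.dim_mod (B := Cfsg.Agent.Forms.sympB m' F) (T := G) Cfsg.Agent.Forms.sympB_isAlt
        (fun x y => by rw [Cfsg.Agent.Forms.sympB_apply, Cfsg.Agent.Forms.sympB_apply, hGB]) hGr hrF hq hrq hi hc
        (W := ⊤) (fun _ _ => trivial) (nd_top Cfsg.Agent.Forms.sympB_nondegenerate)
      rw [top_inf_eq, finrank_top, Module.finrank_pi, Fintype.card_sum, Fintype.card_fin, show m' + m' = c by omega,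
        Nat.ModEq, Nat.mod_self] at h
      have hle : finrank F (LinearMap.ker (G - 1)) ≤ c := (Submodule.finrank_le _).trans_eq (by
        rw [Module.finrank_pi, Fintype.card_sum, Fintype.card_fin]; omega)
      rcases hle.lt_or_eq with hlt | heq
      · rw [Nat.mod_eq_of_lt hlt] at h
        intro x hx
        have : x ∈ LinearMap.ker (G - 1) := by simp [hx]
        rwa [Submodule.finrank_eq_zero.1 h.symm, Submodule.mem_bot] at this
      · exact absurd (sub_eq_zero.1 (LinearMap.ker_eq_top.1 (Submodule.eq_top_of_finrank_eq (by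
          rw [heq, Module.finrank_pi, Fintype.card_sum, Fintype.card_fin]; omega)))) hG1
    let π : V →ₗ[F] (Fin m' ⊕ Fin m' → F) := φ.symm.toLinearMap.comp (A.projectionOnto (B.orthogonal A) (nd_isCompl hA hAn))
    let δ : Module.End F V := A.subtype.comp (φ.toLinearMap.comp ((G - 1).comp π))
    have hπA : ∀ x, π (φ x : V) = x := fun x => by simp [π, Submodule.projectionOnto_apply_left]
    have hπo : ∀ x, π x = 0 ↔ x ∈ B.orthogonal A := fun x => by simp [π, Submodule.projectionOnto_apply_eq_zero_iff]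
    have hδA : ∀ x, δ x ∈ A := fun x => (φ _).2
    have hsplit : ∀ x, x - (φ (π x) : V) ∈ B.orthogonal A := fun x => by
      rw [← hπo, map_sub, hπA, sub_self]
    have hBπ : ∀ x y, B (φ x : V) y = Cfsg.sympForm m' F x (π y) := fun x y => by
      rw [← hφ]
      refine sub_eq_zero.1 ?_
      rw [← map_sub]
      exact hsplit y _ (φ x).2
    have hskew : ∀ p s : Fin m' ⊕ Fin m' → F, Cfsg.sympForm m' F p s = - Cfsg.sympForm m' F s p := fun p s => by
      have h := LinearMap.IsAlt.neg (Cfsg.Agent.Forms.sympB_isAlt (m := m') (F := F)) s p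
      simpa using h.symm
    have hδB : ∀ x y, B (x + δ x) (y + δ y) = B x y := by
      intro x y
      have e1 : B x (δ y) = Cfsg.sympForm m' F (π x) (G (π y) - π y) := by
        show B x (φ ((G - 1) (π y)) : V) = _
        rw [← LinearMap.IsAlt.neg hA, hBπ, ← hskew]
        rfl
      have e2 : B (δ x) y = Cfsg.sympForm m' F (G (π x) - π x) (π y) := hBπ _ _
      have e3 : B (δ x) (δ y) = Cfsg.sympForm m' F (G (π x) - π x) (G (π y) - π y) := hφ _ _
      have e4 := hGB (π x) (π y)
      simp only [← Cfsg.Agent.Forms.sympB_apply, map_sub, LinearMap.sub_apply] at e1 e2 e3 e4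
      simp only [map_add, LinearMap.add_apply, e1, e2, e3]
      linear_combination e4
    have hδk : ∀ x, δ x = 0 ↔ x ∈ B.orthogonal A := fun x => by
      rw [← hπo]
      refine ⟨fun h => hfree _ (sub_eq_zero.1 ?_), fun h => by simp [δ, h]⟩
      have := congrArg π (show (φ ((G - 1) (π x)) : V) = 0 from h)
      simpa [hπA] using this
    have hδr : (1 + δ) ^ r = 1 := by
      have hpow : ∀ l : ℕ, ∀ x, ((1 + δ) ^ l) x = x + (φ ((G ^ l - 1) (π x)) : V) := by
        intro l
        induction l with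
        | zero => intro x; simp
        | succ l ih =>
          intro x
          rw [pow_succ', Module.End.mul_apply, ih]
          show _ + δ _ = _
          rw [show δ (x + (φ ((G ^ l - 1) (π x)) : V)) = (φ ((G - 1) (π x + (G ^ l - 1) (π x))) : V) by
            simp [δ, hπA], Module.End.one_apply, add_assoc, ← Submodule.coe_add, ← map_add]
          congr 3
          simp [pow_succ', Module.End.mul_apply]
      exact LinearMap.ext fun x => by rw [hpow, hGr]; simp
    -- combine
    have hAY : A ⊓ (W ⊓ B.orthogonal A) = ⊥ :=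
      le_bot_iff.1 ((nd_isCompl hA hAn).inf_eq_bot ▸ inf_le_inf_left _ inf_le_right)
    have hz1 : δ * δ' = 0 := LinearMap.ext fun x => (hδk _).2 (hδ'W x).2
    have hz2 : δ' * δ = 0 := LinearMap.ext fun x => (hδ'k _).2 fun y hy => hA.isRefl _ _ (hy.2 _ (hδA x))
    refine ⟨δ + δ', fun x y => ?_, ?_, fun x => add_mem (hAW (hδA x)) (hδ'W x).1, fun x => ?_⟩
    · have e : ∀ x, x + (δ + δ') x = (x + δ' x) + δ (x + δ' x) := fun x => by
        rw [map_add, show δ (δ' x) = 0 from LinearMap.congr_fun hz1 x, add_zero, LinearMap.add_apply]; abel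
      rw [e, e, hδB, hδ'B]
    · have hcomm : Commute (1 + δ) (1 + δ') := by
        show _ * _ = _ * _
        rw [add_mul, add_mul, mul_add, mul_add, mul_add, mul_add, hz1, hz2, one_mul, one_mul, one_mul, mul_one, mul_one]
        abel
      rw [show (1 : Module.End F V) + (δ + δ') = (1 + δ) * (1 + δ') by rw [add_mul, one_mul, mul_add, mul_one, hz1]; abel,
        hcomm.mul_pow, hδr, hδ'r, one_mul]
    · refine ⟨fun h => ?_, fun h => ?_⟩
      · have h1 : δ x ∈ A ⊓ (W ⊓ B.orthogonal A) := by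
          refine ⟨hδA x, ?_⟩
          rw [show δ x = -δ' x from eq_neg_of_add_eq_zero_left h]
          exact neg_mem (hδ'W x)
        rw [hAY, Submodule.mem_bot] at h1
        have h2 : δ' x = 0 := by simpa [h1] using h
        intro y hy
        rw [← hYsup] at hy
        obtain ⟨p, hp, s, hs, rfl⟩ := Submodule.mem_sup.1 hy
        show B (p + s) x = 0
        rw [map_add, LinearMap.add_apply, show B p x = 0 from (hδk x).1 h1 p hp,
          show B s x = 0 from (hδ'k x).1 h2 s hs, add_zero]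
      · rw [LinearMap.add_apply, (hδk x).2 (B.orthogonal_le hAW h), (hδ'k x).2 (B.orthogonal_le inf_le_left h), add_zero]

/-- An isometry of order `r` moving a space of dimension `j * c`. -/
theorem exists_moving (hA : B.IsAlt) (hB : B.Nondegenerate) (hrF : (r : F) ≠ 0) (hq : Fintype.card F = q) (hrq : ¬ r ∣ q)
    (hi : i = orderOf (q : ZMod r)) (hc : c = if Even i then i else 2 * i) {j : ℕ} (hj : j * c ≤ finrank F V) :
    ∃ T : Module.End F V, T ^ r = 1 ∧ (∀ x y, B (T x) (T y) = B x y) ∧
      finrank F (LinearMap.ker (T - 1)) = finrank F V - j * c := by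
  obtain ⟨m, hm⟩ : Even (j * c) := by
    refine Even.mul_left ?_ j
    rw [hc]; split_ifs with h
    · exact h
    · exact even_two_mul i
  obtain ⟨W, -, hWn, hWd⟩ := exists_nd_sub hA (nd_top hB) m (by rw [finrank_top]; omega)
  obtain ⟨δ, hδB, hδr, -, hδk⟩ := exists_isometry hA hrF hq hrq hi hc j W hWn (by omega)
  refine ⟨1 + δ, hδr, hδB, ?_⟩
  rw [show LinearMap.ker (1 + δ - 1) = B.orthogonal W from Submodule.ext fun x => by simp [hδk],
    LinearMap.BilinForm.finrank_orthogonal hB W, hWd]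
  omega

section Count

variable {d t : ℕ}

local notation "Vd" => (Fin d ⊕ Fin d → F)

/-- Orthogonal nondegenerate spanning families are decompositions. -/
theorem isMDecomposition {a : ℕ} (ha : 1 ≤ a) (ht : 2 ≤ t) {D : Fin t → Submodule F Vd}
    (hD : ∀ j, finrank F (D j) = a ∧ Nd (Cfsg.Agent.Forms.sympB d F) (D j))
    (horth : ∀ j j', j ≠ j' → ∀ u ∈ D j, ∀ v ∈ D j', Cfsg.Agent.Forms.sympB d F u v = 0) (hsup : iSup D = ⊤) :
    Cfsg.Geo.IsMDecomposition a D := by
  refine ⟨ht, ha, fun j => (hD j).1, fun j => (nd_disjoint Cfsg.Agent.Forms.sympB_isAlt (hD j).2).mono_right ?_, hsup⟩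
  exact iSup₂_le fun l hl v hv u hu => horth j l (Ne.symm hl) u hu v hv

/-- The decompositions. -/
def Good (a : ℕ) (D : Fin t → Submodule F Vd) : Prop :=
  Cfsg.Geo.IsMDecomposition a D ∧ (∀ j, ∀ u ∈ D j, u ≠ 0 → ∃ v ∈ D j, Cfsg.sympForm d F u v ≠ 0) ∧
    (∀ j j', j ≠ j' → ∀ u ∈ D j, ∀ v ∈ D j', Cfsg.sympForm d F u v = 0)

theorem nd_of_stmt {W : Submodule F Vd} (h : ∀ u ∈ W, u ≠ 0 → ∃ v ∈ W, Cfsg.sympForm d F u v ≠ 0) :
    Nd (Cfsg.Agent.Forms.sympB d F) W := fun w hw h0 => by
  by_contra hne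
  obtain ⟨v, hv, hv0⟩ := h w hw hne
  exact hv0 (by rw [← Cfsg.Agent.Forms.sympB_apply]; exact h0 v hv)

theorem good_of (ha : 1 ≤ a) (ht : 2 ≤ t) {D : Fin t → Submodule F Vd}
    (hD : ∀ j, finrank F (D j) = a ∧ Nd (Cfsg.Agent.Forms.sympB d F) (D j))
    (horth : ∀ j j', j ≠ j' → ∀ u ∈ D j, ∀ v ∈ D j', Cfsg.Agent.Forms.sympB d F u v = 0) (hsup : iSup D = ⊤) :
    Good a D := by
  refine ⟨isMDecomposition ha ht hD horth hsup, fun j u hu hu0 => ?_,
    fun j j' hne u hu v hv => by rw [← Cfsg.Agent.Forms.sympB_apply]; exact horth j j' hne u hu v hv⟩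
  by_contra hcon
  push_neg at hcon
  exact hu0 ((hD j).2 u hu fun x hx => by rw [Cfsg.Agent.Forms.sympB_apply]; exact hcon x hx)

/-- The number of unordered decompositions divides the order of the symplectic group. -/
theorem dvd_card_Sp (hat : 2 * d = a * t) (ha : 1 ≤ a) (hae : Even a) (ht : 2 ≤ t)
    (h : r ∣ Nat.card {D : Fin t → Submodule F Vd // Good a D} / Nat.factorial t) :
    r ∣ Nat.card ↥(Matrix.symplecticGroup (Fin d) F) := by
  classical
  obtain ⟨m, hm⟩ := hae
  set X := {D : Fin t → Submodule F Vd // Good a D}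
  have hX : Finite X := inferInstance
  have hdinj : ∀ D : X, Function.Injective D.1 := fun D l l' h => by
    by_contra hne'
    have h2 := D.2.1.indep.pairwiseDisjoint hne'
    rw [Function.onFun, h, disjoint_self] at h2
    have := D.2.1.finrank_eq l'
    rw [h2, finrank_bot] at this
    omega
  have hfree : Nat.factorial t ∣ Nat.card X := by
    let f : X → Set (Submodule F Vd) := fun D => Set.range D.1
    have : Fintype (Set.range f) := Fintype.ofFinite _
    have key : ∀ S : Set.range f, Nat.card {D : X // Set.rangeFactorization f D = S} = Nat.factorial t := by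
      rintro ⟨_, D₀, rfl⟩
      have hmk : ∀ σ : Equiv.Perm (Fin t), Good a (D₀.1 ∘ σ) := fun σ =>
        good_of ha ht (fun j => ⟨D₀.2.1.finrank_eq _, nd_of_stmt (D₀.2.2.1 _)⟩)
          (fun j j' hne u hu v hv => by
            rw [Cfsg.Agent.Forms.sympB_apply]; exact D₀.2.2.2 _ _ (σ.injective.ne hne) u hu v hv)
          (by rw [← D₀.2.1.iSup_eq_top]; exact σ.surjective.iSup_comp D₀.1)
      let e : Equiv.Perm (Fin t) → {D : X // Set.rangeFactorization f D = ⟨f D₀, D₀, rfl⟩} := fun σ =>
        ⟨⟨D₀.1 ∘ σ, hmk σ⟩, Subtype.ext (show Set.range (D₀.1 ∘ σ) = Set.range D₀.1 from σ.surjective.range_comp _)⟩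
      have he : Function.Bijective e := by
        refine ⟨fun σ τ hst => Equiv.ext fun j => hdinj D₀ (congrFun (congrArg (fun D => D.1.1) hst) j), ?_⟩
        rintro ⟨D, hD⟩
        have hrg : Set.range D.1 = Set.range D₀.1 := congrArg Subtype.val hD
        refine ⟨(Equiv.ofInjective _ (hdinj D)).trans ((Equiv.setCongr hrg).trans (Equiv.ofInjective _ (hdinj D₀)).symm), ?_⟩
        refine Subtype.ext (Subtype.ext (funext fun j => ?_))
        simp [e, Equiv.apply_ofInjective_symm]
      rw [← Nat.card_eq_of_bijective e he, Nat.card_perm, Nat.card_fin]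
    rw [Nat.card_congr (Equiv.sigmaFiberEquiv (Set.rangeFactorization f)).symm, Nat.card_sigma]
    simp only [key, Finset.sum_const, smul_eq_mul]
    exact dvd_mul_left _ _
  let G := ↥(Matrix.symplecticGroup (Fin d) F)
  let L : G → (Vd →ₗ[F] Vd) := fun g => Matrix.toLin' (g : Matrix (Fin d ⊕ Fin d) (Fin d ⊕ Fin d) F)
  have hL : ∀ g h : G, L (g * h) = (L g).comp (L h) := fun g h => Matrix.toLin'_mul _ _
  have hL1 : L 1 = LinearMap.id := by simp [L]
  have hLinv : ∀ g, (L g⁻¹).comp (L g) = LinearMap.id := fun g => by rw [← hL, inv_mul_cancel, hL1]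
  -- symplectic bases of the summands
  have hbasis : ∀ D : X, ∃ e : Basis (Fin t × (Fin m ⊕ Fin m)) F Vd, (∀ j, D.1 j = Submodule.span F (Set.range fun s => e (j, s))) ∧
      ∀ j j' s s', Cfsg.sympForm d F (e (j, s)) (e (j', s')) =
        if j = j' then Cfsg.sympForm m F (Pi.single s' 1) (Pi.single s 1) else 0 := by
    intro D
    have hI : ∀ j, Cfsg.Agent.Forms.IsForm (RingHom.id F) ((Cfsg.Agent.Forms.sympB d F).restrict (D.1 j)) (fun _ => (0 : F)) := fun j => by
      have hn := nd_of_stmt (D.2.2.1 j)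
      exact Cfsg.Agent.Forms.isForm_alt _ ⟨fun u hu => Subtype.ext (hn u u.2 fun x hx => hu ⟨x, hx⟩),
        fun u hu => Subtype.ext (hn u u.2 fun x hx => Cfsg.Agent.Forms.sympB_isAlt.isRefl _ _ (hu ⟨x, hx⟩))⟩
        fun x => Cfsg.Agent.Forms.sympB_isAlt _
    have hfam : ∀ j, ∃ v : Fin m ⊕ Fin m → D.1 j,
        Cfsg.Agent.Forms.IsSympFamily ((Cfsg.Agent.Forms.sympB d F).restrict (D.1 j)) v := fun j => by
      obtain ⟨m', v, hm', hv⟩ := Cfsg.Agent.Forms.exists_symp_family (hI j)
      rw [D.2.1.finrank_eq] at hm'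
      obtain rfl : m' = m := by omega
      exact ⟨v, hv⟩
    choose v hv using hfam
    let b := fun j => basisOfLinearIndependentOfCardEqFinrank' (v j)
      ((hv j).linearIndependent (fun x => Cfsg.Agent.Forms.sympB_isAlt _))
      (by rw [Fintype.card_sum, Fintype.card_fin, D.2.1.finrank_eq]; omega)
    have hspan : ∀ j, D.1 j = Submodule.span F (Set.range fun s => (v j s : Vd)) := fun j => by
      have h := congrArg (Submodule.map (D.1 j).subtype) (b j).span_eq
      rw [Submodule.map_span, Submodule.map_top, Submodule.range_subtype] at h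
      conv_lhs => rw [← h, ← Set.range_comp]
      simp [b, Function.comp_def]
    let w : Fin t × (Fin m ⊕ Fin m) → Vd := fun x => (v x.1 x.2 : Vd)
    have htop : ⊤ ≤ Submodule.span F (Set.range w) := by
      rw [← D.2.1.iSup_eq_top]
      refine iSup_le fun j => ?_
      rw [hspan j, Submodule.span_le]
      rintro _ ⟨s, rfl⟩
      exact Submodule.subset_span ⟨(j, s), rfl⟩
    have hcardw : Fintype.card (Fin t × (Fin m ⊕ Fin m)) = finrank F Vd := by
      rw [Module.finrank_pi, Fintype.card_prod, Fintype.card_sum, Fintype.card_sum, Fintype.card_fin, Fintype.card_fin,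
        Fintype.card_fin, ← two_mul d, hat, mul_comm, hm]
    let e := Basis.mk (linearIndependent_of_top_le_span_of_card_eq_finrank htop hcardw) htop
    refine ⟨e, fun j => by simp [e, w, hspan j], fun j j' s s' => ?_⟩
    simp only [e, Basis.coe_mk, w]
    split_ifs with hjj
    · subst hjj
      rw [← Cfsg.Agent.Forms.sympB_apply, Cfsg.Agent.Forms.sympForm_eq]
      rcases s with s | s <;> rcases s' with s' | s'
      · rw [show Cfsg.Agent.Forms.sympB d F (v j (Sum.inl s) : Vd) (v j (Sum.inl s')) = 0 from (hv j).ll s s']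
        simp
      · rw [show Cfsg.Agent.Forms.sympB d F (v j (Sum.inl s) : Vd) (v j (Sum.inr s')) = _ from (hv j).lr s s']
        simp [Pi.single_apply, eq_comm]
      · rw [← LinearMap.IsAlt.neg (Cfsg.Agent.Forms.sympB_isAlt (m := d) (F := F)),
          show Cfsg.Agent.Forms.sympB d F (v j (Sum.inl s') : Vd) (v j (Sum.inr s)) = _ from (hv j).lr s' s]
        simp [Pi.single_apply, eq_comm]
      · rw [show Cfsg.Agent.Forms.sympB d F (v j (Sum.inr s) : Vd) (v j (Sum.inr s')) = 0 from (hv j).rr s s']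
        simp
    · exact D.2.2.2 j j' hjj _ (v j s).2 _ (v j' s').2
  -- a base point
  obtain ⟨D₁, hD₁, hD₁o, hD₁s⟩ := decomp_of (B := Cfsg.Agent.Forms.sympB d F) (a := a) (t := t)
    Cfsg.Agent.Forms.sympB_isAlt (fun _ => True) (fun s _ W _ hn hW => by
      obtain ⟨U, hUW, hUn, hUd⟩ := exists_nd_sub Cfsg.Agent.Forms.sympB_isAlt hn m (by
        have : a ≤ (s + 1) * a := Nat.le_mul_of_pos_left _ (by omega)
        omega)
      exact ⟨U, hUW, hUn, by omega, trivial, trivial⟩) t le_rfl ⊤ trivial (nd_top Cfsg.Agent.Forms.sympB_nondegenerate)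
    (by rw [finrank_top, Module.finrank_pi, Fintype.card_sum, Fintype.card_fin, ← two_mul, hat, mul_comm])
  let X₁ : X := ⟨D₁, good_of ha ht (fun j => ⟨(hD₁ j).1, (hD₁ j).2.1⟩) hD₁o hD₁s⟩
  have hmov : ∀ D : X, ∃ g : G, ∀ j, (X₁.1 j).map (L g) = D.1 j := by
    intro D
    obtain ⟨e₁, he₁, hg₁⟩ := hbasis X₁
    obtain ⟨e, he, hg⟩ := hbasis D
    let f : Vd →ₗ[F] Vd := (e₁.equiv e (Equiv.refl _)).toLinearMap
    have hf : ∀ s, f (e₁ s) = e s := fun s => by simp [f]
    have hiso : ∀ x y, Cfsg.sympForm d F (f x) (f y) = Cfsg.sympForm d F x y := by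
      have : (Cfsg.Agent.Forms.sympB d F).compl₁₂ f f = Cfsg.Agent.Forms.sympB d F := by
        refine LinearMap.ext_basis e₁ e₁ fun s s' => ?_
        obtain ⟨j, s⟩ := s; obtain ⟨j', s'⟩ := s'
        rw [LinearMap.compl₁₂_apply, hf, hf, Cfsg.Agent.Forms.sympB_apply, Cfsg.Agent.Forms.sympB_apply, hg, hg₁]
      intro x y
      have h' := LinearMap.congr_fun (LinearMap.congr_fun this x) y
      simpa using h'
    refine ⟨⟨LinearMap.toMatrix' f, Cfsg.Agent.Forms.mem_symplectic_iff.2 fun x y => by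
      simp only [LinearMap.toMatrix'_mulVec]; exact hiso x y⟩, fun j => ?_⟩
    show (X₁.1 j).map (Matrix.toLin' (LinearMap.toMatrix' f)) = _
    rw [Matrix.toLin'_toMatrix', he₁, he, Submodule.map_span, ← Set.range_comp]
    simp [Function.comp_def, hf]
  have hact : ∀ g : G, Good a fun j => (X₁.1 j).map (L g) := by
    intro g
    have hinj : Function.Injective (L g) := fun x y hxy => by
      have h' := congrArg (L g⁻¹) hxy
      rwa [← LinearMap.comp_apply, ← LinearMap.comp_apply, hLinv] at h'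
    have hpres : ∀ x y, Cfsg.Agent.Forms.sympB d F (L g x) (L g y) = Cfsg.Agent.Forms.sympB d F x y := fun x y => by
      simp only [Cfsg.Agent.Forms.sympB_apply, L, Matrix.toLin'_apply]
      exact Cfsg.Agent.Forms.mem_symplectic_iff.1 g.2 x y
    refine good_of ha ht (fun j => ⟨?_, ?_⟩) ?_ ?_
    · rw [← (Submodule.equivMapOfInjective _ hinj (X₁.1 j)).finrank_eq, X₁.2.1.finrank_eq]
    · rintro _ ⟨x, hx, rfl⟩ hh
      rw [nd_of_stmt (X₁.2.2.1 j) x hx fun y hy => by rw [← hpres]; exact hh _ ⟨y, hy, rfl⟩, map_zero]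
    · rintro j j' hne _ ⟨x, hx, rfl⟩ _ ⟨y, hy, rfl⟩
      rw [hpres, Cfsg.Agent.Forms.sympB_apply]
      exact X₁.2.2.2 j j' hne x hx y hy
    · rw [← Submodule.map_iSup, X₁.2.1.iSup_eq_top, Submodule.map_top,
        LinearMap.range_eq_top.2 (LinearMap.injective_iff_surjective.1 hinj)]
  let F' : G → X := fun g => ⟨_, hact g⟩
  have : Fintype X := Fintype.ofFinite _
  have hfib : ∀ D : X, Nat.card {g : G // F' g = D} = Nat.card {g : G // ∀ j, (X₁.1 j).map (L g) = X₁.1 j} := by
    intro D
    obtain ⟨g₀, hg₀⟩ := hmov D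
    refine Nat.card_congr
      { toFun := fun g => ⟨g₀⁻¹ * g.1, fun j => by
          rw [hL, Submodule.map_comp, show (X₁.1 j).map (L g.1) = D.1 j from congrFun (congrArg Subtype.val g.2) j,
            ← hg₀, ← Submodule.map_comp, hLinv, Submodule.map_id]⟩
        invFun := fun s => ⟨g₀ * s.1, Subtype.ext (funext fun j => by
          show (X₁.1 j).map (L (g₀ * s.1)) = D.1 j
          rw [hL, Submodule.map_comp, s.2, hg₀])⟩
        left_inv := fun g => Subtype.ext (mul_inv_cancel_left _ _)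
        right_inv := fun s => Subtype.ext (inv_mul_cancel_left _ _) }
  have hG : Nat.card X ∣ Nat.card G := by
    rw [Nat.card_congr (Equiv.sigmaFiberEquiv F').symm, Nat.card_sigma]
    simp only [hfib, Finset.sum_const, Finset.card_univ, smul_eq_mul, ← Nat.card_eq_fintype_card]
    exact dvd_mul_right _ _
  exact (h.trans (Nat.div_dvd_of_dvd hfree)).trans hG

end Count

end Cfsg.Agent.GeomClasses.SympDecompDerange
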