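import Cfsg.Agent.GeomClasses.SympQuadExt
import Cfsg.Agent.Forms.SympOrder

/-!
# Field extension structures on symplectic spaces
-/

set_option autoImplicit false
set_option linter.unusedSectionVars false

namespace Cfsg.Agent.GeomClasses.SympFieldExt

open Module Matrix Polynomial SympStructure Cfsg.Agent.Forms

variable {F : Type*} [Field F] [Fintype F] {d k : ℕ}

local notation "Vd" => (Fin d ⊕ Fin d → F)
local notation "Mx" => Matrix (Fin d ⊕ Fin d) (Fin d ⊕ Fin d) F
local notation "BB" => sympB d F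

/-- An endomorphism generating a field of self adjoint maps of degree `k`. -/
structure Ext (J : Module.End F (Fin d ⊕ Fin d → F)) (μ : F[X]) (k : ℕ) : Prop where
  monic : μ.Monic
  irr : Irreducible μ
  deg : μ.natDegree = k
  root : aeval J μ = 0
  sa : ∀ u v, sympB d F (J u) v = sympB d F u (J v)
  alt : ∀ (P : F[X]) v, sympB d F (aeval J P v) v = 0

variable {J : Module.End F (Fin d ⊕ Fin d → F)} {μ : F[X]}

theorem Ext.sa_aeval (hJ : Ext J μ k) : ∀ (P : F[X]) u v, BB (aeval J P u) v = BB u (aeval J P v) := by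
  intro P
  induction P using Polynomial.induction_on with
  | C a => intro u v; simp [Module.algebraMap_end_apply, ← sympB_apply]
  | add A B hA hB => intro u v; simp only [map_add, LinearMap.add_apply, hA, hB]
  | monomial n a ih =>
    intro u v
    rw [pow_succ, ← mul_assoc, map_mul, aeval_X, Module.End.mul_apply, Module.End.mul_apply, ih, hJ.sa]
    have hc : J * aeval J (Polynomial.C a * X ^ n) = aeval J (Polynomial.C a * X ^ n) * J := by
      have h := congrArg (aeval J) (mul_comm (X : F[X]) (Polynomial.C a * X ^ n))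
      rwa [map_mul (aeval J) X, map_mul (aeval J) (Polynomial.C a * X ^ n) X, aeval_X] at h
    exact congrArg (BB u) (LinearMap.congr_fun hc v)

/-- Evaluation at a root in an algebra that need not be commutative. -/
noncomputable def evalHom {A : Type*} [Ring A] [Algebra F A] (μ : F[X]) (a : A) (h : aeval a μ = 0) :
    AdjoinRoot μ →ₐ[F] A :=
  Ideal.Quotient.liftₐ (Ideal.span {μ}) (aeval a) fun P hP => by
    obtain ⟨Q, rfl⟩ := Ideal.mem_span_singleton'.1 hP
    rw [map_mul, h, mul_zero]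

theorem evalHom_mk {A : Type*} [Ring A] [Algebra F A] (μ : F[X]) (a : A) (h : aeval a μ = 0) (P : F[X]) :
    evalHom μ a h (AdjoinRoot.mk μ P) = aeval a P := rfl

/-- The dimension of an invariant subspace is a multiple of the degree. -/
theorem Ext.dvd_finrank (hJ : Ext J μ k) {U : Submodule F Vd} (hU : ∀ u ∈ U, J u ∈ U) : k ∣ finrank F U := by
  haveI := Fact.mk hJ.irr
  haveI : Module.Finite F (AdjoinRoot μ) := (AdjoinRoot.powerBasis hJ.irr.ne_zero).finite
  set JU : Module.End F U := J.restrict hU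
  have h0 : aeval JU μ = 0 := by
    have : ∀ (P : F[X]) (w : U), ((aeval JU P) w : Vd) = aeval J P (w : Vd) := by
      intro P
      induction P using Polynomial.induction_on with
      | C a => intro w; simp [Module.algebraMap_end_apply]
      | add A B hA hB => intro w; simp [hA, hB]
      | monomial n a ih =>
        intro w
        rw [pow_succ, ← mul_assoc]
        generalize Polynomial.C a * X ^ n = P at ih ⊢
        simp only [map_mul, aeval_X, Module.End.mul_apply]
        rw [ih]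
        rfl
    exact LinearMap.ext fun w => Subtype.ext (by rw [this, hJ.root]; rfl)
  let ψ : AdjoinRoot μ →ₐ[F] Module.End F U := evalHom μ JU h0
  letI : Module (AdjoinRoot μ) U := Module.compHom U ψ.toRingHom
  haveI : IsScalarTower F (AdjoinRoot μ) U := ⟨fun c a u => by
    show ψ (c • a) u = c • ψ a u
    rw [map_smul, LinearMap.smul_apply]⟩
  refine ⟨finrank (AdjoinRoot μ) U, ?_⟩
  rw [← finrank_mul_finrank F (AdjoinRoot μ) U, (AdjoinRoot.powerBasis hJ.irr.ne_zero).finrank,
    AdjoinRoot.powerBasis_dim, hJ.deg]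

variable {K : Subalgebra F (Matrix (Fin d ⊕ Fin d) (Fin d ⊕ Fin d) F)} {j : Matrix (Fin d ⊕ Fin d) (Fin d ⊕ Fin d) F}

theorem aeval_toLin (j : Mx) (P : F[X]) : aeval (Matrix.toLin' j) P = Matrix.toLin' (aeval j P) :=
  aeval_algHom_apply (Matrix.toLinAlgEquiv' : Mx ≃ₐ[F] _).toAlgHom j P

/-- A generator of a self adjoint field subalgebra of prime degree. -/
theorem exists_ext (hd : 1 ≤ d) (hk : k.Prime) (hK : Cfsg.Geo.IsFieldSubalgebra k K)
    (hsa : Cfsg.Geo.IsSelfAdjointFor (Cfsg.sympForm d F) K)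
    (halt : ∀ a ∈ K, ∀ v : Vd, Cfsg.sympForm d F (a *ᵥ v) v = 0) :
    ∃ (j : Mx) (μ : F[X]), j ∈ K ∧ Ext (Matrix.toLin' j) μ k ∧ ∀ a ∈ K, ∃ P : F[X], a = aeval j P := by
  classical
  haveI : Nonempty (Fin d) := Fin.pos_iff_nonempty.mp (by omega)
  obtain ⟨j, hj, hjn⟩ : ∃ j ∈ K, j ∉ (⊥ : Subalgebra F Mx) := by
    refine SetLike.not_le_iff_exists.mp fun hle => ?_
    have := hK.finrank_eq
    rw [le_bot_iff.mp hle, Subalgebra.finrank_bot] at this
    exact hk.ne_one this.symm
  have hf : IsField K := by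
    refine ⟨⟨0, 1, fun h => ?_⟩, fun a b => Subtype.ext (hK.comm a a.2 b b.2), fun {a} ha => ?_⟩
    · exact zero_ne_one (α := Mx) (congrArg Subtype.val h)
    · obtain ⟨y, hy, hay⟩ := hK.inv a a.2 (fun h => ha (Subtype.ext h))
      exact ⟨⟨y, hy⟩, Subtype.ext hay⟩
  letI : Field K := hf.toField
  haveI : Module.Finite F K := inferInstance
  set x : K := ⟨j, hj⟩
  set μ := minpoly F x
  have hint : IsIntegral F x := IsIntegral.of_finite F x
  haveI := Fact.mk (minpoly.irreducible hint)
  haveI : Module.Finite F (AdjoinRoot μ) := (AdjoinRoot.powerBasis (minpoly.ne_zero hint)).finite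
  let ψ : AdjoinRoot μ →ₐ[F] K := AdjoinRoot.liftAlgHom μ (Algebra.ofId F _) x (minpoly.aeval F x)
  letI : Module (AdjoinRoot μ) K := Module.compHom K ψ.toRingHom
  haveI : IsScalarTower F (AdjoinRoot μ) K := ⟨fun c a u => by
    show ψ (c • a) * u = c • (ψ a * u)
    rw [map_smul, smul_mul_assoc]⟩
  have hdeg : μ.natDegree = k := by
    have h := finrank_mul_finrank F (AdjoinRoot μ) K
    rw [hK.finrank_eq, (AdjoinRoot.powerBasis (minpoly.ne_zero hint)).finrank, AdjoinRoot.powerBasis_dim] at h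
    rcases hk.eq_one_or_self_of_dvd _ (Dvd.intro _ h) with h1 | h1
    · exfalso
      obtain ⟨c, hc⟩ := minpoly.natDegree_eq_one_iff.1 h1
      exact hjn (Algebra.mem_bot.2 ⟨c, congrArg Subtype.val hc⟩)
    · exact h1
  have hsurj : Function.Surjective ψ :=
    (LinearMap.injective_iff_surjective_of_finrank_eq_finrank (f := ψ.toLinearMap)
      (by rw [hK.finrank_eq, (AdjoinRoot.powerBasis (minpoly.ne_zero hint)).finrank, AdjoinRoot.powerBasis_dim, hdeg])).1
      ψ.injective
  have hval : ∀ P : F[X], ((aeval x P : K) : Mx) = aeval j P := fun P => (aeval_algHom_apply K.val x P).symm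
  have hspan : ∀ a ∈ K, ∃ P : F[X], a = aeval j P := fun a ha => by
    obtain ⟨y, hy⟩ := hsurj ⟨a, ha⟩
    obtain ⟨P, rfl⟩ := AdjoinRoot.mk_surjective y
    refine ⟨P, ?_⟩
    rw [← hval, show aeval x P = ψ (AdjoinRoot.mk μ P) from (AdjoinRoot.liftAlgHom_mk _ _ _ _ _).symm, hy]
  have hsaB : ∀ u v : Vd, BB (j *ᵥ u) v = BB u (j *ᵥ v) := fun u v => by simpa using hsa j hj u v
  refine ⟨j, μ, hj, ⟨minpoly.monic hint, minpoly.irreducible hint, hdeg, ?_, fun u v => ?_, fun P v => ?_⟩, hspan⟩
  · rw [aeval_toLin, ← hval, minpoly.aeval, ZeroMemClass.coe_zero, map_zero]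
  · simpa using hsaB u v
  · rw [aeval_toLin, Matrix.toLin'_apply, sympB_apply, ← hval]
    exact halt _ (Subtype.coe_prop _) v

/-- Elements commuting with a generator normalise the field. -/
theorem mem_normalizer (hspan : ∀ a ∈ K, ∃ P : F[X], a = aeval j P) {g : GL (Fin d ⊕ Fin d) F}
    (hg : (g : Mx) * j = j * (g : Mx)) : g ∈ Cfsg.Geo.subalgebraNormalizer K := by
  have h : ∀ a ∈ K, (g : Mx) * a * ((g⁻¹ : GL (Fin d ⊕ Fin d) F) : Mx) = a := fun a ha => by
    obtain ⟨P, rfl⟩ := hspan a ha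
    have hc : Commute (g : Mx) (aeval j P) := by
      clear ha
      induction P using Polynomial.induction_on with
      | C c => simpa [Algebra.algebraMap_eq_smul_one] using (Commute.one_right (g : Mx)).smul_right c
      | add A B hA hB =>
        rw [map_add]
        exact hA.add_right hB
      | monomial n c ih =>
        simp only [map_mul, map_pow, aeval_X, aeval_C, Algebra.algebraMap_eq_smul_one, smul_mul_assoc, one_mul]
        exact ((show Commute (g : Mx) j from hg).pow_right _).smul_right c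
    rw [hc.eq, mul_assoc, ← Units.val_mul, mul_inv_cancel, Units.val_one, mul_one]
  intro a
  refine ⟨fun ha => by rw [h a ha]; exact ha, fun ha => ?_⟩
  have h2 := h _ ha
  have h3 : (g : Mx) * a * ((g⁻¹ : GL (Fin d ⊕ Fin d) F) : Mx) = a :=
    g.isUnit.mul_left_cancel (g⁻¹.isUnit.mul_right_cancel h2)
  rwa [h3] at ha

/-- The centraliser of the field has the order of a symplectic group over the extension. -/
theorem exists_dvd_card {q : ℕ} (hq : Fintype.card F = q) (hj : Ext (Matrix.toLin' j) μ k)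
    (hspan : ∀ a ∈ K, ∃ P : F[X], a = aeval j P) :
    ∃ e, d = k * e ∧ (q ^ k) ^ (e ^ 2) * ∏ i ∈ Finset.range e, ((q ^ k) ^ (2 * (i + 1)) - 1) ∣
      Nat.card ↥(Cfsg.Geo.subalgebraNormalizer K ⊓ Cfsg.spGL d F) := by
  classical
  haveI := Fact.mk hj.irr
  let L := AdjoinRoot μ
  haveI : Module.Finite F L := (AdjoinRoot.powerBasis hj.irr.ne_zero).finite
  have hLd : finrank F L = k := by
    rw [(AdjoinRoot.powerBasis hj.irr.ne_zero).finrank, AdjoinRoot.powerBasis_dim, hj.deg]
  haveI : Finite L := Module.finite_of_finite F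
  letI : Fintype L := Fintype.ofFinite L
  have hL : Fintype.card L = q ^ k := by
    rw [← hq, ← Nat.card_eq_fintype_card, ← Nat.card_eq_fintype_card, Module.natCard_eq_pow_finrank (K := F) (V := L), hLd]
  let ψ : L →ₐ[F] Module.End F Vd := evalHom μ (Matrix.toLin' j) hj.root
  have hψ : ∀ P, ψ (AdjoinRoot.mk μ P) = aeval (Matrix.toLin' j) P := fun P => evalHom_mk _ _ _ P
  have hsa : ∀ a u v, BB (ψ a u) v = BB u (ψ a v) := fun a u v => by
    obtain ⟨P, rfl⟩ := AdjoinRoot.mk_surjective a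
    rw [hψ]; exact hj.sa_aeval P u v
  letI : Module L Vd := Module.compHom Vd ψ.toRingHom
  haveI : IsScalarTower F L Vd := ⟨fun c a u => by
    show ψ (c • a) u = c • ψ a u
    rw [map_smul, LinearMap.smul_apply]⟩
  haveI : SMulCommClass F L Vd := ⟨fun c a u => by
    show c • ψ a u = ψ a (c • u)
    rw [map_smul]⟩
  haveI : Module.Finite L Vd := Module.Finite.of_restrictScalars_finite F L Vd
  let θ : L →ₗ[F] F := (AdjoinRoot.powerBasis hj.irr.ne_zero).basis.coord ⟨0, by rw [AdjoinRoot.powerBasis_dim]; exact hj.irr.natDegree_pos⟩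
  obtain ⟨x₀, hx₀⟩ : ∃ x₀, θ x₀ ≠ 0 := by
    refine ⟨(AdjoinRoot.powerBasis hj.irr.ne_zero).basis ⟨0, by rw [AdjoinRoot.powerBasis_dim]; exact hj.irr.natDegree_pos⟩, ?_⟩
    simp only [θ, Basis.coord_apply, Basis.repr_self, Finsupp.single_eq_same]
    exact one_ne_zero
  let Dm : L →ₗ[F] (L →ₗ[F] F) := (LinearMap.mul F L).compr₂ θ
  have hDm : Function.Injective Dm := (injective_iff_map_eq_zero Dm).2 fun a ha => by
    by_contra h0
    exact hx₀ (by simpa [Dm, h0] using LinearMap.congr_fun ha (a⁻¹ * x₀))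
  let D := LinearEquiv.ofBijective Dm ⟨hDm,
    (LinearMap.injective_iff_surjective_of_finrank_eq_finrank (Subspace.dual_finrank_eq).symm).1 hDm⟩
  let G : Vd → Vd → L := fun u v => D.symm ((((BB).flip v).comp (LinearMap.applyₗ u)).comp ψ.toLinearMap)
  have hG : ∀ u v a, θ (a * G u v) = BB (ψ a u) v := fun u v a => by
    have := LinearMap.congr_fun (D.apply_symm_apply ((((BB).flip v).comp (LinearMap.applyₗ u)).comp ψ.toLinearMap)) a
    rw [mul_comm]
    exact this
  have hext : ∀ a b : L, (∀ c, θ (c * a) = θ (c * b)) → a = b := fun a b h => hDm (LinearMap.ext fun c => by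
    simpa [Dm, mul_comm] using h c)
  let b : LinearMap.BilinForm L Vd := LinearMap.mk₂ L G
    (fun u u' v => hext _ _ fun a => by simp only [mul_add, map_add, hG, LinearMap.add_apply])
    (fun c u v => hext _ _ fun a => by
      rw [smul_eq_mul, ← mul_assoc, hG, hG, map_mul, Module.End.mul_apply]; rfl)
    (fun u v v' => hext _ _ fun a => by simp only [mul_add, map_add, hG])
    (fun c u v => hext _ _ fun a => by
      rw [smul_eq_mul, ← mul_assoc, hG, hG, mul_comm a c, map_mul, Module.End.mul_apply, hsa c]; rfl)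
  have hb : ∀ u v, BB u v = θ (b u v) := fun u v => by
    have := hG u v 1
    rw [one_mul, map_one] at this
    exact this.symm
  have hbA : b.IsAlt := fun v => hext _ _ fun a => by
    rw [mul_zero, map_zero]
    show θ (a * G v v) = 0
    rw [hG]
    obtain ⟨P, rfl⟩ := AdjoinRoot.mk_surjective a
    rw [hψ]; exact hj.alt P v
  have hbn : ∀ u, (∀ v, b u v = 0) → u = 0 := fun u h =>
    sympB_nondegenerate.1 u fun v => by rw [hb, h, map_zero]
  have hI : IsForm (RingHom.id L) b (fun _ => (0 : L)) := isForm_alt b ⟨hbn, fun v h => hbn v fun u => by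
    rw [← LinearMap.IsAlt.neg hbA, h, neg_zero]⟩ hbA
  obtain ⟨m, hm, hcard⟩ := card_isom_alt hL hI
  refine ⟨m, ?_, ?_⟩
  · have h := finrank_mul_finrank F L Vd
    rw [hLd, hm, Module.finrank_pi, Fintype.card_sum, Fintype.card_fin, ← Nat.mul_left_comm] at h
    omega
  have hmem : ∀ g : isomGroup b (fun _ => (0 : L)),
      (glEquiv _ F).symm (g.1.restrictScalars F) ∈ Cfsg.Geo.subalgebraNormalizer K ⊓ Cfsg.spGL d F := by
    intro g
    refine ⟨mem_normalizer hspan (matrix_ext_mulVec fun v => ?_), mem_spGL_iff.2 fun u v => ?_⟩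
    · rw [← Matrix.mulVec_mulVec, ← Matrix.mulVec_mulVec, glEquiv_symm_mulVec, glEquiv_symm_mulVec]
      have h1 : ∀ w : Vd, j *ᵥ w = (AdjoinRoot.mk μ X : L) • w := fun w => by
        show _ = ψ (AdjoinRoot.mk μ X) w
        rw [hψ, aeval_X, Matrix.toLin'_apply]
      rw [h1, h1]
      exact g.1.map_smul _ v
    · rw [glEquiv_symm_mulVec, glEquiv_symm_mulVec, hb, hb]
      exact congrArg θ (g.2.1 u v)
  let φ : isomGroup b (fun _ => (0 : L)) →* ↥(Cfsg.Geo.subalgebraNormalizer K ⊓ Cfsg.spGL d F) :=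
    { toFun := fun g => ⟨_, hmem g⟩
      map_one' := Subtype.ext (map_one _)
      map_mul' := fun g g' => Subtype.ext (by
        exact map_mul (glEquiv _ F).symm (g.1.restrictScalars F) (g'.1.restrictScalars F)) }
  have hφ : Function.Injective φ := fun g g' h => Subtype.ext (LinearEquiv.ext fun v => by
    have h' := congrArg (fun e : ↥(Cfsg.Geo.subalgebraNormalizer K ⊓ Cfsg.spGL d F) => (e.1 : Mx) *ᵥ v) h
    simpa [φ, glEquiv_symm_mulVec] using h')
  rw [← hcard]
  exact Subgroup.card_dvd_of_injective φ hφ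

/-- Normalising elements of prime order commute with the field or move it with few fixed points. -/
theorem commute_or_semilinear (hK : Cfsg.Geo.IsFieldSubalgebra k K) (hd : 1 ≤ d) (hk : k.Prime) (hjK : j ∈ K)
    (hspan : ∀ a ∈ K, ∃ P : F[X], a = aeval j P) {g : GL (Fin d ⊕ Fin d) F}
    (hg : g ∈ Cfsg.Geo.subalgebraNormalizer K) {r : ℕ} (hr : r.Prime) (hgr : g ^ r = 1) :
    (g : Mx) * j = j * (g : Mx) ∨
      (r = k ∧ k * finrank F (LinearMap.ker (Matrix.toLin' (g : Mx) - 1)) ≤ 2 * d) := by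
  classical
  haveI : Nonempty (Fin d) := Fin.pos_iff_nonempty.mp (by omega)
  have hf : IsField K := by
    refine ⟨⟨0, 1, fun h => ?_⟩, fun a b => Subtype.ext (hK.comm a a.2 b b.2), fun {a} ha => ?_⟩
    · exact zero_ne_one (α := Mx) (congrArg Subtype.val h)
    · obtain ⟨y, hy, hay⟩ := hK.inv a a.2 (fun h => ha (Subtype.ext h))
      exact ⟨⟨y, hy⟩, Subtype.ext hay⟩
  letI : Field K := hf.toField
  haveI : Module.Finite F K := inferInstance
  haveI : Finite K := Module.finite_of_finite F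
  by_cases hc : (g : Mx) * j = j * (g : Mx)
  · exact Or.inl hc
  refine Or.inr ?_
  let c : K →ₐ[F] K :=
    { toFun := fun a => ⟨(g : Mx) * (a : Mx) * ((g⁻¹ : GL (Fin d ⊕ Fin d) F) : Mx), (hg a).1 a.2⟩
      map_one' := Subtype.ext (by simp)
      map_mul' := fun a b => Subtype.ext (by
        simp only [MulMemClass.coe_mul, mul_assoc]
        rw [← mul_assoc ((g⁻¹ : GL (Fin d ⊕ Fin d) F) : Mx) (g : Mx), ← Units.val_mul, inv_mul_cancel, Units.val_one, one_mul])
      map_zero' := Subtype.ext (by simp)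
      map_add' := fun a b => Subtype.ext (by simp [mul_add, add_mul])
      commutes' := fun a => Subtype.ext (by simp [Algebra.algebraMap_eq_smul_one]) }
  let σ : K ≃ₐ[F] K := AlgEquiv.ofBijective c (Finite.injective_iff_bijective.1 c.toRingHom.injective)
  have hσ : ∀ (i : ℕ) (a : K), (((σ ^ i) a : K) : Mx) * ((g ^ i : GL (Fin d ⊕ Fin d) F) : Mx) =
      ((g ^ i : GL (Fin d ⊕ Fin d) F) : Mx) * (a : Mx) := by
    intro i
    induction i with
    | zero => intro a; simp
    | succ i ih =>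
      intro a
      rw [pow_succ, pow_succ, AlgEquiv.mul_apply, Units.val_mul, ← mul_assoc, ih, mul_assoc]
      show _ * (((g : Mx) * (a : Mx) * ((g⁻¹ : GL (Fin d ⊕ Fin d) F) : Mx)) * (g : Mx)) = _
      rw [mul_assoc ((g : Mx) * (a : Mx)), ← Units.val_mul, inv_mul_cancel, Units.val_one, mul_one, mul_assoc]
  have hσr : σ ^ r = 1 := AlgEquiv.ext fun a => Subtype.ext (by
    have := hσ r a
    simpa [hgr] using this)
  have hσ1 : σ ≠ 1 := fun e => hc (by
    have := hσ 1 ⟨j, hjK⟩
    rw [pow_one, pow_one, e, AlgEquiv.one_apply] at this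
    exact this.symm)
  have hord : orderOf σ = r := by
    haveI := Fact.mk hr
    exact orderOf_eq_prime hσr hσ1
  have hrk : r = k := by
    have h := orderOf_dvd_natCard σ
    rw [hord, IsGalois.card_aut_eq_finrank, hK.finrank_eq] at h
    exact (Nat.prime_dvd_prime_iff_eq hr hk).1 h
  refine ⟨hrk, ?_⟩
  subst hrk
  -- the conjugates of the generator are distinct
  set x : K := ⟨j, hjK⟩
  have hgen : ∀ τ : K ≃ₐ[F] K, τ x = x → τ = 1 := fun τ hτ => AlgEquiv.ext fun a => by
    obtain ⟨P, hP⟩ := hspan a a.2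
    have : a = aeval x P := Subtype.ext (by rw [hP]; exact (aeval_algHom_apply K.val x P))
    rw [this, AlgEquiv.one_apply, ← aeval_algHom_apply, hτ]
  let M : Matrix (Fin r) (Fin r) K := Matrix.vandermonde fun i : Fin r => (σ ^ (i : ℕ)) x
  have hMdet : M.det ≠ 0 := Matrix.det_vandermonde_ne_zero_iff.2 fun a b hab => by
    have h1 : ((σ ^ (b : ℕ))⁻¹ * σ ^ (a : ℕ)) x = x := by
      rw [AlgEquiv.mul_apply, hab, ← AlgEquiv.mul_apply, inv_mul_cancel, AlgEquiv.one_apply]
    have h2 := (pow_inj_mod (x := σ)).1 (inv_mul_eq_one.1 (hgen _ h1)).symm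
    rw [hord, Nat.mod_eq_of_lt a.2, Nat.mod_eq_of_lt b.2] at h2
    exact Fin.ext h2
  set Fx := LinearMap.ker (Matrix.toLin' (g : Mx) - 1)
  let Φ : (Fin r → Fx) →ₗ[F] Vd :=
    { toFun := fun w => ∑ m : Fin r, ((x ^ (m : ℕ) : K) : Mx) *ᵥ (w m : Vd)
      map_add' := fun w w' => by simp [Matrix.mulVec_add, Finset.sum_add_distrib]
      map_smul' := fun a w => by simp [Matrix.mulVec_smul, Finset.smul_sum] }
  have hΦ : Function.Injective Φ := (injective_iff_map_eq_zero Φ).2 fun w hw => by
    have hfix : ∀ (i : ℕ) (m : Fin r), ((g ^ i : GL (Fin d ⊕ Fin d) F) : Mx) *ᵥ (w m : Vd) = (w m : Vd) := by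
      intro i m
      induction i with
      | zero => simp
      | succ i ih =>
        rw [pow_succ, Units.val_mul, ← Matrix.mulVec_mulVec,
          show (g : Mx) *ᵥ (w m : Vd) = (w m : Vd) from sub_eq_zero.1 (LinearMap.mem_ker.1 (w m).2), ih]
    have hrow : ∀ i : Fin r, ∑ m, ((M i m : K) : Mx) *ᵥ (w m : Vd) = 0 := fun i => by
      have h := congrArg (((g ^ (i : ℕ) : GL (Fin d ⊕ Fin d) F) : Mx) *ᵥ ·) hw
      simp only [Φ, LinearMap.coe_mk, AddHom.coe_mk, Matrix.mulVec_sum, Matrix.mulVec_zero, Matrix.mulVec_mulVec, ← hσ] at h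
      refine Eq.trans (Finset.sum_congr rfl fun m _ => ?_) h
      rw [← Matrix.mulVec_mulVec, hfix, map_pow]
      rfl
    funext l
    refine Subtype.ext ?_
    have h0 : ∑ i, ((M⁻¹ l i : K) : Mx) *ᵥ (∑ m, ((M i m : K) : Mx) *ᵥ (w m : Vd)) = 0 := by simp [hrow]
    simp only [Matrix.mulVec_sum, Matrix.mulVec_mulVec, ← MulMemClass.coe_mul] at h0
    rw [Finset.sum_comm] at h0
    have h1 : ∀ m, ∑ i, ((M⁻¹ l i * M i m : K) : Mx) *ᵥ (w m : Vd) = if l = m then (w m : Vd) else 0 := fun m => by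
      rw [← Matrix.sum_mulVec, ← AddSubmonoidClass.coe_finsetSum, ← Matrix.mul_apply,
        Matrix.nonsing_inv_mul _ (isUnit_iff_ne_zero.2 hMdet), Matrix.one_apply]
      split_ifs <;> simp
    simp only [h1, Finset.sum_ite_eq, Finset.mem_univ, if_true] at h0
    exact h0
  have h := LinearMap.finrank_le_finrank_of_injective hΦ
  rw [Module.finrank_pi_fintype, Finset.sum_const, Finset.card_univ, Fintype.card_fin, smul_eq_mul,
    Module.finrank_pi, Fintype.card_sum, Fintype.card_fin, ← two_mul] at h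
  exact h

end Cfsg.Agent.GeomClasses.SympFieldExt
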