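import Cfsg.Agent.GeomClasses.SympFieldExt
import Cfsg.Agent.GeomClasses.SympIsotropicOdd

/-!
# Isometries commuting with a field of self adjoint maps
-/

set_option autoImplicit false
set_option linter.unusedSectionVars false

namespace Cfsg.Agent.GeomClasses.SympFieldExtDerange

open Module Polynomial SympStructure SympFieldExt Cfsg.Agent.Forms Cfsg.Agent.Linear.SpPrimeClasses

variable {F : Type*} [Field F] [Fintype F] {d q r i k : ℕ} [Fact r.Prime]

local notation "Vd" => (Fin d ⊕ Fin d → F)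
local notation "BB" => sympB d F

variable {T : Module.End F (Fin d ⊕ Fin d → F)} {J : Module.End F (Fin d ⊕ Fin d → F)} {μ : F[X]}

/-- A single atom commuting with a self adjoint field bounds the degree of the field. -/
theorem dvd_half (hq : Fintype.card F = q) (hrF : (r : F) ≠ 0) (hr2 : r ≠ 2) (hrq : ¬ r ∣ q)
    (hi : i = orderOf (q : ZMod r)) {c : ℕ} (hc : c = if Even i then i else 2 * i)
    (hT : T ^ r = 1) (hTB : ∀ x y, BB (T x) (T y) = BB x y) (hcd : c ≤ 2 * d)
    (hker : finrank F (LinearMap.ker (T - 1)) = 2 * d - c) (hJ : Ext J μ k)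
    (hcomm : ∀ v, J (T v) = T (J v)) : k ∣ if Even i then i / 2 else i := by
  classical
  have hr : r.Prime := Fact.out
  obtain ⟨hi0, hidvd⟩ := SubspaceDerange.dvd_pow_sub_one hrq hi
  have hA : (BB).IsAlt := sympB_isAlt
  have hB : (BB).Nondegenerate := sympB_nondegenerate
  have hV : finrank F Vd = 2 * d := by
    rw [Module.finrank_pi, Fintype.card_sum, Fintype.card_fin]; omega
  have hinj : Function.Injective T := fun a b h => by
    have := congrArg (T ^ (r - 1)) h
    rwa [← Module.End.mul_apply, ← Module.End.mul_apply, ← pow_succ, Nat.sub_add_cancel hr.one_lt.le, hT,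
      Module.End.one_apply, Module.End.one_apply] at this
  set K := LinearMap.ker (T - 1)
  have hKn : Nd BB K := by
    have := nd_fixed hA hTB hT hrF (W := ⊤) (fun _ _ => trivial) (nd_top hB)
    rwa [top_inf_eq] at this
  have hKi : ∀ v ∈ K, T v ∈ K := fun v hv => by rwa [show T v = v from sub_eq_zero.1 hv]
  set R := (BB).orthogonal K
  have hRn : Nd BB R := by
    have := (nd_split hA hKn (nd_top hB) le_top).1
    rwa [top_inf_eq] at this
  have hRi : ∀ v ∈ R, T v ∈ R := orth_invariant hTB hinj hKi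
  have hfree : R ⊓ LinearMap.ker (T - 1) = ⊥ := by rw [inf_comm]; exact (nd_isCompl hA hKn).inf_eq_bot
  have hRd : finrank F R = c := by
    rw [LinearMap.BilinForm.finrank_orthogonal hB, hker, hV]; omega
  have hc0 : 0 < c := by rw [hc]; split_ifs <;> omega
  have hJK : ∀ v ∈ K, J v ∈ K := fun v hv => by
    show (T - 1) (J v) = 0
    rw [LinearMap.sub_apply, Module.End.one_apply, ← hcomm, show T v = v from sub_eq_zero.1 hv, sub_self]
  have hJR : ∀ v ∈ R, J v ∈ R := fun v hv w hw => by
    show BB w (J v) = 0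
    rw [← hJ.sa]
    exact hv _ (hJK w hw)
  have hJP : ∀ (P : F[X]) (v : Vd), J (aeval T P v) = aeval T P (J v) := by
    intro P
    induction P using Polynomial.induction_on with
    | C a => intro v; simp [Module.algebraMap_end_apply]
    | add A B hA hB => intro v; simp [hA, hB]
    | monomial k a ih =>
      intro v
      rw [pow_succ, ← mul_assoc]
      generalize Polynomial.C a * X ^ k = P at ih ⊢
      simp only [map_mul, aeval_X, Module.End.mul_apply]
      rw [ih, hcomm]
  have hR0 : R ≠ ⊥ := fun e => by rw [e, finrank_bot] at hRd; omega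
  obtain ⟨U, -, hUR, hUi, hUd⟩ := SubspaceDerange.step hq hrq hi hT hRi hfree (U := ⊥)
    (fun v hv => by rw [Submodule.mem_bot] at hv; simp [hv]) bot_le (by rw [finrank_bot, hRd]; exact hc0)
  rw [finrank_bot, zero_add] at hUd
  have hdiv : ∀ W : Submodule F Vd, W ≤ R → (∀ v ∈ W, T v ∈ W) → i ∣ finrank F W := fun W hWR hW => by
    have h := SubspaceDerange.dim_mod hq hrq hi hT hW
    rw [show W ⊓ LinearMap.ker (T - 1) = ⊥ from le_bot_iff.1 (hfree ▸ inf_le_inf_right _ hWR), finrank_bot] at h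
    exact Nat.modEq_zero_iff_dvd.1 h
  haveI : Nontrivial U := Submodule.nontrivial_iff_ne_bot.2 fun e => by rw [e, finrank_bot] at hUd; omega
  set TU : Module.End F U := T.restrict hUi
  obtain ⟨f, hfm, hfi, g, hg⟩ := exists_monic_irreducible_factor _ (minpoly.not_isUnit F TU)
  obtain ⟨y, hy⟩ : ∃ y, aeval TU g y ≠ 0 := by
    by_contra h
    push_neg at h
    have hg0 : g ≠ 0 := fun e => minpoly.ne_zero (IsIntegral.of_finite F TU) (by rw [hg, e, mul_zero])
    have h1 := natDegree_le_natDegree (minpoly.degree_le_of_ne_zero F TU hg0 (LinearMap.ext h))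
    rw [hg, natDegree_mul hfi.ne_zero hg0] at h1
    have := hfi.natDegree_pos
    omega
  haveI := Fact.mk hfi
  haveI : Module.Finite F (AdjoinRoot f) := (AdjoinRoot.powerBasis hfi.ne_zero).finite
  have hrestr : ∀ (P : F[X]) (w : U), ((aeval TU P) w : Vd) = aeval T P (w : Vd) := by
    intro P
    induction P using Polynomial.induction_on with
    | C a => intro w; simp [Module.algebraMap_end_apply]
    | add A B hA hB => intro w; simp [hA, hB]
    | monomial k a ih =>
      intro w
      rw [pow_succ, ← mul_assoc]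
      generalize Polynomial.C a * X ^ k = P at ih ⊢
      simp only [map_mul, aeval_X, Module.End.mul_apply]
      rw [ih]
      rfl
  set v : Vd := ((aeval TU g y : U) : Vd) with hv
  obtain ⟨φ, hφi, hφ1, hφ⟩ := exists_cyclic T hfi hfm (v := v) (fun e => hy (Subtype.ext e)) (by
    rw [hv, ← hrestr, ← Module.End.mul_apply, ← map_mul, ← hg, show aeval TU (minpoly F TU) = 0 from minpoly.aeval F TU]; rfl)
  have hrange : LinearMap.range φ = U := by
    have hle : LinearMap.range φ ≤ U := by
      rintro _ ⟨x, rfl⟩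
      obtain ⟨P, rfl⟩ := AdjoinRoot.mk_surjective x
      rw [← mul_one (AdjoinRoot.mk f P), hφ, hφ1]
      exact SubspaceDerange.aeval_mem hUi P (Submodule.coe_mem _)
    refine Submodule.eq_of_le_of_finrank_le hle (hUd ▸ Nat.le_of_dvd ?_ (hdiv _ (hle.trans hUR)
      (SympIsotropicOdd.range_invariant hφ)))
    refine Nat.pos_of_ne_zero fun e => hy (Subtype.ext ?_)
    have hm : φ 1 ∈ LinearMap.range φ := ⟨1, rfl⟩
    rwa [Submodule.finrank_eq_zero.1 e, Submodule.mem_bot, hφ1] at hm
  have hfdeg : f.natDegree = i := by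
    rw [← hUd, ← hrange, LinearMap.finrank_range_of_inj hφi, (AdjoinRoot.powerBasis hfi.ne_zero).finrank,
      AdjoinRoot.powerBasis_dim]
  have hfU : ∀ u ∈ U, aeval T f u = 0 := fun u hu => by
    rw [← hrange] at hu
    obtain ⟨x, rfl⟩ := hu
    rw [← hφ, AdjoinRoot.mk_self, zero_mul, map_zero]
  by_cases hie : Even i
  · rw [if_pos hie]
    rw [hc, if_pos hie] at hRd
    have hUeq : U = R := Submodule.eq_of_le_of_finrank_eq hUR (hUd.trans hRd.symm)
    obtain ⟨y₀, hy₀⟩ : J (φ 1) ∈ LinearMap.range φ := by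
      rw [hrange, hUeq]; exact hJR _ (hUeq ▸ hrange ▸ (⟨1, rfl⟩ : φ 1 ∈ LinearMap.range φ))
    obtain ⟨P, rfl⟩ := AdjoinRoot.mk_surjective y₀
    have hJeq : ∀ w ∈ R, J w = aeval T P w := fun w hw => by
      rw [← hUeq, ← hrange] at hw
      obtain ⟨x, rfl⟩ := hw
      obtain ⟨Q, rfl⟩ := AdjoinRoot.mk_surjective x
      rw [← mul_one (AdjoinRoot.mk f Q), hφ, hJP, ← hy₀, ← hφ, ← hφ, mul_one, ← hφ, mul_comm]
    have h1 : ((q : ZMod r) ^ (i / 2)) * (q : ZMod r) ^ (i / 2) = 1 := by
      obtain ⟨h, hh⟩ := hie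
      rw [← pow_add, show i / 2 + i / 2 = i by omega, hi, pow_orderOf_eq_one]
    obtain ⟨l, hl⟩ : r ∣ q ^ (i / 2) + 1 := by
      rcases mul_self_eq_one_iff.1 h1 with e | e
      · have := Nat.le_of_dvd (by obtain ⟨h, hh⟩ := hie; omega) (hi ▸ orderOf_dvd_of_pow_eq_one e)
        omega
      · exact (ZMod.natCast_eq_zero_iff _ _).1 (by push_cast; rw [e, neg_add_cancel])
    let a : Vd ≃ₗ[F] Vd := LinearEquiv.ofLinearMap T (T ^ (q ^ (i / 2)))
      (show T * T ^ q ^ (i / 2) = 1 by rw [← pow_succ', hl, pow_mul, hT, one_pow])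
      (show T ^ q ^ (i / 2) * T = 1 by rw [← pow_succ, hl, pow_mul, hT, one_pow])
    have hpow : ∀ n, ∀ w ∈ R, ((aeval T P) ^ n) w = (J ^ n) w := by
      intro n
      induction n with
      | zero => intro w _; rfl
      | succ n ih =>
        intro w hw
        rw [pow_succ, pow_succ, Module.End.mul_apply, Module.End.mul_apply, ← hJeq w hw, ih _ (hJR w hw)]
    have hJpR : ∀ n, ∀ w ∈ R, (J ^ n) w ∈ R := by
      intro n
      induction n with
      | zero => intro w hw; exact hw
      | succ n ih => intro w hw; rw [pow_succ, Module.End.mul_apply]; exact ih _ (hJR w hw)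
    obtain ⟨u, hu, hu0⟩ := (Submodule.ne_bot_iff R).1 hR0
    have hfix : (J ^ q ^ (i / 2)) u = J u := by
      refine sub_eq_zero.1 (hRn _ (sub_mem (hJpR _ u hu) (hJR u hu)) fun w hw => ?_)
      rw [map_sub, LinearMap.sub_apply, sub_eq_zero, hJ.sa u w, hJeq w hw]
      have e := aeval_adjoint _ (a := a) hTB P w u
      rw [show aeval (a.symm : Module.End F Vd) P u = aeval (T ^ q ^ (i / 2)) P u from rfl,
        SympIsotropicOdd.aeval_pow_card hq P T, hpow _ u hu] at e
      rw [← LinearMap.IsAlt.neg hA w, ← LinearMap.IsAlt.neg hA (aeval T P w)]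
      exact congrArg Neg.neg e.symm
    set G : F[X] := X ^ Nat.card F ^ (i / 2) - X
    have hG : aeval J G u = 0 := by
      simp only [G, map_sub, map_pow, aeval_X, LinearMap.sub_apply, Nat.card_eq_fintype_card, hq, hfix, sub_self]
    have hdvd : μ ∣ G := by
      by_contra hnd
      obtain ⟨s, t, hst⟩ := hJ.irr.coprime_iff_not_dvd.2 hnd
      have h := congrArg (fun Q => aeval J Q u) hst
      simp only [map_add, map_mul, hJ.root, mul_zero, zero_add, Module.End.mul_apply, hG, map_zero, map_one,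
        Module.End.one_apply] at h
      exact hu0 h.symm
    exact hJ.deg ▸ hJ.irr.natDegree_dvd_of_dvd_X_pow_card_pow_sub_X hdvd
  · rw [if_neg hie]
    have hio : Odd i := Nat.not_even_iff_odd.1 hie
    rw [hc, if_neg hie] at hRd
    set Z := LinearMap.ker (aeval T f) ⊓ R
    have hUZ : U ≤ Z := fun u hu => ⟨hfU u hu, hUR hu⟩
    have hZi : ∀ v ∈ Z, T v ∈ Z := fun v hv => ⟨by
      show aeval T f (T v) = 0
      have h := congrArg (fun Q : F[X] => aeval T Q v) (mul_comm f X)
      simp only [map_mul, aeval_X, Module.End.mul_apply] at h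
      rw [h, show aeval T f v = 0 from hv.1, map_zero], hRi v hv.2⟩
    have hJZ : ∀ v ∈ Z, J v ∈ Z := fun v hv => ⟨by
      show aeval T f (J v) = 0
      rw [← hJP, show aeval T f v = 0 from hv.1, map_zero], hJR v hv.2⟩
    by_cases hZU : Z = U
    · have := hJ.dvd_finrank hJZ
      rwa [hZU, hUd] at this
    exfalso
    obtain ⟨t, ht⟩ := hdiv Z inf_le_right hZi
    have hlt : i < finrank F Z := hUd ▸ Submodule.finrank_lt_finrank_of_lt (lt_of_le_of_ne hUZ (Ne.symm hZU))
    have hZR : Z = R := Submodule.eq_of_le_of_finrank_le inf_le_right (by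
      have := Nat.mul_le_mul_left i (show 2 ≤ t by
        rcases Nat.lt_or_ge t 2 with h | h
        · interval_cases t <;> omega
        · exact h)
      rw [hRd, ht]; omega)
    have hfR : ∀ w ∈ R, aeval T f w = 0 := fun w hw => (hZR.ge hw).1
    let a : Vd ≃ₗ[F] Vd := LinearEquiv.ofBijective T ⟨hinj, LinearMap.injective_iff_surjective.1 hinj⟩
    have h0 := cyclic_root_ne_zero (a := a) hφi hφ
    have hinv : aeval (AdjoinRoot.root f)⁻¹ f = 0 := by
      by_contra hne
      have : φ 1 = 0 := hRn _ (hUR (hrange ▸ ⟨1, rfl⟩)) fun w hw => by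
        rw [show φ (1 : AdjoinRoot f) = aeval (a.symm : Module.End F Vd) f (φ ((aeval (AdjoinRoot.root f)⁻¹ f)⁻¹)) by
          rw [cyclic_inv (a := a) hφ h0, mul_inv_cancel₀ hne], ← LinearMap.IsAlt.neg hA, neg_eq_zero,
          ← aeval_adjoint _ (a := a) hTB, show aeval (a : Module.End F Vd) f w = 0 from hfR w hw, map_zero,
          LinearMap.zero_apply]
      exact one_ne_zero (hφi (this.trans (map_zero φ).symm))
    set x := AdjoinRoot.root f
    have hxr : x ^ r = 1 := hφi (by
      rw [← mul_one (x ^ r), show x ^ r = AdjoinRoot.mk f (X ^ r) by rw [map_pow, AdjoinRoot.mk_X], hφ, map_pow, aeval_X, hT]; rfl)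
    have hx1 : x ≠ 1 := fun e => by
      have hm : φ 1 ∈ R ⊓ LinearMap.ker (T - 1) := ⟨hUR (hrange ▸ ⟨1, rfl⟩), by
        show (T - 1) (φ 1) = 0
        have h := cyclic_root (a := a) hφ 1
        rw [show AdjoinRoot.root f = 1 from e, one_mul] at h
        rw [LinearMap.sub_apply, Module.End.one_apply, sub_eq_zero]
        exact h⟩
      rw [hfree, Submodule.mem_bot] at hm
      exact one_ne_zero (hφi (hm.trans (map_zero φ).symm))
    haveI : Finite (AdjoinRoot f) := Module.finite_of_finite F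
    let τ : AdjoinRoot f →ₐ[F] AdjoinRoot f := AdjoinRoot.liftAlgHom f (Algebra.ofId F _) x⁻¹ hinv
    let σ : AdjoinRoot f ≃ₐ[F] AdjoinRoot f := AlgEquiv.ofBijective τ (Finite.injective_iff_bijective.1 τ.toRingHom.injective)
    have hσx : σ x = x⁻¹ := AdjoinRoot.liftAlgHom_root f (Algebra.ofId F _) x⁻¹ hinv
    have hσ2 : σ ^ 2 = 1 := by
      refine AlgEquiv.coe_toAlgHom_injective (AdjoinRoot.algHom_ext ?_)
      show σ (σ x) = x
      rw [hσx, map_inv₀, hσx, inv_inv]
    have hσi : orderOf σ ∣ i := by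
      have h := orderOf_dvd_natCard σ
      rwa [IsGalois.card_aut_eq_finrank, (AdjoinRoot.powerBasis hfi.ne_zero).finrank, AdjoinRoot.powerBasis_dim,
        hfdeg] at h
    have hσ1 : σ = 1 := orderOf_eq_one_iff.1 (Nat.eq_one_of_dvd_coprimes (Nat.coprime_two_right.2 hio) hσi
      (orderOf_dvd_of_pow_eq_one hσ2))
    rw [hσ1, AlgEquiv.one_apply] at hσx
    have hx2 : x * x = 1 := by nth_rw 2 [hσx]; exact mul_inv_cancel₀ h0
    obtain ⟨s, hs⟩ := hr.odd_of_ne_two hr2
    rw [hs, pow_succ, pow_mul, pow_two, hx2, one_pow, one_mul] at hxr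
    exact hx1 hxr

end Cfsg.Agent.GeomClasses.SympFieldExtDerange
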