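import Cfsg.Agent.GeomClasses.SympStructure
import Cfsg.Agent.Forms.SubspaceStab
import Cfsg.Agent.Forms.SympElements

/-!
# Counting nondegenerate subspaces of an alternating space
-/

set_option autoImplicit false
set_option linter.unusedSectionVars false

namespace Cfsg.Agent.GeomClasses.SympNondeg

open Module SympStructure Cfsg.Agent.Forms

variable {F : Type*} [Field F] [Fintype F] {d : ℕ}

/-- Nondegeneracy in the form used by the statements. -/
theorem nd_iff {W : Submodule F (Fin d ⊕ Fin d → F)} :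
    Nd (sympB d F) W ↔ ∀ u ∈ W, u ≠ 0 → ∃ v ∈ W, Cfsg.sympForm d F u v ≠ 0 := by
  simp only [Nd, sympB_apply]
  refine forall₂_congr fun w _ => ⟨fun h hw => ?_, fun h h0 => ?_⟩
  · by_contra hc
    push_neg at hc
    exact hw (h hc)
  · by_contra hw
    obtain ⟨v, hv, hv0⟩ := h hw
    exact hv0 (h0 v hv)

/-- A prime dividing the number of nondegenerate subspaces of dimension `m`. -/
theorem exists_dvd {q m r : ℕ} (hq : Fintype.card F = q) (hr : r.Prime) (hrq : ¬ r ∣ q) (hm : Even m) (hmd : m ≤ 2 * d)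
    (h : r ∣ Nat.card {W : Submodule F (Fin d ⊕ Fin d → F) // finrank F ↥W = m ∧
      (∀ u ∈ W, u ≠ 0 → ∃ v ∈ W, Cfsg.sympForm d F u v ≠ 0)}) :
    ∃ l, 2 * d < 2 * l + m ∧ l ≤ d ∧ r ∣ q ^ (2 * l) - 1 := by
  classical
  obtain ⟨a, ha⟩ := hm
  have hA : (sympB d F).IsAlt := sympB_isAlt
  have hB : (sympB d F).Nondegenerate := sympB_nondegenerate
  have hV : finrank F (Fin d ⊕ Fin d → F) = 2 * d := by
    rw [Module.finrank_pi, Fintype.card_sum, Fintype.card_fin]; omega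
  set G := isomGroup (sympB d F) (fun _ => (0 : F))
  letI : MulAction G (Submodule F (Fin d ⊕ Fin d → F)) :=
    { smul := fun g W => W.map ((g.1 : (Fin d ⊕ Fin d → F) ≃ₗ[F] _) : (Fin d ⊕ Fin d → F) →ₗ[F] _)
      one_smul := fun W => Submodule.map_id W
      mul_smul := fun g k W => Submodule.map_comp _ _ W }
  have hsmul : ∀ (g : G) (W : Submodule F (Fin d ⊕ Fin d → F)),
      g • W = W.map ((g.1 : (Fin d ⊕ Fin d → F) ≃ₗ[F] _) : (Fin d ⊕ Fin d → F) →ₗ[F] _) := fun _ _ => rfl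
  obtain ⟨W₀, -, hW₀, hW₀d⟩ := exists_nd_sub hA (nd_top hB) a (by rw [finrank_top, hV]; omega)
  have horb : MulAction.orbit G W₀ = {W : Submodule F (Fin d ⊕ Fin d → F) | finrank F ↥W = m ∧
      (∀ u ∈ W, u ≠ 0 → ∃ v ∈ W, Cfsg.sympForm d F u v ≠ 0)} := by
    ext W
    rw [Set.mem_ofPred_eq, ← nd_iff, MulAction.mem_orbit_iff]
    constructor
    · rintro ⟨g, rfl⟩
      rw [hsmul, LinearEquiv.finrank_map_eq]
      refine ⟨by omega, ?_⟩
      rintro _ ⟨x, hx, rfl⟩ hz
      rw [LinearEquiv.coe_coe, hW₀ x hx fun y hy => by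
        rw [← g.2.1 x y]; exact hz _ ⟨y, hy, rfl⟩, map_zero]
    · rintro ⟨hd, hn⟩
      have hres : ∀ X : Submodule F (Fin d ⊕ Fin d → F), Nd (sympB d F) X → finrank F X = m →
          ∃ e : X ≃ₗ[F] (Fin a ⊕ Fin a → F), ∀ x y, sympB a F (e x) (e y) = sympB d F (x : _) (y : _) := by
        intro X hX hXd
        let L : (Fin a ⊕ Fin a → F) ≃ₗ[F] (Fin (a + a) → F) := LinearEquiv.funCongrLeft F F finSumFinEquiv.symm
        obtain ⟨e, he⟩ := exists_isometryEquiv (n := a + a) (by rw [hXd, ha]) ((sympB d F).restrict X)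
          (fun x => hA _) (fun x hx => Subtype.ext (hX x x.2 fun y hy => hx ⟨y, hy⟩))
          ((sympB a F).compl₁₂ L.symm.toLinearMap L.symm.toLinearMap) (fun x => sympB_isAlt _)
          ⟨fun x hx => L.symm.map_eq_zero_iff.1 (sympB_nondegenerate.1 _ fun y => by simpa using hx (L y)),
            fun x hx => L.symm.map_eq_zero_iff.1 (sympB_nondegenerate.2 _ fun y => by simpa using hx (L y))⟩
        exact ⟨e.trans L.symm, fun x y => he x y⟩
      obtain ⟨e₀, he₀⟩ := hres W₀ hW₀ (by omega)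
      obtain ⟨e₁, he₁⟩ := hres W hn hd
      obtain ⟨g, hg⟩ := isForm_symp.exists_isom_extend W₀ (W.subtype ∘ₗ (e₀.trans e₁.symm).toLinearMap)
        (W.injective_subtype.comp (e₀.trans e₁.symm).injective)
        (fun x y => by
          show sympB d F ((e₁.symm (e₀ x) : W) : _) ((e₁.symm (e₀ y) : W) : _) = _
          rw [← he₁, LinearEquiv.apply_symm_apply, LinearEquiv.apply_symm_apply, he₀]) (fun x => rfl)
      refine ⟨g, ?_⟩
      rw [hsmul]
      refine Submodule.eq_of_le_of_finrank_eq ?_ (by rw [LinearEquiv.finrank_map_eq]; omega)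
      rintro _ ⟨x, hx, rfl⟩
      rw [LinearEquiv.coe_coe, hg ⟨x, hx⟩]
      exact Submodule.coe_mem _
  have hidx := Subgroup.index_mul_card (MulAction.stabilizer G W₀)
  have hperp : finrank F ↥(perp (sympB d F) W₀) = 2 * (d - a) := by
    have := isForm_symp.finrank_perp (σ := RingHom.id F) W₀
    omega
  have hpn : ∀ u ∈ perp (sympB d F) W₀, (∀ v ∈ perp (sympB d F) W₀, sympB d F u v = 0) → u = 0 :=
    isForm_symp.perp_nondeg hW₀
  obtain ⟨a₁, ha₁, hc₁⟩ := card_isom_alt hq (isForm_symp.restrict hW₀)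
  obtain ⟨a₂, ha₂, hc₂⟩ := card_isom_alt hq (isForm_symp.restrict hpn)
  obtain ⟨d', hd', hcG⟩ := card_isom_alt hq (isForm_symp (m := d) (F := F))
  obtain rfl : a = a₁ := by omega
  obtain rfl : d - a = a₂ := by omega
  obtain rfl : d = d' := by omega
  rw [MulAction.index_stabilizer, horb, ← Nat.card_coe_set_eq,
    Nat.card_congr (stabProdEquiv isForm_symp W₀ hW₀ (MulEquiv.refl G) (MulAction.stabilizer G W₀) fun g => by
      rw [MulAction.mem_stabilizer_iff, hsmul]
      refine ⟨fun h x hx => h.le ⟨x, hx, rfl⟩, fun h => ?_⟩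
      refine Submodule.eq_of_le_of_finrank_eq ?_ (LinearEquiv.finrank_map_eq _ _)
      rintro _ ⟨x, hx, rfl⟩
      exact h x hx).toEquiv, Nat.card_prod, hcG,
    ← Finset.prod_range_mul_prod_Ico _ (Nat.sub_le d a)] at hidx
  erw [hc₁, hc₂] at hidx
  have hq1 : 1 < q := hq ▸ Fintype.one_lt_card
  set P := ∏ i ∈ Finset.range (d - a), (q ^ (2 * (i + 1)) - 1)
  have hP : 0 < P := Finset.prod_pos fun i _ => Nat.sub_pos_of_lt (Nat.one_lt_pow (by omega) hq1)
  have hdvd : r ∣ q ^ d ^ 2 * ∏ i ∈ Finset.Ico (d - a) d, (q ^ (2 * (i + 1)) - 1) := by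
    refine (h.mul_right (q ^ a ^ 2 * (∏ i ∈ Finset.range a, (q ^ (2 * (i + 1)) - 1)) * q ^ (d - a) ^ 2)).trans ?_
    refine dvd_of_eq (mul_right_cancel₀ hP.ne' ?_)
    rw [Set.coe_ofPred] at hidx
    linear_combination hidx
  rcases (Nat.Prime.dvd_mul hr).1 hdvd with hd' | hd'
  · exact absurd (hr.dvd_of_dvd_pow hd') hrq
  · obtain ⟨i, hi, hi'⟩ := (hr.prime.dvd_finsetProd_iff _).1 hd'
    rw [Finset.mem_Ico] at hi
    exact ⟨i + 1, by omega, by omega, hi'⟩

end Cfsg.Agent.GeomClasses.SympNondeg
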