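import Cfsg.Agent.GeomClasses.SympQuadExt
import Cfsg.Agent.GeomClasses.SympNondeg

/-!
# Field structures compatible with an element whose square is a scalar
-/

set_option autoImplicit false
set_option linter.unusedSectionVars false

namespace Cfsg.Agent.GeomClasses.SympQuadExtInvolution

open Module SympStructure SympQuadExt Cfsg.Agent.Forms

variable {F : Type*} [Field F] [Fintype F] {d : ℕ}

local notation "Vd" => (Fin d ⊕ Fin d → F)
local notation "BB" => sympB d F

variable {T : Module.End F (Fin d ⊕ Fin d → F)} {δ : F}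

/-- A skew map with a given scalar square on a nondegenerate subspace. -/
theorem exists_skew_on {W : Submodule F Vd} (hW : Nd BB W) (δ : F) :
    ∃ J : Module.End F W, (∀ v, J (J v) = δ • v) ∧ ∀ u v : W, BB (J u : Vd) (v : Vd) = -BB (u : Vd) (J v : Vd) := by
  classical
  have hA : (BB).IsAlt := sympB_isAlt
  obtain ⟨a, ha⟩ := nd_even hA hW
  let L : (Fin a ⊕ Fin a → F) ≃ₗ[F] (Fin (a + a) → F) := LinearEquiv.funCongrLeft F F finSumFinEquiv.symm
  obtain ⟨e, he⟩ := exists_isometryEquiv (n := a + a) (by rw [ha]) ((BB).restrict W)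
    (fun x => hA _) (fun x hx => Subtype.ext (hW x x.2 fun y hy => hx ⟨y, hy⟩))
    ((sympB a F).compl₁₂ L.symm.toLinearMap L.symm.toLinearMap) (fun x => sympB_isAlt _)
    ⟨fun x hx => L.symm.map_eq_zero_iff.1 (sympB_nondegenerate.1 _ fun y => by simpa using hx (L y)),
      fun x hx => L.symm.map_eq_zero_iff.1 (sympB_nondegenerate.2 _ fun y => by simpa using hx (L y))⟩
  let J₀ : Module.End F (Fin a ⊕ Fin a → F) :=
    { toFun := fun x => Sum.elim (fun i => δ * x (Sum.inr i)) (fun i => x (Sum.inl i))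
      map_add' := fun x y => funext fun s => by rcases s with i | i <;> simp [mul_add]
      map_smul' := fun c x => funext fun s => by rcases s with i | i <;> simp [mul_left_comm] }
  have hJ₀ : ∀ x, J₀ (J₀ x) = δ • x := fun x => funext fun s => by rcases s with i | i <;> simp [J₀]
  have hJ₀B : ∀ x y, sympB a F (J₀ x) y = -sympB a F x (J₀ y) := fun x y => by
    rw [sympB_apply, sympB_apply, sympForm_eq, sympForm_eq, ← Finset.sum_neg_distrib]
    refine Finset.sum_congr rfl fun i _ => ?_
    simp [J₀]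
    ring
  let E : W ≃ₗ[F] (Fin a ⊕ Fin a → F) := e.trans L.symm
  have hE : ∀ x y, sympB a F (E x) (E y) = BB (x : Vd) (y : Vd) := fun x y => he x y
  refine ⟨E.symm.toLinearMap ∘ₗ J₀ ∘ₗ E.toLinearMap, fun v => ?_, fun u v => ?_⟩
  · simp [hJ₀]
  · rw [← hE, ← hE]
    simp [← sympB_apply, hJ₀B]

/-- A field structure commuting with an involution. -/
theorem exists_commute (h2 : (2 : F) ≠ 0) (hTB : ∀ x y, BB (T x) (T y) = BB x y) (hT : ∀ v, T (T v) = v) (δ : F) :
    ∃ J : Module.End F Vd, Skew J δ ∧ ∀ v, J (T v) = T (J v) := by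
  classical
  have hA : (BB).IsAlt := sympB_isAlt
  have hB : (BB).Nondegenerate := sympB_nondegenerate
  have hKn : Nd BB (LinearMap.ker (T - 1)) := by
    have := nd_fixed (r := 2) hA hTB (T := T) (LinearMap.ext fun v => by rw [pow_two]; exact hT v)
      (by exact_mod_cast h2) (W := ⊤) (fun _ _ => trivial) (nd_top hB)
    rwa [top_inf_eq] at this
  set K := LinearMap.ker (T - 1)
  set R := (BB).orthogonal K
  have hRn : Nd BB R := by
    have := (nd_split hA hKn (nd_top hB) le_top).1
    rwa [top_inf_eq] at this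
  have hKf : ∀ v ∈ K, T v = v := fun v hv => sub_eq_zero.1 hv
  have hinj : Function.Injective T := fun a b h => by rw [← hT a, h, hT]
  have hc := nd_isCompl hA hKn
  have hRf : ∀ v ∈ R, T v = -v := fun v hv => eq_neg_iff_add_eq_zero.2 <| by
    have h1 : T v + v ∈ K := by
      show (T - 1) _ = 0
      rw [LinearMap.sub_apply, map_add, hT, Module.End.one_apply]; abel
    exact Submodule.disjoint_def.1 hc.disjoint _ h1
      (add_mem (orth_invariant hTB hinj (fun v hv => by rwa [hKf v hv]) v hv) hv)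
  obtain ⟨J₁, hJ₁, hJ₁B⟩ := exists_skew_on hKn δ
  obtain ⟨J₂, hJ₂, hJ₂B⟩ := exists_skew_on hRn δ
  let P := Submodule.prodEquivOfIsCompl K R hc
  let J : Module.End F Vd := P.toLinearMap ∘ₗ J₁.prodMap J₂ ∘ₗ P.symm.toLinearMap
  have hJP : ∀ z : K × R, J (P z) = P (J₁ z.1, J₂ z.2) := fun z => by simp [J]
  have hP : ∀ z : K × R, P z = (z.1 : Vd) + (z.2 : Vd) := fun z => rfl
  refine ⟨J, ⟨fun v => ?_, fun u v => ?_⟩, fun v => ?_⟩
  · obtain ⟨z, rfl⟩ := P.surjective v
    rw [hJP, hJP, hJ₁, hJ₂, ← map_smul]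
    rfl
  · obtain ⟨x, rfl⟩ := P.surjective u
    obtain ⟨y, rfl⟩ := P.surjective v
    have h1 : ∀ (a : K) (b : R), BB (a : Vd) (b : Vd) = 0 ∧ BB (b : Vd) (a : Vd) = 0 := fun a b =>
      ⟨b.2 _ a.2, hA.isRefl _ _ (b.2 _ a.2)⟩
    rw [hJP, hJP, hP, hP, hP, hP]
    simp only [map_add, LinearMap.add_apply, (h1 _ _).1, (h1 _ _).2, hJ₁B, hJ₂B]
    ring
  · obtain ⟨z, rfl⟩ := P.surjective v
    have hTP : ∀ w : K × R, T (P w) = P (w.1, -w.2) := fun w => by
      rw [hP, hP, map_add, hKf _ w.1.2, hRf _ w.2.2]; rfl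
    rw [hTP, hJP, hJP, hTP, map_neg]

/-- A field structure anticommuting with an element of square minus one. -/
theorem exists_anticommute (h2 : (2 : F) ≠ 0) (hTB : ∀ x y, BB (T x) (T y) = BB x y) (hT : ∀ v, T (T v) = -v) (δ : F) :
    ∃ J : Module.End F Vd, Skew J δ ∧ ∀ v, J (T v) = -T (J v) := by
  classical
  have hA : (BB).IsAlt := sympB_isAlt
  have hTs : Skew T (-1) := ⟨fun v => by rw [hT, neg_one_smul], fun u v => by
    rw [← hTB u (T v), hT, map_neg, neg_neg]⟩
  obtain ⟨u, hu⟩ := exists_planes hTs h2 (neg_ne_zero.2 one_ne_zero)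
  obtain ⟨α, β, hαβ⟩ := FiniteField.exists_root_sum_quadratic
    (f := (Polynomial.X : Polynomial F) ^ 2) (g := Polynomial.X ^ 2 - Polynomial.C δ)
    (by rw [Polynomial.degree_X_pow]; rfl) (Polynomial.degree_X_pow_sub_C (by norm_num) δ)
    (FiniteField.odd_card_of_char_ne_two fun h => h2 (by
      have : ((2 : ℕ) : F) = 0 := by
        haveI := ringChar.charP F
        rw [← h]; exact CharP.cast_eq_zero F (ringChar F)
      exact_mod_cast this))
  simp only [Polynomial.eval_sub, Polynomial.eval_pow, Polynomial.eval_X, Polynomial.eval_C] at hαβ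
  let b := familyBasis hu
  let J : Module.End F Vd := b.constr F (Sum.elim (fun a => α • u a + β • T (u a)) (fun a => β • u a - α • T (u a)))
  have hl : ∀ a, J (u a) = α • u a + β • T (u a) := fun a => by
    have h := b.constr_basis F (Sum.elim (fun a => α • u a + β • T (u a)) (fun a => β • u a - α • T (u a))) (Sum.inl a)
    rwa [familyBasis_apply] at h
  have hr : ∀ a, J (T (u a)) = β • u a - α • T (u a) := fun a => by
    have h := b.constr_basis F (Sum.elim (fun a => α • u a + β • T (u a)) (fun a => β • u a - α • T (u a))) (Sum.inr a)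
    rwa [familyBasis_apply] at h
  have e1 : ∀ a c, BB (u a) (u c) = 0 := fun a c => hu.ll a c
  have e2 : ∀ a c, BB (T (u a)) (T (u c)) = 0 := fun a c => hu.rr a c
  have e3 : ∀ a c, BB (u a) (T (u c)) = if a = c then (1 : F) else 0 := fun a c => hu.lr a c
  have e4 : ∀ a c, BB (T (u a)) (u c) = -(if a = c then (1 : F) else 0) := fun a c => by
    rw [← LinearMap.IsAlt.neg hA, e3]
    by_cases h : a = c
    · subst h; rfl
    · rw [if_neg h, if_neg (Ne.symm h)]
  refine ⟨J, ⟨fun v => ?_, fun x y => ?_⟩, fun v => ?_⟩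
  · refine LinearMap.congr_fun (show J * J = δ • 1 from b.ext fun s => ?_) v
    rcases s with a | a <;>
      simp only [b, familyBasis_apply, Sum.elim_inl, Sum.elim_inr, Module.End.mul_apply, LinearMap.smul_apply,
        Module.End.one_apply, hl, hr, map_add, map_sub, map_smul] <;>
      match_scalars <;> first | ring1 | linear_combination hαβ | linear_combination -hαβ
  · refine LinearMap.congr_fun (LinearMap.congr_fun (show (BB) ∘ₗ J = -((BB).compl₂ J) from
      b.ext fun s => b.ext fun s' => ?_) x) y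
    rcases s with a | a <;> rcases s' with c | c <;>
      simp only [b, familyBasis_apply, Sum.elim_inl, Sum.elim_inr, LinearMap.comp_apply, LinearMap.compl₂_apply,
        LinearMap.neg_apply, hl, hr, map_add, map_sub, map_smul, LinearMap.add_apply, LinearMap.sub_apply,
        LinearMap.smul_apply, e1, e2, e3, e4, smul_eq_mul] <;>
      ring
  · refine LinearMap.congr_fun (show J * T = -(T * J) from b.ext fun s => ?_) v
    rcases s with a | a <;>
      simp only [b, familyBasis_apply, Sum.elim_inl, Sum.elim_inr, Module.End.mul_apply, LinearMap.neg_apply,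
        hl, hr, hT, map_add, map_sub, map_smul, map_neg] <;>
      module

end Cfsg.Agent.GeomClasses.SympQuadExtInvolution
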