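import Cfsg.Agent.GeomClasses.SympFieldExt
import Cfsg.Agent.GeomClasses.SympQuadExtInvolution

/-!
# Quadratic fields of self adjoint maps on symplectic spaces of dimension four
-/

set_option autoImplicit false
set_option linter.unusedSectionVars false

namespace Cfsg.Agent.GeomClasses.SympFieldExtFour

open Module SympStructure SympQuadExt Cfsg.Agent.Forms

variable {F : Type*} [Field F] [Fintype F]

local notation "Vd" => (Fin 2 ⊕ Fin 2 → F)
local notation "BB" => sympB 2 F

/-- A self adjoint endomorphism with scalar square. -/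
structure SA (J : Module.End F (Fin 2 ⊕ Fin 2 → F)) (δ : F) : Prop where
  sq : ∀ v, J (J v) = δ • v
  sa : ∀ u v, sympB 2 F (J u) v = sympB 2 F u (J v)

theorem finrank_space : finrank F Vd = 4 := by
  rw [Module.finrank_pi, Fintype.card_sum, Fintype.card_fin]

variable {δ : F}

theorem SA.alt {J : Module.End F Vd} (hJ : SA J δ) (h2 : (2 : F) ≠ 0) (v : Vd) : BB (J v) v = 0 := by
  have h := LinearMap.IsAlt.neg (sympB_isAlt (F := F) (m := 2)) (J v) v
  rw [hJ.sa] at h ⊢
  exact (mul_eq_zero.1 (show (2 : F) * BB v (J v) = 0 by linear_combination -h)).resolve_left h2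

/-- A frame adapted to a self adjoint map. -/
theorem exists_frame {J : Module.End F Vd} (hJ : SA J δ) (h2 : (2 : F) ≠ 0) (hnsq : ∀ c : F, c * c ≠ δ) :
    ∃ e f : Vd, BB e f = 1 ∧ BB (J e) f = 0 ∧ LinearIndependent F ![e, J e, f, J f] := by
  classical
  have hA : (BB).IsAlt := sympB_isAlt
  have hδ : δ ≠ 0 := fun h => hnsq 0 (by rw [h, zero_mul])
  obtain ⟨e, he⟩ := exists_ne (0 : Vd)
  let L : Vd →ₗ[F] F × F := (BB e).prod (BB (J e))
  have hL : Function.Surjective L := by
    rw [← LinearMap.range_eq_top]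
    by_contra h
    obtain ⟨φ, hφ0, hφ⟩ := Submodule.exists_dual_map_eq_bot_of_lt_top (lt_top_iff_ne_top.2 h) inferInstance
    have hv : ∀ v, BB (φ (1, 0) • e + φ (0, 1) • J e) v = 0 := fun v => by
      have h1 : φ (L v) = 0 := by
        have : φ (L v) ∈ Submodule.map φ (LinearMap.range L) := Submodule.mem_map_of_mem ⟨v, rfl⟩
        rwa [hφ, Submodule.mem_bot] at this
      rw [show L v = BB e v • ((1 : F), (0 : F)) + BB (J e) v • ((0 : F), (1 : F)) by ext <;> simp [L], map_add, map_smul,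
        map_smul, smul_eq_mul, smul_eq_mul] at h1
      simp only [map_add, map_smul, LinearMap.add_apply, LinearMap.smul_apply, smul_eq_mul]
      linear_combination h1
    have h0 := sympB_nondegenerate.1 _ hv
    by_cases hb : φ (0, 1) = 0
    · rw [hb, zero_smul, add_zero] at h0
      refine hφ0 (LinearMap.ext fun p => ?_)
      rw [show p = p.1 • ((1 : F), (0 : F)) + p.2 • ((0 : F), (1 : F)) by ext <;> simp, map_add, map_smul, map_smul,
        (smul_eq_zero.1 h0).resolve_right he, hb, smul_zero, smul_zero, add_zero]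
      rfl
    · have hJe : J e = (-(φ (0, 1))⁻¹ * φ (1, 0)) • e := by
        rw [neg_mul, neg_smul, mul_smul, ← smul_neg, neg_eq_of_add_eq_zero_right h0, inv_smul_smul₀ hb]
      have h := hJ.sq e
      rw [hJe, map_smul, hJe, smul_smul] at h
      exact hnsq _ (smul_left_injective F he h)
  obtain ⟨f, hf⟩ := hL (1, 0)
  have h1 : BB e f = 1 := congrArg Prod.fst hf
  have h0 : BB (J e) f = 0 := congrArg Prod.snd hf
  refine ⟨e, f, h1, h0, Fintype.linearIndependent_iff.2 fun g hg => ?_⟩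
  simp only [Fin.sum_univ_four, Matrix.cons_val_zero, Matrix.cons_val_one, Matrix.cons_val_two, Matrix.cons_val_three,
    Matrix.head_cons, Matrix.tail_cons] at hg
  have k1 : BB (J f) f = 0 := hJ.alt h2 f
  have k2 : BB (J e) e = 0 := hJ.alt h2 e
  have k3 : BB e (J f) = 0 := by rw [← hJ.sa]; exact h0
  have k4 : BB (J e) (J f) = δ := by rw [hJ.sa, hJ.sq, map_smul, h1, smul_eq_mul, mul_one]
  have k5 : BB e (J e) = 0 := by rw [← hJ.sa]; exact k2
  have k6 : BB f (J f) = 0 := by rw [← hJ.sa]; exact k1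
  have w1 := congrArg (fun v => BB e v) hg
  have w2 := congrArg (fun v => BB (J e) v) hg
  have w3 := congrArg (fun v => BB v f) hg
  have w4 := congrArg (fun v => BB v (J f)) hg
  simp only [map_add, map_smul, LinearMap.add_apply, LinearMap.smul_apply, smul_eq_mul, h1, h0, k1, k2, k3, k4, k5, k6,
    hA e, hA f, hA (J e), hA (J f), map_zero, LinearMap.zero_apply, mul_zero, mul_one, add_zero, zero_add, mul_eq_zero, or_iff_left hδ]
    at w1 w2 w3 w4
  intro s
  fin_cases s <;> assumption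

/-- Self adjoint maps with the same scalar square are conjugate by an isometry. -/
theorem exists_conj {J₁ J₂ : Module.End F Vd} (h₁ : SA J₁ δ) (hs : SA J₂ δ) (h2 : (2 : F) ≠ 0) (hnsq : ∀ c : F, c * c ≠ δ) :
    ∃ g ∈ Cfsg.spGL 2 F, ∀ v, (g : Matrix (Fin 2 ⊕ Fin 2) (Fin 2 ⊕ Fin 2) F).mulVec (J₁ v) =
      J₂ ((g : Matrix (Fin 2 ⊕ Fin 2) (Fin 2 ⊕ Fin 2) F).mulVec v) := by
  classical
  have hA : (BB).IsAlt := sympB_isAlt
  obtain ⟨e, f, he, he', hli⟩ := exists_frame h₁ h2 hnsq
  obtain ⟨e₂, f₂, hs1, hs2, hli₂⟩ := exists_frame hs h2 hnsq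
  let b₁ := basisOfLinearIndependentOfCardEqFinrank hli (by rw [finrank_space, Fintype.card_fin])
  let b₂ := basisOfLinearIndependentOfCardEqFinrank hli₂ (by rw [finrank_space, Fintype.card_fin])
  let E : Vd ≃ₗ[F] Vd := b₁.equiv b₂ (Equiv.refl _)
  have hb₁ : ⇑b₁ = ![e, J₁ e, f, J₁ f] := coe_basisOfLinearIndependentOfCardEqFinrank hli _
  have hb₂ : ⇑b₂ = ![e₂, J₂ e₂, f₂, J₂ f₂] := coe_basisOfLinearIndependentOfCardEqFinrank hli₂ _
  have hE : ∀ s, E (b₁ s) = b₂ s := fun s => by simp [E]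
  have gram : ∀ (J : Module.End F Vd) (a c : Vd), SA J δ → BB a c = 1 → BB (J a) c = 0 → ∀ s t : Fin 4,
      BB (![a, J a, c, J c] s) (![a, J a, c, J c] t) =
        !![(0 : F), 0, 1, 0; 0, 0, 0, δ; -1, 0, 0, 0; 0, -δ, 0, 0] s t := by
    intro J a c hJ p1 p2 s t
    have k1 : BB (J c) c = 0 := hJ.alt h2 c
    have k2 : BB (J a) a = 0 := hJ.alt h2 a
    have k3 : BB a (J c) = 0 := by rw [← hJ.sa]; exact p2
    have k4 : BB (J a) (J c) = δ := by rw [hJ.sa, hJ.sq, map_smul, p1, smul_eq_mul, mul_one]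
    have k5 : BB a (J a) = 0 := by rw [← hJ.sa]; exact k2
    have k6 : BB c (J c) = 0 := by rw [← hJ.sa]; exact k1
    have p1' : BB c a = -1 := by rw [← LinearMap.IsAlt.neg hA, p1]
    have p2' : BB c (J a) = 0 := by rw [← LinearMap.IsAlt.neg hA, p2, neg_zero]
    have k3' : BB (J c) a = 0 := by rw [← LinearMap.IsAlt.neg hA, k3, neg_zero]
    have k4' : BB (J c) (J a) = -δ := by rw [← LinearMap.IsAlt.neg hA, k4]
    fin_cases s <;> fin_cases t <;>
      simp [p1, p2, k1, k2, k3, k4, k5, k6, p1', p2', k3', k4', hA a, hA c, hA (J a), hA (J c), -sympB_apply]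
  have hEB : (BB).compl₁₂ E.toLinearMap E.toLinearMap = BB := by
    refine b₁.ext fun s => b₁.ext fun t => ?_
    rw [LinearMap.compl₁₂_apply, LinearEquiv.coe_coe, hE, hE, hb₁, hb₂, gram J₁ e f h₁ he he', gram J₂ e₂ f₂ hs hs1 hs2]
  obtain ⟨g, hg, hge⟩ := exists_gl E fun x y => LinearMap.congr_fun (LinearMap.congr_fun hEB x) y
  refine ⟨g, hg, fun v => ?_⟩
  rw [hge, hge]
  have : (E : Vd →ₗ[F] Vd) ∘ₗ J₁ = J₂ ∘ₗ (E : Vd →ₗ[F] Vd) := by
    have h0 := hE 0
    have h1 := hE 1
    have h2' := hE 2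
    have h3 := hE 3
    rw [hb₁, hb₂] at h0 h1 h2' h3
    simp at h0 h1 h2' h3
    refine b₁.ext fun s => ?_
    rw [hb₁]
    fin_cases s <;> simp [h0, h1, h2', h3, h₁.sq, hs.sq]
  exact LinearMap.congr_fun this v

/-- A self adjoint map from two planes and a similitude between them. -/
theorem exists_model {v : Fin 2 ⊕ Fin 2 → Vd} (hv : IsSympFamily BB v) (α β γ ε : F) (hdet : α * ε - β * γ = δ) :
    ∃ J : Module.End F Vd, SA J δ ∧ J (v (Sum.inl 0)) = α • v (Sum.inl 1) + β • v (Sum.inr 1) ∧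
      J (v (Sum.inr 0)) = γ • v (Sum.inl 1) + ε • v (Sum.inr 1) ∧
      J (v (Sum.inl 1)) = ε • v (Sum.inl 0) - β • v (Sum.inr 0) ∧
      J (v (Sum.inr 1)) = -γ • v (Sum.inl 0) + α • v (Sum.inr 0) := by
  classical
  have hA : (BB).IsAlt := sympB_isAlt
  let b := familyBasis hv
  let J : Module.End F Vd := b.constr F (Sum.elim ![α • v (Sum.inl 1) + β • v (Sum.inr 1), ε • v (Sum.inl 0) - β • v (Sum.inr 0)]
    ![γ • v (Sum.inl 1) + ε • v (Sum.inr 1), -γ • v (Sum.inl 0) + α • v (Sum.inr 0)])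
  have hJ : ∀ s, J (v s) = Sum.elim ![α • v (Sum.inl 1) + β • v (Sum.inr 1), ε • v (Sum.inl 0) - β • v (Sum.inr 0)]
      ![γ • v (Sum.inl 1) + ε • v (Sum.inr 1), -γ • v (Sum.inl 0) + α • v (Sum.inr 0)] s := fun s => by
    have h := b.constr_basis F (Sum.elim ![α • v (Sum.inl 1) + β • v (Sum.inr 1), ε • v (Sum.inl 0) - β • v (Sum.inr 0)]
      ![γ • v (Sum.inl 1) + ε • v (Sum.inr 1), -γ • v (Sum.inl 0) + α • v (Sum.inr 0)]) s
    rwa [familyBasis_apply] at h
  have a0 := hJ (Sum.inl 0)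
  have a1 := hJ (Sum.inl 1)
  have c0 := hJ (Sum.inr 0)
  have c1 := hJ (Sum.inr 1)
  simp only [Sum.elim_inl, Sum.elim_inr, Matrix.cons_val_zero, Matrix.cons_val_one, Matrix.head_cons] at a0 a1 c0 c1
  have e1 : ∀ a c, BB (v (Sum.inl a)) (v (Sum.inl c)) = 0 := hv.ll
  have e2 : ∀ a c, BB (v (Sum.inr a)) (v (Sum.inr c)) = 0 := hv.rr
  have e3 : ∀ a c, BB (v (Sum.inl a)) (v (Sum.inr c)) = if a = c then (1 : F) else 0 := hv.lr
  have e4 : ∀ a c, BB (v (Sum.inr a)) (v (Sum.inl c)) = -(if c = a then (1 : F) else 0) := fun a c => by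
    rw [← LinearMap.IsAlt.neg hA, e3]
  refine ⟨J, ⟨fun w => ?_, fun x y => ?_⟩, a0, c0, a1, c1⟩
  · refine LinearMap.congr_fun (show J * J = δ • 1 from b.ext fun s => ?_) w
    rcases s with a | a <;> fin_cases a <;>
      simp [b, familyBasis_apply, Module.End.mul_apply, a0, a1, c0, c1, map_add, map_sub, map_smul, smul_smul] <;>
      match_scalars <;> first | ring1 | linear_combination hdet | linear_combination -hdet
  · refine LinearMap.congr_fun (LinearMap.congr_fun (show (BB) ∘ₗ J = (BB).compl₂ J from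
      b.ext fun s => b.ext fun t => ?_) x) y
    rcases s with a | a <;> rcases t with c | c <;> fin_cases a <;> fin_cases c <;>
      simp [b, familyBasis_apply, a0, a1, c0, c1, e1, e2, e3, e4, map_add, map_sub, map_smul, -sympB_apply]

/-- A self adjoint map semicommuting with an element of square a sign. -/
theorem exists_compatible {T : Module.End F Vd} (h2 : (2 : F) ≠ 0) (hTB : ∀ x y, BB (T x) (T y) = BB x y) {z : F}
    (hz : z = 1 ∨ z = -1) (hT : ∀ v, T (T v) = z • v) (hns : ∀ c : F, T ≠ c • 1) (δ : F) :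
    ∃ (J : Module.End F Vd) (β : F), SA J δ ∧ (β = 1 ∨ β = -1) ∧ ∀ v, T (J v) = β • J (T v) := by
  classical
  have hA : (BB).IsAlt := sympB_isAlt
  have hB : (BB).Nondegenerate := sympB_nondegenerate
  rcases hz with rfl | rfl
  · simp only [one_smul] at hT
    have hKn : Nd BB (LinearMap.ker (T - 1)) := by
      have := nd_fixed (r := 2) hA hTB (T := T) (LinearMap.ext fun v => by rw [pow_two]; exact hT v)
        (by exact_mod_cast h2) (W := ⊤) (fun _ _ => trivial) (nd_top hB)
      rwa [top_inf_eq] at this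
    set K := LinearMap.ker (T - 1)
    set R := (BB).orthogonal K
    have hRn : Nd BB R := by
      have := (nd_split hA hKn (nd_top hB) le_top).1
      rwa [top_inf_eq] at this
    have hKf : ∀ v ∈ K, T v = v := fun v hv => sub_eq_zero.1 hv
    have hinj : Function.Injective T := fun a b h => by rw [← hT a, h, hT]
    have hc := nd_isCompl hA hKn
    have hRf : ∀ v ∈ R, T v = -v := fun v hv => eq_neg_iff_add_eq_zero.2 <| by
      have h1 : T v + v ∈ K := by
        show (T - 1) _ = 0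
        rw [LinearMap.sub_apply, map_add, hT, Module.End.one_apply]; abel
      exact Submodule.disjoint_def.1 hc.disjoint _ h1
        (add_mem (orth_invariant hTB hinj (fun v hv => by rwa [hKf v hv]) v hv) hv)
    have hKne : K ≠ ⊥ := fun e => hns (-1) (LinearMap.ext fun v => by
      have htop : R = ⊤ := by have h : K ⊔ R = ⊤ := hc.sup_eq_top; rwa [e, bot_sup_eq] at h
      rw [hRf v (htop ▸ Submodule.mem_top), LinearMap.smul_apply, Module.End.one_apply, neg_one_smul])
    have hRne : R ≠ ⊥ := fun e => hns 1 (LinearMap.ext fun v => by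
      have htop : K = ⊤ := by
        have : K ⊔ R = ⊤ := hc.sup_eq_top
        rwa [e, sup_bot_eq] at this
      rw [hKf v (htop ▸ Submodule.mem_top), one_smul]; rfl)
    have pair : ∀ W : Submodule F Vd, Nd BB W → W ≠ ⊥ → ∃ a ∈ W, ∃ b ∈ W, BB a b = 1 := by
      intro W hW hne
      obtain ⟨a, ha, ha0⟩ := (Submodule.ne_bot_iff W).1 hne
      obtain ⟨b, hb, hb0⟩ : ∃ b ∈ W, BB a b ≠ 0 := by
        by_contra h
        push_neg at h
        exact ha0 (hW a ha h)
      exact ⟨a, ha, (BB a b)⁻¹ • b, W.smul_mem _ hb, by rw [map_smul, smul_eq_mul, inv_mul_cancel₀ hb0]⟩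
    obtain ⟨a, ha, a', ha', haa⟩ := pair K hKn hKne
    obtain ⟨c, hcR, c', hc', hcc⟩ := pair R hRn hRne
    have ho : ∀ x ∈ K, ∀ y ∈ R, BB x y = 0 ∧ BB y x = 0 := fun x hx y hy => ⟨hy x hx, hA.isRefl _ _ (hy x hx)⟩
    have hfam : IsSympFamily BB (Sum.elim ![a, c] ![a', c']) := by
      refine ⟨fun i k => ?_, fun i k => ?_, fun i k => ?_⟩ <;> fin_cases i <;> fin_cases k <;>
        simp [haa, hcc, hA a, hA a', hA c, hA c', (ho a ha c hcR).1, (ho a ha c hcR).2, (ho a ha c' hc').1,
          (ho a' ha' c hcR).2, (ho a' ha' c' hc').1, (ho a' ha' c' hc').2, -sympB_apply]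
    obtain ⟨J, hJ, j0, j0', j1, j1'⟩ := exists_model (δ := δ) hfam 1 0 0 δ (by ring)
    simp at j0 j0' j1 j1'
    refine ⟨J, -1, hJ, Or.inr rfl, fun v => ?_⟩
    refine LinearMap.congr_fun (show T * J = (-1 : F) • (J * T) from (familyBasis hfam).ext fun s => ?_) v
    rcases s with i | i <;> fin_cases i <;>
      simp [familyBasis_apply, j0, j0', j1, j1', hKf a ha, hKf a' ha', hRf c hcR, hRf c' hc']
  · simp only [neg_one_smul] at hT
    have hTs : Skew T (-1) := ⟨fun v => by rw [hT, neg_one_smul], fun u v => by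
      rw [← hTB u (T v), hT, map_neg, neg_neg]⟩
    obtain ⟨u, hu⟩ := exists_planes hTs h2 (neg_ne_zero.2 one_ne_zero)
    obtain ⟨α, β, hαβ⟩ := FiniteField.exists_root_sum_quadratic
      (f := (Polynomial.X : Polynomial F) ^ 2) (g := Polynomial.X ^ 2 - Polynomial.C δ)
      (by rw [Polynomial.degree_X_pow]; rfl) (Polynomial.degree_X_pow_sub_C (by norm_num) δ)
      (FiniteField.odd_card_of_char_ne_two fun h => h2 (by
        have : ((2 : ℕ) : F) = 0 := by
          haveI := ringChar.charP F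
          rw [← h]; exact CharP.cast_eq_zero F (ringChar F)
        exact_mod_cast this))
    simp only [Polynomial.eval_sub, Polynomial.eval_pow, Polynomial.eval_X, Polynomial.eval_C] at hαβ
    obtain ⟨J, hJ, j0, j0', j1, j1'⟩ := exists_model (δ := δ) hu α β (-β) α (by linear_combination hαβ)
    simp at j0 j0' j1 j1'
    refine ⟨J, 1, hJ, Or.inl rfl, fun v => ?_⟩
    refine LinearMap.congr_fun (show T * J = (1 : F) • (J * T) from (familyBasis hu).ext fun s => ?_) v
    rcases s with i | i <;> fin_cases i <;>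
      simp [familyBasis_apply, j0, j0', j1, j1', hT, map_add, map_sub, map_smul, map_neg] <;> module

end Cfsg.Agent.GeomClasses.SympFieldExtFour
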