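import Cfsg.Agent.GeomClasses.SympMax
import Cfsg.Agent.GeomClasses.DecompTools
import Cfsg.Agent.Forms.SympBasis

/-! # Maximality of imprimitive subgroups of symplectic groups -/

set_option autoImplicit false

namespace Cfsg.Agent.GeomClasses

open Matrix Cfsg.Agent.Forms

variable {F : Type*} [Field F] {m : ℕ}

local notation "V" => (Fin m ⊕ Fin m → F)
local notation "BB" => sympB m F
local notation "Mx" => Matrix (Fin m ⊕ Fin m) (Fin m ⊕ Fin m) F
local notation "GLV" => GL (Fin m ⊕ Fin m) F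

/-- An isometry exchanging two perpendicular non-degenerate subspaces of equal dimension and fixing the rest. -/
theorem exists_exchange {A B : Submodule F V} (hA : ∀ u ∈ A, (∀ v ∈ A, BB u v = 0) → u = 0)
    (hB : ∀ u ∈ B, (∀ v ∈ B, BB u v = 0) → u = 0) (hAB : ∀ a ∈ A, ∀ b ∈ B, BB a b = 0)
    (hdim : Module.finrank F A = Module.finrank F B) :
    ∃ s ∈ Cfsg.spGL m F, (∀ a ∈ A, (s : Mx) *ᵥ a ∈ B) ∧ (∀ b ∈ B, (s : Mx) *ᵥ b ∈ A) ∧
      ∀ x, (∀ a ∈ A, BB a x = 0) → (∀ b ∈ B, BB b x = 0) → (s : Mx) *ᵥ x = x := by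
  classical
  have hI := isForm_symp (F := F) (m := m)
  have hBA : ∀ a ∈ A, ∀ b ∈ B, BB b a = 0 := fun a ha b hb => by rw [sympB_skew, hAB a ha b hb, neg_zero]
  obtain ⟨ma, va, hma, hva⟩ := exists_symp_family (hI.restrict hA)
  obtain ⟨mb, vb, hmb, hvb⟩ := exists_symp_family (hI.restrict hB)
  obtain rfl : ma = mb := by omega
  have halt : ∀ (X : Submodule F V), (resForm (sympB m F) X).IsAlt := fun X x => sympB_self (x : V)
  let bA := basisOfLinearIndependentOfCardEqFinrank' va (hva.linearIndependent (halt A)) (by simp [hma, two_mul])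
  let bB := basisOfLinearIndependentOfCardEqFinrank' vb (hvb.linearIndependent (halt B)) (by simp [hmb, two_mul])
  let φ : A ≃ₗ[F] B := bA.equiv bB (Equiv.refl _)
  have hgr : ∀ i j, BB (va i : V) (va j) = BB (vb i : V) (vb j) := by
    rintro (i | i) (j | j)
    · exact (hva.ll i j).trans (hvb.ll i j).symm
    · exact (hva.lr i j).trans (hvb.lr i j).symm
    · rw [sympB_skew, sympB_skew (vb _ : V)]
      exact congrArg Neg.neg ((hva.lr j i).trans (hvb.lr j i).symm)
    · exact (hva.rr i j).trans (hvb.rr i j).symm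
  have hφ : ∀ a a' : A, BB (φ a : V) (φ a') = BB (a : V) a' := by
    have h2 : (resForm (sympB m F) B).compl₁₂ φ.toLinearMap φ.toLinearMap = resForm (sympB m F) A := by
      refine bA.ext fun i => bA.ext fun j => ?_
      rw [LinearMap.compl₁₂_apply]
      simp only [LinearEquiv.coe_coe, φ, Module.Basis.equiv_apply, Equiv.refl_apply]
      show BB (bB i : V) (bB j) = BB (bA i : V) (bA j)
      simp only [bA, bB, coe_basisOfLinearIndependentOfCardEqFinrank']
      exact (hgr i j).symm
    intro a a'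
    exact LinearMap.congr_fun (LinearMap.congr_fun h2 a) a'
  have hcA : IsCompl A (perp BB A) := hI.isCompl_perp hA
  have hcB : IsCompl B (perp BB B) := hI.isCompl_perp hB
  let pA : V →ₗ[F] A := A.linearProjOfIsCompl _ hcA
  let pB : V →ₗ[F] B := B.linearProjOfIsCompl _ hcB
  have hres : ∀ x, x - (pA x : V) - (pB x : V) ∈ perp BB A ⊓ perp BB B := by
    intro x
    have h1 : x - (pA x : V) ∈ perp BB A := by
      rw [← Submodule.linearProjOfIsCompl_apply_eq_zero_iff hcA, map_sub, Submodule.linearProjOfIsCompl_apply_left]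
      exact sub_self _
    have h2 : x - (pB x : V) ∈ perp BB B := by
      rw [← Submodule.linearProjOfIsCompl_apply_eq_zero_iff hcB, map_sub, Submodule.linearProjOfIsCompl_apply_left]
      exact sub_self _
    refine ⟨sub_mem h1 (mem_perp.mpr fun a ha => hAB a ha _ (pB x).2), ?_⟩
    rw [show x - (pA x : V) - (pB x : V) = x - (pB x : V) - (pA x : V) by abel]
    exact sub_mem h2 (mem_perp.mpr fun b hb => hBA _ (pA x).2 b hb)
  let f : V →ₗ[F] V := LinearMap.id - A.subtype.comp pA - B.subtype.comp pB + B.subtype.comp (φ.toLinearMap.comp pA)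
    + A.subtype.comp (φ.symm.toLinearMap.comp pB)
  have hf : ∀ x, f x = (x - (pA x : V) - (pB x : V)) + (φ (pA x) : V) + (φ.symm (pB x) : V) := fun x => rfl
  have hiso : ∀ x y, BB (f x) (f y) = BB x y := by
    intro x y
    have key : ∀ (p q' : V), ∀ (a a' : A) (b b' : B), p ∈ perp BB A ⊓ perp BB B → q' ∈ perp BB A ⊓ perp BB B →
        BB (p + (b : V) + (a : V)) (q' + (b' : V) + (a' : V)) = BB p q' + BB (b : V) b' + BB (a : V) a' := by
      intro p q' a a' b b' hp hq
      simp only [map_add, LinearMap.add_apply, hAB _ a.2 _ b'.2, hBA _ a'.2 _ b.2, mem_perp.mp hq.1 _ a.2,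
        mem_perp.mp hq.2 _ b.2]
      rw [sympB_skew p b', sympB_skew p a', mem_perp.mp hp.1 _ a'.2, mem_perp.mp hp.2 _ b'.2]
      ring
    rw [hf, hf, key _ _ _ _ _ _ (hres x) (hres y), hφ]
    conv_rhs => rw [show x = (x - (pA x : V) - (pB x : V)) + (pB x : V) + (pA x : V) by abel,
      show y = (y - (pA y : V) - (pB y : V)) + (pB y : V) + (pA y : V) by abel,
      key _ _ _ _ _ _ (hres x) (hres y)]
    have h3 := hφ (φ.symm (pB x)) (φ.symm (pB y))
    rw [φ.apply_symm_apply, φ.apply_symm_apply] at h3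
    rw [h3]
    ring
  have hinj : Function.Injective f := by
    rw [← LinearMap.ker_eq_bot, LinearMap.ker_eq_bot']
    intro x hx
    refine hI.nondeg x fun y => ?_
    rw [← hiso, hx, map_zero, LinearMap.zero_apply]
  let g : GLV := (glEquiv (Fin m ⊕ Fin m) F).symm (LinearEquiv.ofInjectiveEndo f hinj)
  have hg : ∀ x, (g : Mx) *ᵥ x = f x := fun x => glEquiv_symm_mulVec _ x
  refine ⟨g, mem_spGL_iff.mpr fun x y => by rw [hg, hg, hiso], fun a ha => ?_, fun b hb => ?_, fun x hxA hxB => ?_⟩
  · have h1 : pA a = ⟨a, ha⟩ := Submodule.linearProjOfIsCompl_apply_left hcA ⟨a, ha⟩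
    have h2 : pB a = 0 := (Submodule.linearProjOfIsCompl_apply_eq_zero_iff hcB).mpr (mem_perp.mpr fun b hb => hBA a ha b hb)
    rw [hg, hf, h1, h2, map_zero, Submodule.coe_zero, Submodule.coe_zero, sub_zero, sub_self, zero_add, add_zero]
    exact (φ _).2
  · have h1 : pB b = ⟨b, hb⟩ := Submodule.linearProjOfIsCompl_apply_left hcB ⟨b, hb⟩
    have h2 : pA b = 0 := (Submodule.linearProjOfIsCompl_apply_eq_zero_iff hcA).mpr (mem_perp.mpr fun a ha => hAB a ha b hb)
    rw [hg, hf, h1, h2, map_zero, Submodule.coe_zero, Submodule.coe_zero, sub_zero, sub_self, zero_add, zero_add]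
    exact (φ.symm _).2
  · have h1 : pA x = 0 := (Submodule.linearProjOfIsCompl_apply_eq_zero_iff hcA).mpr (mem_perp.mpr hxA)
    have h2 : pB x = 0 := (Submodule.linearProjOfIsCompl_apply_eq_zero_iff hcB).mpr (mem_perp.mpr hxB)
    rw [hg, hf, h1, h2, map_zero, map_zero, Submodule.coe_zero, Submodule.coe_zero, sub_zero, sub_zero, add_zero,
      add_zero]

theorem isMaximalIn_symp_imprimitive [Fintype F] {t k : ℕ} {D : Fin t → Submodule F V}
    (hD : Cfsg.Geo.IsMDecomposition k D) (hnd : ∀ i, ∀ u ∈ D i, (∀ v ∈ D i, BB u v = 0) → u = 0)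
    (hort : ∀ i j, i ≠ j → ∀ a ∈ D i, ∀ b ∈ D j, BB a b = 0) (hex : ¬ (k = 2 ∧ Fintype.card F = 2)) :
    Cfsg.Geo.IsMaximalIn (Cfsg.spGL m F) (Cfsg.Geo.decompositionStabilizer D ⊓ Cfsg.spGL m F) := by
  classical
  have hI := isForm_symp (F := F) (m := m)
  have ht := hD.two_le
  -- components
  choose cz hcz hcs using exists_components hD
  have hcomp : ∀ z l a, a ∈ D l → BB z a = BB (cz z l) a := by
    intro z l a ha
    conv_lhs => rw [← hcs z]
    rw [map_sum, LinearMap.sum_apply, Finset.sum_eq_single l]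
    · exact fun l' _ hl' => hort l' l hl' _ (hcz z l') a ha
    · exact fun h => absurd (Finset.mem_univ l) h
  have huniq : ∀ l v, v ∈ D l → cz v l = v := fun l v hv =>
    sub_eq_zero.mp (hnd l _ (sub_mem (hcz v l) hv) fun a ha => by
      rw [map_sub, LinearMap.sub_apply, ← hcomp v l a ha, sub_self])
  have hcomp0 : ∀ l v, (∀ a ∈ D l, BB v a = 0) → cz v l = 0 := fun l v hv =>
    hnd l _ (hcz v l) fun a ha => by rw [← hcomp v l a ha, hv a ha]
  have hstab : ∀ i, ∀ z ∈ D i, ∀ c, spT z c ∈ Cfsg.Geo.decompositionStabilizer D ⊓ Cfsg.spGL m F := by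
    refine fun i z hz c => ⟨mem_decomp_of_forall hD fun l => ⟨l, fun x hx => ?_⟩, spT_mem z c⟩
    rw [spT_mulVec]
    by_cases hli : l = i
    · subst hli; exact (D l).add_mem hx ((D l).smul_mem _ hz)
    · rw [hort l i hli x hx z hz, mul_zero, zero_smul, add_zero]; exact hx
  have hnb : ∀ i, ∃ a ∈ D i, a ≠ 0 := fun i => (Submodule.ne_bot_iff _).mp fun h => by
    have := hD.finrank_eq i; rw [h, finrank_bot] at this; have := hD.pos; omega
  have hpair : ∀ i, ∀ a ∈ D i, a ≠ 0 → ∃ b ∈ D i, BB a b = 1 := by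
    intro i a ha ha0
    obtain ⟨b, hb, hab⟩ : ∃ b ∈ D i, BB a b ≠ 0 := by
      by_contra h; push_neg at h; exact ha0 (hnd i a ha h)
    exact ⟨(BB a b)⁻¹ • b, (D i).smul_mem _ hb, by rw [map_smul, smul_eq_mul, inv_mul_cancel₀ hab]⟩
  obtain ⟨i0, i1, h01⟩ : ∃ i j : Fin t, i ≠ j := ⟨⟨0, by omega⟩, ⟨1, by omega⟩, by simp⟩
  refine ⟨lt_of_le_of_ne inf_le_right fun h => ?_, fun L hL hLS => ?_⟩
  · obtain ⟨a, ha, ha0⟩ := hnb i0
    obtain ⟨b, hb, hb0⟩ := hnb i1
    obtain ⟨x, hx, hax⟩ := hpair i0 a ha ha0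
    have h1 := spT_mem (a + b) (1 : F)
    rw [← h] at h1
    obtain ⟨σ, hσ⟩ := h1.1
    set y := x + ((-1 : F)) • (a + b) with hy
    have hyσ : y ∈ D (σ i0) := by
      rw [← hσ i0, Submodule.mem_map]
      refine ⟨x, hx, ?_⟩
      rw [Matrix.toLin'_apply, spT_mulVec, map_add, hort i0 i1 h01 x hx b hb, add_zero, sympB_skew x a, hax, one_mul]
    obtain ⟨d, hd, hbd⟩ := hpair i1 b hb hb0
    by_cases hσ1 : σ i0 = i1
    · have h2 : BB y x = 0 := hort i1 i0 (Ne.symm h01) y (hσ1 ▸ hyσ) x hx
      simp only [hy, map_add, map_smul, LinearMap.add_apply, LinearMap.smul_apply, sympB_self, hax,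
        hort i1 i0 (Ne.symm h01) b hb x hx, add_zero, zero_add, smul_eq_mul, mul_one] at h2
      exact one_ne_zero (neg_eq_zero.mp h2)
    · have h2 : BB y d = 0 := hort _ i1 hσ1 y hyσ d hd
      simp only [hy, map_add, map_smul, LinearMap.add_apply, LinearMap.smul_apply, hbd,
        hort i0 i1 h01 x hx d hd, hort i0 i1 h01 a ha d hd, zero_add, smul_eq_mul, mul_one] at h2
      exact one_ne_zero (neg_eq_zero.mp h2)
  by_cases hle : L ≤ Cfsg.Geo.decompositionStabilizer D
  · exact Or.inl (le_antisymm (le_inf hle hLS) hL)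
  obtain ⟨g, hg, hg'⟩ := SetLike.not_le_iff_exists.mp hle
  refine Or.inr (le_antisymm hLS (spGL_le_of_spT ?_))
  have hpure : ∀ i, ∀ z ∈ D i, z ∈ spCentre L := fun i z hz c => hL (hstab i z hz c)
  -- moving inside a block
  have hmove : ∀ i, ∀ a ∈ D i, a ≠ 0 → ∀ a' ∈ D i, a' ≠ 0 →
      ∃ u ∈ L, (u : Mx) *ᵥ a = a' ∧ ∀ x, (∀ b ∈ D i, BB x b = 0) → (u : Mx) *ᵥ x = x := by
    intro i a ha ha0 a' ha' ha'0
    have step : ∀ a ∈ D i, ∀ a' ∈ D i, BB a a' ≠ 0 →
        ∃ u ∈ L, (u : Mx) *ᵥ a = a' ∧ ∀ x, (∀ b ∈ D i, BB x b = 0) → (u : Mx) *ᵥ x = x := by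
      intro a ha a' ha' hne
      refine ⟨spT (a' - a) (BB a a')⁻¹, hL (hstab i _ ((D i).sub_mem ha' ha) _), ?_, fun x hx => ?_⟩
      · rw [spT_mulVec, map_sub, sympB_self, sub_zero, inv_mul_cancel₀ hne, one_smul, add_sub_cancel]
      · rw [spT_mulVec, hx _ ((D i).sub_mem ha' ha), mul_zero, zero_smul, add_zero]
    obtain ⟨p, hp, hap⟩ := hpair i a ha ha0
    obtain ⟨q', hq, haq⟩ := hpair i a' ha' ha'0
    obtain ⟨w, hw, hw1, hw2⟩ : ∃ w ∈ D i, BB a w ≠ 0 ∧ BB a' w ≠ 0 := by
      by_cases h1 : BB a' p = 0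
      · by_cases h2 : BB a q' = 0
        · exact ⟨p + q', (D i).add_mem hp hq, by rw [map_add, hap, h2, add_zero]; exact one_ne_zero,
            by rw [map_add, h1, haq, zero_add]; exact one_ne_zero⟩
        · exact ⟨q', hq, h2, by rw [haq]; exact one_ne_zero⟩
      · exact ⟨p, hp, by rw [hap]; exact one_ne_zero, h1⟩
    obtain ⟨u1, hu1, h1, f1⟩ := step a ha w hw hw1
    obtain ⟨u2, hu2, h2, f2⟩ := step w hw a' ha' (by rw [sympB_skew]; exact neg_ne_zero.mpr hw2)
    exact ⟨u2 * u1, L.mul_mem hu2 hu1, by rw [Units.val_mul, ← Matrix.mulVec_mulVec, h1, h2],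
      fun x hx => by rw [Units.val_mul, ← Matrix.mulVec_mulVec, f1 x hx, f2 x hx]⟩
  let R : Fin t → Fin t → Prop := fun i j => ∀ a ∈ D i, ∀ b ∈ D j, a + b ∈ spCentre L
  have hRall : ∀ i j, i ≠ j → ∀ a ∈ D i, a ≠ 0 → ∀ b ∈ D j, b ≠ 0 → a + b ∈ spCentre L → R i j := by
    intro i j hij a ha ha0 b hb hb0 hab a' ha' b' hb'
    rcases eq_or_ne a' 0 with rfl | ha'0
    · rw [zero_add]; exact hpure j b' hb'
    rcases eq_or_ne b' 0 with rfl | hb'0
    · rw [add_zero]; exact hpure i a' ha'
    obtain ⟨u1, hu1, h1, f1⟩ := hmove i a ha ha0 a' ha' ha'0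
    obtain ⟨u2, hu2, h2, f2⟩ := hmove j b hb hb0 b' hb' hb'0
    have h3 := spCentre_mulVec (L.mul_mem hu2 hu1) (hLS (L.mul_mem hu2 hu1)) hab
    rwa [Units.val_mul, ← Matrix.mulVec_mulVec, Matrix.mulVec_add, h1, f1 b (fun x hx => hort j i (Ne.symm hij) b hb x hx),
      Matrix.mulVec_add, h2, f2 a' (fun x hx => hort i j hij a' ha' x hx)] at h3
  -- a mixed centre
  obtain ⟨z, hz, i, j, hij, hzi, hzj⟩ : ∃ z ∈ spCentre L, ∃ i j, i ≠ j ∧ cz z i ≠ 0 ∧ cz z j ≠ 0 := by
    by_contra hc
    push_neg at hc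
    refine hg' (mem_decomp_of_forall hD fun i => ?_)
    obtain ⟨l, hl⟩ := image_blocks hD (W := (D i).map (Matrix.toLin' (g : Mx))) fun y hy => by
      obtain ⟨x, hx, rfl⟩ := hy
      rw [Matrix.toLin'_apply]
      set y := (g : Mx) *ᵥ x
      have hy : y ∈ spCentre L := spCentre_mulVec hg (hLS hg) (hpure i x hx)
      by_cases hall : ∀ l, cz y l = 0
      · refine ⟨i, ?_⟩
        rw [← hcs y, Finset.sum_eq_zero fun l _ => hall l]
        exact (D i).zero_mem
      · push_neg at hall
        obtain ⟨l, hl⟩ := hall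
        refine ⟨l, ?_⟩
        rw [← hcs y, Finset.sum_eq_single l (fun l' _ hl' => hc y hy l l' (Ne.symm hl') hl)
          (fun h => absurd (Finset.mem_univ l) h)]
        exact hcz y l
    exact ⟨l, fun x hx => by simpa using hl (Submodule.mem_map_of_mem hx)⟩
  -- two blocks
  have hRij : R i j := by
    obtain ⟨a, ha, hza⟩ := hpair i _ (hcz z i) hzi
    obtain ⟨b, hb, hzb⟩ := hpair j _ (hcz z j) hzj
    rw [← hcomp z i a ha] at hza
    rw [← hcomp z j b hb] at hzb
    have ha0 : a ≠ 0 := fun h => by rw [h, map_zero] at hza; exact zero_ne_one hza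
    have hb0 : b ≠ 0 := fun h => by rw [h, map_zero] at hzb; exact zero_ne_one hzb
    have hba : BB b a = 0 := hort j i (Ne.symm hij) b hb a ha
    have hab : BB a b = 0 := hort i j hij a ha b hb
    have finish : ∀ δ ∈ D i, δ ≠ 0 → z + δ ∈ spCentre L → BB δ b = 0 → BB z δ + 1 ≠ 0 → R i j := by
      intro δ hδ hδ0 hzδ hδb hne
      have hz' : z + δ + b ∈ spCentre L := by
        have h1 := spCentre_mulVec (hpure j b hb 1) (spT_mem _ _) hzδ
        rwa [spT_mulVec, map_add, LinearMap.add_apply, hzb, hδb, add_zero, mul_one, one_smul] at h1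
      have hv : BB (z + δ + b) z = -(BB z δ + 1) := by
        rw [map_add, map_add, LinearMap.add_apply, LinearMap.add_apply, sympB_self, sympB_skew δ z, sympB_skew b z, hzb]
        ring
      have h1 := spCentre_mulVec (hz (-(BB (z + δ + b) z)⁻¹)) (spT_mem _ _) hz'
      rw [spT_mulVec, neg_mul, inv_mul_cancel₀ (by rw [hv]; exact neg_ne_zero.mpr hne), neg_one_smul,
        show z + δ + b + -z = δ + b by abel] at h1
      exact hRall i j hij δ hδ hδ0 b hb hb0 h1
    by_cases hF : Fintype.card F = 2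
    · -- two steps in the first block
      have hk : 3 ≤ k := by
        have h1 : 2 ≤ k := by
          by_contra h
          have hspan : Submodule.span F {cz z i} = D i := Submodule.eq_of_le_of_finrank_le
            ((Submodule.span_singleton_le_iff_mem _ _).mpr (hcz z i))
            (by rw [finrank_span_singleton hzi, hD.finrank_eq]; omega)
          have hza' := hza
          obtain ⟨c, rfl⟩ := Submodule.mem_span_singleton.mp (hspan.symm ▸ ha)
          rw [hcomp z i _ ha, map_smul, sympB_self, smul_zero] at hza'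
          exact zero_ne_one hza'
        have : k ≠ 2 := fun h => hex ⟨h, hF⟩
        omega
      obtain ⟨p, hp, hp0⟩ := (Submodule.ne_bot_iff (D i ⊓ perp BB (Submodule.span F {cz z i} ⊔ Submodule.span F {a}))).mp
        fun h => by
          have h1 := hI.finrank_perp (Submodule.span F {cz z i} ⊔ Submodule.span F {a})
          have h2 := Submodule.finrank_sup_add_finrank_inf_eq (D i) (perp BB (Submodule.span F {cz z i} ⊔ Submodule.span F {a}))
          have h3 := Submodule.finrank_le (D i ⊔ perp BB (Submodule.span F {cz z i} ⊔ Submodule.span F {a}))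
          have h4 := Submodule.finrank_sup_add_finrank_inf_eq (Submodule.span F {cz z i}) (Submodule.span F {a})
          have h5 : Module.finrank F (Submodule.span F {cz z i}) ≤ 1 := (finrank_span_le_card {cz z i}).trans (by simp)
          have h6 : Module.finrank F (Submodule.span F {a}) ≤ 1 := (finrank_span_le_card {a}).trans (by simp)
          rw [h, hD.finrank_eq, finrank_bot] at h2
          omega
      have hzp : BB z p = 0 := by
        rw [hcomp z i p hp.1]; exact mem_perp.mp hp.2 _ (Submodule.mem_sup_left (Submodule.mem_span_singleton_self _))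
      have hap : BB a p = 0 := mem_perp.mp hp.2 _ (Submodule.mem_sup_right (Submodule.mem_span_singleton_self _))
      have h1 := spCentre_mulVec (hpure i a ha 1) (spT_mem _ _) hz
      rw [spT_mulVec, hza, mul_one, one_smul] at h1
      have h2 := spCentre_mulVec (hpure i _ ((D i).sub_mem hp.1 ha) (-1)) (spT_mem _ _) h1
      rw [spT_mulVec, map_sub, map_add, LinearMap.add_apply, LinearMap.add_apply, hzp, hza, hap, sympB_self,
        show (-1 : F) * (0 + 0 - (1 + 0)) = 1 by ring, one_smul, show z + a + (p - a) = z + p by abel] at h2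
      exact finish p hp.1 hp0 h2 (hort i j hij p hp.1 b hb) (by rw [hzp, zero_add]; exact one_ne_zero)
    · obtain ⟨l, hl0, hl⟩ : ∃ l : F, l ≠ 0 ∧ l + 1 ≠ 0 := by
        by_contra h
        push_neg at h
        apply hF
        rw [Fintype.card_eq_nat_card, Nat.card_eq_two_iff]
        refine ⟨0, -1, (neg_ne_zero.mpr one_ne_zero).symm, Set.eq_univ_iff_forall.mpr fun x => ?_⟩
        by_cases hx : x = 0
        · exact Or.inl hx
        · exact Or.inr (eq_neg_of_add_eq_zero_left (h x hx))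
      have h1 := spCentre_mulVec (hpure i a ha l) (spT_mem _ _) hz
      rw [spT_mulVec, hza, mul_one] at h1
      exact finish (l • a) ((D i).smul_mem _ ha) (smul_ne_zero hl0 ha0) h1 (by rw [map_smul, LinearMap.smul_apply, hab, smul_zero])
        (by rw [map_smul, hza, smul_eq_mul, mul_one]; exact hl)
  -- all pairs
  have hRsym : ∀ p r, R p r → R r p := fun p r h a ha b hb => by rw [add_comm]; exact h b hb a ha
  have hswap : ∀ p r r', p ≠ r → p ≠ r' → R p r → R p r' := by
    intro p r r' hpr hpr' h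
    rcases eq_or_ne r r' with rfl | hrr
    · exact h
    obtain ⟨s, hsS, hs1, hs2, hs3⟩ := exists_exchange (hnd r) (hnd r') (hort r r' hrr)
      (by rw [hD.finrank_eq, hD.finrank_eq])
    have hfixp : ∀ a ∈ D p, (s : Mx) *ᵥ a = a := fun a ha =>
      hs3 a (fun x hx => hort r p (Ne.symm hpr) x hx a ha) (fun x hx => hort r' p (Ne.symm hpr') x hx a ha)
    have hsD : s ∈ Cfsg.Geo.decompositionStabilizer D := by
      refine mem_decomp_of_forall hD fun l => ?_
      by_cases hlr : l = r
      · subst hlr; exact ⟨r', hs1⟩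
      by_cases hlr' : l = r'
      · subst hlr'; exact ⟨r, hs2⟩
      exact ⟨l, fun x hx => by
        rw [hs3 x (fun y hy => hort r l (Ne.symm hlr) y hy x hx) (fun y hy => hort r' l (Ne.symm hlr') y hy x hx)]
        exact hx⟩
    obtain ⟨a, ha, ha0⟩ := hnb p
    obtain ⟨b, hb, hb0⟩ := hnb r
    have h1 := spCentre_mulVec (hL ⟨hsD, hsS⟩) hsS (h a ha b hb)
    rw [Matrix.mulVec_add, hfixp a ha] at h1
    refine hRall p r' hpr' a ha ha0 _ (hs1 b hb) (fun h0 => hb0 ?_) h1
    have h' := congrArg (((s⁻¹ : GLV) : Mx) *ᵥ ·) h0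
    simpa [Matrix.mulVec_mulVec, ← Units.val_mul] using h'
  have hRpairs : ∀ p r, p ≠ r → R p r := by
    have hi : ∀ r, i ≠ r → R i r := fun r hr => hswap i j r hij hr hRij
    intro p r hpr
    rcases eq_or_ne i p with rfl | hip
    · exact hi r hpr
    rcases eq_or_ne i r with rfl | hir
    · exact hRsym _ _ (hi p hip)
    exact hswap p i r (Ne.symm hip) hpr (hRsym _ _ (hi p hip))
  -- all vectors
  suffices hall : ∀ y, y ∈ spCentre L by exact fun y c => hall y c
  intro y
  induction hN : (Finset.univ.filter fun l => cz y l ≠ 0).card using Nat.strong_induction_on generalizing y with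
  | _ N ih =>
    by_cases hall : ∀ l, cz y l = 0
    · rw [← hcs y, Finset.sum_eq_zero fun l _ => hall l]
      exact hpure i 0 (D i).zero_mem
    push_neg at hall
    obtain ⟨p, hp⟩ := hall
    by_cases hone : ∀ l, l ≠ p → cz y l = 0
    · rw [← hcs y, Finset.sum_eq_single p (fun l _ hl => hone l hl) (fun h => absurd (Finset.mem_univ p) h)]
      exact hpure p _ (hcz y p)
    push_neg at hone
    obtain ⟨r, hrp, hr⟩ := hone
    obtain ⟨b, hb, hrb⟩ := hpair r _ (hcz y r) hr
    -- split at the block r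
    set w := cz y p + b with hw
    have hwC : w ∈ spCentre L := hRpairs p r (Ne.symm hrp) _ (hcz y p) b hb
    have hcl : ∀ l, cz (y - w) l = cz y l - (if l = p then cz y p else if l = r then b else 0) := by
      intro l
      have hmem : (if l = p then cz y p else if l = r then b else 0) ∈ D l := by
        split_ifs with h1 h2
        · exact h1 ▸ hcz y p
        · exact h2 ▸ hb
        · exact (D l).zero_mem
      refine sub_eq_zero.mp (hnd l _ (sub_mem (hcz _ l) (sub_mem (hcz y l) hmem)) fun a ha => ?_)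
      rw [map_sub, map_sub, LinearMap.sub_apply, LinearMap.sub_apply, ← hcomp _ l a ha, ← hcomp y l a ha, hw, map_sub,
        map_add, LinearMap.sub_apply, LinearMap.add_apply]
      rcases eq_or_ne l p with rfl | hlp
      · rw [if_pos rfl, hort r l hrp b hb a ha]; ring
      rcases eq_or_ne l r with rfl | hlr
      · rw [if_neg hlp, if_pos rfl, hort p l (Ne.symm hrp) _ (hcz y p) a ha]; ring
      · rw [if_neg hlp, if_neg hlr, hort p l (Ne.symm hlp) _ (hcz y p) a ha, hort r l (Ne.symm hlr) b hb a ha, map_zero,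
          LinearMap.zero_apply]
        ring
    have hlt : (Finset.univ.filter fun l => cz (y - w) l ≠ 0).card < N := by
      rw [← hN]
      apply Finset.card_lt_card
      refine ⟨fun l hl => ?_, fun hsub => ?_⟩
      · simp only [Finset.mem_filter, Finset.mem_univ, true_and] at hl ⊢
        intro h0
        rcases eq_or_ne l p with rfl | hlp
        · exact hp h0
        rcases eq_or_ne l r with rfl | hlr
        · exact hr h0
        · rw [hcl, if_neg hlp, if_neg hlr, h0, sub_zero] at hl; exact hl rfl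
      · have h1 := hsub (show p ∈ Finset.univ.filter fun l => cz y l ≠ 0 by simp [hp])
        simp only [Finset.mem_filter, Finset.mem_univ, true_and] at h1
        exact h1 (by rw [hcl, if_pos rfl, sub_self])
    have hval : BB w (y - w) = -1 := by
      rw [map_sub, sympB_self, sub_zero, hw, map_add, LinearMap.add_apply, sympB_skew (cz y p) y,
        hcomp y p (cz y p) (hcz y p), sympB_self, neg_zero, zero_add, sympB_skew, hcomp y r b hb, hrb]
    have h1 := spCentre_add (ih _ hlt _ rfl) hwC (by rw [hval]; exact neg_ne_zero.mpr one_ne_zero)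
    rwa [add_sub_cancel] at h1

end Cfsg.Agent.GeomClasses
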