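import Cfsg.Agent.GeomClasses.UnitaryMax
import Cfsg.Agent.GeomClasses.OrthSubfieldMain
import Cfsg.Agent.GeomClasses.SubfieldScaled

/-! # Symplectic subfield groups are maximal in special unitary groups -/

set_option autoImplicit false
set_option linter.unusedSectionVars false

namespace Cfsg.Agent.GeomClasses.SympInSU

open Matrix Cfsg.Agent.GeomClasses Cfsg.Agent.GeomClasses.SubfieldSL Cfsg.Agent.GeomClasses.Unitary

variable {F : Type*} [Field F] [Fintype F] {q n : ℕ}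

local notation "hh" => Cfsg.hermForm n F q
local notation "Vec" => (Fin n → F)
local notation "Mx" => Matrix (Fin n) (Fin n) F

/-- A rational vector of the structure. -/
def RV (F₀ : Subfield F) (P : GL (Fin n) F) (z : Fin n → F) : Prop :=
  Rat' F₀ (((P⁻¹ : GL (Fin n) F) : Matrix (Fin n) (Fin n) F) *ᵥ z)

/-- The data of a rational structure on which the scaled form is alternating. -/
structure Str (n q : ℕ) (F₀ : Subfield F) (P : GL (Fin n) F) (ζ : F) : Prop where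
  hF : Fintype.card F = q ^ 2
  card : Fintype.card F = Nat.card F₀ ^ 2
  three : 4 ≤ n
  ne : ζ ≠ 0
  trace : ζ + ζ ^ q = 0
  rat : Cfsg.Geo.IsFormRationalStructure (Cfsg.hermForm n F q) F₀ ζ P
  alt : ∀ u : Fin n → F, (∀ i, u i ∈ F₀) → Cfsg.hermForm n F q ((P : Matrix (Fin n) (Fin n) F) *ᵥ u)
    ((P : Matrix (Fin n) (Fin n) F) *ᵥ u) = 0

variable {F₀ : Subfield F} {P : GL (Fin n) F} {ζ : F}

theorem inv_P (P : GL (Fin n) F) (v : Vec) : (P : Mx) *ᵥ (((P⁻¹ : GL (Fin n) F) : Mx) *ᵥ v) = v := by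
  rw [Matrix.mulVec_mulVec, ← Units.val_mul, mul_inv_cancel, Units.val_one, Matrix.one_mulVec]

theorem inv_P' (P : GL (Fin n) F) (v : Vec) : ((P⁻¹ : GL (Fin n) F) : Mx) *ᵥ ((P : Mx) *ᵥ v) = v := by
  rw [Matrix.mulVec_mulVec, ← Units.val_mul, inv_mul_cancel, Units.val_one, Matrix.one_mulVec]

theorem rv_P {u : Vec} (hu : Rat' F₀ u) : RV F₀ P ((P : Mx) *ᵥ u) := by rw [RV, inv_P']; exact hu

theorem rv_add {x y : Vec} (hx : RV F₀ P x) (hy : RV F₀ P y) : RV F₀ P (x + y) := fun i => by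
  rw [Matrix.mulVec_add]; exact F₀.add_mem (hx i) (hy i)

theorem rv_sub {x y : Vec} (hx : RV F₀ P x) (hy : RV F₀ P y) : RV F₀ P (x - y) := fun i => by
  rw [Matrix.mulVec_sub]; exact F₀.sub_mem (hx i) (hy i)

theorem rv_smul {c : F} {x : Vec} (hc : c ∈ F₀) (hx : RV F₀ P x) : RV F₀ P (c • x) := fun i => by
  rw [Matrix.mulVec_smul]; exact F₀.mul_mem hc (hx i)

variable (S : Str n q F₀ P ζ)
include S

theorem Str.card_sub : Nat.card F₀ = q :=
  Nat.pow_left_injective two_ne_zero (S.card.symm.trans S.hF)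

theorem Str.fixed_iff {a : F} : a ∈ F₀ ↔ a ^ q = a :=
  ⟨fun h => by have := OrthSub.frob_fix h; rwa [OrthSub.frob_apply, S.card_sub] at this,
    fun h => OrthSub.mem_of_frob (by rw [OrthSub.frob_apply, S.card_sub, h])⟩

theorem Str.f_mem {x y : Vec} (hx : RV F₀ P x) (hy : RV F₀ P y) : ζ * hh x y ∈ F₀ := by
  have := S.rat _ _ hx hy
  rwa [inv_P, inv_P] at this

theorem Str.isotropic {x : Vec} (hx : RV F₀ P x) : hh x x = 0 := by
  have := S.alt _ hx
  rwa [inv_P] at this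

theorem Str.f_skew {x y : Vec} (hx : RV F₀ P x) (hy : RV F₀ P y) : hh y x = -hh x y := by
  have h := S.isotropic (rv_add hx hy)
  rw [hh_add_left S.hF, hh_add_right S.hF, hh_add_right S.hF, S.isotropic hx, S.isotropic hy] at h
  linear_combination h

theorem Str.exists_pairing {x : Vec} (hx0 : x ≠ 0) : ∃ u, RV F₀ P u ∧ hh x u ≠ 0 := by
  by_contra hcon
  push Not at hcon
  apply hx0
  refine (Cfsg.Agent.Forms.isForm_herm (n := n) S.hF).nondeg x fun v => ?_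
  obtain ⟨w, rfl⟩ : ∃ w, (P : Mx) *ᵥ w = v := ⟨_, inv_P P v⟩
  have h1 : (Cfsg.Agent.Forms.hermB n S.hF x).comp (Matrix.mulVecLin (P : Mx)) = 0 := by
    refine (Pi.basisFun F (Fin n)).ext fun i => ?_
    rw [Pi.basisFun_apply, LinearMap.comp_apply, Matrix.mulVecLin_apply, LinearMap.zero_apply]
    exact hh_comm_zero S.hF (hcon _ (rv_P (rat_one i)))
  exact LinearMap.congr_fun h1 w

theorem Str.exists_pairing_perp {x y : Vec} (hx : RV F₀ P x) (hy : RV F₀ P y) (hx0 : x ≠ 0)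
    (hind : ∀ k ∈ F₀, y ≠ k • x) : ∃ u, RV F₀ P u ∧ hh x u = 0 ∧ hh y u ≠ 0 := by
  by_contra hcon
  push Not at hcon
  obtain ⟨u₀, hu₀, hne⟩ := S.exists_pairing hx0
  set k := (ζ * hh y u₀) / (ζ * hh x u₀) with hk
  have hkF : k ∈ F₀ := F₀.div_mem (S.f_mem hy hu₀) (S.f_mem hx hu₀)
  have hk' : k = hh y u₀ / hh x u₀ := mul_div_mul_left _ _ S.ne
  refine hind k hkF (sub_eq_zero.mp (by_contra fun h0 => ?_))
  obtain ⟨u, hu, hne'⟩ := S.exists_pairing h0
  set t := (ζ * hh x u) / (ζ * hh x u₀) with ht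
  have htF : t ∈ F₀ := F₀.div_mem (S.f_mem hx hu) (S.f_mem hx hu₀)
  have ht' : t = hh x u / hh x u₀ := mul_div_mul_left _ _ S.ne
  have htq : t ^ q = t := S.fixed_iff.mp htF
  have h1 : hh x (u - t • u₀) = 0 := by
    rw [hh_sub_right S.hF, hh_smul_right S.hF, htq, ht', div_mul_cancel₀ _ hne, sub_self]
  have h2 := hcon _ (rv_sub hu (rv_smul htF hu₀)) h1
  rw [hh_sub_right S.hF, hh_smul_right S.hF, htq, ht'] at h2
  apply hne'
  rw [hh_sub_left S.hF, hh_smul_left S.hF, hk']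
  field_simp at h2 ⊢
  linear_combination h2

variable {L : Subgroup (GL (Fin n) F)}

theorem Str.uT_mem_sub {w : Vec} (hw : RV F₀ P w) {c : F} (hc : c + c ^ q = 0) (hww : hh w w = 0) :
    uT w c hww ∈ Cfsg.Geo.subfieldSubgroup F₀ P := by
  rw [SubfieldScaled.mem_subfieldSubgroup_iff]
  refine Subgroup.mem_sup_left (SubfieldSp.mem_range_of_rat' fun i j => ?_)
  have hc' : c / ζ ∈ F₀ := S.fixed_iff.mpr (by
    rw [div_pow, show c ^ q = -c by linear_combination hc, show ζ ^ q = -ζ by linear_combination S.trace, neg_div_neg_eq])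
  set p : Vec := (P : Mx) *ᵥ Pi.single j 1
  have h : ((P⁻¹ * uT w c hww * P : GL (Fin n) F) : Mx) *ᵥ Pi.single j 1 =
      Pi.single j 1 + (c / ζ * (ζ * hh p w)) • (((P⁻¹ : GL (Fin n) F) : Mx) *ᵥ w) := by
    rw [Units.val_mul, Units.val_mul, ← Matrix.mulVec_mulVec, ← Matrix.mulVec_mulVec, uT_mulVec, Matrix.mulVec_add,
      Matrix.mulVec_smul, inv_P', ← mul_assoc, div_mul_cancel₀ _ S.ne]
  have h1 := congrFun h i
  rw [Matrix.mulVec_single, MulOpposite.op_one, one_smul, Matrix.col_apply] at h1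
  rw [h1]
  exact F₀.add_mem (rat_one j i) (F₀.mul_mem (F₀.mul_mem hc' (S.f_mem (rv_P (rat_one j)) hw)) (hw i))

theorem Str.rv_centre (hH : Cfsg.Geo.subfieldSubgroup F₀ P ⊓ SUgl n F q ≤ L) {w : Vec} (hw : RV F₀ P w) :
    IsCentre q L w :=
  ⟨S.isotropic hw, fun _ hc => hH ⟨S.uT_mem_sub hw hc _, uT_mem S.hF _ _ _ hc⟩⟩

/-- A rational transvection of the subgroup moving one rational vector to another. -/
theorem Str.move (hH : Cfsg.Geo.subfieldSubgroup F₀ P ⊓ SUgl n F q ≤ L) {a b : Vec} (ha : RV F₀ P a)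
    (hb : RV F₀ P b) (hab : hh a b ≠ 0) :
    ∃ g ∈ L, (g : Mx) *ᵥ a = b ∧ (∀ v, RV F₀ P v → RV F₀ P ((g : Mx) *ᵥ v)) ∧
      ∀ v, hh v (b - a) = 0 → (g : Mx) *ᵥ v = v := by
  set c := ζ / (ζ * hh a b) with hc
  have hfm := S.f_mem ha hb
  have hc0 : c + c ^ q = 0 := by
    rw [hc, div_pow, S.fixed_iff.mp hfm, show ζ ^ q = -ζ by linear_combination S.trace]; ring
  have hca : c * hh a (b - a) = 1 := by
    rw [hh_sub_right S.hF, S.isotropic ha, sub_zero, hc]; field_simp [S.ne, hab]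
  have hw := rv_sub hb ha
  obtain ⟨hww, hm⟩ := S.rv_centre hH hw
  refine ⟨_, hm c hc0, ?_, fun v hv => ?_, fun v hv => ?_⟩
  · rw [uT_mulVec, hca, one_smul, add_sub_cancel]
  · rw [uT_mulVec]
    refine rv_add hv (rv_smul ?_ hw)
    have := F₀.div_mem (S.f_mem hv hw) hfm
    convert this using 1
    rw [hc]; field_simp [S.ne, hab]
  · rw [uT_mulVec, hv, mul_zero, zero_smul, add_zero]

/-- Two vectors pairing with a rational one. -/
theorem exists_both {U : Vec → Prop} (hU : ∀ u v, U u → U v → U (u + v)) {a b u₁ u₂ : Vec}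
    (h1 : U u₁) (h2 : U u₂) (ha : hh a u₁ ≠ 0) (hb : hh b u₂ ≠ 0) : ∃ u, U u ∧ hh a u ≠ 0 ∧ hh b u ≠ 0 := by
  by_cases h3 : hh b u₁ = 0
  · by_cases h4 : hh a u₂ = 0
    · exact ⟨u₁ + u₂, hU _ _ h1 h2, by rw [hh_add_right S.hF, h4, add_zero]; exact ha,
        by rw [hh_add_right S.hF, h3, zero_add]; exact hb⟩
    · exact ⟨u₂, h2, h4, hb⟩
  · exact ⟨u₁, h1, ha, h3⟩

theorem Str.move_first (hH : Cfsg.Geo.subfieldSubgroup F₀ P ⊓ SUgl n F q ≤ L) {a b : Vec} (ha : RV F₀ P a)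
    (hb : RV F₀ P b) (ha0 : a ≠ 0) (hb0 : b ≠ 0) :
    ∃ g ∈ L, (g : Mx) *ᵥ a = b ∧ ∀ v, RV F₀ P v → RV F₀ P ((g : Mx) *ᵥ v) := by
  obtain ⟨u₁, h1, h1'⟩ := S.exists_pairing ha0
  obtain ⟨u₂, h2, h2'⟩ := S.exists_pairing hb0
  obtain ⟨u, hu, hau, hbu⟩ := exists_both (U := RV F₀ P) S (fun _ _ => rv_add) h1 h2 h1' h2'
  obtain ⟨g, hg, e1, e2, -⟩ := S.move hH ha hu hau
  obtain ⟨g', hg', f1, f2, -⟩ := S.move hH hu hb (fun e => hbu (hh_comm_zero S.hF e))
  exact ⟨g' * g, L.mul_mem hg' hg, by rw [Units.val_mul, ← Matrix.mulVec_mulVec, e1, f1],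
    fun v hv => by rw [Units.val_mul, ← Matrix.mulVec_mulVec]; exact f2 _ (e2 v hv)⟩

theorem Str.move_second (hH : Cfsg.Geo.subfieldSubgroup F₀ P ⊓ SUgl n F q ≤ L) {x a b : Vec} (hx : RV F₀ P x)
    (ha : RV F₀ P a) (hb : RV F₀ P b) (hx0 : x ≠ 0) (hxa : hh x a = 0) (hxb : hh x b = 0)
    (hia : ∀ k ∈ F₀, a ≠ k • x) (hib : ∀ k ∈ F₀, b ≠ k • x) :
    ∃ g ∈ L, (g : Mx) *ᵥ a = b ∧ (g : Mx) *ᵥ x = x := by
  obtain ⟨u₁, h1, h1x, h1'⟩ := S.exists_pairing_perp hx ha hx0 hia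
  obtain ⟨u₂, h2, h2x, h2'⟩ := S.exists_pairing_perp hx hb hx0 hib
  obtain ⟨u, ⟨hu, hxu⟩, hau, hbu⟩ := exists_both (U := fun u => RV F₀ P u ∧ hh x u = 0) S
    (fun _ _ h h' => ⟨rv_add h.1 h'.1, by rw [hh_add_right S.hF, h.2, h'.2, add_zero]⟩)
    ⟨h1, h1x⟩ ⟨h2, h2x⟩ h1' h2'
  obtain ⟨g, hg, e1, -, e3⟩ := S.move hH ha hu hau
  obtain ⟨g', hg', f1, -, f3⟩ := S.move hH hu hb (fun e => hbu (hh_comm_zero S.hF e))
  refine ⟨g' * g, L.mul_mem hg' hg, by rw [Units.val_mul, ← Matrix.mulVec_mulVec, e1, f1], ?_⟩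
  rw [Units.val_mul, ← Matrix.mulVec_mulVec, e3 x (by rw [hh_sub_right S.hF, hxu, hxa, sub_zero]),
    f3 x (by rw [hh_sub_right S.hF, hxb, hxu, sub_zero])]

theorem Str.top_of_centre (hH : Cfsg.Geo.subfieldSubgroup F₀ P ⊓ SUgl n F q ≤ L) (hL : L ≤ SUgl n F q)
    {x y : Vec} {ω : F} (hω : ω ∉ F₀) (hx : RV F₀ P x) (hy : RV F₀ P y) (hx0 : x ≠ 0)
    (hind : ∀ k ∈ F₀, y ≠ k • x) (hz : IsCentre q L (x + ω • y)) : SUgl n F q ≤ L := by
  have hωq : ω ^ q - ω ≠ 0 := sub_ne_zero.mpr fun h => hω (S.fixed_iff.mpr h)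
  refine SU_le_of_uT S.hF (by have := S.three; omega) fun v c hv hc => ?_
  -- rational coordinates of `v`
  set v' := ((P⁻¹ : GL (Fin n) F) : Mx) *ᵥ v with hv'
  set t : Vec := fun i => (v' i ^ q - v' i) / (ω ^ q - ω) with ht
  have htF : ∀ i, t i ∈ F₀ := fun i => S.fixed_iff.mpr (by
    simp only [ht, div_pow, pow_sub_q S.hF, pow_q_q S.hF]
    rw [← neg_sub (v' i ^ q), ← neg_sub (ω ^ q), neg_div_neg_eq])
  have hsF : ∀ i, v' i - t i * ω ∈ F₀ := fun i => S.fixed_iff.mpr (by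
    have h1 : t i * (ω ^ q - ω) = v' i ^ q - v' i := div_mul_cancel₀ _ hωq
    rw [pow_sub_q S.hF, mul_pow, S.fixed_iff.mp (htF i)]
    linear_combination -h1)
  set x' := (P : Mx) *ᵥ (fun i => v' i - t i * ω) with hx'
  set y' := (P : Mx) *ᵥ t with hy'
  have hx'r : RV F₀ P x' := rv_P hsF
  have hy'r : RV F₀ P y' := rv_P htF
  have hveq : v = x' + ω • y' := by
    rw [hx', hy', ← Matrix.mulVec_smul, ← Matrix.mulVec_add, show (fun i => v' i - t i * ω) + ω • t = v' from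
      funext fun i => by simp [mul_comm], hv', inv_P]
  suffices hc' : IsCentre q L v by
    obtain ⟨_, h⟩ := hc'
    exact h c hc
  rw [hveq]
  by_cases hdep : x' = 0 ∨ ∃ k ∈ F₀, y' = k • x'
  · rcases hdep with h | ⟨k, -, hk⟩
    · rw [h, zero_add]; exact isCentre_smul S.hF (S.rv_centre hH hy'r) ω
    · rw [hk, smul_smul, show x' + (ω * k) • x' = (1 + ω * k) • x' by rw [add_smul, one_smul]]
      exact isCentre_smul S.hF (S.rv_centre hH hx'r) _
  push Not at hdep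
  obtain ⟨hx'0, hind'⟩ := hdep
  have hperp' : hh x' y' = 0 := by
    have h := hv
    rw [hveq, hh_add_left S.hF, hh_add_right S.hF, hh_add_right S.hF, hh_smul_left S.hF, hh_smul_left S.hF,
      hh_smul_right S.hF, hh_smul_right S.hF, S.isotropic hx'r, S.isotropic hy'r, S.f_skew hx'r hy'r] at h
    exact (mul_eq_zero.mp (show (ω ^ q - ω) * hh x' y' = 0 by linear_combination h)).resolve_left hωq
  have hperp : hh x y = 0 := by
    have h := hz.1
    rw [hh_add_left S.hF, hh_add_right S.hF, hh_add_right S.hF, hh_smul_left S.hF, hh_smul_left S.hF,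
      hh_smul_right S.hF, hh_smul_right S.hF, S.isotropic hx, S.isotropic hy, S.f_skew hx hy] at h
    exact (mul_eq_zero.mp (show (ω ^ q - ω) * hh x y = 0 by linear_combination h)).resolve_left hωq
  obtain ⟨g, hg, hgx, hgr⟩ := S.move_first hH hx hx'r hx0 hx'0
  set y₁ := (g : Mx) *ᵥ y
  have hgU := mem_GU_iff.mp (hL hg).1
  have hz₁ := isCentre_mulVec S.hF hL hg hz
  rw [Matrix.mulVec_add, Matrix.mulVec_smul, hgx] at hz₁
  have hi₁ : ∀ k ∈ F₀, y₁ ≠ k • x' := fun k hk he => hind k hk (by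
    have h1 : (g : Mx) *ᵥ y = (g : Mx) *ᵥ (k • x) := by rw [Matrix.mulVec_smul, hgx]; exact he
    have h2 := congrArg ((((g⁻¹ : GL (Fin n) F) : Mx)) *ᵥ ·) h1
    simpa [Matrix.mulVec_mulVec, ← Units.val_mul] using h2)
  have hperp₁ : hh x' y₁ = 0 := by rw [← hgx, hgU, hperp]
  obtain ⟨g', hg', hg'y, hg'x⟩ := S.move_second hH hx'r (hgr y hy) hy'r hx'0 hperp₁ hperp' hi₁ hind'
  have hz₂ := isCentre_mulVec S.hF hL hg' hz₁
  rwa [Matrix.mulVec_add, Matrix.mulVec_smul, hg'x, hg'y] at hz₂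

omit S in
/-- The subfield group is maximal. -/
theorem maximal (S : Str n q F₀ P ζ) :
    Cfsg.Geo.IsMaximalIn (SUgl n F q) (Cfsg.Geo.subfieldSubgroup F₀ P ⊓ SUgl n F q) := by
  have hn := S.three
  haveI : Nonempty (Fin n) := ⟨⟨0, by omega⟩⟩
  obtain ⟨ω, hω⟩ := SubfieldSp.exists_not_mem F₀ Nat.prime_two S.card
  refine ⟨lt_of_le_of_ne inf_le_right fun heq => ?_, fun L hH hL => ?_⟩
  · obtain ⟨i₀, i₁, i₂, h01, h02, h12⟩ : ∃ a b c : Fin n, a ≠ b ∧ a ≠ c ∧ b ≠ c :=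
      ⟨⟨0, by omega⟩, ⟨1, by omega⟩, ⟨2, by omega⟩, by simp, by simp, by simp⟩
    set x := (P : Mx) *ᵥ Pi.single i₀ 1 with hx
    have hxr : RV F₀ P x := rv_P (rat_one i₀)
    set fa := ζ * hh x ((P : Mx) *ᵥ Pi.single i₁ 1)
    set fb := ζ * hh x ((P : Mx) *ᵥ Pi.single i₂ 1)
    obtain ⟨t, htr, ht0, htperp, j, hj⟩ : ∃ t : Vec, Rat' F₀ t ∧ t i₀ = 0 ∧ hh x ((P : Mx) *ᵥ t) = 0 ∧ ∃ j, t j ≠ 0 := by
      by_cases hfa : fa = 0
      · exact ⟨Pi.single i₁ 1, rat_one i₁, Pi.single_eq_of_ne h01 _, (mul_eq_zero.mp hfa).resolve_left S.ne, i₁,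
          by simp⟩
      · refine ⟨fb • Pi.single i₁ 1 + (-fa) • Pi.single i₂ 1, fun i => F₀.add_mem
          (F₀.mul_mem (S.f_mem hxr (rv_P (rat_one i₂))) (rat_one i₁ i))
          (F₀.mul_mem (F₀.neg_mem (S.f_mem hxr (rv_P (rat_one i₁)))) (rat_one i₂ i)), ?_, ?_, i₂, ?_⟩
        · simp [Pi.single_eq_of_ne h01, Pi.single_eq_of_ne h02]
        · rw [Matrix.mulVec_add, Matrix.mulVec_smul, Matrix.mulVec_smul, hh_add_right S.hF, hh_smul_right S.hF,
            hh_smul_right S.hF, S.fixed_iff.mp (S.f_mem hxr (rv_P (rat_one i₂))),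
            S.fixed_iff.mp (F₀.neg_mem (S.f_mem hxr (rv_P (rat_one i₁))))]
          ring
        · simp [Pi.single_eq_of_ne (Ne.symm h12), hfa]
    set y := (P : Mx) *ᵥ t
    have hyr : RV F₀ P y := rv_P htr
    set z := x + ω • y with hz
    have hzz : hh z z = 0 := by
      rw [hz, hh_add_left S.hF, hh_add_right S.hF, hh_add_right S.hF, hh_smul_left S.hF, hh_smul_left S.hF,
        hh_smul_right S.hF, hh_smul_right S.hF, S.isotropic hxr, S.isotropic hyr, S.f_skew hxr hyr, htperp]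
      ring
    have hmem := (Subgroup.mem_inf.mp (heq.symm ▸ uT_mem S.hF z ζ hzz S.trace)).1
    rw [SubfieldScaled.mem_subfieldSubgroup_iff] at hmem
    obtain ⟨c, hc0, hc⟩ := SubfieldScaled.scaled_of_mem F₀ hmem
    have hval : ∀ v : Vec, ((P⁻¹ * uT z ζ hzz * P : GL (Fin n) F) : Mx) *ᵥ v =
        v + (ζ * hh ((P : Mx) *ᵥ v) z) • (((P⁻¹ : GL (Fin n) F) : Mx) *ᵥ z) := fun v => by
      rw [Units.val_mul, Units.val_mul, ← Matrix.mulVec_mulVec, ← Matrix.mulVec_mulVec, uT_mulVec, Matrix.mulVec_add,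
        Matrix.mulVec_smul, inv_P']
    have hent : ∀ v : Vec, Rat' F₀ v → ∀ i, c * (v i + ζ * hh ((P : Mx) *ᵥ v) z * ((Pi.single i₀ 1 : Vec) i + ω * t i)) ∈ F₀ := by
      intro v hv i
      have h1 : c * (((P⁻¹ * uT z ζ hzz * P : GL (Fin n) F) : Mx) *ᵥ v) i ∈ F₀ := by
        rw [Matrix.mulVec, dotProduct, Finset.mul_sum]
        exact F₀.sum_mem fun k _ => by rw [← mul_assoc]; exact F₀.mul_mem (hc i k) (hv k)
      rwa [hval, Pi.add_apply, Pi.smul_apply, smul_eq_mul, hz, Matrix.mulVec_add, Matrix.mulVec_smul, hx, inv_P', inv_P',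
        Pi.add_apply, Pi.smul_apply, smul_eq_mul] at h1
    have hcF : c ∈ F₀ := by
      have h1 := hent (Pi.single i₀ 1) (rat_one i₀) i₀
      rw [← hx, hz, hh_add_right S.hF, hh_smul_right S.hF, S.isotropic hxr, htperp] at h1
      simpa using h1
    have hzne : z ≠ 0 := fun e => by
      have h1 := congrFun (congrArg ((((P⁻¹ : GL (Fin n) F) : Mx)) *ᵥ ·) e) i₀
      simp only [hz, hx, y, Matrix.mulVec_add, Matrix.mulVec_smul, inv_P', Pi.add_apply, Pi.smul_apply, ht0,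
        Pi.single_eq_same, Matrix.mulVec_zero, Pi.zero_apply, smul_zero, add_zero] at h1
      exact one_ne_zero h1
    obtain ⟨u, hu, hzu⟩ := S.exists_pairing hzne
    obtain ⟨v, hv, rfl⟩ : ∃ v, Rat' F₀ v ∧ (P : Mx) *ᵥ v = u := ⟨_, hu, inv_P P u⟩
    set k := ζ * hh ((P : Mx) *ᵥ v) z with hk
    have hk0 : k ≠ 0 := mul_ne_zero S.ne fun e => hzu (hh_comm_zero S.hF e)
    have hdiff : ∀ i, k * ((Pi.single i₀ 1 : Vec) i + ω * t i) ∈ F₀ := fun i => by
      have := F₀.sub_mem (F₀.mul_mem (F₀.inv_mem hcF) (hent v hv i)) (hv i)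
      rwa [← mul_assoc, inv_mul_cancel₀ hc0, one_mul, add_sub_cancel_left] at this
    have hkF : k ∈ F₀ := by simpa [ht0] using hdiff i₀
    have hji : j ≠ i₀ := fun e => hj (e ▸ ht0)
    have h2 := F₀.mul_mem (F₀.mul_mem (hdiff j) (F₀.inv_mem hkF)) (F₀.inv_mem (htr j))
    rw [Pi.single_eq_of_ne hji, zero_add] at h2
    field_simp at h2
    exact hω h2
  · by_cases hsc : ∀ g ∈ L, ∀ v : Vec, Rat' F₀ v → ∀ i j, ((P⁻¹ * g * P : GL (Fin n) F) : Mx).mulVec v j ≠ 0 →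
        ((P⁻¹ * g * P : GL (Fin n) F) : Mx).mulVec v i / ((P⁻¹ * g * P : GL (Fin n) F) : Mx).mulVec v j ∈ F₀
    · exact Or.inl (le_antisymm (le_inf (fun g hg => (SubfieldScaled.mem_subfieldSubgroup_iff F₀ P g).mpr
        (SubfieldScaled.mem_sup_of_images F₀ _ (hsc g hg))) hL) hH)
    · push Not at hsc
      obtain ⟨g, hg, v, hv, i, j, hj, hbad⟩ := hsc
      set w := ((P⁻¹ * g * P : GL (Fin n) F) : Mx) *ᵥ v with hw
      have hgz : IsCentre q L ((P : Mx) *ᵥ w) := by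
        rw [hw, Units.val_mul, Units.val_mul, ← Matrix.mulVec_mulVec, ← Matrix.mulVec_mulVec, inv_P]
        exact isCentre_mulVec S.hF hL hg (S.rv_centre hH (rv_P hv))
      have hωq : ω ^ q - ω ≠ 0 := sub_ne_zero.mpr fun h => hω (S.fixed_iff.mpr h)
      set w' : Vec := (w j)⁻¹ • w with hw'
      set t : Vec := fun i => (w' i ^ q - w' i) / (ω ^ q - ω) with ht
      have htF : ∀ i, t i ∈ F₀ := fun i => S.fixed_iff.mpr (by
        simp only [ht, div_pow, pow_sub_q S.hF, pow_q_q S.hF]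
        rw [← neg_sub (w' i ^ q), ← neg_sub (ω ^ q), neg_div_neg_eq])
      have hsF : ∀ i, w' i - t i * ω ∈ F₀ := fun i => S.fixed_iff.mpr (by
        have h1 : t i * (ω ^ q - ω) = w' i ^ q - w' i := div_mul_cancel₀ _ hωq
        rw [pow_sub_q S.hF, mul_pow, S.fixed_iff.mp (htF i)]
        linear_combination -h1)
      have hw'j : w' j = 1 := by rw [hw', Pi.smul_apply, smul_eq_mul, inv_mul_cancel₀ hj]
      have htj : t j = 0 := by simp [ht, hw'j]
      refine Or.inr (le_antisymm hL (S.top_of_centre hH hL (x := (P : Mx) *ᵥ fun i => w' i - t i * ω)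
        (y := (P : Mx) *ᵥ t) hω (rv_P hsF) (rv_P htF) (fun e => ?_) (fun k hk he => ?_) ?_))
      · have h1 := congrFun (congrArg ((((P⁻¹ : GL (Fin n) F) : Mx)) *ᵥ ·) e) j
        simp [inv_P', hw'j, htj] at h1
      · have h1 := congrArg ((((P⁻¹ : GL (Fin n) F) : Mx)) *ᵥ ·) he
        simp only [Matrix.mulVec_smul, inv_P'] at h1
        have h2 := congrFun h1 j
        simp [hw'j, htj] at h2
        have h3 := congrFun h1 i
        simp [← h2] at h3
        apply hbad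
        have h4 : w' i ∈ F₀ := by
          have := hsF i
          rwa [h3, zero_mul, sub_zero] at this
        simpa [hw', inv_mul_eq_div] using h4
      · rw [← Matrix.mulVec_smul, ← Matrix.mulVec_add, show (fun i => w' i - t i * ω) + ω • t = w' from
          funext fun i => by simp [mul_comm], hw', Matrix.mulVec_smul]
        exact isCentre_smul S.hF hgz _

end Cfsg.Agent.GeomClasses.SympInSU
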