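import Cfsg.Agent.GeomClasses.SympFormDerange
import Cfsg.Agent.GeomClasses.InvolutionBlocks
import Cfsg.Agent.Forms.SympBasis

/-!
Elements with scalar square inside symplectic similitude groups.
-/

set_option autoImplicit false

namespace Cfsg.Agent.GeomClasses.SympInvolution

open Matrix Cfsg.Agent.Forms

variable {F : Type*} [Field F] [Fintype F] {n : ℕ}

/-- An element stabilising the planes of a frame, with one determinant on all of them, is conjugate in
`SL_n` to a symplectic similitude. -/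
theorem conj_into {f : (Fin n → F) → (Fin n → F) → F} (hf : Cfsg.Geo.IsSymplecticForm f) (hn : 1 ≤ n)
    (x : Matrix.SpecialLinearGroup (Fin n) F) {κ : Type} [Fintype κ] [DecidableEq κ]
    (b : Module.Basis (κ ⊕ κ) F (Fin n → F)) (α β γ δ : κ → F) {c : F} (hc : c ≠ 0)
    (hl : ∀ i, (x : Matrix (Fin n) (Fin n) F) *ᵥ b (Sum.inl i) = α i • b (Sum.inl i) + γ i • b (Sum.inr i))
    (hr : ∀ i, (x : Matrix (Fin n) (Fin n) F) *ᵥ b (Sum.inr i) = β i • b (Sum.inl i) + δ i • b (Sum.inr i))
    (hdet : ∀ i, α i * δ i - β i * γ i = c) :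
    ∃ P : Matrix.SpecialLinearGroup (Fin n) F, P⁻¹ * x * P ∈ (Cfsg.Geo.similarityGroup f).comap
      (Matrix.SpecialLinearGroup.toGL : Matrix.SpecialLinearGroup (Fin n) F →* GL (Fin n) F) := by
  classical
  obtain ⟨B, hB, hA, hN⟩ := SympFormDerange.exists_bilin hf
  obtain ⟨m, v, hm, hv⟩ := exists_symp_family (isForm_alt B hN hA)
  have hκ : Fintype.card κ = m := by
    have h := Module.finrank_eq_card_basis b
    rw [Module.finrank_pi, Fintype.card_fin, Fintype.card_sum] at h
    rw [Module.finrank_pi, Fintype.card_fin] at hm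
    omega
  let em : κ ≃ Fin m := Fintype.equivFinOfCardEq hκ
  haveI : Nonempty κ := Fintype.card_pos_iff.1 (by
    rw [Module.finrank_pi, Fintype.card_fin] at hm
    omega)
  let i0 : κ := Classical.arbitrary κ
  let w : Module.Basis (κ ⊕ κ) F (Fin n → F) := (basisOfLinearIndependentOfCardEqFinrank' v (hv.linearIndependent hA)
    (by simp only [Fintype.card_sum, Fintype.card_fin, hm, two_mul])).reindex (em.sumCongr em).symm
  have hw : ∀ s, w s = v (s.map em em) := fun s => by
    rcases s with s | s <;> simp [w]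
  -- the base change
  let P0 : (Fin n → F) ≃ₗ[F] (Fin n → F) := w.equiv b (Equiv.refl _)
  have hd0 : LinearMap.det (P0 : (Fin n → F) →ₗ[F] (Fin n → F)) ≠ 0 := (LinearEquiv.isUnit_det' P0).ne_zero
  set s : F := (LinearMap.det (P0 : (Fin n → F) →ₗ[F] (Fin n → F)))⁻¹
  have hs : s ≠ 0 := inv_ne_zero hd0
  let d : κ ⊕ κ → F := fun k => if k = Sum.inl i0 then s else 1
  let D : (Fin n → F) →ₗ[F] (Fin n → F) := w.constr F fun k => d k • w k
  have hD : LinearMap.det D = s := by
    rw [← LinearMap.det_toMatrix w]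
    have : LinearMap.toMatrix w w D = Matrix.diagonal d := by
      ext i j
      rw [LinearMap.toMatrix_apply, show D (w j) = d j • w j from w.constr_basis F _ j, map_smul, Finsupp.smul_apply,
        w.repr_self, Finsupp.single_apply, Matrix.diagonal_apply, smul_eq_mul]
      by_cases h : i = j
      · subst h; simp
      · simp [h, Ne.symm h]
    rw [this, Matrix.det_diagonal]
    simp [d]
  let L : (Fin n → F) →ₗ[F] (Fin n → F) := (P0 : (Fin n → F) →ₗ[F] (Fin n → F)) ∘ₗ D
  have hL : LinearMap.det L = 1 := by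
    rw [LinearMap.det_comp, hD, mul_inv_cancel₀ hd0]
  have hLw : ∀ k, L (w k) = d k • b k := fun k => by
    show P0 (D (w k)) = _
    rw [show D (w k) = d k • w k from w.constr_basis F _ k, map_smul]
    simp [P0]
  obtain ⟨P, hP⟩ : ∃ P : Matrix.SpecialLinearGroup (Fin n) F, (P : Matrix (Fin n) (Fin n) F) = LinearMap.toMatrix' L :=
    ⟨⟨_, by rw [LinearMap.det_toMatrix']; exact hL⟩, rfl⟩
  have hPw : ∀ k, (P : Matrix (Fin n) (Fin n) F) *ᵥ w k = d k • b k := fun k => by
    rw [hP, LinearMap.toMatrix'_mulVec, hLw]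
  refine ⟨P, Units.mk0 c hc, fun u u' => ?_⟩
  set G := ((P⁻¹ * x * P : Matrix.SpecialLinearGroup (Fin n) F) : Matrix (Fin n) (Fin n) F) with hG
  show f (G *ᵥ u) (G *ᵥ u') = c * f u u'
  have hdn : ∀ k, d k ≠ 0 := fun k => by simp only [d]; split_ifs; exacts [hs, one_ne_zero]
  have hback : ∀ k, ((P⁻¹ : Matrix.SpecialLinearGroup (Fin n) F) : Matrix (Fin n) (Fin n) F) *ᵥ b k = (d k)⁻¹ • w k := fun k => by
    rw [show b k = (d k)⁻¹ • ((P : Matrix (Fin n) (Fin n) F) *ᵥ w k) by rw [hPw, smul_smul, inv_mul_cancel₀ (hdn k), one_smul],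
      Matrix.mulVec_smul, Matrix.mulVec_mulVec, ← Matrix.SpecialLinearGroup.coe_mul, inv_mul_cancel,
      Matrix.SpecialLinearGroup.coe_one, Matrix.one_mulVec]
  have hGl : ∀ i, G *ᵥ w (Sum.inl i) = α i • w (Sum.inl i) + (d (Sum.inl i) * γ i) • w (Sum.inr i) := fun i => by
    rw [hG, Matrix.SpecialLinearGroup.coe_mul, Matrix.SpecialLinearGroup.coe_mul, ← Matrix.mulVec_mulVec, hPw,
      ← Matrix.mulVec_mulVec, Matrix.mulVec_smul, hl, smul_add, smul_smul, smul_smul, Matrix.mulVec_add,
      Matrix.mulVec_smul, Matrix.mulVec_smul, hback, hback, smul_smul, smul_smul, show d (Sum.inr i) = 1 by simp [d],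
      inv_one, mul_one, mul_right_comm, mul_inv_cancel₀ (hdn _), one_mul]
  have hGr : ∀ i, G *ᵥ w (Sum.inr i) = (β i * (d (Sum.inl i))⁻¹) • w (Sum.inl i) + δ i • w (Sum.inr i) := fun i => by
    rw [hG, Matrix.SpecialLinearGroup.coe_mul, Matrix.SpecialLinearGroup.coe_mul, ← Matrix.mulVec_mulVec, hPw,
      show d (Sum.inr i) = 1 by simp [d], one_smul, ← Matrix.mulVec_mulVec, hr, Matrix.mulVec_add,
      Matrix.mulVec_smul, Matrix.mulVec_smul, hback, hback, smul_smul, smul_smul, show d (Sum.inr i) = 1 by simp [d],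
      inv_one, mul_one]
  have hrl : ∀ i j, B (v (Sum.inr i)) (v (Sum.inl j)) = -(if j = i then (1 : F) else 0) := by
    intro i j; rw [← LinearMap.IsAlt.neg hA, hv.lr]
  have key : B.compl₁₂ G.mulVecLin G.mulVecLin = c • B := by
    refine LinearMap.ext_basis w w fun i j => ?_
    simp only [LinearMap.compl₁₂_apply, Matrix.mulVecLin_apply, LinearMap.smul_apply, smul_eq_mul]
    rcases i with i | i <;> rcases j with j | j <;>
      simp only [hGl, hGr, map_add, map_smul, LinearMap.add_apply, LinearMap.smul_apply, smul_eq_mul] <;>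
      simp only [hw, Sum.map_inl, Sum.map_inr, hv.ll, hv.rr, hv.lr, hrl] <;>
      rcases eq_or_ne i j with rfl | hij
    all_goals (try simp only [em.injective.eq_iff, if_neg hij, if_neg hij.symm]); (try simp only [if_pos, if_true]); (try ring_nf)
    · linear_combination hdet i + (β i * γ i) * -(inv_mul_cancel₀ (hdn (Sum.inl i)))
    · linear_combination -(hdet i) + (β i * γ i) * (inv_mul_cancel₀ (hdn (Sum.inl i)))
  have h := LinearMap.congr_fun₂ key u u'
  simp only [LinearMap.compl₁₂_apply, Matrix.mulVecLin_apply, LinearMap.smul_apply, smul_eq_mul, hB] at h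
  exact h

/-- The converse direction: an element with scalar square. -/
theorem square_conj_into [CharP F 2] {f : (Fin n → F) → (Fin n → F) → F} (hf : Cfsg.Geo.IsSymplecticForm f) (hn : 1 ≤ n)
    (he : Even n) (x : Matrix.SpecialLinearGroup (Fin n) F) {z : F} (hz0 : z ≠ 0)
    (hz : ∀ v, (x : Matrix (Fin n) (Fin n) F) *ᵥ ((x : Matrix (Fin n) (Fin n) F) *ᵥ v) = z • v) :
    ∃ P : Matrix.SpecialLinearGroup (Fin n) F, P⁻¹ * x * P ∈ (Cfsg.Geo.similarityGroup f).comap
      (Matrix.SpecialLinearGroup.toGL : Matrix.SpecialLinearGroup (Fin n) F →* GL (Fin n) F) := by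
  classical
  obtain ⟨k, l, b, hb1, hb2⟩ := InvolutionBlocks.exists_pairBasis (x : Matrix (Fin n) (Fin n) F).mulVecLin z hz0 hz
  have hdim := Module.finrank_eq_card_basis b
  rw [Module.finrank_pi, Fintype.card_fin, Fintype.card_sum, Fintype.card_prod, Fintype.card_fin, Fintype.card_fin,
    Fintype.card_fin] at hdim
  obtain ⟨h, hh⟩ := he
  obtain ⟨l', rfl⟩ : ∃ l', l = l' + l' := ⟨h - k, by omega⟩
  let idx : (Fin k ⊕ Fin l') ⊕ (Fin k ⊕ Fin l') → (Fin k × Fin 2) ⊕ Fin (l' + l') :=
    Sum.elim (Sum.map (fun p => (p, 0)) (Fin.castAdd l')) (Sum.map (fun p => (p, 1)) (Fin.natAdd l'))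
  have hidx : Function.Bijective idx := by
    rw [Fintype.bijective_iff_injective_and_card]
    refine ⟨?_, by simp; ring⟩
    rintro ((p | p) | (p | p)) ((p' | p') | (p' | p')) he <;> simp [idx, Fin.ext_iff] at he ⊢ <;> omega
  let e := (Equiv.ofBijective idx hidx).symm
  have hbe : ∀ i, b.reindex e i = b (idx i) := fun i => by simp [e]
  choose μ hμ using hb2
  have hsq : ∀ i, μ i * μ i = z := fun i => by
    have h1 := congrArg (x : Matrix (Fin n) (Fin n) F).mulVec (hμ i)
    simp only [Matrix.mulVecLin_apply] at h1 hμ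
    rw [hz, Matrix.mulVec_smul, hμ, smul_smul] at h1
    exact (smul_left_injective F (b.ne_zero _) h1).symm
  refine conj_into hf hn x (b.reindex e) (Sum.elim (fun _ => 0) (fun i => μ (Fin.castAdd l' i)))
    (Sum.elim (fun _ => z) (fun _ => 0)) (Sum.elim (fun _ => 1) (fun _ => 0))
    (Sum.elim (fun _ => 0) (fun i => μ (Fin.natAdd l' i))) (c := z) hz0 ?_ ?_ ?_
  · rintro (p | i)
    · simp only [hbe, idx, Sum.elim_inl, Sum.elim_inr, Sum.map_inl, Sum.map_inr, zero_smul, zero_add, one_smul]
      exact (hb1 p).1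
    · simp only [hbe, idx, Sum.elim_inl, Sum.elim_inr, Sum.map_inl, Sum.map_inr, zero_smul, add_zero]
      exact hμ _
  · rintro (p | i)
    · simp only [hbe, idx, Sum.elim_inl, Sum.elim_inr, Sum.map_inl, Sum.map_inr, zero_smul, add_zero]
      exact (hb1 p).2
    · simp only [hbe, idx, Sum.elim_inl, Sum.elim_inr, Sum.map_inl, Sum.map_inr, zero_smul, zero_add]
      exact hμ _
  · rintro (p | i)
    · simp [CharTwo.neg_eq]
    · simp only [Sum.elim_inl, Sum.elim_inr, mul_zero, sub_zero]
      obtain h1 := CharTwo.sq_inj.1 (show μ (Fin.castAdd l' i) ^ 2 = μ (Fin.natAdd l' i) ^ 2 by rw [pow_two, pow_two, hsq, hsq])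
      rw [h1, hsq]

/-- Odd characteristic: an element with scalar square and even eigenspaces. -/
theorem square_conj_into_odd (h2 : (2 : F) ≠ 0) {f : (Fin n → F) → (Fin n → F) → F} (hf : Cfsg.Geo.IsSymplecticForm f)
    (hn : 1 ≤ n) (he : Even n) (x : Matrix.SpecialLinearGroup (Fin n) F) {z : F} (hz0 : z ≠ 0)
    (hz : ∀ v, (x : Matrix (Fin n) (Fin n) F) *ᵥ ((x : Matrix (Fin n) (Fin n) F) *ᵥ v) = z • v)
    (hpow : ∀ c : F, c * c = z → c ^ n ≠ -1) :
    ∃ P : Matrix.SpecialLinearGroup (Fin n) F, P⁻¹ * x * P ∈ (Cfsg.Geo.similarityGroup f).comap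
      (Matrix.SpecialLinearGroup.toGL : Matrix.SpecialLinearGroup (Fin n) F →* GL (Fin n) F) := by
  classical
  set X := (x : Matrix (Fin n) (Fin n) F).mulVecLin
  by_cases hsq : ∃ c : F, c * c = z
  · obtain ⟨c, hc⟩ := hsq
    have hc0 : c ≠ 0 := fun h => hz0 (by rw [← hc, h, zero_mul])
    let P := LinearMap.ker (X - c • LinearMap.id)
    let Q := LinearMap.ker (X + c • LinearMap.id)
    have hP : ∀ v ∈ P, X v = c • v := fun v hv => sub_eq_zero.1 hv
    have hQ : ∀ v ∈ Q, X v = (-c) • v := fun v hv => by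
      rw [neg_smul]; exact eq_neg_of_add_eq_zero_left hv
    have hPQ : IsCompl P Q := by
      refine ⟨Submodule.disjoint_def.2 fun v hv hv' => ?_,
        codisjoint_iff.2 (eq_top_iff.2 fun v _ => ?_)⟩
      · have h := hQ v hv'
        rw [hP v hv, ← sub_eq_zero, ← sub_smul] at h
        refine (smul_eq_zero.1 h).resolve_left ?_
        rw [sub_neg_eq_add, ← two_mul]; exact mul_ne_zero h2 hc0
      · have hz' : ∀ v, X (X v) = z • v := hz
        refine Submodule.mem_sup.2 ⟨(2 * c)⁻¹ • (c • v + X v), ?_, (2 * c)⁻¹ • (c • v - X v), ?_, ?_⟩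
        · simp only [P, LinearMap.mem_ker, LinearMap.sub_apply, LinearMap.smul_apply, LinearMap.id_apply,
            map_smul, map_add, hz', ← hc]
          module
        · simp only [Q, LinearMap.mem_ker, LinearMap.add_apply, LinearMap.smul_apply, LinearMap.id_apply,
            map_smul, map_sub, hz', ← hc]
          module
        · rw [← smul_add, show c • v + X v + (c • v - X v) = (2 * c) • v by module,
            smul_smul, inv_mul_cancel₀ (mul_ne_zero h2 hc0), one_smul]
    let bb : Module.Basis (Fin (Module.finrank F P) ⊕ Fin (Module.finrank F Q)) F (Fin n → F) :=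
      ((Module.finBasis F P).prod (Module.finBasis F Q)).map (Submodule.prodEquivOfIsCompl P Q hPQ)
    have hbP : ∀ i, X (bb (Sum.inl i)) = c • bb (Sum.inl i) := fun i => by
      simpa [bb] using hP _ (Module.finBasis F P i).2
    have hbQ : ∀ i, X (bb (Sum.inr i)) = (-c) • bb (Sum.inr i) := fun i => by
      simpa [bb] using hQ _ (Module.finBasis F Q i).2
    have hdim := Module.finrank_eq_card_basis bb
    rw [Module.finrank_pi, Fintype.card_fin, Fintype.card_sum, Fintype.card_fin, Fintype.card_fin] at hdim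
    have hdet : (-1 : F) ^ Module.finrank F Q * c ^ n = 1 := by
      have h1 : LinearMap.det X = 1 := by
        show LinearMap.det (Matrix.toLin' (x : Matrix (Fin n) (Fin n) F)) = 1
        rw [LinearMap.det_toLin', x.2]
      rw [← LinearMap.det_toMatrix bb] at h1
      have h3 : LinearMap.toMatrix bb bb X = Matrix.diagonal (Sum.elim (fun _ => c) (fun _ => -c)) := by
        ext i j
        rw [LinearMap.toMatrix_apply, Matrix.diagonal_apply]
        rcases j with j | j
        · rw [hbP, map_smul, Finsupp.smul_apply, bb.repr_self, Finsupp.single_apply]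
          by_cases h : i = Sum.inl j
          · subst h; simp
          · simp [h, Ne.symm h]
        · rw [hbQ, map_smul, Finsupp.smul_apply, bb.repr_self, Finsupp.single_apply]
          by_cases h : i = Sum.inr j
          · subst h; simp
          · simp [h, Ne.symm h]
      rw [h3, Matrix.det_diagonal, Fintype.prod_sum_type] at h1
      simp only [Sum.elim_inl, Sum.elim_inr, Finset.prod_const, Finset.card_univ, Fintype.card_fin] at h1
      rw [neg_pow, mul_left_comm, ← pow_add, ← hdim] at h1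
      exact h1
    obtain ⟨b', hb'⟩ : Even (Module.finrank F Q) := by
      by_contra hodd
      rw [(Nat.not_even_iff_odd.1 hodd).neg_one_pow, neg_one_mul] at hdet
      exact hpow c hc (by linear_combination -hdet)
    obtain ⟨h, hh⟩ := he
    obtain ⟨a', ha'⟩ : ∃ a', Module.finrank F P = a' + a' := ⟨h - b', by omega⟩
    let idx : (Fin a' ⊕ Fin b') ⊕ (Fin a' ⊕ Fin b') → Fin (Module.finrank F P) ⊕ Fin (Module.finrank F Q) :=
      Sum.elim (Sum.map (fun i => (Fin.castAdd a' i).cast ha'.symm) (fun i => (Fin.castAdd b' i).cast hb'.symm))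
        (Sum.map (fun i => (Fin.natAdd a' i).cast ha'.symm) (fun i => (Fin.natAdd b' i).cast hb'.symm))
    have hidx : Function.Bijective idx := by
      rw [Fintype.bijective_iff_injective_and_card]
      refine ⟨?_, by simp; omega⟩
      rintro ((p | p) | (p | p)) ((p' | p') | (p' | p')) he <;> simp [idx, Fin.ext_iff] at he ⊢ <;> omega
    let e := (Equiv.ofBijective idx hidx).symm
    have hbe : ∀ i, bb.reindex e i = bb (idx i) := fun i => by simp [e]
    refine conj_into hf hn x (bb.reindex e) (Sum.elim (fun _ => c) (fun _ => -c)) 0 0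
      (Sum.elim (fun _ => c) (fun _ => -c)) (c := z) hz0 ?_ ?_ ?_
    · rintro (p | p) <;> simp only [hbe, idx, Sum.elim_inl, Sum.elim_inr, Sum.map_inl, Sum.map_inr, Pi.zero_apply, zero_smul, add_zero]
      exacts [hbP _, hbQ _]
    · rintro (p | p) <;> simp only [hbe, idx, Sum.elim_inl, Sum.elim_inr, Sum.map_inl, Sum.map_inr, Pi.zero_apply, zero_smul, zero_add]
      exacts [hbP _, hbQ _]
    · rintro (p | p) <;> simp [← hc]
  · obtain ⟨k, l, b, hb1, hb2⟩ := InvolutionBlocks.exists_pairBasis X z hz0 hz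
    obtain rfl : l = 0 := by
      by_contra hl
      obtain ⟨μ, hμ⟩ := hb2 ⟨0, Nat.pos_of_ne_zero hl⟩
      have h1 : X (X (b (Sum.inr ⟨0, Nat.pos_of_ne_zero hl⟩))) = z • b (Sum.inr ⟨0, Nat.pos_of_ne_zero hl⟩) := hz _
      rw [hμ, map_smul, hμ, smul_smul] at h1
      exact hsq ⟨μ, smul_left_injective F (b.ne_zero _) h1⟩
    let idx : Fin k ⊕ Fin k → (Fin k × Fin 2) ⊕ Fin 0 := Sum.elim (fun p => Sum.inl (p, 0)) (fun p => Sum.inl (p, 1))
    have hidx : Function.Bijective idx := by
      rw [Fintype.bijective_iff_injective_and_card]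
      refine ⟨?_, by simp; ring⟩
      rintro (p | p) (p' | p') he <;> simp [idx] at he ⊢ <;> exact he
    let e := (Equiv.ofBijective idx hidx).symm
    have hbe : ∀ i, b.reindex e i = b (idx i) := fun i => by simp [e]
    refine conj_into hf hn x (b.reindex e) 0 (fun _ => z) 1 0 (c := -z) (neg_ne_zero.2 hz0) ?_ ?_ ?_
    · intro p
      simp only [hbe, idx, Sum.elim_inl, Sum.elim_inr, Pi.zero_apply, Pi.one_apply, zero_smul, zero_add, one_smul]
      exact (hb1 p).1
    · intro p
      simp only [hbe, idx, Sum.elim_inl, Sum.elim_inr, Pi.zero_apply, Pi.one_apply, zero_smul, add_zero]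
      exact (hb1 p).2
    · intro p; simp

end Cfsg.Agent.GeomClasses.SympInvolution
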