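import Cfsg.Agent.GeomClasses.SympStructure
import Cfsg.Agent.Forms.IsotropicStab

/-!
# Totally isotropic subspaces of alternating spaces
-/

set_option autoImplicit false
set_option linter.unusedSectionVars false

namespace Cfsg.Agent.GeomClasses.SympIsotropic

open Module SympStructure

variable {F V : Type*} [Field F] [Fintype F] [AddCommGroup V] [Module F V] [FiniteDimensional F V]
  {B : LinearMap.BilinForm F V}

/-- `W` is totally isotropic. -/
def TI (B : LinearMap.BilinForm F V) (W : Submodule F V) : Prop := ∀ u ∈ W, ∀ v ∈ W, B u v = 0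

theorem ti_sup (hA : B.IsAlt) {U U' : Submodule F V} (hU : TI B U) (hU' : TI B U') (h : U' ≤ B.orthogonal U) :
    TI B (U ⊔ U') := by
  intro u hu v hv
  obtain ⟨a, ha, b, hb, rfl⟩ := Submodule.mem_sup.1 hu
  obtain ⟨a', ha', b', hb', rfl⟩ := Submodule.mem_sup.1 hv
  simp only [map_add, LinearMap.add_apply, hU a ha a' ha', hU' b hb b' hb', zero_add, add_zero]
  rw [show B b a' = 0 from hA.isRefl _ _ (h hb a' ha'), show B a b' = 0 from h hb' a ha, add_zero]

theorem ti_span {S : Set V} (h : ∀ u ∈ S, ∀ v ∈ S, B u v = 0) : TI B (Submodule.span F S) := by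
  intro u hu v hv
  induction hu using Submodule.span_induction with
  | mem x hx =>
    induction hv using Submodule.span_induction with
    | mem y hy => exact h x hx y hy
    | zero => simp
    | add a b _ _ ha hb => rw [map_add, ha, hb, add_zero]
    | smul c a _ ha => rw [map_smul, ha, smul_zero]
  | zero => simp
  | add a b _ _ ha hb => rw [map_add, LinearMap.add_apply, ha, hb, add_zero]
  | smul c a _ ha => rw [map_smul, LinearMap.smul_apply, ha, smul_zero]

/-- Totally isotropic subspaces up to half the dimension. -/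
theorem exists_ti_half (hA : B.IsAlt) {Z : Submodule F V} (hZ : Nd B Z) {e : ℕ} (he : 2 * e ≤ finrank F Z) :
    ∃ E ≤ Z, TI B E ∧ finrank F E = e := by
  have hI : Cfsg.Agent.Forms.IsForm (RingHom.id F) (B.restrict Z) (fun _ => (0 : F)) := by
    refine Cfsg.Agent.Forms.isForm_alt _ ⟨fun u hu => Subtype.ext (hZ u u.2 fun x hx => hu ⟨x, hx⟩),
      fun u hu => Subtype.ext (hZ u u.2 fun x hx => hA.isRefl _ _ (hu ⟨x, hx⟩))⟩ fun x => hA (x : V)
  obtain ⟨m, v, hm, hv⟩ := Cfsg.Agent.Forms.exists_symp_family hI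
  let f : Fin e → V := fun a => (v (Sum.inl (Fin.castLE (by omega) a)) : V)
  refine ⟨Submodule.span F (Set.range f), Submodule.span_le.2 (by rintro _ ⟨a, rfl⟩; exact Submodule.coe_mem _),
    ti_span (by rintro _ ⟨a, rfl⟩ _ ⟨b, rfl⟩; exact hv.ll _ _), ?_⟩
  rw [finrank_span_eq_card, Fintype.card_fin]
  exact ((hv.linearIndependent fun x => hA (x : V)).map' Z.subtype Z.ker_subtype).comp _
    fun a b h => Fin.castLE_injective _ (Sum.inl_injective h)

/-- A totally isotropic subspace has at most half the dimension. -/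
theorem ti_le (hA : B.IsAlt) {X K : Submodule F V} (hK : Nd B K) (hXK : X ≤ K) (hX : TI B X) :
    2 * finrank F X ≤ finrank F K := by
  let β : LinearMap.BilinForm F K := B.restrict K
  have hβ : β.Nondegenerate := ⟨fun u hu => Subtype.ext (hK u u.2 fun x hx => hu ⟨x, hx⟩),
    fun u hu => Subtype.ext (hK u u.2 fun x hx => hA.isRefl _ _ (hu ⟨x, hx⟩))⟩
  set X' := X.comap K.subtype
  have hle : X' ≤ β.orthogonal X' := fun u hu w hw => hX w hw u hu
  have h := Submodule.finrank_mono hle
  rw [LinearMap.BilinForm.finrank_orthogonal hβ] at h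
  have hd : finrank F X' = finrank F X := (Submodule.comapSubtypeEquivOfLe hXK).finrank_eq
  have := Submodule.finrank_le X'
  omega

/-- An isotropic vector of a symmetric form in three dimensions. -/
theorem exists_isotropic_sym (h2 : (2 : F) ≠ 0) (Y : Submodule F V) (hY : 3 ≤ finrank F Y) (C : LinearMap.BilinForm F V)
    (hC : ∀ u v, C u v = C v u) : ∃ u ∈ Y, u ≠ 0 ∧ C u u = 0 := by
  classical
  by_contra hcon
  push_neg at hcon
  obtain ⟨u, hu, hu0⟩ := (Submodule.ne_bot_iff Y).1 fun h => by rw [h, finrank_bot] at hY; omega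
  have hker : ∀ (Z : Submodule F V) (f : V →ₗ[F] F), finrank F Z ≤ finrank F ↥(Z ⊓ LinearMap.ker f) + 1 := by
    intro Z f
    have h := LinearMap.finrank_range_add_finrank_ker (f.domRestrict Z)
    have h1 : finrank F (LinearMap.range (f.domRestrict Z)) ≤ 1 := (Submodule.finrank_le _).trans_eq (Module.finrank_self F)
    have h2 : finrank F (LinearMap.ker (f.domRestrict Z)) = finrank F ↥(Z ⊓ LinearMap.ker f) := by
      rw [← Submodule.finrank_map_subtype_eq, show LinearMap.ker (f.domRestrict Z) = (LinearMap.ker f).comap Z.subtype from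
        Submodule.ext fun _ => Iff.rfl, Submodule.map_comap_subtype]
    omega
  set Y₁ := Y ⊓ LinearMap.ker (C u)
  have h1 := hker Y (C u)
  obtain ⟨v, hv, hv0⟩ := (Submodule.ne_bot_iff Y₁).1 fun h => by
    simp only [Y₁] at h
    rw [h, finrank_bot] at h1; omega
  set Y₂ := Y₁ ⊓ LinearMap.ker (C v)
  have h2' := hker Y₁ (C v)
  obtain ⟨w, hw, hw0⟩ := (Submodule.ne_bot_iff Y₂).1 fun h => by
    simp only [Y₂, Y₁] at h h2'
    rw [h, finrank_bot] at h2'; omega
  have huv : C u v = 0 := hv.2
  have huw : C u w = 0 := hw.1.2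
  have hvw : C v w = 0 := hw.2
  obtain ⟨a, b, hab⟩ := FiniteField.exists_root_sum_quadratic
    (f := Polynomial.C (C u u) * Polynomial.X ^ 2 + Polynomial.C (C w w))
    (g := Polynomial.C (C v v) * Polynomial.X ^ 2)
    (by rw [Polynomial.degree_add_eq_left_of_degree_lt] <;> rw [Polynomial.degree_C_mul_X_pow 2 (hcon u hu hu0)]
        · norm_num
        · exact lt_of_le_of_lt Polynomial.degree_C_le (by norm_num))
    (by rw [Polynomial.degree_C_mul_X_pow 2 (hcon v hv.1 hv0)]; norm_num)
    (FiniteField.odd_card_of_char_ne_two fun h => h2 (by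
      have : ((2 : ℕ) : F) = 0 := by
        haveI := ringChar.charP F
        rw [← h]; exact CharP.cast_eq_zero F (ringChar F)
      exact_mod_cast this))
  simp only [Polynomial.eval_add, Polynomial.eval_mul, Polynomial.eval_C, Polynomial.eval_pow, Polynomial.eval_X] at hab
  refine hcon (a • u + b • v + w) (add_mem (add_mem (Y.smul_mem _ hu) (Y.smul_mem _ hv.1)) hw.1.1) (fun h => hw0 ?_) ?_
  · have h' := congrArg (C w) h
    simp only [map_add, map_smul, hC w u, huw, hC w v, hvw, smul_zero, zero_add, map_zero] at h'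
    exact absurd h' (hcon w hw.1.1 hw0)
  · simp only [map_add, map_smul, LinearMap.add_apply, LinearMap.smul_apply, huv, huw, hvw, hC v u, hC w u, hC w v,
      smul_eq_mul, mul_zero, add_zero, zero_add]
    linear_combination hab

variable {T : Module.End F V}

/-- Invariant totally isotropic subspaces of even dimension when the square is minus one. -/
theorem exists_ti_sq (hA : B.IsAlt) (hB : B.Nondegenerate) (hTB : ∀ x y, B (T x) (T y) = B x y) (h2 : (2 : F) ≠ 0)
    (hsq : ¬ IsSquare (-1 : F)) (hT : ∀ v, T (T v) = -v) :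
    ∀ l, 4 * l ≤ finrank F V → ∃ X : Submodule F V, (∀ v ∈ X, T v ∈ X) ∧ TI B X ∧ finrank F X = 2 * l := by
  have hinj : Function.Injective T := fun a b h => by simpa [hT] using congrArg T h
  have hswap : ∀ u v, B u (T v) = B v (T u) := fun u v => by
    have := hTB u (T v)
    rw [hT, map_neg] at this
    rw [← this, LinearMap.IsAlt.neg hA]
  intro l
  induction l with
  | zero => exact fun _ => ⟨⊥, fun v hv => by rw [Submodule.mem_bot] at hv; simp [hv],
      fun u hu v _ => by rw [Submodule.mem_bot] at hu; simp [hu], by simp⟩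
  | succ l ih =>
    intro hl
    obtain ⟨X, hX, hXti, hXd⟩ := ih (by omega)
    set P := B.orthogonal X
    have hPd : finrank F P = finrank F V - 2 * l := by rw [LinearMap.BilinForm.finrank_orthogonal hB, hXd]
    obtain ⟨Y₀, hY₀⟩ := Submodule.exists_isCompl X
    set Y := P ⊓ Y₀
    have hXP : X ≤ P := fun v hv u hu => hXti u hu v hv
    have hYd : finrank F V - 4 * l ≤ finrank F Y := by
      have h := Submodule.finrank_sup_add_finrank_inf_eq P Y₀
      rw [show P ⊔ Y₀ = ⊤ from top_le_iff.1 (hY₀.sup_eq_top ▸ sup_le_sup_right hXP _), finrank_top] at h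
      have := Submodule.finrank_add_eq_of_isCompl hY₀
      show _ ≤ finrank F ↥(P ⊓ Y₀)
      omega
    obtain ⟨u, hu, hu0, huu⟩ := exists_isotropic_sym h2 Y (by omega) (B.compl₂ T) hswap
    rw [LinearMap.compl₂_apply] at huu
    set U := Submodule.span F ({u, T u} : Set V)
    have huP : T u ∈ P := orth_invariant hTB hinj hX u hu.1
    have hUti : TI B U := ti_span (by
      rintro a (rfl | rfl) b (rfl | rfl)
      · exact hA _
      · exact huu
      · exact hA.isRefl _ _ huu
      · exact hA _)
    have hUP : U ≤ P := Submodule.span_le.2 (by rintro a (rfl | rfl) <;> first | exact hu.1 | exact huP)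
    have hUi : ∀ v ∈ U, T v ∈ U := fun v hv => by
      obtain ⟨a, b, rfl⟩ := Submodule.mem_span_pair.1 hv
      rw [map_add, map_smul, map_smul, hT, smul_neg]
      exact add_mem (U.smul_mem _ (Submodule.subset_span (Or.inr rfl)))
        (neg_mem (U.smul_mem _ (Submodule.subset_span (Or.inl rfl))))
    have hindep : ∀ a b : F, a • u + b • T u ∈ X → a = 0 ∧ b = 0 := by
      intro a b h
      have h' := hX _ h
      rw [map_add, map_smul, map_smul, hT, smul_neg] at h'
      have hcomb : (a * a + b * b) • u ∈ X := by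
        have := sub_mem (X.smul_mem a h) (X.smul_mem b h')
        convert this using 1
        module
      by_contra hne
      have hab : a * a + b * b = 0 := by
        by_contra hab
        have := (X.smul_mem_iff hab).1 hcomb
        exact hu0 (Submodule.disjoint_def.1 hY₀.disjoint u this hu.2)
      by_cases hb : b = 0
      · subst hb
        exact hne ⟨mul_self_eq_zero.1 (by simpa using hab), rfl⟩
      · exact hsq ⟨a / b, by field_simp; linear_combination -hab⟩
    have hUd : finrank F U = 2 := by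
      have hli : LinearIndependent F ![u, T u] := LinearIndependent.pair_iff.2 fun a b h => hindep a b (by rw [h]; exact zero_mem _)
      rw [show U = Submodule.span F (Set.range ![u, T u]) by simp [U, Set.pair_comm],
        finrank_span_eq_card hli, Fintype.card_fin]
    refine ⟨X ⊔ U, fun v hv => ?_, ti_sup hA hXti hUti hUP, ?_⟩
    · obtain ⟨a, ha, b, hb, rfl⟩ := Submodule.mem_sup.1 hv
      rw [map_add]
      exact add_mem (Submodule.mem_sup_left (hX a ha)) (Submodule.mem_sup_right (hUi b hb))
    · rw [SubspaceDerange.finrank_sup_of_disjoint (Submodule.eq_bot_iff _ |>.2 fun v hv => by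
        obtain ⟨a, b, rfl⟩ := Submodule.mem_span_pair.1 hv.2
        obtain ⟨rfl, rfl⟩ := hindep a b hv.1
        simp), hXd, hUd]
      ring

/-- A prime dividing the number of totally isotropic subspaces. -/
theorem exists_dvd {d q m r : ℕ} (hq : Fintype.card F = q) (hr : r.Prime) (hmd : m ≤ d)
    (h : r ∣ Nat.card {W : Submodule F (Fin d ⊕ Fin d → F) // finrank F ↥W = m ∧
      (∀ u ∈ W, ∀ v ∈ W, Cfsg.sympForm d F u v = 0)}) :
    ∃ l, d < l + m ∧ l ≤ d ∧ r ∣ q ^ (2 * l) - 1 := by
  classical
  set Vd := Fin d ⊕ Fin d → F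
  have : Finite Vd := inferInstance
  set X := {W : Submodule F Vd // finrank F ↥W = m ∧ (∀ u ∈ W, ∀ v ∈ W, Cfsg.sympForm d F u v = 0)}
  have hV : finrank F Vd = 2 * d := by
    rw [Module.finrank_pi, Fintype.card_sum, Fintype.card_fin]; omega
  let sp : Forms.IsoFrame (Forms.sympB d F) (fun _ => (0 : F)) m → X := fun w =>
    ⟨Submodule.span F (Set.range w.1), by rw [finrank_span_eq_card w.2.1, Fintype.card_fin],
      fun u hu v hv => by
        rw [← Forms.sympB_apply]
        exact ti_span (by rintro _ ⟨a, rfl⟩ _ ⟨b, rfl⟩; exact w.2.2.1 a b) u hu v hv⟩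
  have hfib : ∀ W : X, Nat.card {w // sp w = W} = ∏ i : Fin m, (q ^ m - q ^ (i : ℕ)) := by
    intro W
    have hcard := card_linearIndependent (K := F) (V := W.1) (k := m) (by rw [W.2.1])
    rw [hq, W.2.1] at hcard
    rw [← hcard]
    refine Nat.card_congr (Equiv.ofBijective (fun w => ⟨fun a => ⟨w.1.1 a, by
      have := congrArg Subtype.val w.2
      exact this ▸ Submodule.subset_span ⟨a, rfl⟩⟩, LinearIndependent.of_comp W.1.subtype w.1.2.1⟩) ⟨?_, ?_⟩)
    · intro w w' h
      refine Subtype.ext (Subtype.ext (funext fun a => ?_))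
      exact congrArg Subtype.val (congrFun (congrArg Subtype.val h) a)
    · intro s
      have hli := s.2.map' W.1.subtype W.1.ker_subtype
      refine ⟨⟨⟨fun a => (s.1 a : Vd), hli, fun a b => by
        rw [Forms.sympB_apply]; exact W.2.2 _ (s.1 a).2 _ (s.1 b).2, fun _ => rfl⟩, Subtype.ext ?_⟩, rfl⟩
      refine Submodule.eq_of_le_of_finrank_eq (Submodule.span_le.2 (by rintro _ ⟨a, rfl⟩; exact (s.1 a).2)) ?_
      exact ((finrank_span_eq_card hli).trans (Fintype.card_fin m)).trans W.2.1.symm
  have hc := Forms.card_isoFrame_symp hq (Forms.isForm_symp (m := d) (F := F)) Forms.sympB_isAlt (m := d) hV m hmd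
  rw [Nat.card_congr (Equiv.sigmaFiberEquiv sp).symm, Nat.card_sigma] at hc
  simp only [hfib, Finset.sum_const, smul_eq_mul, Finset.card_univ, ← Nat.card_eq_fintype_card] at hc
  have hq1 : 1 < q := hq ▸ Fintype.one_lt_card
  have hP : ∏ i : Fin m, (q ^ m - q ^ (i : ℕ)) = q ^ (m * (m - 1) / 2) * ∏ i ∈ Finset.range m, (q ^ (i + 1) - 1) := by
    rw [Fin.prod_univ_eq_prod_range (fun i => q ^ m - q ^ i) m, ← Finset.sum_range_id, ← Finset.prod_pow_eq_pow_sum,
      ← Finset.prod_range_reflect (fun i => q ^ (i + 1) - 1) m, ← Finset.prod_mul_distrib]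
    refine Finset.prod_congr rfl fun i hi => ?_
    rw [Finset.mem_range] at hi
    rw [Nat.mul_sub, mul_one, ← pow_add, show i + (m - 1 - i + 1) = m by omega]
  rw [hP, ← Finset.prod_range_mul_prod_Ico _ (Nat.sub_le d m)] at hc
  set A := ∏ i ∈ Finset.range (d - m), (q ^ (2 * (i + 1)) - 1)
  have hA : 0 < A := Finset.prod_pos fun i _ => Nat.sub_pos_of_lt (Nat.one_lt_pow (by omega) hq1)
  have hpow : 0 < q ^ (m * (m - 1) / 2) := Nat.pow_pos (by omega)
  have key : Nat.card X * ∏ i ∈ Finset.range m, (q ^ (i + 1) - 1) =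
      ∏ i ∈ Finset.Ico (d - m) d, (q ^ (2 * (i + 1)) - 1) := by
    refine mul_right_cancel₀ (Nat.mul_pos hpow hA).ne' ?_
    linear_combination hc
  obtain ⟨i, hi, hi'⟩ := (hr.prime.dvd_finsetProd_iff _).1 (key ▸ h.mul_right _)
  rw [Finset.mem_Ico] at hi
  exact ⟨i + 1, by omega, by omega, hi'⟩

end Cfsg.Agent.GeomClasses.SympIsotropic
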