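import Cfsg.Agent.GeomClasses.SympIsotropicOdd

/-!
# Isometries with pairwise different atoms
-/

set_option autoImplicit false
set_option linter.unusedSectionVars false

namespace Cfsg.Agent.GeomClasses.SympIsotropicDerange

open Module Polynomial SympStructure SympIsotropic SympIsotropicOdd Cfsg.Agent.Linear.SpPrimeClasses

variable {F : Type*} [Field F] [Fintype F] {p q r i : ℕ} [Fact p.Prime] [CharP F p] [Fact r.Prime]

/-- The standard model: no fixed vectors, no invariant isotropic subspaces. -/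
theorem exists_model (hq : Fintype.card F = q) (hrp : r ≠ p) (hrq : ¬ r ∣ q) (hi : i = orderOf (q : ZMod r))
    (hie : Even i) {u m : ℕ} (hu : u * i ≤ r - 1) (hm : u * i = m + m) :
    ∃ G : Module.End F (Fin m ⊕ Fin m → F), G ^ r = 1 ∧
      (∀ x y, Forms.sympB m F (G x) (G y) = Forms.sympB m F x y) ∧ (∀ x, G x = x → x = 0) ∧
      ∀ W : Submodule F (Fin m ⊕ Fin m → F), (∀ w ∈ W, G w ∈ W) → TI (Forms.sympB m F) W → W = ⊥ := by
  classical
  have hr : r.Prime := Fact.out
  have hp : p.Prime := Fact.out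
  have hrF : (r : F) ≠ 0 := fun h =>
    hrp (((Nat.prime_dvd_prime_iff_eq hp hr).1 ((CharP.cast_eq_zero_iff F p r).1 h)).symm)
  obtain ⟨hi0, -⟩ := SubspaceDerange.dvd_pow_sub_one hrq hi
  obtain ⟨S, hSc, hS⟩ := exists_factors (F := F) hq hrp hi hu
  have hXr : ∀ f ∈ S, f ∣ X ^ r - 1 := fun f hf =>
    (hS f hf).2.2.1.trans ⟨_, (cyclotomic_prime_mul_X_sub_one F r).symm⟩
  have hev1 : ∀ f ∈ S, f.eval 1 ≠ 0 := fun f hf h => by
    obtain ⟨R, hR⟩ := (hS f hf).2.2.1
    have := congrArg (fun P => P.eval (1 : F)) hR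
    simp [h, eval_one_cyclotomic_prime, hrF] at this
  have hev0 : ∀ f ∈ S, f.coeff 0 ≠ 0 := fun f hf h => by
    obtain ⟨R, hR⟩ := hXr f hf
    have := congrArg (fun P => P.eval 0) hR
    rw [coeff_zero_eq_eval_zero] at h
    simp [h, hr.ne_zero] at this
  set P : F[X] := ∏ f ∈ S, f with hP
  have hPm : P.Monic := monic_prod_of_monic _ _ fun f hf => (hS f hf).2.1
  have hPd : P.natDegree = m + m := by
    rw [hP, natDegree_prod_of_monic _ _ (fun f hf => (hS f hf).2.1), Finset.sum_congr rfl (fun f hf => (hS f hf).2.2.2),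
      Finset.sum_const, hSc, smul_eq_mul, hm]
  have hcop : ∀ f ∈ S, ∀ g ∈ S, f ≠ g → IsCoprime f g := fun f hf g hg hne =>
    (hS f hf).1.coprime_iff_not_dvd.2 fun hd => hne
      (eq_of_monic_of_associated (hS f hf).2.1 (hS g hg).2.1 ((hS f hf).1.associated_of_dvd (hS g hg).1 hd))
  have hPdvd : P ∣ X ^ r - 1 := Finset.prod_dvd_of_coprime (fun f hf g hg hne => hcop f hf g hg hne) hXr
  have hhat : hat P = P := by
    have e : P = S.val.prod := by rw [hP, Finset.prod_eq_multiset_prod, Multiset.map_id']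
    rw [e, hat_prod, Multiset.map_congr rfl (fun f hf => hat_eq hq hrq hi hie (hS f hf).1 (hS f hf).2.1 (hXr f hf)),
      Multiset.map_id']
  have hrev : P.reverse = P := reverse_eq_of_hat_eq hhat
    (by rw [hP, eval_prod]; exact Finset.prod_ne_zero_iff.2 hev1)
    (by rw [coeff_zero_eq_eval_zero, hP, eval_prod]
        exact Finset.prod_ne_zero_iff.2 fun f hf => (coeff_zero_eq_eval_zero f) ▸ hev0 f hf)
  obtain ⟨g, hgr, hgP⟩ := exists_elem hrF P hPm hPd hrev 1 (by rwa [pow_one])
  set G : Module.End F (Fin m ⊕ Fin m → F) := Matrix.toLin' (g : Matrix (Fin m ⊕ Fin m) (Fin m ⊕ Fin m) F) with hG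
  have hGr : G ^ r = 1 := by
    rw [hG, ← Matrix.toLin'_pow, ← SubmonoidClass.coe_pow, hgr]; exact Matrix.toLin'_one
  have hGB : ∀ x y, Forms.sympB m F (G x) (G y) = Forms.sympB m F x y := fun x y => by
    simp only [hG, Matrix.toLin'_apply, Forms.sympB_apply]; exact Forms.mem_symplectic_iff.1 g.2 x y
  have hGP : G.charpoly = P := by rw [hG, Matrix.charpoly_toLin', hgP]
  have hPG : aeval G P = 0 := by rw [← hGP]; exact LinearMap.aeval_self_charpoly G
  have hfix : ∀ x, G x = x → x = 0 := by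
    intro x hx
    have hQ : ∀ Q : F[X], aeval G Q x = Q.eval 1 • x := by
      intro Q
      induction Q using Polynomial.induction_on with
      | C a => simp [Module.algebraMap_end_apply]
      | add A B hA hB => simp [hA, hB, add_smul]
      | monomial k a ih =>
        rw [pow_succ, ← mul_assoc, map_mul, aeval_X, Module.End.mul_apply, hx, ih]
        simp
    have h := hQ P
    rw [hPG, LinearMap.zero_apply] at h
    exact (smul_eq_zero.1 h.symm).resolve_left (by rw [hP, eval_prod]; exact Finset.prod_ne_zero_iff.2 hev1)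
  have hker0 : LinearMap.ker (G - 1) = ⊥ := eq_bot_iff.2 fun x hx => (Submodule.mem_bot F).2 (hfix x (sub_eq_zero.1 hx))
  have hline : ∀ f ∈ S, ∀ v, v ≠ 0 → aeval G f v = 0 → ∀ U : Submodule F (Fin m ⊕ Fin m → F), (∀ x ∈ U, G x ∈ U) →
      v ∈ U → ∃ L ≤ U ⊓ LinearMap.ker (aeval G f), finrank F L = i := by
    intro f hf v hv hv0 U hU hvU
    haveI := Fact.mk (hS f hf).1
    obtain ⟨φ, hφi, hφ1, hφ⟩ := Forms.exists_cyclic G (hS f hf).1 (hS f hf).2.1 hv hv0
    refine ⟨LinearMap.range φ, ?_, ?_⟩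
    · rintro _ ⟨x, rfl⟩
      obtain ⟨Q, rfl⟩ := AdjoinRoot.mk_surjective x
      rw [← mul_one (AdjoinRoot.mk f Q), hφ, hφ1]
      refine ⟨SubspaceDerange.aeval_mem hU Q hvU, ?_⟩
      rw [SetLike.mem_coe, LinearMap.mem_ker, ← Module.End.mul_apply, ← map_mul, mul_comm, map_mul, Module.End.mul_apply,
        hv0, map_zero]
    · rw [LinearMap.finrank_range_of_inj hφi, (AdjoinRoot.powerBasis (hS f hf).1.ne_zero).finrank,
        AdjoinRoot.powerBasis_dim, (hS f hf).2.2.2]
  have hge : ∀ f ∈ S, i ≤ finrank F (LinearMap.ker (aeval G f)) := fun f hf => by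
    obtain ⟨R, hR⟩ : f ∣ P := Finset.dvd_prod_of_mem _ hf
    let L : (Fin (m + m) → F) ≃ₗ[F] (Fin m ⊕ Fin m → F) := LinearEquiv.funCongrLeft F F finSumFinEquiv
    obtain ⟨v, hv, hv0⟩ := Forms.exists_ker_of_dvd_charpoly (L.symm.conjAlgEquiv F G) (hS f hf).1 ⟨R, by
      rw [LinearEquiv.conjAlgEquiv_apply, ← hR, ← hGP]
      exact LinearEquiv.charpoly_conj L.symm G⟩
    obtain ⟨U, hU, hUd⟩ := hline f hf (L v) (fun e => hv (L.map_eq_zero_iff.1 e)) (by
      rw [← L.symm.map_eq_zero_iff, ← hv0, show aeval (L.symm.conjAlgEquiv F G) f = L.symm.conjAlgEquiv F (aeval G f) from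
        Polynomial.aeval_algHom_apply (L.symm.conjAlgEquiv F).toAlgHom G f]
      simp [LinearEquiv.conjAlgEquiv_apply]) ⊤ (fun _ _ => trivial) trivial
    exact hUd ▸ Submodule.finrank_mono (hU.trans inf_le_right)
  have hsub : ∀ S' ⊆ S, S'.card * i ≤ finrank F (LinearMap.ker (aeval G (∏ f ∈ S', f))) := by
    intro S'
    induction S' using Finset.induction_on with
    | empty => simp
    | insert f T hfT ih =>
      intro hsub'
      rw [Finset.prod_insert hfT]
      have hc : IsCoprime f (∏ g ∈ T, g) := IsCoprime.prod_right fun g hg =>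
        hcop f (hsub' (Finset.mem_insert_self f T)) g (hsub' (Finset.mem_insert_of_mem hg)) (fun e => hfT (e ▸ hg))
      rw [← Polynomial.sup_ker_aeval_eq_ker_aeval_mul_of_coprime G hc, Finset.card_insert_of_notMem hfT,
        SubspaceDerange.finrank_sup_of_disjoint (Polynomial.disjoint_ker_aeval_of_isCoprime G hc).eq_bot,
        Nat.succ_mul]
      have h1 := ih fun g hg => hsub' (Finset.mem_insert_of_mem hg)
      have h2 := hge f (hsub' (Finset.mem_insert_self f T))
      omega
  have hle : ∀ f ∈ S, finrank F (LinearMap.ker (aeval G f)) ≤ i := fun f hf => by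
    have h := hsub _ (Finset.erase_subset f S)
    have hc : IsCoprime f (∏ g ∈ S.erase f, g) := IsCoprime.prod_right fun g hg =>
      hcop f hf g (Finset.mem_of_mem_erase hg) (Finset.ne_of_mem_erase hg).symm
    have hd := SubspaceDerange.finrank_sup_of_disjoint (Polynomial.disjoint_ker_aeval_of_isCoprime G hc).eq_bot
    rw [Polynomial.sup_ker_aeval_eq_ker_aeval_mul_of_coprime G hc, Finset.mul_prod_erase S (fun g => g) hf, ← hP, hPG,
      LinearMap.ker_zero, finrank_top, Module.finrank_pi, Fintype.card_sum, Fintype.card_fin] at hd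
    rw [Finset.card_erase_of_mem hf, hSc] at h
    obtain ⟨u', rfl⟩ : ∃ u', u = u' + 1 := ⟨u - 1, by have := Finset.card_pos.2 ⟨f, hf⟩; omega⟩
    rw [Nat.add_sub_cancel] at h
    rw [show (u' + 1) * i = u' * i + i from Nat.succ_mul u' i] at hm
    omega
  refine ⟨G, hGr, hGB, hfix, fun W hW hWti => ?_⟩
  by_contra hne
  obtain ⟨f, hf, w, hw, hw0, hwf⟩ : ∃ f ∈ S, ∃ w ∈ W, w ≠ 0 ∧ aeval G f w = 0 := by
    obtain ⟨w, hw, hw0⟩ := (Submodule.ne_bot_iff W).1 hne
    have key : ∀ S' : Finset F[X], ∀ w ∈ W, w ≠ 0 → aeval G (∏ f ∈ S', f) w = 0 →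
        ∃ f ∈ S', ∃ w ∈ W, w ≠ 0 ∧ aeval G f w = 0 := by
      intro S'
      induction S' using Finset.induction_on with
      | empty => intro w hw hw0 h; exact absurd (by simpa using h) hw0
      | insert f T hfT ih =>
        intro w hw hw0 h
        rw [Finset.prod_insert hfT, map_mul, Module.End.mul_apply] at h
        by_cases hT0 : aeval G (∏ g ∈ T, g) w = 0
        · obtain ⟨g, hg, hrest⟩ := ih w hw hw0 hT0
          exact ⟨g, Finset.mem_insert_of_mem hg, hrest⟩
        · exact ⟨f, Finset.mem_insert_self f T, _, SubspaceDerange.aeval_mem hW _ hw, hT0, h⟩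
    exact key S w hw hw0 (by rw [← hP, hPG]; rfl)
  obtain ⟨L, hLle, hLd⟩ := hline f hf w hw0 hwf W hW hw
  have hLker : L = LinearMap.ker (aeval G f) := Submodule.eq_of_le_of_finrank_le (hLle.trans inf_le_right) (hLd ▸ hle f hf)
  have hkerW : LinearMap.ker (aeval G f) ≤ W := hLker ▸ hLle.trans inf_le_left
  have hc : IsCoprime f (∏ g ∈ S.erase f, g) := IsCoprime.prod_right fun g hg =>
    hcop f hf g (Finset.mem_of_mem_erase hg) (Finset.ne_of_mem_erase hg).symm
  obtain ⟨a, b, hab⟩ := hc
  obtain ⟨h, k, hk⟩ := exists_half hrq hi hie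
  let e : (Fin m ⊕ Fin m → F) ≃ₗ[F] (Fin m ⊕ Fin m → F) :=
    LinearEquiv.ofLinearMap G (G ^ (q ^ h))
      (show G * G ^ q ^ h = 1 by rw [← pow_succ', hk, pow_mul, hGr, one_pow])
      (show G ^ q ^ h * G = 1 by rw [← pow_succ, hk, pow_mul, hGr, one_pow])
  refine hw0 (Forms.sympB_nondegenerate.1 w fun v => ?_)
  have hv : v = aeval G f (aeval G a v) + aeval G (∏ g ∈ S.erase f, g) (aeval G b v) := by
    rw [← Module.End.mul_apply, ← Module.End.mul_apply, ← map_mul, ← map_mul, ← LinearMap.add_apply, ← map_add,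
      mul_comm f, mul_comm (∏ g ∈ S.erase f, g), hab, map_one, Module.End.one_apply]
  have hmem : aeval G (∏ g ∈ S.erase f, g) (aeval G b v) ∈ W := hkerW (by
    rw [LinearMap.mem_ker, ← Module.End.mul_apply, ← map_mul, Finset.mul_prod_erase S (fun g => g) hf, ← hP, hPG]; rfl)
  rw [hv, map_add, hWti w hw _ hmem, add_zero, ← LinearMap.IsAlt.neg (Forms.sympB_isAlt (m := m) (F := F)),
    show Forms.sympB m F (aeval G f (aeval G a v)) w =
      Forms.sympB m F (aeval G a v) (aeval (e.symm : Module.End F (Fin m ⊕ Fin m → F)) f w) from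
        Forms.aeval_adjoint _ (a := e) hGB f _ _,
    show aeval (e.symm : Module.End F (Fin m ⊕ Fin m → F)) f w = aeval (G ^ q ^ h) f w from rfl,
    aeval_pow_card hq f G h, ← Nat.sub_add_cancel (Nat.one_le_pow h q (hq ▸ Fintype.card_pos)), pow_succ,
    Module.End.mul_apply, hwf, map_zero, map_zero, neg_zero]

/-- An isometry of order `r` with isotropic invariant subspaces only among its fixed vectors. -/
theorem exists_derangement {d : ℕ} (hq : Fintype.card F = q) (hrp : r ≠ p) (hrq : ¬ r ∣ q)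
    (hi : i = orderOf (q : ZMod r)) (hie : Even i) {u : ℕ} (hu0 : 1 ≤ u) (hu : u * i ≤ r - 1) (hud : u * i ≤ 2 * d) :
    ∃ T : Module.End F (Fin d ⊕ Fin d → F), T ^ r = 1 ∧
      (∀ x y, Forms.sympB d F (T x) (T y) = Forms.sympB d F x y) ∧
      finrank F (LinearMap.ker (T - 1)) = 2 * d - u * i ∧
      ∀ W : Submodule F (Fin d ⊕ Fin d → F), (∀ w ∈ W, T w ∈ W) → TI (Forms.sympB d F) W →
        2 * finrank F W + u * i ≤ 2 * d := by
  classical
  obtain ⟨m, hm⟩ : Even (u * i) := hie.mul_left u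
  obtain ⟨G, hGr, hGB, hfix, hnoti⟩ := exists_model hq hrp hrq hi hie hu hm
  set B := Forms.sympB d F
  have hA : B.IsAlt := Forms.sympB_isAlt
  have hB : B.Nondegenerate := Forms.sympB_nondegenerate
  have hV : finrank F (Fin d ⊕ Fin d → F) = 2 * d := by
    rw [Module.finrank_pi, Fintype.card_sum, Fintype.card_fin]; omega
  -- coordinates
  let ι : Fin m → Fin d := fun a => ⟨a, by omega⟩
  let π : (Fin d ⊕ Fin d → F) →ₗ[F] (Fin m ⊕ Fin m → F) := LinearMap.funLeft F F (Sum.map ι ι)
  let ext : (Fin m → F) → Fin d → F := fun f a => if h : (a : ℕ) < m then f ⟨a, h⟩ else 0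
  let ε : (Fin m ⊕ Fin m → F) →ₗ[F] (Fin d ⊕ Fin d → F) :=
    { toFun := fun x => Sum.elim (ext (x ∘ Sum.inl)) (ext (x ∘ Sum.inr))
      map_add' := fun x y => funext fun a => by cases a <;> simp [ext] <;> split_ifs <;> simp
      map_smul' := fun c x => funext fun a => by cases a <;> simp [ext] }
  have hπε : ∀ x, π (ε x) = x := fun x => funext fun a => by cases a <;> simp [π, ε, ext, ι]
  have hBε : ∀ x v, B (ε x) v = Forms.sympB m F x (π v) := fun x v => by
    simp only [B, Forms.sympB_apply, Forms.sympForm_eq]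
    refine (Finset.sum_of_injOn ι (fun a _ b _ h => Fin.ext (by simpa [ι] using congrArg Fin.val h)) (by simp) ?_ ?_).symm
    · intro b _ hb
      have : ¬ (b : ℕ) < m := fun hlt => hb ⟨⟨b, hlt⟩, by simp, rfl⟩
      simp [ε, ext, this]
    · intro a _
      simp [ε, ext, π, ι]
  have hεε : ∀ x y, B (ε x) (ε y) = Forms.sympB m F x y := fun x y => by rw [hBε, hπε]
  let T : Module.End F (Fin d ⊕ Fin d → F) := 1 + ε ∘ₗ (G - 1) ∘ₗ π
  have hT : ∀ x, T x = x + ε (G (π x) - π x) := fun x => rfl
  have hπT : ∀ x, π (T x) = G (π x) := fun x => by rw [hT, map_add, hπε]; abel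
  have hpow : ∀ l : ℕ, ∀ x, (T ^ l) x = x + ε ((G ^ l) (π x) - π x) := by
    intro l
    induction l with
    | zero => intro x; simp
    | succ l ih =>
      intro x
      rw [pow_succ', Module.End.mul_apply, ih, hT, map_add, hπε, add_assoc, ← map_add, pow_succ', Module.End.mul_apply]
      congr 2
      simp only [map_add, map_sub]
      abel
  refine ⟨T, LinearMap.ext fun x => by rw [hpow, hGr]; simp, fun x y => ?_, ?_, fun W hW hWti => ?_⟩
  · have hy : ∀ v z, B v (ε z) = Forms.sympB m F (π v) z := fun v z => by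
      have hAm := Forms.sympB_isAlt (m := m) (F := F)
      rw [← LinearMap.IsAlt.neg hA, hBε, LinearMap.IsAlt.neg hAm]
    rw [hT, hT]
    simp only [map_add, LinearMap.add_apply, hBε, hy, hπε, map_sub, LinearMap.sub_apply]
    linear_combination hGB (π x) (π y)
  · have hker : LinearMap.ker (T - 1) = LinearMap.ker π := Submodule.ext fun x => by
      simp only [LinearMap.mem_ker, LinearMap.sub_apply, Module.End.one_apply, hT, add_sub_cancel_left]
      refine ⟨fun h => hfix _ (sub_eq_zero.1 ?_), fun h => by simp [h]⟩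
      rw [← hπε (G (π x) - π x), h, map_zero]
    have h := LinearMap.finrank_range_add_finrank_ker π
    rw [LinearMap.range_eq_top.2 (fun x => ⟨ε x, hπε x⟩), finrank_top, Module.finrank_pi, Fintype.card_sum,
      Fintype.card_fin, hV] at h
    rw [hker]
    omega
  · have hW' : W.comap ε = ⊥ := by
      refine hnoti _ (fun x hx => ?_) fun x hx y hy => by rw [← hεε]; exact hWti _ hx _ hy
      have h := hW _ hx
      rwa [hT, hπε, ← map_add, add_sub_cancel] at h
    have hWker : W ≤ LinearMap.ker π := fun w hw => by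
      have h : ε (G (π w) - π w) ∈ W := by
        have := sub_mem (hW w hw) hw
        rwa [hT, add_sub_cancel_left] at this
      have h' : G (π w) - π w ∈ W.comap ε := h
      rw [hW', Submodule.mem_bot] at h'
      exact hfix _ (sub_eq_zero.1 h')
    have hKn : Nd B (LinearMap.ker π) := by
      intro x hx h
      refine hB.1 x fun v => ?_
      have hv : v - ε (π v) ∈ LinearMap.ker π := by rw [LinearMap.mem_ker, map_sub, hπε, sub_self]
      have h1 := h _ hv
      rw [map_sub, show B x (ε (π v)) = 0 from hA.isRefl _ _ (by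
        rw [hBε, show π x = 0 from hx, map_zero]), sub_zero] at h1
      exact h1
    have h1 := ti_le hA hKn hWker hWti
    have h2 := LinearMap.finrank_range_add_finrank_ker π
    rw [LinearMap.range_eq_top.2 (fun x => ⟨ε x, hπε x⟩), finrank_top, Module.finrank_pi, Fintype.card_sum,
      Fintype.card_fin, hV] at h2
    omega

end Cfsg.Agent.GeomClasses.SympIsotropicDerange
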