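import Cfsg.Agent.GeomClasses.SympUnipotent
import Cfsg.Agent.GeomClasses.SympNondeg

/-!
# Isometries of square or unipotent type and nondegenerate subspaces
-/

set_option autoImplicit false
set_option linter.unusedSectionVars false

namespace Cfsg.Agent.GeomClasses.SympNondegModels

open Module SympStructure SympUnipotent

variable {F V : Type*} [Field F] [Fintype F] [AddCommGroup V] [Module F V] [FiniteDimensional F V]
  {B : LinearMap.BilinForm F V} {T : Module.End F V}

theorem sum_parts (P : Multiset (ℕ × ℕ)) : (parts P).sum = (P.map fun x => x.2 * x.1).sum := by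
  induction P using Multiset.induction_on with
  | empty => simp [parts]
  | cons x P ih =>
    rw [parts_cons, Multiset.sum_add, Multiset.sum_replicate, Multiset.map_cons, Multiset.sum_cons, ih, smul_eq_mul]

theorem prof_parts (P : Multiset (ℕ × ℕ)) (k : ℕ) : prof (parts P) k = (P.map fun x => x.2 * (x.1 - k)).sum := by
  induction P using Multiset.induction_on with
  | empty => simp [parts, prof]
  | cons x P ih => rw [parts_cons, prof_add, prof_replicate, Multiset.map_cons, Multiset.sum_cons, ih]

theorem parts_pos {p : ℕ} {P : Multiset (ℕ × ℕ)} (h : ∀ x ∈ P, 0 < x.1 ∧ x.1 ≤ p) : ∀ a ∈ parts P, 0 < a ∧ a ≤ p :=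
  fun a ha => by
    obtain ⟨x, hx, rfl, -⟩ := mem_parts ha
    exact h x hx

/-- Rank profile of a splitting. -/
theorem rank_split (hA : B.IsAlt) (hinj : Function.Injective T) (hTB : ∀ x y, B (T x) (T y) = B x y)
    {W : Submodule F V} (hW : ∀ w ∈ W, T w ∈ W) (hWn : Nd B W) (k : ℕ) :
    finrank F (LinearMap.range ((T - 1) ^ k)) =
      finrank F (W.map ((T - 1) ^ k)) + finrank F ((B.orthogonal W).map ((T - 1) ^ k)) := by
  have hst : ∀ X : Submodule F V, (∀ v ∈ X, T v ∈ X) → X.map ((T - 1) ^ k) ≤ X := fun X hX =>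
    JordanType.map_pow_le (Submodule.map_le_iff_le_comap.2 fun x hx => by
      show (T - 1) x ∈ X
      rw [LinearMap.sub_apply, Module.End.one_apply]; exact sub_mem (hX x hx) hx) k
  have hc := nd_isCompl hA hWn
  rw [LinearMap.range_eq_map, ← hc.sup_eq_top, Submodule.map_sup, SubspaceDerange.finrank_sup_of_disjoint
    (le_bot_iff.1 ((inf_le_inf (hst W hW) (hst _ (orth_invariant hTB hinj hW))).trans hc.inf_eq_bot.le))]

/-- Invariant nondegenerate subspaces of every even dimension under an isometry squaring to a sign. -/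
theorem exists_of_sq (hA : B.IsAlt) (hTB : ∀ x y, B (T x) (T y) = B x y) (h2 : (2 : F) ≠ 0) {z : F} (hz : z = 1 ∨ z = -1)
    (hT : ∀ v, T (T v) = z • v) (hB : B.Nondegenerate) (e : ℕ) (he : 2 * e ≤ finrank F V) :
    ∃ W : Submodule F V, (∀ w ∈ W, T w ∈ W) ∧ Nd B W ∧ finrank F W = 2 * e := by
  classical
  have hz0 : z ≠ 0 := by rcases hz with rfl | rfl <;> simp
  have hinj : Function.Injective T := fun a b h => smul_right_injective V hz0 (by
    simpa only [← hT] using congrArg T h)
  rcases hz with rfl | rfl
  · simp only [one_smul] at hT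
    have hKn : Nd B (LinearMap.ker (T - 1)) := by
      have := nd_fixed (r := 2) hA hTB (T := T) (LinearMap.ext fun v => by rw [pow_two, Module.End.mul_apply, hT, Module.End.one_apply])
        (by exact_mod_cast h2) (W := ⊤) (fun _ _ => trivial) (nd_top hB)
      rwa [top_inf_eq] at this
    set K := LinearMap.ker (T - 1)
    have hKi : ∀ v ∈ K, T v ∈ K := fun v hv => by rwa [show T v = v from sub_eq_zero.1 hv]
    have hMn : Nd B (B.orthogonal K) := by
      have := (nd_split hA hKn (nd_top hB) le_top).1
      rwa [top_inf_eq] at this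
    have hM : ∀ v ∈ B.orthogonal K, T v = -v := fun v hv => eq_neg_iff_add_eq_zero.2 <| by
      have h1 : T v + v ∈ K := by
        show (T - 1) _ = 0
        rw [LinearMap.sub_apply, map_add, hT, Module.End.one_apply]; abel
      exact Submodule.disjoint_def.1 (nd_disjoint hA hKn) _ h1 (add_mem (orth_invariant hTB hinj hKi v hv) hv)
    have hd := Submodule.finrank_add_eq_of_isCompl (nd_isCompl hA hKn)
    obtain ⟨a, ha⟩ := nd_even hA hKn
    obtain ⟨U₁, hU₁K, hU₁, hd₁⟩ := exists_nd_sub hA hKn (min e a) (by omega)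
    obtain ⟨U₂, hU₂M, hU₂, hd₂⟩ := exists_nd_sub hA hMn (e - min e a) (by omega)
    refine ⟨U₁ ⊔ U₂, fun w hw => ?_, nd_sup hA hU₁ hU₂ (hU₂M.trans (B.orthogonal_le hU₁K)), ?_⟩
    · obtain ⟨x, hx, y, hy, rfl⟩ := Submodule.mem_sup.1 hw
      rw [map_add, show T x = x from sub_eq_zero.1 (hU₁K hx), hM y (hU₂M hy)]
      exact add_mem (Submodule.mem_sup_left hx) (Submodule.mem_sup_right (neg_mem hy))
    · rw [SubspaceDerange.finrank_sup_of_disjoint (le_bot_iff.1 ((inf_le_inf hU₁K hU₂M).trans
        (nd_isCompl hA hKn).inf_eq_bot.le)), hd₁, hd₂]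
      omega
  · induction e with
    | zero => exact ⟨⊥, fun w hw => by rw [Submodule.mem_bot] at hw; simp [hw],
        fun w hw _ => (Submodule.mem_bot F).1 hw, by simp⟩
    | succ e ih =>
      obtain ⟨W, hW, hWn, hWd⟩ := ih (by omega)
      obtain ⟨hYn, hYd, -⟩ := nd_split hA hWn (nd_top hB) le_top
      set Y := ⊤ ⊓ B.orthogonal W
      rw [finrank_top] at hYd
      have hY : ∀ v ∈ Y, T v ∈ Y := fun v hv => ⟨trivial, orth_invariant hTB hinj hW v hv.2⟩
      have hswap : ∀ u v, B u (T v) = B v (T u) := fun u v => by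
        have := hTB u (T v)
        rw [hT, neg_one_smul, map_neg] at this
        rw [← this, LinearMap.IsAlt.neg hA]
      obtain ⟨u, hu, huu⟩ : ∃ u ∈ Y, B u (T u) ≠ 0 := by
        by_contra hc
        push_neg at hc
        obtain ⟨u, hu, hu0⟩ : ∃ u ∈ Y, u ≠ 0 := (Submodule.ne_bot_iff _).1 fun h => by
          rw [h, finrank_bot] at hYd; omega
        refine hu0 (hinj ?_)
        rw [map_zero]
        refine hYn _ (hY u hu) fun v hv => ?_
        have h := hc (u + v) (add_mem hu hv)
        simp only [map_add, LinearMap.add_apply, hc u hu, hc v hv, zero_add, add_zero] at h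
        rw [hswap u v] at h
        have h' : (2 : F) * B v (T u) = 0 := by linear_combination h
        exact hA.isRefl _ _ ((mul_eq_zero.1 h').resolve_left h2)
      set P := Submodule.span F (Set.range ![u, T u])
      have hP : ∀ w ∈ P, ∃ a b : F, a • u + b • T u = w := fun w hw => by
        obtain ⟨c, rfl⟩ := (Submodule.mem_span_range_iff_exists_fun F).1 hw
        exact ⟨c 0, c 1, by simp⟩
      have hPmem : u ∈ P ∧ T u ∈ P := ⟨Submodule.subset_span ⟨0, rfl⟩, Submodule.subset_span ⟨1, rfl⟩⟩
      have hPY : P ≤ Y := Submodule.span_le.2 (by rintro _ ⟨i, rfl⟩; fin_cases i <;> simp [hu, hY u hu])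
      have hPi : ∀ w ∈ P, T w ∈ P := fun w hw => by
        obtain ⟨a, b, rfl⟩ := hP w hw
        rw [map_add, map_smul, map_smul, hT]
        exact add_mem (P.smul_mem _ hPmem.2) (P.smul_mem _ (P.smul_mem _ hPmem.1))
      have hTuu : B (T u) u = -B u (T u) := (LinearMap.IsAlt.neg hA _ _).symm
      have hPn : Nd B P := by
        intro w hw h
        obtain ⟨a, b, rfl⟩ := hP w hw
        have h1 := h _ hPmem.2
        have h2' := h _ hPmem.1
        simp only [map_add, map_smul, LinearMap.add_apply, LinearMap.smul_apply, hA u, hA (T u), hTuu, smul_eq_mul,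
          mul_zero, add_zero, zero_add] at h1 h2'
        rw [(mul_eq_zero.1 h1).resolve_right huu, (mul_eq_zero.1 h2').resolve_right (neg_ne_zero.2 huu), zero_smul,
          zero_smul, add_zero]
      have hPd : finrank F P = 2 := by
        obtain ⟨k, hk⟩ := nd_even hA hPn
        have h1 : finrank F P ≤ 2 := (finrank_range_le_card _).trans_eq (Fintype.card_fin 2)
        have h0 : finrank F P ≠ 0 := fun h => huu (by
          have := hPmem.1
          rw [Submodule.finrank_eq_zero.1 h, Submodule.mem_bot] at this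
          simp [this])
        omega
      refine ⟨W ⊔ P, fun w hw => ?_, nd_sup hA hWn hPn (hPY.trans inf_le_right), ?_⟩
      · obtain ⟨x, hx, y, hy, rfl⟩ := Submodule.mem_sup.1 hw
        rw [map_add]
        exact add_mem (Submodule.mem_sup_left (hW x hx)) (Submodule.mem_sup_right (hPi y hy))
      · rw [SubspaceDerange.finrank_sup_of_disjoint (le_bot_iff.1 ((inf_le_inf_left _ (hPY.trans inf_le_right)).trans
          (nd_isCompl hA hWn).inf_eq_bot.le)), hWd, hPd]
        ring

/-- An involution in characteristic two with totally singular moved vectors. -/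
theorem exists_involution (d : ℕ) (hd : Even d) (h2 : (2 : F) = 0) :
    ∃ T : Module.End F (Fin d ⊕ Fin d → F), (∀ x y, Forms.sympB d F (T x) (T y) = Forms.sympB d F x y) ∧
      (T - 1) ^ 2 = 0 ∧ finrank F (LinearMap.range (T - 1)) = d ∧ ∀ v, Forms.sympB d F v ((T - 1) v) = 0 := by
  classical
  obtain ⟨k, hk⟩ := hd
  let L : (Fin d → F) →ₗ[F] (Fin d ⊕ Fin d → F) :=
    { toFun := fun f => Sum.elim f 0
      map_add' := fun f g => funext fun x => by cases x <;> simp
      map_smul' := fun c f => funext fun x => by cases x <;> simp }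
  let R : (Fin d ⊕ Fin d → F) →ₗ[F] (Fin d → F) := LinearMap.funLeft F F fun j => Sum.inr j.rev
  set N : Module.End F (Fin d ⊕ Fin d → F) := L ∘ₗ R
  have hNl : ∀ v j, N v (Sum.inl j) = v (Sum.inr j.rev) := fun _ _ => rfl
  have hNr : ∀ v j, N v (Sum.inr j) = 0 := fun _ _ => rfl
  have hN2 : ∀ v, N (N v) = 0 := fun v => funext fun x => by
    rcases x with j | j
    · rw [hNl, hNr]; rfl
    · rw [hNr]; rfl
  have hvN : ∀ v, Forms.sympB d F v (N v) = 0 := fun v => by
    rw [Forms.sympB_apply, Forms.sympForm_eq]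
    simp only [hNl, hNr, mul_zero, sub_zero]
    refine Finset.sum_involution (fun j _ => j.rev) (fun j _ => ?_) (fun j _ _ => ?_)
      (fun j _ => Finset.mem_univ _) (fun j _ => Fin.rev_rev j)
    · rw [Fin.rev_rev]
      linear_combination (v (Sum.inr j) * v (Sum.inr j.rev)) * h2
    · intro h
      have := congrArg Fin.val h
      rw [Fin.val_rev] at this
      omega
  have hNN : ∀ x y, Forms.sympB d F (N x) (N y) = 0 := fun x y => by
    rw [Forms.sympB_apply, Forms.sympForm_eq]
    simp [hNr]
  have hadj : ∀ x y, Forms.sympB d F x (N y) + Forms.sympB d F (N x) y = 0 := fun x y => by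
    have h := hvN (x + y)
    simp only [map_add, LinearMap.add_apply, hvN x, hvN y, zero_add, add_zero] at h
    have hA : (Forms.sympB d F).IsAlt := Forms.sympB_isAlt
    rw [← LinearMap.IsAlt.neg hA y (N x)]
    linear_combination h - Forms.sympB d F y (N x) * h2
  refine ⟨1 + N, fun x y => ?_, ?_, ?_, ?_⟩
  · simp only [LinearMap.add_apply, Module.End.one_apply, map_add]
    linear_combination hadj x y + hNN x y
  · rw [add_sub_cancel_left, pow_two]
    exact LinearMap.ext hN2
  · rw [add_sub_cancel_left, LinearMap.range_comp_of_range_eq_top _ (LinearMap.range_eq_top.2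
      (LinearMap.funLeft_surjective_of_injective F F _ fun a b h => Fin.rev_injective (Sum.inr_injective h))),
      LinearMap.finrank_range_of_inj fun f g h => funext fun j => congrFun h (Sum.inl j), Module.finrank_fin_fun]
  · rw [add_sub_cancel_left]; exact hvN

end Cfsg.Agent.GeomClasses.SympNondegModels
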