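import Cfsg.Agent.GeomClasses.SympQuadExt
import Cfsg.Agent.GeomClasses.SympIsotropicOdd

/-!
# Isometries commuting with no quadratic field structure
-/

set_option autoImplicit false
set_option linter.unusedSectionVars false

namespace Cfsg.Agent.GeomClasses.SympQuadExtDerange

open Module Polynomial SympStructure SympQuadExt Cfsg.Agent.Forms Cfsg.Agent.Linear.SpPrimeClasses

variable {F : Type*} [Field F] [Fintype F] {d q r i : ℕ} [Fact r.Prime]

local notation "Vd" => (Fin d ⊕ Fin d → F)
local notation "BB" => sympB d F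

variable {T : Module.End F (Fin d ⊕ Fin d → F)} {J : Module.End F (Fin d ⊕ Fin d → F)} {δ : F}

/-- A single atom of dimension divisible by four, or made of two odd halves, commutes with no field structure. -/
theorem not_commute (hq : Fintype.card F = q) (hrF : (r : F) ≠ 0) (hr2 : r ≠ 2) (hrq : ¬ r ∣ q)
    (hi : i = orderOf (q : ZMod r)) (hodd : i % 4 ≠ 2) {c : ℕ} (hc : c = if Even i then i else 2 * i) (h2 : (2 : F) ≠ 0)
    (hT : T ^ r = 1) (hTB : ∀ x y, BB (T x) (T y) = BB x y) (hcd : c ≤ 2 * d)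
    (hker : finrank F (LinearMap.ker (T - 1)) = 2 * d - c) (hJ : Skew J δ) (hnsq : ∀ a : F, a * a ≠ δ)
    (hcomm : ∀ v, J (T v) = T (J v)) : False := by
  classical
  have hr : r.Prime := Fact.out
  obtain ⟨hi0, hidvd⟩ := SubspaceDerange.dvd_pow_sub_one hrq hi
  have hA : (BB).IsAlt := sympB_isAlt
  have hB : (BB).Nondegenerate := sympB_nondegenerate
  have hV : finrank F Vd = 2 * d := by
    rw [Module.finrank_pi, Fintype.card_sum, Fintype.card_fin]; omega
  have hinj : Function.Injective T := fun a b h => by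
    have := congrArg (T ^ (r - 1)) h
    rwa [← Module.End.mul_apply, ← Module.End.mul_apply, ← pow_succ, Nat.sub_add_cancel hr.one_lt.le, hT,
      Module.End.one_apply, Module.End.one_apply] at this
  set K := LinearMap.ker (T - 1)
  have hKn : Nd BB K := by
    have := nd_fixed hA hTB hT hrF (W := ⊤) (fun _ _ => trivial) (nd_top hB)
    rwa [top_inf_eq] at this
  have hKi : ∀ v ∈ K, T v ∈ K := fun v hv => by rwa [show T v = v from sub_eq_zero.1 hv]
  set R := (BB).orthogonal K
  have hRn : Nd BB R := by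
    have := (nd_split hA hKn (nd_top hB) le_top).1
    rwa [top_inf_eq] at this
  have hRi : ∀ v ∈ R, T v ∈ R := orth_invariant hTB hinj hKi
  have hfree : R ⊓ LinearMap.ker (T - 1) = ⊥ := by rw [inf_comm]; exact (nd_isCompl hA hKn).inf_eq_bot
  have hRd : finrank F R = c := by
    rw [LinearMap.BilinForm.finrank_orthogonal hB, hker, hV]; omega
  have hc0 : 0 < c := by rw [hc]; split_ifs <;> omega
  have hJK : ∀ v ∈ K, J v ∈ K := fun v hv => by
    show (T - 1) (J v) = 0
    rw [LinearMap.sub_apply, Module.End.one_apply, ← hcomm, show T v = v from sub_eq_zero.1 hv, sub_self]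
  have hJR : ∀ v ∈ R, J v ∈ R := fun v hv w hw => by
    show BB w (J v) = 0
    rw [← neg_eq_zero, ← hJ.skew]
    exact hv _ (hJK w hw)
  have hJP : ∀ (P : F[X]) (v : Vd), J (aeval T P v) = aeval T P (J v) := by
    intro P
    induction P using Polynomial.induction_on with
    | C a => intro v; simp [Module.algebraMap_end_apply]
    | add A B hA hB => intro v; simp [hA, hB]
    | monomial k a ih =>
      intro v
      rw [pow_succ, ← mul_assoc]
      generalize Polynomial.C a * X ^ k = P at ih ⊢
      simp only [map_mul, aeval_X, Module.End.mul_apply]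
      rw [ih, hcomm]
  have hR0 : R ≠ ⊥ := fun e => by rw [e, finrank_bot] at hRd; omega
  obtain ⟨U, -, hUR, hUi, hUd⟩ := SubspaceDerange.step hq hrq hi hT hRi hfree (U := ⊥)
    (fun v hv => by rw [Submodule.mem_bot] at hv; simp [hv]) bot_le (by rw [finrank_bot, hRd]; exact hc0)
  rw [finrank_bot, zero_add] at hUd
  have hdiv : ∀ W : Submodule F Vd, W ≤ R → (∀ v ∈ W, T v ∈ W) → i ∣ finrank F W := fun W hWR hW => by
    have h := SubspaceDerange.dim_mod hq hrq hi hT hW
    rw [show W ⊓ LinearMap.ker (T - 1) = ⊥ from le_bot_iff.1 (hfree ▸ inf_le_inf_right _ hWR), finrank_bot] at h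
    exact Nat.modEq_zero_iff_dvd.1 h
  haveI : Nontrivial U := Submodule.nontrivial_iff_ne_bot.2 fun e => by rw [e, finrank_bot] at hUd; omega
  set TU : Module.End F U := T.restrict hUi
  obtain ⟨f, hfm, hfi, g, hg⟩ := exists_monic_irreducible_factor _ (minpoly.not_isUnit F TU)
  obtain ⟨y, hy⟩ : ∃ y, aeval TU g y ≠ 0 := by
    by_contra h
    push_neg at h
    have hg0 : g ≠ 0 := fun e => minpoly.ne_zero (IsIntegral.of_finite F TU) (by rw [hg, e, mul_zero])
    have h1 := natDegree_le_natDegree (minpoly.degree_le_of_ne_zero F TU hg0 (LinearMap.ext h))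
    rw [hg, natDegree_mul hfi.ne_zero hg0] at h1
    have := hfi.natDegree_pos
    omega
  haveI := Fact.mk hfi
  haveI : Module.Finite F (AdjoinRoot f) := (AdjoinRoot.powerBasis hfi.ne_zero).finite
  have hrestr : ∀ (P : F[X]) (w : U), ((aeval TU P) w : Vd) = aeval T P (w : Vd) := by
    intro P
    induction P using Polynomial.induction_on with
    | C a => intro w; simp [Module.algebraMap_end_apply]
    | add A B hA hB => intro w; simp [hA, hB]
    | monomial k a ih =>
      intro w
      rw [pow_succ, ← mul_assoc]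
      generalize Polynomial.C a * X ^ k = P at ih ⊢
      simp only [map_mul, aeval_X, Module.End.mul_apply]
      rw [ih]
      rfl
  set v : Vd := ((aeval TU g y : U) : Vd) with hv
  obtain ⟨φ, hφi, hφ1, hφ⟩ := exists_cyclic T hfi hfm (v := v) (fun e => hy (Subtype.ext e)) (by
    rw [hv, ← hrestr, ← Module.End.mul_apply, ← map_mul, ← hg, show aeval TU (minpoly F TU) = 0 from minpoly.aeval F TU]; rfl)
  have hrange : LinearMap.range φ = U := by
    have hle : LinearMap.range φ ≤ U := by
      rintro _ ⟨x, rfl⟩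
      obtain ⟨P, rfl⟩ := AdjoinRoot.mk_surjective x
      rw [← mul_one (AdjoinRoot.mk f P), hφ, hφ1]
      exact SubspaceDerange.aeval_mem hUi P (Submodule.coe_mem _)
    refine Submodule.eq_of_le_of_finrank_le hle (hUd ▸ Nat.le_of_dvd ?_ (hdiv _ (hle.trans hUR)
      (SympIsotropicOdd.range_invariant hφ)))
    refine Nat.pos_of_ne_zero fun e => hy (Subtype.ext ?_)
    have hm : φ 1 ∈ LinearMap.range φ := ⟨1, rfl⟩
    rwa [Submodule.finrank_eq_zero.1 e, Submodule.mem_bot, hφ1] at hm
  have hfdeg : f.natDegree = i := by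
    rw [← hUd, ← hrange, LinearMap.finrank_range_of_inj hφi, (AdjoinRoot.powerBasis hfi.ne_zero).finrank,
      AdjoinRoot.powerBasis_dim]
  have hfU : ∀ u ∈ U, aeval T f u = 0 := fun u hu => by
    rw [← hrange] at hu
    obtain ⟨x, rfl⟩ := hu
    rw [← hφ, AdjoinRoot.mk_self, zero_mul, map_zero]
  have hJinj : Function.Injective J := fun a b h => by
    have := congrArg J h
    rw [hJ.sq, hJ.sq] at this
    exact smul_right_injective _ (fun e : δ = 0 => hnsq 0 (by rw [e, zero_mul])) this
  by_cases hie : Even i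
  · -- the irreducible atom
    have hi4 : i % 4 = 0 := by obtain ⟨k, hk⟩ := hie; omega
    rw [hc, if_pos hie] at hRd
    have hUeq : U = R := Submodule.eq_of_le_of_finrank_eq hUR (hUd.trans hRd.symm)
    obtain ⟨y₀, hy₀⟩ : J (φ 1) ∈ LinearMap.range φ := by
      rw [hrange, hUeq]; exact hJR _ (hUeq ▸ hrange ▸ (⟨1, rfl⟩ : φ 1 ∈ LinearMap.range φ))
    obtain ⟨P, rfl⟩ := AdjoinRoot.mk_surjective y₀
    have hJeq : ∀ w ∈ R, J w = aeval T P w := fun w hw => by
      rw [← hUeq, ← hrange] at hw
      obtain ⟨x, rfl⟩ := hw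
      obtain ⟨Q, rfl⟩ := AdjoinRoot.mk_surjective x
      rw [← mul_one (AdjoinRoot.mk f Q), hφ, hJP, ← hy₀, ← hφ, ← hφ, mul_one, ← hφ, mul_comm]
    obtain ⟨h, hh⟩ : ∃ h, i / 2 = 2 * h := ⟨i / 4, by omega⟩
    have h1 : ((q : ZMod r) ^ (i / 2)) * (q : ZMod r) ^ (i / 2) = 1 := by
      rw [← pow_add, show i / 2 + i / 2 = i by omega, hi, pow_orderOf_eq_one]
    obtain ⟨k, hk⟩ : r ∣ q ^ (i / 2) + 1 := by
      rcases mul_self_eq_one_iff.1 h1 with e | e
      · have := Nat.le_of_dvd (by omega) (hi ▸ orderOf_dvd_of_pow_eq_one e)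
        omega
      · exact (ZMod.natCast_eq_zero_iff _ _).1 (by push_cast; rw [e, neg_add_cancel])
    let a : Vd ≃ₗ[F] Vd := LinearEquiv.ofLinearMap T (T ^ (q ^ (i / 2)))
      (show T * T ^ q ^ (i / 2) = 1 by rw [← pow_succ', hk, pow_mul, hT, one_pow])
      (show T ^ q ^ (i / 2) * T = 1 by rw [← pow_succ, hk, pow_mul, hT, one_pow])
    have hq2 : ∀ l, ∀ w ∈ R, ((aeval T P) ^ q ^ (2 * l)) w = aeval T P w := by
      have hpow : ∀ k, ∀ w ∈ R, ((aeval T P) ^ k) w = (J ^ k) w := by
        intro k
        induction k with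
        | zero => intro w _; rfl
        | succ k ih =>
          intro w hw
          rw [pow_succ, pow_succ, Module.End.mul_apply, Module.End.mul_apply, ← hJeq w hw, ih _ (hJR w hw)]
      have hJsq : J * J = δ • 1 := LinearMap.ext hJ.sq
      have hδ0 : δ ≠ 0 := fun e => hnsq 0 (by rw [e, zero_mul])
      have hqodd : q % 2 = 1 := by
        rw [← hq]; exact FiniteField.odd_card_of_char_ne_two fun h => h2 (by
          have : ((2 : ℕ) : F) = 0 := by
            haveI := ringChar.charP F
            rw [← h]; exact CharP.cast_eq_zero F (ringChar F)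
          exact_mod_cast this)
      intro l w hw
      have hJpow : J ^ q ^ (2 * l) = J := by
       induction l with
      | zero => simp
      | succ l ih =>
        rw [Nat.mul_succ, pow_add, pow_mul, ih]
        have he : q ^ 2 = 2 * ((q - 1) * ((q + 1) / 2)) + 1 := by
          obtain ⟨k, hk⟩ : ∃ k, q = 2 * k + 1 := ⟨q / 2, by omega⟩
          rw [hk, show 2 * k + 1 - 1 = 2 * k by omega, show (2 * k + 1 + 1) / 2 = k + 1 by omega]
          ring
        have hq1 : δ ^ (q - 1) = 1 := by rw [← hq]; exact FiniteField.pow_card_sub_one_eq_one δ hδ0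
        rw [he, pow_succ, pow_mul, pow_two, hJsq, _root_.smul_pow, one_pow, pow_mul, hq1, one_pow, one_smul, one_mul]
      rw [hpow _ w hw, hJpow, hJeq w hw]
    have hzero : ∀ u ∈ R, ∀ w ∈ R, BB (J u) w = 0 := fun u hu w hw => by
      have e : BB (J u) w = BB u (J w) := by
        rw [hJeq u hu, show BB (aeval T P u) w = BB u (aeval (a.symm : Module.End F Vd) P w) from
          aeval_adjoint _ (a := a) hTB P u w, show aeval (a.symm : Module.End F Vd) P w =
            aeval (T ^ q ^ (i / 2)) P w from rfl, SympIsotropicOdd.aeval_pow_card hq P T, hh, hq2 h w hw, ← hJeq w hw]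
      have e' := hJ.skew u w
      exact (mul_eq_zero.1 (show (2 : F) * BB (J u) w = 0 by linear_combination e + e')).resolve_left h2
    obtain ⟨u, hu, hu0⟩ := (Submodule.ne_bot_iff R).1 hR0
    exact hu0 (hJinj (by rw [map_zero]; exact hRn _ (hJR u hu) (hzero u hu)))
  · -- two halves
    have hio : Odd i := Nat.not_even_iff_odd.1 hie
    rw [hc, if_neg hie] at hRd
    have hJUi : ∀ w ∈ U.map J, T w ∈ U.map J := by
      rintro _ ⟨u, hu, rfl⟩
      exact ⟨T u, hUi u hu, hcomm u⟩
    have hJUR : U.map J ≤ R := by rintro _ ⟨u, hu, rfl⟩; exact hJR u (hUR hu)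
    have hinter : U ⊓ U.map J = ⊥ := by
      by_contra hne
      have h1 := hdiv (U ⊓ U.map J) (inf_le_left.trans hUR) fun w hw => ⟨hUi w hw.1, hJUi w hw.2⟩
      have h2' := Nat.le_of_dvd (Nat.pos_of_ne_zero fun e => hne (Submodule.finrank_eq_zero.1 e)) h1
      have hUJ : U ⊓ U.map J = U := Submodule.eq_of_le_of_finrank_le inf_le_left (hUd ▸ h2')
      have hJU : ∀ u ∈ U, J u ∈ U := fun u hu => by
        have : U.map J = U := (Submodule.eq_of_le_of_finrank_eq (inf_eq_left.1 hUJ)
          (LinearEquiv.finrank_eq (Submodule.equivMapOfInjective J hJinj U))).symm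
        exact this ▸ ⟨u, hu, rfl⟩
      have hdet := congrArg LinearMap.det (show J.restrict hJU * J.restrict hJU = δ • 1 from
        LinearMap.ext fun w => Subtype.ext (hJ.sq _))
      obtain ⟨k, hk⟩ := hio
      rw [map_mul, LinearMap.det_smul, map_one, mul_one, hUd, hk, pow_succ, pow_mul] at hdet
      have hδ0 : δ ≠ 0 := fun e => hnsq 0 (by rw [e, zero_mul])
      refine hnsq (LinearMap.det (J.restrict hJU) / δ ^ k) ?_
      rw [div_mul_div_comm, hdet, ← pow_mul, ← pow_add, ← two_mul, mul_div_assoc]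
      field_simp
    have hsup : U ⊔ U.map J = R := Submodule.eq_of_le_of_finrank_eq (sup_le hUR hJUR) (by
      rw [SubspaceDerange.finrank_sup_of_disjoint hinter, hRd,
        ← (Submodule.equivMapOfInjective J hJinj U).finrank_eq, hUd, two_mul])
    have hfR : ∀ w ∈ R, aeval T f w = 0 := fun w hw => by
      rw [← hsup] at hw
      obtain ⟨a, ha, _, ⟨b, hb, rfl⟩, rfl⟩ := Submodule.mem_sup.1 hw
      rw [map_add, hfU a ha, ← hJP, hfU b hb, map_zero, add_zero]
    let a : Vd ≃ₗ[F] Vd := LinearEquiv.ofBijective T ⟨hinj, LinearMap.injective_iff_surjective.1 hinj⟩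
    have h0 := cyclic_root_ne_zero (a := a) hφi hφ
    have hinv : aeval (AdjoinRoot.root f)⁻¹ f = 0 := by
      by_contra hne
      have : φ 1 = 0 := hRn _ (hUR (hrange ▸ ⟨1, rfl⟩)) fun w hw => by
        rw [show φ (1 : AdjoinRoot f) = aeval (a.symm : Module.End F Vd) f (φ ((aeval (AdjoinRoot.root f)⁻¹ f)⁻¹)) by
          rw [cyclic_inv (a := a) hφ h0, mul_inv_cancel₀ hne], ← LinearMap.IsAlt.neg hA, neg_eq_zero,
          ← aeval_adjoint _ (a := a) hTB, show aeval (a : Module.End F Vd) f w = 0 from hfR w hw, map_zero,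
          LinearMap.zero_apply]
      exact one_ne_zero (hφi (this.trans (map_zero φ).symm))
    have hev1 : f.eval 1 ≠ 0 := fun e => by
      have hroot : AdjoinRoot.root f = 1 := by
        have hd' : (X - C 1) ∣ f := dvd_iff_isRoot.2 e
        have hfX := eq_of_monic_of_associated hfm (monic_X_sub_C 1) ((irreducible_X_sub_C 1).associated_of_dvd hfi hd').symm
        have h := AdjoinRoot.mk_self (f := f)
        rw [congrArg (AdjoinRoot.mk f) hfX, map_sub, AdjoinRoot.mk_X, AdjoinRoot.mk_C, map_one, sub_eq_zero] at h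
        exact h
      have hm : φ 1 ∈ R ⊓ LinearMap.ker (T - 1) := ⟨hUR (hrange ▸ ⟨1, rfl⟩), by
        show (T - 1) (φ 1) = 0
        have h := cyclic_root (a := a) hφ 1
        rw [hroot, one_mul] at h
        rw [LinearMap.sub_apply, Module.End.one_apply, sub_eq_zero]
        exact h⟩
      rw [hfree, Submodule.mem_bot] at hm
      exact one_ne_zero (hφi (hm.trans (map_zero φ).symm))
    have h0c : f.coeff 0 ≠ 0 := fun e => h0 (by
      have hd' : X ∣ f := X_dvd_iff.2 e
      have hfX := eq_of_monic_of_associated hfm monic_X (irreducible_X.associated_of_dvd hfi hd').symm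
      have h := AdjoinRoot.mk_self (f := f)
      rw [congrArg (AdjoinRoot.mk f) hfX, AdjoinRoot.mk_X] at h
      exact h)
    obtain ⟨hm', hd', -, -⟩ := hat_props hfm h0c
    have hhat : hat f = f := by
      refine eq_of_monic_of_dvd_of_natDegree_le hfm hm' ?_ hd'.le
      rw [← AdjoinRoot.mk_eq_zero, ← AdjoinRoot.aeval_eq, hat, map_mul]
      letI : Invertible (AdjoinRoot.root f)⁻¹ := invertibleOfNonzero (inv_ne_zero h0)
      have h3 := Polynomial.eval₂_reverse_eq_zero_iff (algebraMap F (AdjoinRoot f)) (AdjoinRoot.root f)⁻¹ f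
      rw [invOf_eq_inv, inv_inv] at h3
      rw [show aeval (AdjoinRoot.root f) f.reverse = 0 from h3.2 hinv, mul_zero]
    have hrev := reverse_eq_of_hat_eq hhat hev1 h0c
    have hm1 : f.eval (-1) = 0 := by
      letI : Invertible (-1 : F) := invertibleOfNonzero (neg_ne_zero.2 one_ne_zero)
      have h := eval₂_reverse_mul_pow (RingHom.id F) (-1 : F) f
      rw [invOf_eq_inv, inv_neg, inv_one, hrev, eval₂_id, hfdeg, hio.neg_one_pow] at h
      exact (mul_eq_zero.1 (show (2 : F) * f.eval (-1) = 0 by linear_combination -h)).resolve_left h2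
    have hfX := eq_of_monic_of_associated hfm (monic_X_sub_C (-1))
      ((irreducible_X_sub_C (-1 : F)).associated_of_dvd hfi (dvd_iff_isRoot.2 hm1)).symm
    have hroot : AdjoinRoot.root f = -1 := by
      have h := AdjoinRoot.mk_self (f := f)
      rw [congrArg (AdjoinRoot.mk f) hfX, map_sub, AdjoinRoot.mk_X, AdjoinRoot.mk_C, map_neg, map_one, sub_neg_eq_add] at h
      exact eq_neg_of_add_eq_zero_left h
    have hrr : φ ((AdjoinRoot.root f) ^ r * 1) = φ 1 := by
      rw [← AdjoinRoot.mk_X, ← map_pow, hφ, map_pow, aeval_X, hT]; rfl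
    rw [hroot, (hr.odd_of_ne_two hr2).neg_one_pow, mul_one] at hrr
    have h11 := hφi hrr
    have : (2 : AdjoinRoot f) = 0 := by linear_combination -h11
    exact h2 ((algebraMap F (AdjoinRoot f)).injective (by rw [map_ofNat, map_zero]; exact this))

end Cfsg.Agent.GeomClasses.SympQuadExtDerange
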