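import Cfsg.Agent.GeomClasses.NonsingPoint
import Cfsg.Agent.GeomClasses.PlanePerm
import Cfsg.Agent.Forms.SympOrder
import Cfsg.Agent.Forms.SympElements

/-!
Symplectic groups in characteristic two and the quadratic forms polarising to the alternating form.
-/

set_option autoImplicit false

namespace Cfsg.Agent.GeomClasses.SympQuadPoint

open Matrix Cfsg.Agent.Forms

variable {F : Type*} [Field F] [Fintype F] [CharP F 2] {d : ℕ}


theorem exists_aniso : ∃ ζ : F, ∀ z₁ z₂ : F, z₁ ^ 2 + 1 * z₁ * z₂ + ζ * z₂ ^ 2 = 0 → z₁ = 0 ∧ z₂ = 0 := by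
  obtain ⟨ζ, hζ⟩ : ∃ ζ : F, ∀ t : F, t ^ 2 + t + ζ ≠ 0 := by
    by_contra hc
    push_neg at hc
    have hsur : Function.Surjective fun t : F => t ^ 2 + t := fun y => by
      obtain ⟨t, ht⟩ := hc y
      exact ⟨t, CharTwo.add_eq_zero.1 ht⟩
    have := (Finite.injective_iff_surjective.2 hsur) (a₁ := 0) (a₂ := 1)
      (by simp [CharTwo.add_self_eq_zero])
    exact zero_ne_one this
  exact ⟨ζ, NonsingPoint.aniso_of_forall hζ⟩

variable {Q : QuadraticForm F (Fin d ⊕ Fin d → F)} (hQf : ∀ u v, QuadraticMap.polar Q u v = Cfsg.sympForm d F u v)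
include hQf

theorem nondegenerate : (QuadraticMap.polarBilin Q).Nondegenerate := by
  have hP : QuadraticMap.polarBilin Q = sympB d F :=
    LinearMap.ext₂ fun u v => by rw [QuadraticMap.polarBilin_apply_apply, hQf, sympB_apply]
  rw [hP]; exact sympB_nondegenerate

/-- The type decides the model. -/
theorem model (hd : 1 ≤ d) :
    (Cfsg.Geo.IsPlusTypeOn ⇑Q ⊤ → ∃ e : (Fin d ⊕ Fin d → F) ≃ₗ[F] (Fin d ⊕ Fin d → F), ∀ v, Q (e v) = qPlus d F v) ∧
    (¬ Cfsg.Geo.IsPlusTypeOn ⇑Q ⊤ → ∀ a b : F,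
      (∀ z₁ z₂ : F, z₁ ^ 2 + a * z₁ * z₂ + b * z₂ ^ 2 = 0 → z₁ = 0 ∧ z₂ = 0) →
      ∃ e : ((Fin (d - 1) ⊕ Fin (d - 1)) ⊕ Fin 2 → F) ≃ₗ[F] (Fin d ⊕ Fin d → F), ∀ v, Q (e v) = qMinus (d - 1) F a b v) := by
  have hV : Module.finrank F (Fin d ⊕ Fin d → F) = 2 * d := by simp [two_mul]
  rcases NonsingPoint.exists_model Q (nondegenerate hQf) hd hV with ⟨e, he⟩ | h
  · refine ⟨fun _ => ⟨e, he⟩, fun hn => absurd ?_ hn⟩
    refine ⟨(coreSub F (Sum.inl : Fin d → Fin d ⊕ Fin d)).map e.toLinearMap, le_top, ?_, ?_⟩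
    · rintro _ ⟨w, hw, rfl⟩
      show Q (e w) = 0
      rw [he]; exact (qPlus_core d).zero w hw
    · rw [LinearEquiv.finrank_map_eq, coreSub, finrank_comap_equiv _ Sum.inl_injective, finrank_top, hV,
        Fintype.card_fin]
  · refine ⟨fun hp => ?_, fun _ => h⟩
    exfalso
    obtain ⟨ζ, hζ⟩ := exists_aniso (F := F)
    obtain ⟨e, he⟩ := h 1 ζ hζ
    obtain ⟨U, -, hU, hdim⟩ := hp
    rw [finrank_top, hV] at hdim
    have h1 := finrank_singular_minus hζ (U := U.map e.symm.toLinearMap) (by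
      rintro _ ⟨w, hw, rfl⟩
      show qMinus (d - 1) F 1 ζ (e.symm w) = 0
      rw [← he, e.apply_symm_apply]; exact hU w hw)
    rw [LinearEquiv.finrank_map_eq] at h1
    omega

theorem preserves_iff {x : GL (Fin d ⊕ Fin d) F} :
    x ∈ Cfsg.Geo.quadSimilarityGroup ⇑Q ⊓ Cfsg.spGL d F ↔ ∀ v, Q ((x : Matrix (Fin d ⊕ Fin d) (Fin d ⊕ Fin d) F) *ᵥ v) = Q v := by
  constructor
  · rintro ⟨⟨c, hc⟩, hx⟩ v
    by_cases hz : ∀ u w : (Fin d ⊕ Fin d → F), Cfsg.sympForm d F u w = 0
    · have hv0 : v = 0 := sympB_nondegenerate.1 v fun w => by simp [hz]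
      simp [hv0]
    push_neg at hz
    obtain ⟨u, w, huw⟩ := hz
    have h := hQf ((x : Matrix (Fin d ⊕ Fin d) (Fin d ⊕ Fin d) F) *ᵥ u) ((x : Matrix (Fin d ⊕ Fin d) (Fin d ⊕ Fin d) F) *ᵥ w)
    rw [show Cfsg.sympForm d F ((x : Matrix (Fin d ⊕ Fin d) (Fin d ⊕ Fin d) F) *ᵥ u) ((x : Matrix (Fin d ⊕ Fin d) (Fin d ⊕ Fin d) F) *ᵥ w) = Cfsg.sympForm d F u w from hx u w] at h
    simp only [QuadraticMap.polar, ← mulVec_add, hc, ← mul_sub] at h
    have h' : (c : F) * QuadraticMap.polar Q u w = Cfsg.sympForm d F u w := by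
      rw [QuadraticMap.polar]; linear_combination h
    rw [hQf] at h'
    rw [hc, mul_left_eq_self₀.2 (Or.inl rfl) |> fun (_ : (1 : F) * 1 = 1) =>
      mul_right_cancel₀ huw (h'.trans (one_mul _).symm), one_mul]
  · intro h
    refine ⟨⟨1, fun v => by rw [h, Units.val_one, one_mul]⟩, fun u w => ?_⟩
    show Cfsg.sympForm d F ((x : Matrix (Fin d ⊕ Fin d) (Fin d ⊕ Fin d) F) *ᵥ u) ((x : Matrix (Fin d ⊕ Fin d) (Fin d ⊕ Fin d) F) *ᵥ w) = Cfsg.sympForm d F u w
    rw [← hQf, ← hQf]
    simp only [QuadraticMap.polar, ← mulVec_add, h]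

/-- A conjugate preserves `Q` exactly when the element preserves a form of the same type. -/
theorem fixes_iff (hd : 1 ≤ d) {x : GL (Fin d ⊕ Fin d) F} (hx : x ∈ Cfsg.spGL d F) :
    (∃ g ∈ Cfsg.spGL d F, g⁻¹ * x * g ∈ Cfsg.Geo.quadSimilarityGroup ⇑Q) ↔
      ∃ Q' : QuadraticForm F (Fin d ⊕ Fin d → F), (∀ u v, QuadraticMap.polar Q' u v = Cfsg.sympForm d F u v) ∧
        (Cfsg.Geo.IsPlusTypeOn ⇑Q' ⊤ ↔ Cfsg.Geo.IsPlusTypeOn ⇑Q ⊤) ∧ ∀ v, Q' ((x : Matrix (Fin d ⊕ Fin d) (Fin d ⊕ Fin d) F) *ᵥ v) = Q' v := by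
  constructor
  · rintro ⟨g, hg, hgx⟩
    have hy := (preserves_iff hQf).1 ⟨hgx, mul_mem (mul_mem ((Cfsg.spGL d F).inv_mem hg) hx) hg⟩
    let gi := glEquiv (Fin d ⊕ Fin d) F g⁻¹
    refine ⟨Q.comp gi.toLinearMap, fun u v => ?_, ?_, fun v => ?_⟩
    · show Q (gi (u + v)) - Q (gi u) - Q (gi v) = _
      rw [map_add]
      refine (hQf (gi u) (gi v)).trans ?_
      exact (Cfsg.spGL d F).inv_mem hg u v
    · constructor
      · rintro ⟨U, -, hU, hdim⟩
        refine ⟨U.map gi.toLinearMap, le_top, ?_, by rw [LinearEquiv.finrank_map_eq]; exact hdim⟩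
        rintro _ ⟨w, hw, rfl⟩
        exact hU w hw
      · rintro ⟨U, -, hU, hdim⟩
        refine ⟨U.map gi.symm.toLinearMap, le_top, ?_, by rw [LinearEquiv.finrank_map_eq]; exact hdim⟩
        rintro _ ⟨w, hw, rfl⟩
        show Q (gi (gi.symm w)) = 0
        rw [gi.apply_symm_apply]; exact hU w hw
    · show Q (gi ((x : Matrix (Fin d ⊕ Fin d) (Fin d ⊕ Fin d) F) *ᵥ v)) = Q (gi v)
      simp only [gi, glEquiv_apply]
      have h := hy (((g⁻¹ : GL (Fin d ⊕ Fin d) F) : Matrix (Fin d ⊕ Fin d) (Fin d ⊕ Fin d) F) *ᵥ v)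
      rwa [mulVec_mulVec, ← Units.val_mul, show g⁻¹ * x * g * g⁻¹ = g⁻¹ * x by group, Units.val_mul,
        ← mulVec_mulVec] at h
  · rintro ⟨Q', hQ'f, htype, hx'⟩
    obtain ⟨e, he⟩ : ∃ e : (Fin d ⊕ Fin d → F) ≃ₗ[F] (Fin d ⊕ Fin d → F), ∀ v, Q' (e v) = Q v := by
      by_cases hp : Cfsg.Geo.IsPlusTypeOn ⇑Q ⊤
      · obtain ⟨e₁, h1⟩ := (model hQf hd).1 hp
        obtain ⟨e₂, h2⟩ := (model hQ'f hd).1 (htype.2 hp)
        exact ⟨e₁.symm.trans e₂, fun v => by rw [LinearEquiv.trans_apply, h2, ← h1, e₁.apply_symm_apply]⟩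
      · obtain ⟨ζ, hζ⟩ := exists_aniso (F := F)
        obtain ⟨e₁, h1⟩ := (model hQf hd).2 hp 1 ζ hζ
        obtain ⟨e₂, h2⟩ := (model hQ'f hd).2 (fun h => hp (htype.1 h)) 1 ζ hζ
        exact ⟨e₁.symm.trans e₂, fun v => by rw [LinearEquiv.trans_apply, h2, ← h1, e₁.apply_symm_apply]⟩
    let g := (glEquiv (Fin d ⊕ Fin d) F).symm e
    have hg : ∀ v, (g : Matrix (Fin d ⊕ Fin d) (Fin d ⊕ Fin d) F) *ᵥ v = e v := fun v => glEquiv_symm_mulVec e v
    refine ⟨g, fun u v => ?_, 1, fun v => ?_⟩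
    · show Cfsg.sympForm d F ((g : Matrix (Fin d ⊕ Fin d) (Fin d ⊕ Fin d) F) *ᵥ u) ((g : Matrix (Fin d ⊕ Fin d) (Fin d ⊕ Fin d) F) *ᵥ v) = Cfsg.sympForm d F u v
      rw [hg, hg, ← hQ'f, ← hQf]
      simp only [QuadraticMap.polar, ← map_add, he]
    · rw [Units.val_one, one_mul, Units.val_mul, Units.val_mul, ← mulVec_mulVec, ← mulVec_mulVec]
      conv_rhs => rw [← he, ← hg, ← hx']
      rw [← he, ← hg, mulVec_mulVec, ← Units.val_mul, mul_inv_cancel, Units.val_one, one_mulVec]

/-- The index. -/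
theorem index_mul {q : ℕ} (hq : Fintype.card F = q) (hd : 1 ≤ d) :
    (Cfsg.Geo.IsPlusTypeOn ⇑Q ⊤ → 2 * (Cfsg.Geo.quadSimilarityGroup ⇑Q).relIndex (Cfsg.spGL d F) =
      q ^ d * (q ^ d + 1)) ∧
    (¬ Cfsg.Geo.IsPlusTypeOn ⇑Q ⊤ → 2 * (Cfsg.Geo.quadSimilarityGroup ⇑Q).relIndex (Cfsg.spGL d F) =
      q ^ d * (q ^ d - 1)) := by
  classical
  have hH : Cfsg.Geo.quadSimilarityGroup ⇑Q ⊓ Cfsg.spGL d F = Cfsg.isometryGroup F ⇑Q := by
    ext x; rw [preserves_iff hQf, mem_isometryGroup_iff]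
  have hK : Nat.card (Cfsg.spGL d F) = q ^ (d ^ 2) * ∏ i ∈ Finset.range d, (q ^ (2 * (i + 1)) - 1) := by
    rw [Nat.card_congr (spGLEquiv (m := d) (F := F)).toEquiv, ← Nat.card_congr (spEquiv d F).toEquiv,
      card_symplecticGroup hq]
  have hmul := Subgroup.card_mul_index ((Cfsg.Geo.quadSimilarityGroup ⇑Q).subgroupOf (Cfsg.spGL d F))
  rw [← Subgroup.inf_subgroupOf_right, Nat.card_congr (Subgroup.subgroupOfEquivOfLe inf_le_right).toEquiv,
    Subgroup.inf_subgroupOf_right, hH, hK] at hmul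
  have hconv : ∀ {κ : Type} [Fintype κ] [DecidableEq κ] (Q₀ : QuadraticForm F (κ → F))
      (e : (κ → F) ≃ₗ[F] (Fin d ⊕ Fin d → F)), (∀ v, Q (e v) = Q₀ v) →
      Nat.card (Cfsg.isometryGroup F ⇑Q) = Nat.card (Cfsg.isometryGroup F ⇑Q₀) := by
    intro κ _ _ Q₀ e he
    rw [Nat.card_congr (isometryEquiv Q).toEquiv, Nat.card_congr (isometryEquiv Q₀).toEquiv]
    refine Nat.card_congr (Equiv.subtypeEquiv
      { toFun := fun f => (e.trans f).trans e.symm
        invFun := fun f => (e.symm.trans f).trans e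
        left_inv := fun f => by ext v; simp
        right_inv := fun f => by ext v; simp } fun f => ?_)
    rw [mem_isomGroup_quad_iff, mem_isomGroup_quad_iff]
    show _ ↔ ∀ v, Q₀ (e.symm (f (e v))) = Q₀ v
    simp only [← he, e.apply_symm_apply]
    exact ⟨fun h v => h _, fun h v => by simpa using h (e.symm v)⟩
  have hq2 : 2 ≤ q := by rw [← hq]; exact Fintype.one_lt_card
  obtain ⟨k, rfl⟩ : ∃ k, d = k + 1 := ⟨d - 1, by omega⟩
  obtain ⟨A, hA⟩ : ∃ A, q ^ (k + 1) = A + 1 := ⟨q ^ (k + 1) - 1, by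
    have := Nat.one_le_pow (k + 1) q (by omega); omega⟩
  have e2 : q ^ (2 * (k + 1)) - 1 = A * (A + 2) := by
    rw [two_mul (k + 1), pow_add, hA, Nat.sub_eq_iff_eq_add (Nat.one_le_iff_ne_zero.2 (by positivity))]
    ring
  rw [Finset.prod_range_succ, e2] at hmul
  set P := ∏ i ∈ Finset.range k, (q ^ (2 * (i + 1)) - 1)
  have hP : P ≠ 0 := Finset.prod_ne_zero_iff.2 fun i _ => by
    have := Nat.one_lt_pow (show 2 * (i + 1) ≠ 0 by omega) (show 1 < q by omega); omega
  have hq0 : q ^ ((k + 1) * k) ≠ 0 := pow_ne_zero _ (by omega)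
  have hA0 : A ≠ 0 := fun h => by
    have := Nat.one_lt_pow (show k + 1 ≠ 0 by omega) (show 1 < q by omega); omega
  have epow : q ^ ((k + 1) ^ 2) = q ^ ((k + 1) * k) * (A + 1) := by rw [← hA, ← pow_add]; ring_nf
  rw [epow] at hmul
  constructor
  · intro hp
    obtain ⟨e, he⟩ := (model hQf hd).1 hp
    rw [hconv _ e he, coe_qPlus, card_isometryGroup_plus (k + 1) hq hd, Nat.add_sub_cancel,
      show q ^ (k + 1) - 1 = A by omega] at hmul
    rw [hA]
    refine Nat.eq_of_mul_eq_mul_left (n := q ^ ((k + 1) * k) * A * P) (by positivity) ?_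
    change _ * (2 * Subgroup.index _) = _
    linear_combination hmul
  · intro hp
    obtain ⟨ζ, hζ⟩ := exists_aniso (F := F)
    obtain ⟨e, he⟩ := (model hQf hd).2 hp 1 ζ hζ
    rw [hconv _ e he, coe_qMinus] at hmul
    change Nat.card ↥(Cfsg.isometryGroup F (Cfsg.quadFormMinus k F 1 ζ)) * _ = _ at hmul
    rw [card_isometryGroup_minus k hq 1 ζ hζ, hA] at hmul
    rw [hA, Nat.add_sub_cancel]
    refine Nat.eq_of_mul_eq_mul_left (n := q ^ ((k + 1) * k) * (A + 2) * P) (by positivity) ?_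
    change _ * (2 * Subgroup.index _) = _
    linear_combination hmul

omit hQf

/-- Elements without fixed vectors preserve at most one form. -/
theorem form_unique {x : GL (Fin d ⊕ Fin d) F} (hx : x ∈ Cfsg.spGL d F)
    (hfix : ∀ v : (Fin d ⊕ Fin d → F), (x : Matrix (Fin d ⊕ Fin d) (Fin d ⊕ Fin d) F) *ᵥ v = v → v = 0) {Q₁ Q₂ : QuadraticForm F (Fin d ⊕ Fin d → F)}
    (h1 : ∀ u v, QuadraticMap.polar Q₁ u v = Cfsg.sympForm d F u v)
    (h2 : ∀ u v, QuadraticMap.polar Q₂ u v = Cfsg.sympForm d F u v)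
    (hx1 : ∀ v, Q₁ ((x : Matrix (Fin d ⊕ Fin d) (Fin d ⊕ Fin d) F) *ᵥ v) = Q₁ v) (hx2 : ∀ v, Q₂ ((x : Matrix (Fin d ⊕ Fin d) (Fin d ⊕ Fin d) F) *ᵥ v) = Q₂ v) : Q₁ = Q₂ := by
  have hadd : ∀ u v, (Q₁ - Q₂) (u + v) = (Q₁ - Q₂) u + (Q₁ - Q₂) v := fun u v => by
    simp only [QuadraticMap.sub_apply, QuadraticMap.map_add Q₁, QuadraticMap.map_add Q₂, h1, h2]; ring
  refine QuadraticMap.ext fun v => sub_eq_zero.1 ?_
  show (Q₁ - Q₂) v = 0
  have hinj : Function.Injective fun u : (Fin d ⊕ Fin d → F) => (x : Matrix (Fin d ⊕ Fin d) (Fin d ⊕ Fin d) F) *ᵥ u - u := fun a c h => by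
    refine sub_eq_zero.1 (hfix _ ?_)
    rw [mulVec_sub]
    simp only at h
    linear_combination (norm := module) h
  obtain ⟨u, rfl⟩ := (Finite.injective_iff_surjective.1 hinj) v
  show (Q₁ - Q₂) ((x : Matrix (Fin d ⊕ Fin d) (Fin d ⊕ Fin d) F) *ᵥ u - u) = 0
  rw [sub_eq_add_neg ((x : Matrix (Fin d ⊕ Fin d) (Fin d ⊕ Fin d) F) *ᵥ u), hadd, QuadraticMap.map_neg, QuadraticMap.sub_apply, hx1, hx2,
    ← QuadraticMap.sub_apply, CharTwo.add_self_eq_zero]

theorem li_pairs {α : Type} [Fintype α] (B : LinearMap.BilinForm F (Fin d ⊕ Fin d → F)) (halt : ∀ v, B v v = 0)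
    (w : α × Bool → (Fin d ⊕ Fin d → F)) (horth : ∀ i j, i ≠ j → ∀ a b, B (w (i, a)) (w (j, b)) = 0)
    (hpair : ∀ i a, B (w (i, a)) (w (i, !a)) ≠ 0) : LinearIndependent F w := by
  classical
  rw [Fintype.linearIndependent_iff]
  rintro g hg ⟨i, a⟩
  have h := congrArg (B (w (i, !a))) hg
  rw [map_sum, map_zero, Finset.sum_eq_single (i, a)] at h
  · rw [map_smul, smul_eq_mul] at h
    refine (mul_eq_zero.1 h).resolve_right ?_
    simpa using hpair i (!a)
  · rintro ⟨j, c⟩ _ hjc
    by_cases hij : i = j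
    · subst hij
      have : c = !a := by cases a <;> cases c <;> first | rfl | exact absurd rfl hjc
      subst this
      simp [halt]
    · simp [horth i j hij]
  · exact fun h' => absurd (Finset.mem_univ _) h'

/-- A basis of orthogonal pairs permuted by an involution. -/
theorem exists_perm_basis {x : GL (Fin d ⊕ Fin d) F} (hx : x ∈ Cfsg.spGL d F)
    (hsq : ∀ v : (Fin d ⊕ Fin d → F), (x : Matrix (Fin d ⊕ Fin d) (Fin d ⊕ Fin d) F) *ᵥ
      ((x : Matrix (Fin d ⊕ Fin d) (Fin d ⊕ Fin d) F) *ᵥ v) = v) :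
    ∃ (α : Type) (_ : Fintype α) (b : Module.Basis (α × Bool) F (Fin d ⊕ Fin d → F)) (τ : α × Bool → α × Bool),
      Fintype.card α = d ∧
      (∀ i j, i ≠ j → ∀ a c, Cfsg.sympForm d F (b (i, a)) (b (j, c)) = 0) ∧
      (∀ i, Cfsg.sympForm d F (b (i, false)) (b (i, true)) ≠ 0) ∧
      (∀ p, (x : Matrix (Fin d ⊕ Fin d) (Fin d ⊕ Fin d) F) *ᵥ b p = b (τ p)) ∧
      (Odd d → ∃ i₀, ∀ p, (τ p).1 = i₀ ↔ p.1 = i₀) := by
  classical
  let f := Matrix.toLin' (x : Matrix (Fin d ⊕ Fin d) (Fin d ⊕ Fin d) F)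
  have hf1 : ∀ v, f v = (x : Matrix (Fin d ⊕ Fin d) (Fin d ⊕ Fin d) F) *ᵥ v := fun v => Matrix.toLin'_apply _ _
  have hf : ∀ v, f (f v) = (1 : F) • v := fun v => by rw [hf1, hf1, hsq, one_smul]
  have hfB : ∀ u v, sympB d F (f u) (f v) = sympB d F u v := fun u v => by
    simp only [sympB_apply, hf1]; exact hx u v
  obtain ⟨R⟩ := PlanePerm.exists_frame (sympB d F) sympB_isAlt f hfB one_ne_zero hf
    (Module.finrank F (⊤ : Submodule F (Fin d ⊕ Fin d → F))) ⊤ le_rfl (fun _ _ => Submodule.mem_top)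
    (fun s _ hs => by
      by_contra hc
      push_neg at hc
      exact hs (sympB_nondegenerate.1 s fun w => hc w Submodule.mem_top))
  haveI := R.fin
  let e := Fintype.equivFin R.idx
  let pick : R.idx → Bool := fun i => if f (R.w (i, false)) = R.w (i, false) then true else false
  let fixd : R.idx → Prop := fun i => ∀ a, f (R.w (i, a)) = R.w (i, a)
  let w : R.idx × Bool → (Fin d ⊕ Fin d → F) := fun p =>
    if R.perm p.1 = p.1 then
      if fixd p.1 then R.w p else if p.2 then f (R.w (p.1, pick p.1)) else R.w (p.1, pick p.1)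
    else if e p.1 < e (R.perm p.1) then R.w p else f (R.w (R.perm p.1, p.2))
  let τ : R.idx × Bool → R.idx × Bool := fun p =>
    if R.perm p.1 = p.1 then (if fixd p.1 then p else (p.1, !p.2)) else (R.perm p.1, p.2)
  have hw : ∀ p, w p ∈ PlanePerm.plane R.w F p.1 := by
    rintro ⟨i, a⟩
    have hmem : ∀ b, R.w (i, b) ∈ PlanePerm.plane R.w F i := fun b => Submodule.subset_span ⟨b, rfl⟩
    simp only [w]
    split_ifs with h1 h2 h3 h4
    · exact hmem a
    · have := R.image (i, pick i); rwa [h1] at this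
    · exact hmem _
    · exact hmem a
    · have := R.image (R.perm i, a); rwa [R.invol] at this
  have hBx : ∀ u v, Cfsg.sympForm d F u v = sympB d F u v := fun u v => (sympB_apply u v).symm
  have hplane : ∀ i j, i ≠ j → ∀ u ∈ PlanePerm.plane R.w F i, ∀ v ∈ PlanePerm.plane R.w F j,
      sympB d F u v = 0 := by
    intro i j hij u hu v hv
    induction hu using Submodule.span_induction with
    | mem y hy =>
      obtain ⟨a, rfl⟩ := hy
      induction hv using Submodule.span_induction with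
      | mem z hz => obtain ⟨c, rfl⟩ := hz; exact R.orth i j hij a c
      | zero => simp only [map_zero]
      | add y z _ _ hy hz => simp only [map_add, hy, hz, add_zero]
      | smul c y _ hy => simp only [map_smul, hy, smul_zero]
    | zero => simp only [map_zero, LinearMap.zero_apply]
    | add y z _ _ hy hz => simp only [map_add, LinearMap.add_apply, hy, hz, add_zero]
    | smul c y _ hy => simp only [map_smul, LinearMap.smul_apply, hy, smul_zero]
  have hsymm : ∀ u v, sympB d F u v = sympB d F v u := fun u v => by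
    have h := sympB_isAlt (u + v)
    simp only [map_add, LinearMap.add_apply, sympB_isAlt u, sympB_isAlt v, zero_add, add_zero] at h
    exact (CharTwo.add_eq_zero.1 h).symm
  have hpair : ∀ i, sympB d F (w (i, false)) (w (i, true)) ≠ 0 := by
    intro i
    by_cases h1 : R.perm i = i
    · by_cases h2 : fixd i
      · simpa [w, h1, h2] using R.pair i
      · simp only [w, h1, h2, if_true, if_false, Bool.false_eq_true]
        intro hzero
        set a₀ := pick i with ha₀
        have hmove : f (R.w (i, a₀)) ≠ R.w (i, a₀) := by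
          by_cases hF : f (R.w (i, false)) = R.w (i, false)
          · rw [show a₀ = true by simp [a₀, pick, hF]]
            exact fun hT => h2 fun a => by cases a <;> assumption
          · rw [show a₀ = false by simp [a₀, pick, hF]]; exact hF
        have him := R.image (i, a₀)
        rw [h1] at him
        obtain ⟨c, hc⟩ := (Submodule.mem_span_range_iff_exists_fun F).1 him
        rw [Fintype.sum_bool] at hc
        have hne : sympB d F (R.w (i, a₀)) (R.w (i, !a₀)) ≠ 0 := by
          cases a₀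
          · exact R.pair i
          · rw [hsymm]; exact R.pair i
        have hc' : f (R.w (i, a₀)) = c a₀ • R.w (i, a₀) + c (!a₀) • R.w (i, !a₀) := by
          rw [← hc]; cases a₀ <;> simp [add_comm]
        rw [hc', map_add, map_smul, map_smul, sympB_isAlt, smul_zero, zero_add, smul_eq_mul] at hzero
        rw [(mul_eq_zero.1 hzero).resolve_right hne, zero_smul, add_zero] at hc'
        have h5 := hf (R.w (i, a₀))
        rw [hc', map_smul, hc', smul_smul, one_smul] at h5
        have hu0 : R.w (i, a₀) ≠ 0 := fun h => hne (by rw [h]; simp only [map_zero, LinearMap.zero_apply])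
        have hcc : c a₀ * c a₀ = 1 := smul_left_injective F hu0 (h5.trans (one_smul F _).symm)
        have h6 : (c a₀ + 1) ^ 2 = 0 := by rw [CharTwo.add_sq, sq, hcc, one_pow, CharTwo.add_self_eq_zero]
        rw [CharTwo.add_eq_zero.1 (pow_eq_zero_iff two_ne_zero |>.1 h6), one_smul] at hc'
        exact hmove hc'
    · by_cases h3 : e i < e (R.perm i)
      · simpa [w, h1, h3] using R.pair i
      · simp only [w, h1, h3, if_false]
        rw [hfB]; exact R.pair _
  have horth : ∀ i j, i ≠ j → ∀ a c, sympB d F (w (i, a)) (w (j, c)) = 0 :=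
    fun i j hij a c => hplane i j hij _ (hw (i, a)) _ (hw (j, c))
  have hpair' : ∀ i a, sympB d F (w (i, a)) (w (i, !a)) ≠ 0 := fun i a => by
    cases a
    · exact hpair i
    · rw [hsymm]; exact hpair i
  have hli := li_pairs (sympB d F) sympB_isAlt w horth hpair'
  have hcard : Fintype.card R.idx = d := by
    have hli' := li_pairs (sympB d F) sympB_isAlt R.w R.orth (fun i a => by
      cases a
      · exact R.pair i
      · rw [hsymm]; exact R.pair i)
    have := finrank_span_eq_card hli'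
    rw [R.span_eq, finrank_top, Module.finrank_pi, Fintype.card_prod, Fintype.card_bool,
      Fintype.card_sum, Fintype.card_fin] at this
    omega
  rcases Nat.eq_zero_or_pos d with hd0 | hd0
  · haveI : IsEmpty R.idx := Fintype.card_eq_zero_iff.1 (hcard.trans hd0)
    haveI : IsEmpty (Fin d ⊕ Fin d) := by subst hd0; infer_instance
    exact ⟨R.idx, inferInstance, Module.Basis.empty _, τ, hcard, fun i => isEmptyElim i, fun i => isEmptyElim i,
      fun p => isEmptyElim p.1, fun ho => by subst hd0; simp at ho⟩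
  haveI : Nonempty (R.idx × Bool) := by
    obtain ⟨i⟩ := Fintype.card_pos_iff.1 (hcard ▸ hd0)
    exact ⟨(i, true)⟩
  let b := basisOfLinearIndependentOfCardEqFinrank hli (by simp [hcard, two_mul, mul_two])
  have hb : ∀ p, b p = w p := fun p => by simp [b, coe_basisOfLinearIndependentOfCardEqFinrank]
  refine ⟨R.idx, inferInstance, b, τ, hcard, fun i j hij a c => by rw [hBx, hb, hb]; exact horth i j hij a c,
    fun i => by rw [hBx, hb, hb]; exact hpair i, ?_, fun ho => ?_⟩
  · rintro ⟨i, a⟩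
    rw [hb, hb, ← hf1]
    simp only [w, τ]
    by_cases h1 : R.perm i = i
    · by_cases h2 : fixd i
      · simp [h1, h2, h2 a]
      · cases a <;> simp [h1, h2, hf]
    · have h1' : R.perm (R.perm i) ≠ R.perm i := by rw [R.invol]; exact Ne.symm h1
      by_cases h3 : e i < e (R.perm i)
      · simp [h1, Ne.symm h1, h3, not_lt.2 h3.le, R.invol]
      · have h4 : e (R.perm i) < e i := lt_of_le_of_ne (not_lt.1 h3) fun h => h1 (e.injective h)
        simp [h1, Ne.symm h1, h3, h4, R.invol, hf]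
  · obtain ⟨i₀, hi₀⟩ : ∃ i, R.perm i = i := by
      by_contra hc
      push_neg at hc
      have hev : Even (Fintype.card R.idx) := by
        have h := Finset.sum_involution (s := (Finset.univ : Finset R.idx)) (f := fun _ => (1 : ZMod 2))
          (fun i _ => R.perm i) (fun _ _ => rfl) (fun i _ _ => hc i) (fun i _ => Finset.mem_univ _)
          (fun i _ => R.invol i)
        rw [Finset.sum_const, nsmul_eq_mul, mul_one, ZMod.natCast_eq_zero_iff_even] at h
        exact h
      rw [hcard] at hev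
      exact Nat.not_even_iff_odd.2 ho hev
    refine ⟨i₀, fun p => ?_⟩
    simp only [τ]
    split_ifs with h1 h2
    · rfl
    · rfl
    · exact ⟨fun h => by rw [← R.invol p.1, show R.perm p.1 = i₀ from h, hi₀], fun h => absurd (by rw [h, hi₀]) h1⟩

/-- A form with the given values on a basis. -/
theorem exists_values {α : Type} [Fintype α] (b : Module.Basis α F (Fin d ⊕ Fin d → F)) (t : α → F) :
    ∃ Q' : QuadraticForm F (Fin d ⊕ Fin d → F),
      (∀ u v, QuadraticMap.polar Q' u v = Cfsg.sympForm d F u v) ∧ ∀ p, Q' (b p) = t p := by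
  classical
  choose s hs using fun p => exists_sq_of_two_eq_zero (CharTwo.two_eq_zero (R := F)) (t p + qPlus d F (b p))
  let ℓ := b.constr F s
  refine ⟨qPlus d F + QuadraticMap.linMulLin ℓ ℓ, fun u v => ?_, fun p => ?_⟩
  · simp only [QuadraticMap.polar, QuadraticMap.add_apply, QuadraticMap.linMulLin_apply, map_add,
      coe_qPlus, Cfsg.quadFormPlus, Pi.add_apply, sympForm_eq, add_mul, mul_add, Finset.sum_add_distrib,
      CharTwo.sub_eq_add]
    linear_combination ((∑ i, u (Sum.inl i) * u (Sum.inr i)) + (∑ i, v (Sum.inl i) * v (Sum.inr i)) +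
      ℓ u * ℓ u + ℓ u * ℓ v + ℓ v * ℓ v) * (CharTwo.two_eq_zero (R := F)) +
      (Finset.sum_congr rfl fun i _ => mul_comm (v (Sum.inl i)) (u (Sum.inr i)))
  · simp only [QuadraticMap.add_apply, QuadraticMap.linMulLin_apply, ℓ, b.constr_basis, ← sq, hs]
    rw [add_comm (t p), ← add_assoc, CharTwo.add_self_eq_zero, zero_add]

/-- A form of plus type, and one of minus type when a plane is fixed, preserved by an involution. -/
theorem exists_form {x : GL (Fin d ⊕ Fin d) F} (hx : x ∈ Cfsg.spGL d F)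
    (hsq : ∀ v : (Fin d ⊕ Fin d → F), (x : Matrix (Fin d ⊕ Fin d) (Fin d ⊕ Fin d) F) *ᵥ
      ((x : Matrix (Fin d ⊕ Fin d) (Fin d ⊕ Fin d) F) *ᵥ v) = v) :
    (∃ Q' : QuadraticForm F (Fin d ⊕ Fin d → F), (∀ u v, QuadraticMap.polar Q' u v = Cfsg.sympForm d F u v) ∧
      Cfsg.Geo.IsPlusTypeOn ⇑Q' ⊤ ∧ ∀ v, Q' ((x : Matrix (Fin d ⊕ Fin d) (Fin d ⊕ Fin d) F) *ᵥ v) = Q' v) ∧
    (Odd d → ∃ Q' : QuadraticForm F (Fin d ⊕ Fin d → F), (∀ u v, QuadraticMap.polar Q' u v = Cfsg.sympForm d F u v) ∧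
      ¬ Cfsg.Geo.IsPlusTypeOn ⇑Q' ⊤ ∧ ∀ v, Q' ((x : Matrix (Fin d ⊕ Fin d) (Fin d ⊕ Fin d) F) *ᵥ v) = Q' v) := by
  classical
  obtain ⟨α, hα, b, τ, hcard, horth, hpair, hτ, hfix⟩ := exists_perm_basis hx hsq
  have hinv : ∀ (Q' : QuadraticForm F (Fin d ⊕ Fin d → F)),
      (∀ u v, QuadraticMap.polar Q' u v = Cfsg.sympForm d F u v) →
      (∀ p, Q' (b (τ p)) = Q' (b p)) →
      ∀ v, Q' ((x : Matrix (Fin d ⊕ Fin d) (Fin d ⊕ Fin d) F) *ᵥ v) = Q' v := by
    intro Q' hpol hp v
    refine Submodule.span_induction (p := fun v _ => Q' ((x : Matrix (Fin d ⊕ Fin d) (Fin d ⊕ Fin d) F) *ᵥ v) = Q' v)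
      ?_ ?_ ?_ ?_ (b.mem_span v)
    · rintro _ ⟨p, rfl⟩; rw [hτ]; exact hp p
    · simp
    · intro u w _ _ hu hw
      rw [mulVec_add, QuadraticMap.map_add Q', QuadraticMap.map_add Q', hu, hw, hpol, hpol]
      exact congrArg (_ + ·) (hx u w)
    · intro c u _ hu
      rw [mulVec_smul, QuadraticMap.map_smul, QuadraticMap.map_smul, hu]
  have hV : Module.finrank F (Fin d ⊕ Fin d → F) = 2 * d := by simp [two_mul]
  constructor
  · obtain ⟨Q', hpol, hval⟩ := exists_values b (fun _ => 0)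
    refine ⟨Q', hpol, ⟨Submodule.span F (Set.range fun i => b (i, false)), le_top, ?_, ?_⟩,
      hinv Q' hpol fun p => by rw [hval, hval]⟩
    · intro v hv
      obtain ⟨c, rfl⟩ := (Submodule.mem_span_range_iff_exists_fun F).1 hv
      show Q' _ = 0
      have key : ∀ (s : Finset α), Q' (∑ i ∈ s, c i • b (i, false)) = 0 := by
        intro s
        induction s using Finset.induction_on with
        | empty => simp
        | insert i s hi ih =>
          rw [Finset.sum_insert hi, QuadraticMap.map_add Q', ih, QuadraticMap.map_smul, hval, smul_zero,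
            hpol, ← sympB_apply, map_sum, Finset.sum_eq_zero]
          · simp
          · intro j hj
            rw [map_smul, map_smul, LinearMap.smul_apply, sympB_apply,
              horth i j (fun h => hi (h ▸ hj)), smul_zero, smul_zero]
      exact key Finset.univ
    · rw [finrank_top, hV, finrank_span_eq_card (b := fun i => b (i, false))
        (b.linearIndependent.comp _ fun i j h => (Prod.ext_iff.1 h).1), hcard]
  · intro ho
    obtain ⟨i₀, hi₀⟩ := hfix ho
    obtain ⟨ζ, hζ⟩ := exists_aniso (F := F)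
    obtain ⟨σ, hσ⟩ := exists_sq_of_two_eq_zero (CharTwo.two_eq_zero (R := F)) ζ
    set c₀ := Cfsg.sympForm d F (b (i₀, false)) (b (i₀, true)) with hc₀
    obtain ⟨Q', hpol, hval⟩ := exists_values b (fun p => if p.1 = i₀ then σ * c₀ else 0)
    refine ⟨Q', hpol, fun hplus => ?_, hinv Q' hpol fun p => by simp only [hval, hi₀]⟩
    obtain ⟨U, -, hU, hdim⟩ := hplus
    rw [finrank_top, hV] at hdim
    let j : {i // i ≠ i₀} → α × Bool := fun i => (i.1, false)
    let W := Submodule.span F (Set.range fun i => b (j i))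
    have hcore : IsSingularCore Q' W := by
      have hWmem : ∀ v, v ∈ W ↔ ∀ p : α × Bool, (p.1 = i₀ ∨ p.2 = true) → b.repr v p = 0 := by
        intro v
        constructor
        · intro hv p hp
          induction hv using Submodule.span_induction with
          | mem y hy =>
            obtain ⟨⟨i, hi⟩, rfl⟩ := hy
            rw [b.repr_self, Finsupp.single_eq_of_ne]
            rintro rfl
            rcases hp with h | h
            · exact hi h
            · simp [j] at h
          | zero => simp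
          | add y z _ _ hy hz => simp [hy, hz]
          | smul c y _ hy => simp [hy]
        · intro h
          rw [← b.sum_repr v]
          refine Submodule.sum_mem _ fun p _ => ?_
          by_cases hp : p.1 = i₀ ∨ p.2 = true
          · rw [h p hp, zero_smul]; exact W.zero_mem
          · push_neg at hp
            refine W.smul_mem _ (Submodule.subset_span ⟨⟨p.1, hp.1⟩, ?_⟩)
            show b (p.1, false) = b p
            rw [show (p.1, false) = p from Prod.ext rfl (by simpa using hp.2)]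
      have hzero : ∀ v ∈ W, Q' v = 0 := by
        intro v hv
        induction hv using Submodule.span_induction with
        | mem y hy => obtain ⟨⟨i, hi⟩, rfl⟩ := hy; rw [hval]; exact if_neg hi
        | zero => simp
        | add y z hy' hz' hy hz =>
          rw [QuadraticMap.map_add Q', hy, hz, hpol, ← sympB_apply]
          have : ∀ a ∈ W, ∀ c ∈ W, sympB d F a c = 0 := by
            intro a ha c hc
            induction ha using Submodule.span_induction with
            | mem a ha =>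
              induction hc using Submodule.span_induction with
              | mem c hc =>
                obtain ⟨i, rfl⟩ := ha
                obtain ⟨k, rfl⟩ := hc
                by_cases h : i = k
                · subst h; exact sympB_isAlt _
                · rw [sympB_apply]; exact horth _ _ (fun e => h (Subtype.ext e)) _ _
              | zero => simp only [map_zero]
              | add a c _ _ ha hc => simp only [map_add, ha, hc, add_zero]
              | smul r a _ ha => simp only [map_smul, ha, smul_zero]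
            | zero => simp only [map_zero, LinearMap.zero_apply]
            | add a c _ _ ha hc => simp only [map_add, LinearMap.add_apply, ha, hc, add_zero]
            | smul r a _ ha => simp only [map_smul, LinearMap.smul_apply, ha, smul_zero]
          rw [this y hy' z hz', add_zero, add_zero]
        | smul r y _ hy => rw [QuadraticMap.map_smul, hy, smul_zero]
      refine ⟨hzero, fun v hv hv0 => ?_⟩
      have ht : ∀ i, i ≠ i₀ → b.repr v (i, true) = 0 := by
        intro i hi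
        have h := hv (b (i, false)) (Submodule.subset_span ⟨⟨i, hi⟩, rfl⟩)
        rw [QuadraticMap.polarBilin_apply_apply, hpol, ← sympB_apply, ← b.sum_repr v, map_sum, Finset.sum_eq_single (i, true)] at h
        · rw [map_smul, smul_eq_mul, sympB_apply] at h
          exact (mul_eq_zero.1 h).resolve_right (hpair i)
        · rintro ⟨k, c⟩ _ hkc
          rw [map_smul, smul_eq_mul]
          by_cases hik : i = k
          · subst hik
            obtain rfl : c = false := by cases c <;> first | rfl | exact absurd rfl hkc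
            rw [sympB_isAlt, mul_zero]
          · rw [sympB_apply, horth i k hik, mul_zero]
        · exact fun h' => absurd (Finset.mem_univ _) h'
      set u := b.repr v (i₀, false) • b (i₀, false) + b.repr v (i₀, true) • b (i₀, true) with hu
      have hvu : v - u ∈ W := by
        rw [hWmem]
        rintro ⟨i, a⟩ hp
        rw [map_sub, Finsupp.sub_apply, hu, map_add, Finsupp.add_apply, map_smul, map_smul,
          Finsupp.smul_apply, Finsupp.smul_apply, b.repr_self, b.repr_self, smul_eq_mul, smul_eq_mul]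
        by_cases hi : i = i₀
        · subst hi
          cases a <;> simp [Finsupp.single_apply]
        · have ha : a = true := hp.resolve_left hi
          subst ha
          simp [ht i hi, Finsupp.single_apply, hi, Ne.symm hi]
      have huW : ∀ y ∈ W, Cfsg.sympForm d F u y = 0 := by
        intro y hy
        rw [← sympB_apply]
        induction hy using Submodule.span_induction with
        | mem y hy =>
          obtain ⟨⟨i, hi⟩, rfl⟩ := hy
          simp only [hu, map_add, map_smul, LinearMap.add_apply, LinearMap.smul_apply, sympB_apply,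
            horth i₀ i (Ne.symm hi), j, smul_zero, add_zero]
        | zero => simp only [map_zero]
        | add a c _ _ ha hc => simp only [map_add, ha, hc, add_zero]
        | smul r a _ ha => simp only [map_smul, ha, smul_zero]
      have hQu : Q' u = 0 := by
        have h := QuadraticMap.map_add Q' u (v - u)
        rw [add_sub_cancel, hv0, hzero _ hvu, hpol, huW _ hvu, add_zero, add_zero] at h
        exact h.symm
      rw [hu, QuadraticMap.map_add Q', QuadraticMap.map_smul, QuadraticMap.map_smul, hval, hval,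
        QuadraticMap.polar_smul_left, QuadraticMap.polar_smul_right, hpol, ← hc₀] at hQu
      have h2 := hζ ((σ : F) * b.repr v (i₀, false)) (b.repr v (i₀, true)) (by
        simp only [smul_eq_mul, if_true] at hQu
        have hc0 : c₀ ≠ 0 := hpair i₀
        refine (mul_eq_zero.1 (show c₀ * _ = 0 from ?_)).resolve_left hc0
        linear_combination σ * hQu - c₀ * (b.repr v (i₀, true)) ^ 2 * hσ)
      have hσ0 : σ ≠ 0 := fun h => by
        have := hζ 0 1 (by rw [← hσ, h]; ring)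
        exact one_ne_zero this.2
      have hu0 : u = 0 := by
        rw [hu, (mul_eq_zero.1 h2.1).resolve_left hσ0, h2.2, zero_smul, zero_smul, add_zero]
      rwa [hu0, sub_zero] at hvu
    have h1 := KnownB.finrank_le_of_core hcore hU
    have h2 : Module.finrank F W ≤ Fintype.card {i // i ≠ i₀} := finrank_range_le_card _
    have h3 : Fintype.card {i // i ≠ i₀} < d := hcard ▸ Fintype.card_subtype_lt (x := i₀) (by simp)
    omega

end Cfsg.Agent.GeomClasses.SympQuadPoint

namespace Cfsg.Agent.GeomClasses.SympQuadPoint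

open Matrix Cfsg.Agent.Forms

theorem polar_qPlus {F : Type*} [Field F] [CharP F 2] {d : ℕ} (u v : Fin d ⊕ Fin d → F) :
    QuadraticMap.polar (qPlus d F) u v = Cfsg.sympForm d F u v := by
  simp only [QuadraticMap.polar, coe_qPlus, Cfsg.quadFormPlus, Pi.add_apply, sympForm_eq, add_mul, mul_add,
    Finset.sum_add_distrib, CharTwo.sub_eq_add]
  linear_combination ((∑ i, u (Sum.inl i) * u (Sum.inr i)) + (∑ i, v (Sum.inl i) * v (Sum.inr i))) *
    (CharTwo.two_eq_zero (R := F)) + (Finset.sum_congr rfl fun i _ => mul_comm (v (Sum.inl i)) (u (Sum.inr i)))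

theorem not_scalar {F : Type*} [Field F] [CharP F 2] {d : ℕ} {x : GL (Fin d ⊕ Fin d) F}
    (hx : x ∈ Cfsg.spGL d F) {u w : Fin d ⊕ Fin d → F} (huw : Cfsg.sympForm d F u w ≠ 0)
    (hfix : ∀ v, (x : Matrix (Fin d ⊕ Fin d) (Fin d ⊕ Fin d) F) *ᵥ v = v → Cfsg.sympForm d F u v = 0) (z : F) :
    (x : Matrix (Fin d ⊕ Fin d) (Fin d ⊕ Fin d) F) ≠ z • 1 := by
  intro h
  have h1 : Cfsg.sympForm d F ((x : Matrix (Fin d ⊕ Fin d) (Fin d ⊕ Fin d) F) *ᵥ u) ((x : Matrix (Fin d ⊕ Fin d) (Fin d ⊕ Fin d) F) *ᵥ w) =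
    Cfsg.sympForm d F u w := hx u w
  simp only [h, smul_mulVec, one_mulVec, ← sympB_apply, map_smul, LinearMap.smul_apply, smul_eq_mul,
    ← mul_assoc] at h1
  rw [← sympB_apply] at huw
  have hz : z * z = 1 := mul_right_cancel₀ huw (h1.trans (one_mul _).symm)
  have h3 : (z + 1) ^ 2 = 0 := by rw [CharTwo.add_sq, sq, hz, one_pow, CharTwo.add_self_eq_zero]
  refine huw ((sympB_apply u w).trans (hfix w ?_))
  rw [h, CharTwo.add_eq_zero.1 (pow_eq_zero_iff two_ne_zero |>.1 h3), one_smul, one_mulVec]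

theorem exists_symp_pair {F : Type*} [Field F] {d : ℕ} (hd : 1 ≤ d) :
    ∃ u w : Fin d ⊕ Fin d → F, Cfsg.sympForm d F u w ≠ 0 :=
  ⟨Pi.single (Sum.inr ⟨0, hd⟩) 1, Pi.single (Sum.inl ⟨0, hd⟩) 1, by simp [sympForm_eq, Pi.single_apply]⟩

/-- The element without fixed vectors preserving only a form of minus type. -/
theorem exists_minus_symp {F : Type*} [Field F] [Fintype F] [CharP F 2] {q : ℕ} (hq : Fintype.card F = q)
    {d : ℕ} (hd : 2 ≤ d) {r : ℕ} (hr : r.Prime) (hodd : Odd r) (hdvd : r ∣ q ^ d + 1) :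
    ∃ x ∈ Cfsg.spGL d F, x ^ r = 1 ∧
      (∀ v, (x : Matrix (Fin d ⊕ Fin d) (Fin d ⊕ Fin d) F) *ᵥ v = v → v = 0) ∧
      ∃ Q₀ : QuadraticForm F (Fin d ⊕ Fin d → F), (∀ u v, QuadraticMap.polar Q₀ u v = Cfsg.sympForm d F u v) ∧
        ¬ Cfsg.Geo.IsPlusTypeOn ⇑Q₀ ⊤ ∧
        ∀ v, Q₀ ((x : Matrix (Fin d ⊕ Fin d) (Fin d ⊕ Fin d) F) *ᵥ v) = Q₀ v := by
  obtain ⟨ζ, hζ⟩ := exists_aniso (F := F)
  obtain ⟨x₀, ⟨-, hpres⟩, hxr, hfix⟩ := NonsingPoint.exists_minus_element_core hq hd hr hodd hdvd hζ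
  set N := qMinus (d - 1) F 1 ζ with hN
  have hNnd : (QuadraticMap.polarBilin N).Nondegenerate := qMinus_nondegenerate 1 ζ (disc_ne_zero hζ)
  let e₀ : (Fin (2 * d) → F) ≃ₗ[F] (Fin d ⊕ Fin d → F) :=
    LinearEquiv.ofFinrankEq _ _ (by simp [two_mul])
  let B : LinearMap.BilinForm F (Fin (2 * d) → F) := (sympB d F).compl₁₂ e₀.toLinearMap e₀.toLinearMap
  have hBn : B.Nondegenerate := by
    constructor
    · intro v hv
      refine e₀.map_eq_zero_iff.1 (sympB_nondegenerate.1 _ fun w => ?_)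
      have := hv (e₀.symm w)
      simpa [B] using this
    · intro v hv
      refine e₀.map_eq_zero_iff.1 (sympB_nondegenerate.2 _ fun w => ?_)
      have := hv (e₀.symm w)
      simpa [B] using this
  obtain ⟨e₁, he₁⟩ := exists_isometryEquiv (n := 2 * d) (by simp; omega) (QuadraticMap.polarBilin N)
    (fun v => by
      rw [QuadraticMap.polarBilin_apply_apply, polar_self_two_mul, CharTwo.two_eq_zero, zero_mul])
    hNnd.1 B (fun v => sympB_isAlt (e₀ v)) hBn
  let e := e₁.trans e₀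
  have he : ∀ u v, Cfsg.sympForm d F (e u) (e v) = QuadraticMap.polar N u v := fun u v => by
    rw [← sympB_apply]; exact he₁ u v
  let xe := (e.symm.trans (glEquiv _ F x₀)).trans e
  let x := (glEquiv (Fin d ⊕ Fin d) F).symm xe
  have hx : ∀ v, (x : Matrix (Fin d ⊕ Fin d) (Fin d ⊕ Fin d) F) *ᵥ v =
      e ((x₀ : Matrix _ _ F) *ᵥ e.symm v) := fun v => glEquiv_symm_mulVec xe v
  let Q₀ := N.comp e.symm.toLinearMap
  have hQ₀ : ∀ v, Q₀ v = N (e.symm v) := fun v => rfl
  have hpol : ∀ u v, QuadraticMap.polar Q₀ u v = Cfsg.sympForm d F u v := fun u v => by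
    simp only [QuadraticMap.polar, hQ₀, map_add]
    conv_rhs => rw [← e.apply_symm_apply u, ← e.apply_symm_apply v, he]
    rfl
  have hQx : ∀ v, Q₀ ((x : Matrix (Fin d ⊕ Fin d) (Fin d ⊕ Fin d) F) *ᵥ v) = Q₀ v := fun v => by
    rw [hQ₀, hQ₀, hx, e.symm_apply_apply, hpres]
  refine ⟨x, ((preserves_iff hpol).2 hQx).2, Units.ext (matrix_ext_mulVec fun v => ?_), fun v hv => ?_,
    Q₀, hpol, ?_, hQx⟩
  · have hj : ∀ j : ℕ, ((x ^ j : GL _ F) : Matrix _ _ F) *ᵥ v =
        e (((x₀ ^ j : GL _ F) : Matrix _ _ F) *ᵥ e.symm v) := by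
      intro j
      induction j with
      | zero => simp
      | succ j ih =>
        rw [pow_succ', Units.val_mul, ← mulVec_mulVec, ih, hx, e.symm_apply_apply, pow_succ',
          Units.val_mul, ← mulVec_mulVec]
    rw [hj, hxr]
    simp
  · rw [hx] at hv
    have := congrArg e.symm hv
    rw [e.symm_apply_apply] at this
    exact e.symm.map_eq_zero_iff.1 (hfix _ this)
  · rintro ⟨U, -, hU, hdim⟩
    have h1 := finrank_singular_minus hζ (U := U.map e.symm.toLinearMap) (by
      rintro _ ⟨w, hw, rfl⟩; exact hU w hw)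
    rw [LinearEquiv.finrank_map_eq] at h1
    rw [finrank_top, Module.finrank_pi, Fintype.card_sum, Fintype.card_fin] at hdim
    omega

/-- An involution with totally singular fixed space preserves only forms of plus type. -/
theorem plus_of_ts_fixed {F : Type*} [Field F] [Fintype F] [CharP F 2] {d : ℕ} {x : GL (Fin d ⊕ Fin d) F}
    {Q₀ Q' : QuadraticForm F (Fin d ⊕ Fin d → F)}
    (h0 : ∀ u v, QuadraticMap.polar Q₀ u v = Cfsg.sympForm d F u v)
    (h' : ∀ u v, QuadraticMap.polar Q' u v = Cfsg.sympForm d F u v)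
    (hx0 : ∀ v, Q₀ ((x : Matrix (Fin d ⊕ Fin d) (Fin d ⊕ Fin d) F) *ᵥ v) = Q₀ v)
    (hx' : ∀ v, Q' ((x : Matrix (Fin d ⊕ Fin d) (Fin d ⊕ Fin d) F) *ᵥ v) = Q' v)
    (hsq : x ^ 2 = 1)
    (hfix : ∀ v, (x : Matrix (Fin d ⊕ Fin d) (Fin d ⊕ Fin d) F) *ᵥ v = v → Q₀ v = 0) :
    Cfsg.Geo.IsPlusTypeOn ⇑Q' ⊤ := by
  let n := Matrix.toLin' ((x : Matrix (Fin d ⊕ Fin d) (Fin d ⊕ Fin d) F) - 1)
  have hn : ∀ v, n v = (x : Matrix (Fin d ⊕ Fin d) (Fin d ⊕ Fin d) F) *ᵥ v + v := fun v => by
    rw [Matrix.toLin'_apply, sub_mulVec, one_mulVec]; funext i; simp [CharTwo.sub_eq_add]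
  have hsq' : ∀ v : Fin d ⊕ Fin d → F, (x : Matrix (Fin d ⊕ Fin d) (Fin d ⊕ Fin d) F) *ᵥ
      ((x : Matrix (Fin d ⊕ Fin d) (Fin d ⊕ Fin d) F) *ᵥ v) = v := fun v => by
    rw [mulVec_mulVec, ← Units.val_mul, ← pow_two, hsq, Units.val_one, one_mulVec]
  have hrk : LinearMap.range n ≤ LinearMap.ker n := by
    rintro _ ⟨v, rfl⟩
    rw [LinearMap.mem_ker, hn, hn, mulVec_add, hsq']
    funext i
    simp only [Pi.add_apply, Pi.zero_apply]
    rw [add_comm (v i), CharTwo.add_self_eq_zero]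
  have hker : ∀ v ∈ LinearMap.ker n, Q₀ v = 0 := fun v hv => by
    rw [LinearMap.mem_ker, hn] at hv
    exact hfix v (funext fun i => CharTwo.add_eq_zero.1 (by simpa using congrFun hv i))
  have h3 : Module.finrank F (LinearMap.ker n) ≤ d := by
    have h4 := (isForm_quadratic Q₀ (nondegenerate h0)).finrank_le_of_le_perp (singular_le_perp hker)
    rw [Module.finrank_pi, Fintype.card_sum, Fintype.card_fin] at h4
    omega
  have h1 := Submodule.finrank_mono hrk
  have h2 := LinearMap.finrank_range_add_finrank_ker n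
  rw [Module.finrank_pi, Fintype.card_sum, Fintype.card_fin] at h2
  refine ⟨LinearMap.range n, le_top, ?_, ?_⟩
  · rintro _ ⟨v, rfl⟩
    have hQ0 : Q₀ (n v) = 0 := hker _ (hrk ⟨v, rfl⟩)
    show Q' (n v) = 0
    rw [hn, QuadraticMap.map_add Q₀, hx0, h0] at hQ0
    rw [hn, QuadraticMap.map_add Q', hx', h']
    linear_combination hQ0 + (Q' v - Q₀ v) * (CharTwo.two_eq_zero (R := F))
  · rw [finrank_top, Module.finrank_pi, Fintype.card_sum, Fintype.card_fin]
    omega

end Cfsg.Agent.GeomClasses.SympQuadPoint
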