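import Cfsg.Agent.GeomClasses.TensorDerange
import Cfsg.Agent.GeomClasses.SubspaceDerange

/-!
# Kronecker products with a small moved space
-/

set_option autoImplicit false

namespace Cfsg.Agent.GeomClasses.SympTensorDerange

open Matrix Module Polynomial TensorDerange
open scoped Kronecker

variable {F : Type*} [Field F] {a b : ℕ}

/-- The Kronecker factors of an element of a tensor product subgroup, as a conjugated endomorphism. -/
theorem exists_kron {ι : Type} [Fintype ι] [DecidableEq ι] {e : ι ≃ Fin a × Fin b} {P g : GL ι F}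
    (hg : g ∈ Cfsg.Geo.tensorProductSubgroup a b e P) :
    ∃ (A : GL (Fin a) F) (B : GL (Fin b) F) (Φ : (Fin a × Fin b → F) ≃ₗ[F] (ι → F)),
      Φ.conjAlgEquiv F (Matrix.toLin' ((A : Matrix (Fin a) (Fin a) F) ⊗ₖ (B : Matrix (Fin b) (Fin b) F))) =
        Matrix.toLin' (g : Matrix ι ι F) := by
  obtain ⟨g', hg', rfl⟩ := hg
  obtain ⟨g'', ⟨A, B, hAB⟩, rfl⟩ := hg'
  let Pe : (ι → F) ≃ₗ[F] (ι → F) := LinearEquiv.ofLinearMap (Matrix.toLin' (P : Matrix ι ι F))
    (Matrix.toLin' ((P⁻¹ : GL ι F) : Matrix ι ι F))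
    (by rw [← Matrix.toLin'_mul, ← Units.val_mul, mul_inv_cancel, Units.val_one, Matrix.toLin'_one])
    (by rw [← Matrix.toLin'_mul, ← Units.val_mul, inv_mul_cancel, Units.val_one, Matrix.toLin'_one])
  refine ⟨A, B, (LinearEquiv.funCongrLeft F F e).trans Pe, LinearMap.ext fun v => ?_⟩
  show (P : Matrix ι ι F) *ᵥ ((((A : Matrix (Fin a) (Fin a) F) ⊗ₖ (B : Matrix (Fin b) (Fin b) F)) *ᵥ
    ((((P⁻¹ : GL ι F) : Matrix ι ι F) *ᵥ v) ∘ e.symm)) ∘ e) =
      ((P * Cfsg.Geo.glReindex e.symm g'' * P⁻¹ : GL ι F) : Matrix ι ι F) *ᵥ v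
  rw [Units.val_mul, Units.val_mul, ← hAB, ← Matrix.mulVec_mulVec, ← Matrix.mulVec_mulVec]
  congr 1
  show _ = ((g'' : Matrix (Fin a × Fin b) (Fin a × Fin b) F).submatrix e e) *ᵥ _
  rw [Matrix.submatrix_mulVec_equiv]

/-- Kernel dimensions are those of the Kronecker product. -/
theorem finrank_ker_aeval {ι : Type} [Fintype ι] [DecidableEq ι] {K : Matrix (Fin a × Fin b) (Fin a × Fin b) F}
    {T : Module.End F (ι → F)} {Φ : (Fin a × Fin b → F) ≃ₗ[F] (ι → F)}
    (hΦ : Φ.conjAlgEquiv F (Matrix.toLin' K) = T) (f : F[X]) :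
    finrank F (LinearMap.ker (aeval T f)) + (aeval K f).rank = a * b := by
  have h1 : aeval T f = Φ.conjAlgEquiv F (Matrix.toLin' (aeval K f)) := by
    rw [← hΦ]
    exact (aeval_algHom_apply ((Φ.conjAlgEquiv F).toAlgHom.comp
      (Matrix.toLinAlgEquiv' : Matrix (Fin a × Fin b) (Fin a × Fin b) F ≃ₐ[F] _).toAlgHom) K f)
  have h2 : LinearMap.ker (aeval T f) =
      (LinearMap.ker (Matrix.toLin' (aeval K f))).map (Φ : (Fin a × Fin b → F) →ₗ[F] (ι → F)) := by
    ext v
    rw [h1]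
    constructor
    · intro hv
      exact ⟨Φ.symm v, Φ.map_eq_zero_iff.1 hv, Φ.apply_symm_apply v⟩
    · rintro ⟨w, hw, rfl⟩
      show Φ _ = 0
      simp [LinearMap.mem_ker.1 hw]
  rw [h2, LinearEquiv.finrank_map_eq, add_comm]
  exact (LinearMap.finrank_range_add_finrank_ker (Matrix.toLin' (aeval K f))).trans
    (by rw [Module.finrank_pi, Fintype.card_prod, Fintype.card_fin, Fintype.card_fin])

theorem aeval_one_kron (M : Matrix (Fin b) (Fin b) F) (f : F[X]) :
    aeval ((1 : Matrix (Fin a) (Fin a) F) ⊗ₖ M) f = (1 : Matrix (Fin a) (Fin a) F) ⊗ₖ aeval M f := by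
  induction f using Polynomial.induction_on with
  | C c => simp [Algebra.algebraMap_eq_smul_one, Matrix.kronecker_smul]
  | add P Q hP hQ => rw [map_add, map_add, hP, hQ, Matrix.kronecker_add]
  | monomial k c ih =>
    rw [pow_succ, ← mul_assoc, map_mul, map_mul (aeval M), ih, aeval_X, aeval_X, ← Matrix.mul_kronecker_mul, one_mul]

theorem rank_comm (A : Matrix (Fin a) (Fin a) F) (B : Matrix (Fin b) (Fin b) F) (l : F) :
    (A ⊗ₖ B - l • 1).rank = (B ⊗ₖ A - l • 1).rank := by
  have h : A ⊗ₖ B - l • 1 = (B ⊗ₖ A - l • 1).submatrix (Equiv.prodComm _ _) (Equiv.prodComm _ _) := by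
    ext ⟨x₁, x₂⟩ ⟨y₁, y₂⟩
    simp [Matrix.kroneckerMap_apply, Matrix.one_apply, mul_comm, and_comm]
  rw [h, Matrix.rank_submatrix]

/-- A long cyclic chain of the first factor moves many dimensions. -/
theorem rank_chain {A : Matrix (Fin a) (Fin a) F} {B : Matrix (Fin b) (Fin b) F} (hB : IsUnit B) {u : Fin a → F} {m : ℕ}
    (hu : LinearIndependent F fun k : Fin (m + 1) => (A ^ (k : ℕ)) *ᵥ u) : m * b ≤ (A ⊗ₖ B - 1).rank := by
  obtain ⟨B', hB'⟩ := hB
  have hinjB : Function.Injective B.mulVecLin := fun v w h => by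
    have h' := congrArg (fun y => (↑B'⁻¹ : Matrix (Fin b) (Fin b) F) *ᵥ y) h
    simpa [← hB', Matrix.mulVec_mulVec] using h'
  let T : (Fin m → Fin b → F) →ₗ[F] (Fin a × Fin b → F) :=
    { toFun := fun v => ∑ k : Fin m, fun p => ((A ^ (k : ℕ)) *ᵥ u) p.1 * v k p.2
      map_add' := fun v w => by
        rw [← Finset.sum_add_distrib]; exact Finset.sum_congr rfl fun k _ => funext fun p => by simp [mul_add]
      map_smul' := fun c v => by
        rw [Finset.smul_sum]; exact Finset.sum_congr rfl fun k _ => funext fun p => by simp; ring }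
  have hinj : Function.Injective ((A ⊗ₖ B - 1).mulVecLin ∘ₗ T) := by
    refine (injective_iff_map_eq_zero _).2 fun v hv => ?_
    rw [LinearMap.comp_apply, Matrix.mulVecLin_apply] at hv
    simp only [T, LinearMap.coe_mk, AddHom.coe_mk, Matrix.sub_mulVec, Matrix.one_mulVec, Matrix.mulVec_sum,
      kron_apply_tens, Matrix.mulVec_mulVec, ← pow_succ'] at hv
    have hcoef : ∀ y, (Fin.cons 0 fun k => (B *ᵥ v k) y : Fin (m + 1) → F) - Fin.snoc (fun k => v k y) 0 = 0 := fun y => by
      refine funext (Fintype.linearIndependent_iff.1 hu _ (funext fun x => ?_))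
      have h := congrFun hv (x, y)
      simp only [Pi.sub_apply, Finset.sum_apply, Pi.zero_apply, Pi.smul_apply, smul_eq_mul, sub_mul,
        Finset.sum_sub_distrib] at h ⊢
      rw [Fin.sum_univ_succ]
      simp only [Fin.cons_zero, Fin.cons_succ, zero_mul, zero_add]
      conv_lhs => arg 2; rw [Fin.sum_univ_castSucc]
      simpa [mul_comm] using h
    funext k
    have hdown : ∀ n, ∀ k : Fin m, m ≤ (k : ℕ) + n + 1 → v k = 0 := by
      intro n
      induction n with
      | zero =>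
        intro k hk
        refine hinjB (funext fun y => ?_)
        have h := congrFun (hcoef y) k.succ
        rw [Pi.sub_apply, Fin.cons_succ, show k.succ = Fin.last m from Fin.ext (by simp; omega), Fin.snoc_last, sub_zero] at h
        simpa using h
      | succ n ih =>
        intro k hk
        by_cases hk' : m ≤ (k : ℕ) + n + 1
        · exact ih k hk'
        refine hinjB (funext fun y => ?_)
        have h := congrFun (hcoef y) k.succ
        rw [Pi.sub_apply, Fin.cons_succ, show k.succ = Fin.castSucc (⟨(k : ℕ) + 1, by omega⟩ : Fin m) from Fin.ext rfl,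
          Fin.snoc_castSucc, ih ⟨(k : ℕ) + 1, by omega⟩ (by show m ≤ (k : ℕ) + 1 + n + 1; omega)] at h
        simpa using h
    exact hdown m k (by omega)
  have h := LinearMap.finrank_le_finrank_of_injective (f := LinearMap.codRestrict
    (LinearMap.range (A ⊗ₖ B - 1).mulVecLin) ((A ⊗ₖ B - 1).mulVecLin ∘ₗ T) fun v => ⟨T v, rfl⟩)
    (fun v w h => hinj (congrArg Subtype.val h))
  rw [Module.finrank_pi_fintype, Finset.sum_const, Finset.card_univ, Fintype.card_fin, smul_eq_mul, Module.finrank_pi,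
    Fintype.card_fin] at h
  exact h

variable [Fintype F] {q r i : ℕ} [Fact r.Prime]

/-- A nontrivial element of order dividing `r` has a cyclic chain of length the order of `q`. -/
theorem exists_chain (hq : Fintype.card F = q) (hrq : ¬ r ∣ q) (hrF : (r : F) ≠ 0) (hi : i = orderOf (q : ZMod r))
    {A : Matrix (Fin a) (Fin a) F} (hA : A ^ r = 1) (hne : A ≠ 1) :
    ∃ u : Fin a → F, LinearIndependent F fun k : Fin i => (A ^ (k : ℕ)) *ᵥ u := by
  have hr : r.Prime := Fact.out
  set T : Module.End F (Fin a → F) := Matrix.toLin' A with hTdef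
  have hT : T ^ r = 1 := by rw [hTdef, ← Matrix.toLin'_pow, hA, Matrix.toLin'_one]; rfl
  set R := LinearMap.range (T - 1)
  have hfree : R ⊓ LinearMap.ker (T - 1) = ⊥ := by
    refine le_bot_iff.1 fun y hy => ?_
    obtain ⟨⟨x, rfl⟩, hk⟩ := hy
    rw [Submodule.mem_bot]
    have hfix : T (T x - x) = T x - x := sub_eq_zero.1 hk
    have hpow : ∀ n : ℕ, (T ^ n) x = x + n • (T x - x) := by
      intro n
      induction n with
      | zero => simp
      | succ n ih => rw [pow_succ', Module.End.mul_apply, ih, map_add, map_nsmul, hfix, succ_nsmul]; abel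
    have h := hpow r
    rw [hT, Module.End.one_apply, left_eq_add, ← Nat.cast_smul_eq_nsmul F] at h
    rw [LinearMap.sub_apply, Module.End.one_apply]
    exact (smul_eq_zero.1 h).resolve_left hrF
  have hR : R ≠ ⊥ := fun e => hne (Matrix.toLin'.injective (by
    rw [Matrix.toLin'_one, ← hTdef]; exact sub_eq_zero.1 (LinearMap.range_eq_bot.1 e)))
  obtain ⟨u, hu, hu0⟩ := (Submodule.ne_bot_iff R).1 hR
  refine ⟨u, ?_⟩
  have hpowu : ∀ k, (A ^ k) *ᵥ u = (T ^ k) u := fun k => by rw [hTdef, ← Matrix.toLin'_pow, Matrix.toLin'_apply]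
  simp only [hpowu]
  have hRi : ∀ v ∈ R, T v ∈ R := by
    rintro _ ⟨x, rfl⟩
    exact ⟨T x, by simp only [LinearMap.sub_apply, Module.End.one_apply, map_sub]⟩
  have hTR : ∀ k, (T ^ k) u ∈ R := by
    intro k
    induction k with
    | zero => exact hu
    | succ k ih => rw [pow_succ', Module.End.mul_apply]; exact hRi _ ih
  suffices ∀ m ≤ i, LinearIndependent F fun k : Fin m => (T ^ (k : ℕ)) u from this i le_rfl
  intro m
  induction m with
  | zero => intro _; exact linearIndependent_empty_type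
  | succ m ih =>
    intro hm
    refine linearIndependent_fin_succ'.2 ⟨ih (by omega), fun hmem => ?_⟩
    set W := Submodule.span F (Set.range (Fin.init fun k : Fin (m + 1) => (T ^ (k : ℕ)) u)) with hW
    have hWi : ∀ w ∈ W, T w ∈ W := fun w hw => (show W.map T ≤ W by
      rw [hW, Submodule.map_span_le]
      rintro _ ⟨k, rfl⟩
      show T ((T ^ (k : ℕ)) u) ∈ W
      rw [← Module.End.mul_apply, ← pow_succ']
      by_cases hk : (k : ℕ) + 1 < m
      · exact Submodule.subset_span ⟨⟨(k : ℕ) + 1, hk⟩, rfl⟩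
      · rw [show (k : ℕ) + 1 = m by omega]; exact hmem) ⟨w, hw, rfl⟩
    have hWR : W ≤ R := Submodule.span_le.2 (by rintro _ ⟨k, rfl⟩; exact hTR _)
    have hmod := SubspaceDerange.dim_mod hq hrq hi hT hWi
    rw [show W ⊓ LinearMap.ker (T - 1) = ⊥ from le_bot_iff.1 (hfree ▸ inf_le_inf_right _ hWR), finrank_bot] at hmod
    have hle : finrank F W ≤ m := (finrank_range_le_card _).trans_eq (Fintype.card_fin m)
    have h0 : finrank F W = 0 := Nat.eq_zero_of_dvd_of_lt (Nat.modEq_zero_iff_dvd.1 hmod) (by omega)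
    have hm0 : 0 < m := Nat.pos_of_ne_zero fun e => by
      subst e
      have : (T ^ (0 : ℕ)) u ∈ W := hmem
      rw [Submodule.finrank_eq_zero.1 h0, Submodule.mem_bot] at this
      exact hu0 this
    have : (T ^ (0 : ℕ)) u ∈ W := Submodule.subset_span ⟨⟨0, hm0⟩, rfl⟩
    rw [Submodule.finrank_eq_zero.1 h0, Submodule.mem_bot] at this
    exact hu0 this

/-- An element of order `r` moving one atom lies in no tensor product subgroup with an even factor. -/
theorem not_mem_atom {ι : Type} [Fintype ι] [DecidableEq ι] {e : ι ≃ Fin a × Fin b} {P g : GL ι F}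
    (hq : Fintype.card F = q) (hrq : ¬ r ∣ q) (hrF : (r : F) ≠ 0) (hr2 : r ≠ 2) (hi : i = orderOf (q : ZMod r))
    {c : ℕ} (hc : c = if Even i then i else 2 * i) (ha : Even a) (ha2 : 2 ≤ a) (hb : 3 ≤ b) (hcn : c ≤ a * b) (hgr : g ^ r = 1)
    (hker : finrank F (LinearMap.ker (Matrix.toLin' (g : Matrix ι ι F) - 1)) = a * b - c)
    (hodd : ¬ Even i → ∃ f : F[X], finrank F (LinearMap.ker (aeval (Matrix.toLin' (g : Matrix ι ι F)) f)) = i) :
    g ∉ Cfsg.Geo.tensorProductSubgroup a b e P := by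
  intro hg
  classical
  have hr : r.Prime := Fact.out
  haveI : Nonempty (Fin a) := ⟨⟨0, by omega⟩⟩
  haveI : Nonempty (Fin b) := ⟨⟨0, by omega⟩⟩
  obtain ⟨hi0, -⟩ := SubspaceDerange.dvd_pow_sub_one hrq hi
  have hq1 : 1 < q := hq ▸ Fintype.one_lt_card
  have hmin : ∀ k, 1 ≤ k → k < i → ¬ r ∣ q ^ k - 1 := fun k hk hki h => by
    have h' := (ZMod.natCast_eq_zero_iff _ r).2 h
    rw [Nat.cast_sub (Nat.one_le_pow _ _ (by omega)), Nat.cast_pow, Nat.cast_one, sub_eq_zero] at h'
    have := Nat.le_of_dvd hk (hi ▸ orderOf_dvd_of_pow_eq_one h')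
    omega
  obtain ⟨A, B, Φ, hΦ⟩ := exists_kron hg
  set A₀ := (A : Matrix (Fin a) (Fin a) F)
  set B₀ := (B : Matrix (Fin b) (Fin b) F)
  have hKr : (A₀ ⊗ₖ B₀) ^ r = 1 := by
    refine Matrix.toLin'.injective ((Φ.conjAlgEquiv F).injective ?_)
    rw [Matrix.toLin'_pow, map_pow, hΦ, ← Matrix.toLin'_pow, ← Units.val_pow_eq_pow_val, hgr, Units.val_one,
      Matrix.toLin'_one, Matrix.toLin'_one]
    exact (map_one (Φ.conjAlgEquiv F)).symm.trans (congrArg _ rfl)
  have hrank : (A₀ ⊗ₖ B₀ - 1).rank = c := by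
    have h := finrank_ker_aeval hΦ (X - 1)
    rw [show aeval (Matrix.toLin' (g : Matrix ι ι F)) (X - 1 : F[X]) = Matrix.toLin' (g : Matrix ι ι F) - 1 by simp,
      show aeval (A₀ ⊗ₖ B₀) (X - 1 : F[X]) = A₀ ⊗ₖ B₀ - 1 by simp, hker] at h
    omega
  have hk : ∀ k : ℕ, (A₀ ⊗ₖ B₀) ^ k = (A₀ ^ k) ⊗ₖ (B₀ ^ k) := by
    intro k
    induction k with
    | zero => simp
    | succ k ih => rw [pow_succ, ih, pow_succ, pow_succ, ← Matrix.mul_kronecker_mul]
  have h1 : ∀ {m m' : ℕ} (C : Matrix (Fin m) (Fin m) F) (z : Fin m'), ((1 : Matrix (Fin m') (Fin m') F) ⊗ₖ C) = 1 → C = 1 :=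
    fun C z h => by
      ext x y
      have := congrFun (congrFun h (z, x)) (z, y)
      simpa [Matrix.kroneckerMap_apply, Matrix.one_apply, Prod.ext_iff] using this
  have hc2 : c ≤ 2 * i ∧ 2 ≤ c := by
    rw [hc]; split_ifs with hie
    · obtain ⟨t, ht⟩ := hie; omega
    · omega
  by_cases hA : ∃ s : F, A₀ = s • 1
  · obtain ⟨s, hs⟩ := hA
    set M := s • B₀
    have he : A₀ ⊗ₖ B₀ = (1 : Matrix (Fin a) (Fin a) F) ⊗ₖ M := by
      rw [hs, Matrix.smul_kronecker, Matrix.kronecker_smul]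
    have hMr : M ^ r = 1 := by
      have hk' : ∀ k : ℕ, ((1 : Matrix (Fin a) (Fin a) F) ⊗ₖ M) ^ k = (1 : Matrix (Fin a) (Fin a) F) ⊗ₖ (M ^ k) := by
        intro k
        induction k with
        | zero => simp
        | succ k ih => rw [pow_succ, ih, pow_succ, ← Matrix.mul_kronecker_mul, one_mul]
      rw [he, hk'] at hKr
      exact h1 _ ⟨0, by omega⟩ hKr
    rw [he, show (1 : Matrix (Fin a) (Fin a) F) ⊗ₖ M - 1 = (1 : Matrix (Fin a) (Fin a) F) ⊗ₖ (M - 1) by
      simpa using scalar_kron (a := a) (1 : F) 1 M, rank_one_kron] at hrank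
    have hM1 : M ≠ 1 := fun e => by rw [e, sub_self, Matrix.rank_zero, mul_zero] at hrank; omega
    have hge := rank_ge hq hrq hrF hmin hMr hM1
    have h2 : 2 * (M - 1).rank ≤ a * (M - 1).rank := Nat.mul_le_mul_right _ ha2
    by_cases hie : Even i
    · rw [hc, if_pos hie] at hrank; omega
    obtain ⟨f, hf⟩ := hodd hie
    have h := finrank_ker_aeval hΦ f
    rw [hf, show (A₀ ⊗ₖ B₀) = (1 : Matrix (Fin a) (Fin a) F) ⊗ₖ M from he, aeval_one_kron, rank_one_kron] at h
    obtain ⟨t, ht⟩ := Nat.not_even_iff_odd.1 hie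
    obtain ⟨w, hw⟩ := ha
    rw [hw] at h
    simp only [add_mul] at h
    omega
  push_neg at hA
  by_cases hB : ∃ s : F, B₀ = s • 1
  · obtain ⟨s, hs⟩ := hB
    set M := s • A₀
    have he : B₀ ⊗ₖ A₀ = (1 : Matrix (Fin b) (Fin b) F) ⊗ₖ M := by
      rw [hs, Matrix.smul_kronecker, Matrix.kronecker_smul]
    have hMr : M ^ r = 1 := by
      rw [hk, hs, _root_.smul_pow, one_pow, Matrix.kronecker_smul, ← Matrix.smul_kronecker, ← _root_.smul_pow] at hKr
      ext x y
      have := congrFun (congrFun hKr (x, (⟨0, by omega⟩ : Fin b))) (y, ⟨0, by omega⟩)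
      simpa [Matrix.kroneckerMap_apply, Matrix.one_apply, Prod.ext_iff] using this
    have hrank' := rank_comm A₀ B₀ 1
    rw [one_smul, one_smul, hrank, he, show (1 : Matrix (Fin b) (Fin b) F) ⊗ₖ M - 1 = (1 : Matrix (Fin b) (Fin b) F) ⊗ₖ (M - 1) by
      simpa using scalar_kron (a := b) (1 : F) 1 M, rank_one_kron] at hrank'
    have hM1 : M ≠ 1 := fun e => by rw [e, sub_self, Matrix.rank_zero, mul_zero] at hrank'; omega
    have hge := rank_ge hq hrq hrF hmin hMr hM1
    have h2 : 3 * (M - 1).rank ≤ b * (M - 1).rank := Nat.mul_le_mul_right _ hb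
    omega
  push_neg at hB
  have hge := rank_nonscalar hA (Units.isUnit B) 1
  rw [one_smul, hrank] at hge
  by_cases hi1 : i = 1
  · subst hi1; rw [if_neg (by decide)] at hc; omega
  have hsA : ∃ s : F, A₀ ^ r = s • 1 := by
    by_contra hns
    push_neg at hns
    have := rank_nonscalar hns ((Units.isUnit B).pow r) 1
    rw [← hk, hKr, one_smul, sub_self, Matrix.rank_zero] at this
    omega
  obtain ⟨s, hs⟩ := hsA
  have hs0 : s ≠ 0 := fun e => by
    have := congrArg Matrix.det hs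
    rw [e, zero_smul, Matrix.det_zero, Matrix.det_pow] at this
    exact A.det_ne_zero (eq_zero_of_pow_eq_zero this)
  have hcop : (Nat.card Fˣ).Coprime r := by
    rw [Nat.card_units, Nat.card_eq_fintype_card, hq]
    refine ((hr.coprime_iff_not_dvd).2 ?_).symm
    simpa using hmin 1 le_rfl (by omega)
  obtain ⟨t, ht⟩ := (powCoprime hcop).surjective (Units.mk0 s hs0)
  have ht' : (t : F) ^ r = s := by rw [← Units.val_pow_eq_pow_val]; exact congrArg Units.val ht
  set A' := ((t⁻¹ : Fˣ) : F) • A₀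
  set B' := (t : F) • B₀
  have hAB : A₀ ⊗ₖ B₀ = A' ⊗ₖ B' := by
    rw [Matrix.smul_kronecker, Matrix.kronecker_smul, smul_smul, ← Units.val_mul, inv_mul_cancel, Units.val_one, one_smul]
  have hA'r : A' ^ r = 1 := by
    rw [_root_.smul_pow, hs, smul_smul, ← ht', ← mul_pow, ← Units.val_mul, inv_mul_cancel, Units.val_one, one_pow, one_smul]
  have hB'r : B' ^ r = 1 := by
    rw [hk, hs, Matrix.smul_kronecker, ← Matrix.kronecker_smul, ← ht', ← _root_.smul_pow] at hKr
    exact h1 _ ⟨0, by omega⟩ hKr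
  have hA'1 : A' ≠ 1 := fun e => hA (t : F) (by
    rw [← e, smul_smul, ← Units.val_mul, mul_inv_cancel, Units.val_one, one_smul])
  have hB'1 : B' ≠ 1 := fun e => hB ((t⁻¹ : Fˣ) : F) (by
    rw [← e, smul_smul, ← Units.val_mul, inv_mul_cancel, Units.val_one, one_smul])
  obtain ⟨m, rfl⟩ : ∃ m, i = m + 1 := ⟨i - 1, by omega⟩
  obtain ⟨u, hu⟩ := exists_chain hq hrq hrF hi hA'r hA'1
  obtain ⟨v, hv⟩ := exists_chain hq hrq hrF hi hB'r hB'1
  have r1 := rank_chain (B := B') ((Units.isUnit B).smul (t : Fˣ)) hu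
  have r2 := rank_chain (B := A') ((Units.isUnit A).smul (t⁻¹ : Fˣ)) hv
  have hcomm := rank_comm A' B' 1
  rw [one_smul, one_smul, ← hAB, hrank] at hcomm
  rw [← hAB, hrank] at r1
  rw [← hcomm] at r2
  have hib : m + 1 ≤ b := (rank_ge hq hrq hrF hmin hB'r hB'1).trans ((Matrix.rank_le_card_width _).trans_eq (Fintype.card_fin b))
  have hia : m + 1 ≤ a := (rank_ge hq hrq hrF hmin hA'r hA'1).trans ((Matrix.rank_le_card_width _).trans_eq (Fintype.card_fin a))
  rw [hc] at r1 r2
  split_ifs at r1 r2 with hie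
  · have := Nat.mul_le_mul_left m hb
    obtain ⟨w, hw⟩ := hie
    omega
  · obtain ⟨w, hw⟩ := Nat.not_even_iff_odd.1 hie
    obtain ⟨z, hz⟩ := ha
    have h3 := Nat.mul_le_mul_left m hib
    have h4 := Nat.mul_le_mul_left m hia
    rcases (show m = 2 ∨ 4 ≤ m by omega) with rfl | hm4
    · omega
    · have := Nat.mul_le_mul_right (m + 1) hm4
      omega

end Cfsg.Agent.GeomClasses.SympTensorDerange
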