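import Cfsg.Agent.GeomClasses.SympTensorDerange
import Cfsg.Agent.GeomClasses.SympQuadExt
import Cfsg.Agent.GeomClasses.SympNondeg
import Mathlib.LinearAlgebra.QuadraticForm.Basic

/-!
# Elements with scalar square in tensor product subgroups of symplectic groups
-/

set_option autoImplicit false
set_option linter.unusedSectionVars false

namespace Cfsg.Agent.GeomClasses.SympTensorInvolution

open Module Matrix SympStructure Cfsg.Agent.Forms
open scoped Kronecker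

variable {F : Type*} [Field F] [Fintype F] {d b : ℕ}

local notation "Vd" => (Fin d ⊕ Fin d → F)
local notation "Mx" => Matrix (Fin d ⊕ Fin d) (Fin d ⊕ Fin d) F
local notation "BB" => sympB d F

/-- Involutive isometries with fixed spaces of equal dimension are conjugate. -/
theorem exists_conj {T T' : Module.End F Vd} (h2 : (2 : F) ≠ 0) (hTB : ∀ x y, BB (T x) (T y) = BB x y)
    (hTB' : ∀ x y, BB (T' x) (T' y) = BB x y) (hT : ∀ v, T (T v) = v) (hT' : ∀ v, T' (T' v) = v)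
    (hd : finrank F (LinearMap.ker (T - 1)) = finrank F (LinearMap.ker (T' - 1))) :
    ∃ g ∈ Cfsg.spGL d F, ∀ v, (g : Mx) *ᵥ (T v) = T' ((g : Mx) *ᵥ v) := by
  classical
  have hA : (BB).IsAlt := sympB_isAlt
  have hB : (BB).Nondegenerate := sympB_nondegenerate
  have hfix : ∀ S : Module.End F Vd, (∀ x y, BB (S x) (S y) = BB x y) → (∀ v, S (S v) = v) →
      Nd BB (LinearMap.ker (S - 1)) ∧ ∀ v ∈ (BB).orthogonal (LinearMap.ker (S - 1)), S v = -v := by
    intro S hSB hS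
    have hKn : Nd BB (LinearMap.ker (S - 1)) := by
      have := nd_fixed (r := 2) hA hSB (T := S) (LinearMap.ext fun v => by rw [pow_two]; exact hS v)
        (by exact_mod_cast h2) (W := ⊤) (fun _ _ => trivial) (nd_top hB)
      rwa [top_inf_eq] at this
    refine ⟨hKn, fun v hv => eq_neg_iff_add_eq_zero.2 ?_⟩
    have h1 : S v + v ∈ LinearMap.ker (S - 1) := by
      show (S - 1) _ = 0
      rw [LinearMap.sub_apply, map_add, hS, Module.End.one_apply]; abel
    exact Submodule.disjoint_def.1 (nd_isCompl hA hKn).disjoint _ h1 (add_mem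
      (orth_invariant hSB (fun a b h => by rw [← hS a, h, hS]) (fun w hw => by
        rwa [show S w = w from sub_eq_zero.1 hw]) v hv) hv)
  obtain ⟨hKn, hneg⟩ := hfix T hTB hT
  obtain ⟨hKn', hneg'⟩ := hfix T' hTB' hT'
  set W₀ := LinearMap.ker (T - 1)
  set W := LinearMap.ker (T' - 1)
  obtain ⟨a, ha⟩ := nd_even hA hKn
  have hres : ∀ X : Submodule F Vd, Nd BB X → finrank F X = a + a →
      ∃ e : X ≃ₗ[F] (Fin a ⊕ Fin a → F), ∀ x y, sympB a F (e x) (e y) = BB (x : Vd) (y : Vd) := by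
    intro X hX hXd
    let L : (Fin a ⊕ Fin a → F) ≃ₗ[F] (Fin (a + a) → F) := LinearEquiv.funCongrLeft F F finSumFinEquiv.symm
    obtain ⟨e, he⟩ := exists_isometryEquiv (n := a + a) hXd ((BB).restrict X)
      (fun x => hA _) (fun x hx => Subtype.ext (hX x x.2 fun y hy => hx ⟨y, hy⟩))
      ((sympB a F).compl₁₂ L.symm.toLinearMap L.symm.toLinearMap) (fun x => sympB_isAlt _)
      ⟨fun x hx => L.symm.map_eq_zero_iff.1 (sympB_nondegenerate.1 _ fun y => by simpa using hx (L y)),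
        fun x hx => L.symm.map_eq_zero_iff.1 (sympB_nondegenerate.2 _ fun y => by simpa using hx (L y))⟩
    exact ⟨e.trans L.symm, fun x y => he x y⟩
  obtain ⟨e₀, he₀⟩ := hres W₀ hKn ha
  obtain ⟨e₁, he₁⟩ := hres W hKn' (hd.symm.trans ha)
  obtain ⟨g, hg⟩ := isForm_symp.exists_isom_extend W₀ (W.subtype ∘ₗ (e₀.trans e₁.symm).toLinearMap)
    (W.injective_subtype.comp (e₀.trans e₁.symm).injective)
    (fun x y => by
      show BB ((e₁.symm (e₀ x) : W) : _) ((e₁.symm (e₀ y) : W) : _) = _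
      rw [← he₁, LinearEquiv.apply_symm_apply, LinearEquiv.apply_symm_apply, he₀]) (fun x => rfl)
  obtain ⟨g', hg', hge⟩ := SympQuadExt.exists_gl g.1 g.2.1
  refine ⟨g', hg', fun v => ?_⟩
  rw [hge, hge]
  have hgK : ∀ x ∈ W₀, g.1 x ∈ W := fun x hx => by
    rw [hg ⟨x, hx⟩]; exact Submodule.coe_mem _
  have hmap : W₀.map (g.1 : Vd →ₗ[F] Vd) = W := Submodule.eq_of_le_of_finrank_eq
    (by rintro _ ⟨x, hx, rfl⟩; exact hgK x hx) ((LinearEquiv.finrank_map_eq _ _).trans hd)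
  have hgR : ∀ x ∈ (BB).orthogonal W₀, g.1 x ∈ (BB).orthogonal W := fun x hx w hw => by
    rw [← hmap] at hw
    obtain ⟨u, hu, rfl⟩ := hw
    show BB (g.1 u) (g.1 x) = 0
    rw [g.2.1]
    exact hx u hu
  obtain ⟨x, hx, y, hy, rfl⟩ := Submodule.mem_sup.1
    ((nd_isCompl hA hKn).sup_eq_top ▸ Submodule.mem_top : v ∈ W₀ ⊔ (BB).orthogonal W₀)
  rw [map_add, map_add, map_add, map_add, show T x = x from sub_eq_zero.1 hx, hneg y hy, map_neg,
    show T' (g.1 x) = g.1 x from sub_eq_zero.1 (hgK x hx), hneg' _ (hgR y hy)]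

variable {f₁ : (Fin 2 → F) → (Fin 2 → F) → F} {f₂ : (Fin b → F) → (Fin b → F) → F}
  {e : (Fin d ⊕ Fin d) ≃ Fin 2 × Fin b} {P : GL (Fin d ⊕ Fin d) F}

theorem gram_two (hf₁ : Cfsg.Geo.IsSymplecticForm f₁) (A : Matrix (Fin 2) (Fin 2) F) :
    Aᵀ * Cfsg.Geo.gramMatrix f₁ * A = A.det • Cfsg.Geo.gramMatrix f₁ := by
  have h0 : ∀ i, Cfsg.Geo.gramMatrix f₁ i i = 0 := fun i => hf₁.alternating _
  have h1 : Cfsg.Geo.gramMatrix f₁ 1 0 = -Cfsg.Geo.gramMatrix f₁ 0 1 := hf₁.skew _ _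
  ext i j
  fin_cases i <;> fin_cases j <;> simp [Matrix.mul_apply, Matrix.det_fin_two, Fin.sum_univ_two, h0, h1] <;> ring

/-- A Kronecker product of isometries gives an element of the tensor product subgroup. -/
theorem exists_elem (hS : Cfsg.Geo.IsTensorFormStructure id (Cfsg.sympForm d F) f₁ f₂ e P)
    (A : GL (Fin 2) F) (B : GL (Fin b) F)
    (hA : (A : Matrix (Fin 2) (Fin 2) F)ᵀ * Cfsg.Geo.gramMatrix f₁ * (A : Matrix (Fin 2) (Fin 2) F) = Cfsg.Geo.gramMatrix f₁)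
    (hB : (B : Matrix (Fin b) (Fin b) F)ᵀ * Cfsg.Geo.gramMatrix f₂ * (B : Matrix (Fin b) (Fin b) F) = Cfsg.Geo.gramMatrix f₂) :
    ∃ y ∈ Cfsg.Geo.tensorProductSubgroup 2 b e P, y ∈ Cfsg.spGL d F ∧
      ∃ Φ : (Fin 2 × Fin b → F) ≃ₗ[F] Vd, Φ.conjAlgEquiv F
        (Matrix.toLin' ((A : Matrix (Fin 2) (Fin 2) F) ⊗ₖ (B : Matrix (Fin b) (Fin b) F))) = Matrix.toLin' (y : Mx) := by
  classical
  let K : GL (Fin 2 × Fin b) F := ⟨(A : Matrix (Fin 2) (Fin 2) F) ⊗ₖ (B : Matrix (Fin b) (Fin b) F),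
    ((A⁻¹ : GL (Fin 2) F) : Matrix (Fin 2) (Fin 2) F) ⊗ₖ ((B⁻¹ : GL (Fin b) F) : Matrix (Fin b) (Fin b) F),
    by rw [← Matrix.mul_kronecker_mul, ← Units.val_mul, ← Units.val_mul, mul_inv_cancel, mul_inv_cancel]; simp,
    by rw [← Matrix.mul_kronecker_mul, ← Units.val_mul, ← Units.val_mul, inv_mul_cancel, inv_mul_cancel]; simp⟩
  set y := P * Cfsg.Geo.glReindex e.symm K * P⁻¹ with hy
  obtain ⟨c, hc0, hc⟩ := hS
  let Pe : Vd ≃ₗ[F] Vd := LinearEquiv.ofLinearMap (Matrix.toLin' (P : Mx)) (Matrix.toLin' ((P⁻¹ : GL (Fin d ⊕ Fin d) F) : Mx))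
    (by rw [← Matrix.toLin'_mul, ← Units.val_mul, mul_inv_cancel, Units.val_one, Matrix.toLin'_one])
    (by rw [← Matrix.toLin'_mul, ← Units.val_mul, inv_mul_cancel, Units.val_one, Matrix.toLin'_one])
  let Φ : (Fin 2 × Fin b → F) ≃ₗ[F] Vd := (LinearEquiv.funCongrLeft F F e).trans Pe
  have hΦ : ∀ z, Φ z = (P : Mx) *ᵥ (z ∘ e) := fun z => rfl
  have hyΦ : ∀ z, (y : Mx) *ᵥ Φ z = Φ ((K : Matrix (Fin 2 × Fin b) (Fin 2 × Fin b) F) *ᵥ z) := fun z => by
    rw [hΦ, hΦ, hy, Units.val_mul, Units.val_mul, ← Matrix.mulVec_mulVec, ← Matrix.mulVec_mulVec,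
      Matrix.mulVec_mulVec _ ((P⁻¹ : GL (Fin d ⊕ Fin d) F) : Mx), ← Units.val_mul, inv_mul_cancel, Units.val_one,
      Matrix.one_mulVec]
    congr 1
    show ((K : Matrix (Fin 2 × Fin b) (Fin 2 × Fin b) F).submatrix e e) *ᵥ _ = _
    rw [Matrix.submatrix_mulVec_equiv, Function.comp_assoc, e.self_comp_symm, Function.comp_id]
  refine ⟨y, ⟨_, ⟨K, ⟨A, B, rfl⟩, rfl⟩, rfl⟩, mem_spGL_iff.2 fun u v => ?_, Φ, LinearMap.ext fun v => ?_⟩
  · obtain ⟨u, rfl⟩ := Φ.surjective u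
    obtain ⟨v, rfl⟩ := Φ.surjective v
    rw [hyΦ, hyΦ]
    simp only [hΦ, sympB_apply, hc]
    congr 1
    set G := Cfsg.Geo.gramMatrix f₁ ⊗ₖ Cfsg.Geo.gramMatrix f₂
    have hG : ∀ x y, Cfsg.Geo.formOfGram id G x y = x ⬝ᵥ (G *ᵥ y) := fun x y => by
      simp [Cfsg.Geo.formOfGram, dotProduct, Matrix.mulVec, Finset.mul_sum, mul_assoc]
    rw [hG, hG, Matrix.mulVec_mulVec, Matrix.dotProduct_mulVec, ← Matrix.mulVec_transpose, Matrix.mulVec_mulVec,
      Matrix.dotProduct_mulVec u, ← Matrix.mulVec_transpose]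
    congr 2
    show (G * ((A : Matrix (Fin 2) (Fin 2) F) ⊗ₖ (B : Matrix (Fin b) (Fin b) F)))ᵀ *
      ((A : Matrix (Fin 2) (Fin 2) F) ⊗ₖ (B : Matrix (Fin b) (Fin b) F)) = Gᵀ
    rw [← Matrix.transpose_transpose ((A : Matrix (Fin 2) (Fin 2) F) ⊗ₖ (B : Matrix (Fin b) (Fin b) F)),
      ← Matrix.transpose_mul, Matrix.transpose_transpose, ← mul_assoc, Matrix.transpose_inj,
      show ((A : Matrix (Fin 2) (Fin 2) F) ⊗ₖ (B : Matrix (Fin b) (Fin b) F))ᵀ =
        (A : Matrix (Fin 2) (Fin 2) F)ᵀ ⊗ₖ (B : Matrix (Fin b) (Fin b) F)ᵀ from (Matrix.kroneckerMap_transpose _ _ _).symm,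
      ← Matrix.mul_kronecker_mul, ← Matrix.mul_kronecker_mul, hA, hB]
  · obtain ⟨z, rfl⟩ := Φ.surjective v
    rw [Matrix.toLin'_apply, hyΦ]
    show Φ (_ *ᵥ Φ.symm (Φ z)) = _
    rw [Φ.symm_apply_apply]

/-- Orthogonal involutions with any moved dimension. -/
theorem exists_reflection (h2 : (2 : F) ≠ 0) (hf₂ : Cfsg.Geo.IsSymmetricForm f₂) {s : ℕ} (hs : s ≤ b) :
    ∃ R : Matrix (Fin b) (Fin b) F, R * R = 1 ∧ Rᵀ * Cfsg.Geo.gramMatrix f₂ * R = Cfsg.Geo.gramMatrix f₂ ∧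
      (R - 1).rank = s := by
  classical
  haveI : Invertible (2 : F) := invertibleOfNonzero h2
  let B₂ : LinearMap.BilinForm F (Fin b → F) := LinearMap.mk₂ F f₂ hf₂.bilinear.add_left hf₂.bilinear.smul_left
    (fun a b c => hf₂.bilinear.add_right a b c) (fun c a b => hf₂.bilinear.smul_right c a b)
  obtain ⟨v, hv⟩ := LinearMap.BilinForm.exists_orthogonal_basis (B := B₂) ⟨fun x y => hf₂.symm x y⟩
  have hfr : finrank F (Fin b → F) = b := Module.finrank_fin_fun F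
  let w := v.reindex (finCongr hfr)
  have hw : ∀ k l, k ≠ l → B₂ (w k) (w l) = 0 := fun k l hkl => by
    simp only [w, Basis.reindex_apply]
    exact hv fun h => hkl ((finCongr hfr).symm.injective h)
  let S : Module.End F (Fin b → F) := w.constr F fun k => (if (k : ℕ) < s then (-1 : F) else 1) • w k
  have hS : ∀ k, S (w k) = (if (k : ℕ) < s then (-1 : F) else 1) • w k := fun k => w.constr_basis F _ k
  have hSS : S * S = 1 := w.ext fun k => by
    rw [Module.End.mul_apply, hS, map_smul, hS, smul_smul, Module.End.one_apply]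
    split_ifs <;> simp
  have hSB : B₂.compl₁₂ S S = B₂ := w.ext fun k => w.ext fun l => by
    rw [LinearMap.compl₁₂_apply, hS, hS, map_smul, map_smul, LinearMap.smul_apply, smul_eq_mul, smul_eq_mul]
    by_cases hkl : k = l
    · subst hkl; split_ifs <;> ring
    · rw [hw k l hkl]; ring
  have hG : Cfsg.Geo.gramMatrix f₂ = LinearMap.BilinForm.toMatrix' B₂ := by
    ext x y; rfl
  refine ⟨LinearMap.toMatrix' S, ?_, ?_, ?_⟩
  · rw [← LinearMap.toMatrix'_mul, hSS]; exact LinearMap.toMatrix'_id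
  · rw [hG, ← LinearMap.BilinForm.toMatrix'_comp]
    exact congrArg _ hSB
  · have hrange : LinearMap.range (S - 1) = Submodule.span F (Set.range fun k : Fin s => w (Fin.castLE hs k)) := by
      refine le_antisymm ?_ (Submodule.span_le.2 ?_)
      · rintro _ ⟨x, rfl⟩
        rw [← w.sum_repr x, map_sum]
        refine Submodule.sum_mem _ fun k _ => ?_
        rw [map_smul]
        refine Submodule.smul_mem _ _ ?_
        rw [LinearMap.sub_apply, hS, Module.End.one_apply]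
        split_ifs with hk
        · exact sub_mem (Submodule.smul_mem _ _ (Submodule.subset_span ⟨⟨k, hk⟩, rfl⟩))
            (Submodule.subset_span ⟨⟨k, hk⟩, rfl⟩)
        · rw [one_smul, sub_self]; exact zero_mem _
      · rintro _ ⟨k, rfl⟩
        refine ⟨(-2 : F)⁻¹ • w (Fin.castLE hs k), ?_⟩
        rw [map_smul, LinearMap.sub_apply, hS, Module.End.one_apply, if_pos (by exact k.2), neg_smul, one_smul,
          show -w (Fin.castLE hs k) - w (Fin.castLE hs k) = (-2 : F) • w (Fin.castLE hs k) by module,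
          inv_smul_smul₀ (neg_ne_zero.2 h2)]
    show finrank F (LinearMap.range (LinearMap.toMatrix' S - 1).mulVecLin) = s
    rw [show (LinearMap.toMatrix' S - 1).mulVecLin = S - 1 from LinearMap.ext fun x => by
      simp [Matrix.sub_mulVec, LinearMap.toMatrix'_mulVec], hrange]
    exact (finrank_span_eq_card (w.linearIndependent.comp _ (Fin.castLE_injective hs))).trans (Fintype.card_fin s)

end Cfsg.Agent.GeomClasses.SympTensorInvolution
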