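import Cfsg.Agent.GeomClasses.PolarPairDerange
import Cfsg.Agent.GeomClasses.SympFormDerange
import Cfsg.Agent.GeomClasses.EigenBasisTwo
import Cfsg.Prelude.Def_GeometricClasses

/-!
Ranks of Kronecker products and elements conjugate into tensor product subgroups.
-/

set_option autoImplicit false

namespace Cfsg.Agent.GeomClasses.TensorDerange

open Matrix
open scoped Kronecker

variable {F : Type*} [Field F] {a b n : ℕ}

theorem kron_apply_tens (A : Matrix (Fin a) (Fin a) F) (B : Matrix (Fin b) (Fin b) F) (u : Fin a → F) (v : Fin b → F) :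
    (A ⊗ₖ B) *ᵥ (fun p => u p.1 * v p.2) = fun p => (A *ᵥ u) p.1 * (B *ᵥ v) p.2 := by
  funext p
  simp only [Matrix.mulVec, dotProduct, Matrix.kroneckerMap_apply, Fintype.sum_prod_type, Finset.sum_mul_sum]
  exact Finset.sum_congr rfl fun i _ => Finset.sum_congr rfl fun j _ => by ring

theorem exists_indep {A : Matrix (Fin a) (Fin a) F} (hA : ∀ c : F, A ≠ c • 1) :
    ∃ u : Fin a → F, ∀ s t : F, s • (A *ᵥ u) + t • u = 0 → s = 0 ∧ t = 0 := by
  by_contra hc
  push_neg at hc
  have heig : ∀ u : Fin a → F, u ≠ 0 → ∃ c : F, A *ᵥ u = c • u := by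
    intro u hu
    obtain ⟨s, t, h, hst⟩ := hc u
    by_cases hs : s = 0
    · subst hs
      rw [zero_smul, zero_add] at h
      exact absurd ((smul_eq_zero.1 h).resolve_left (hst rfl)) hu
    · refine ⟨-(t / s), ?_⟩
      have := congrArg (fun y => s⁻¹ • y) h
      simp only [smul_add, smul_smul, inv_mul_cancel₀ hs, one_smul, smul_zero] at this
      rw [eq_neg_of_add_eq_zero_left this, neg_smul, div_eq_inv_mul]
  obtain ⟨c, hc'⟩ : ∃ c : F, ∀ i, A *ᵥ Pi.single i 1 = c • (Pi.single i 1 : Fin a → F) := by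
    choose c hc' using fun i => heig (Pi.single i 1) (fun e => one_ne_zero (α := F) (by simpa using congrFun e i))
    rcases isEmpty_or_nonempty (Fin a) with he | ⟨⟨i₀⟩⟩
    · exact ⟨0, fun i => he.elim i⟩
    refine ⟨c i₀, fun i => ?_⟩
    by_cases hi : i = i₀
    · rw [hi]; exact hc' i₀
    obtain ⟨d, hd⟩ := heig (Pi.single i 1 + Pi.single i₀ 1) (fun e => one_ne_zero (α := F) (by
      simpa [Pi.single_eq_of_ne hi] using congrFun e i))
    rw [Matrix.mulVec_add, hc', hc', smul_add] at hd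
    have e1 := congrFun hd i
    have e2 := congrFun hd i₀
    simp [Pi.single_eq_of_ne hi, Pi.single_eq_of_ne (Ne.symm hi)] at e1 e2
    rw [hc', e1, ← e2]
  refine hA c (Matrix.toLin'.injective ((Pi.basisFun F (Fin a)).ext fun i => ?_))
  simp only [Pi.basisFun_apply, Matrix.toLin'_apply, Matrix.smul_mulVec, Matrix.one_mulVec, hc']

theorem rank_nonscalar {A : Matrix (Fin a) (Fin a) F} {B : Matrix (Fin b) (Fin b) F} (hA : ∀ c : F, A ≠ c • 1)
    (hB : IsUnit B) (l : F) : b ≤ (A ⊗ₖ B - l • 1).rank := by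
  obtain ⟨u, hu⟩ := exists_indep hA
  let T : (Fin b → F) →ₗ[F] (Fin a × Fin b → F) :=
    { toFun := fun v p => u p.1 * v p.2
      map_add' := fun v w => funext fun p => by simp [mul_add]
      map_smul' := fun c v => funext fun p => by simp; ring }
  have hT : ∀ v, (A ⊗ₖ B - l • 1).mulVecLin (T v) = fun p => (A *ᵥ u) p.1 * (B *ᵥ v) p.2 - l * (u p.1 * v p.2) := fun v => by
    rw [Matrix.mulVecLin_apply, Matrix.sub_mulVec, Matrix.smul_mulVec, Matrix.one_mulVec,
      show T v = fun p => u p.1 * v p.2 from rfl, kron_apply_tens]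
    rfl
  have hinj : Function.Injective ((A ⊗ₖ B - l • 1).mulVecLin ∘ₗ T) := by
    refine (injective_iff_map_eq_zero _).2 fun v hv => ?_
    rw [LinearMap.comp_apply, hT] at hv
    have hBv : B *ᵥ v = 0 := funext fun j => by
      refine (hu ((B *ᵥ v) j) (-(l * v j)) (funext fun i => ?_)).1
      have := congrFun hv (i, j)
      simp at this ⊢
      linear_combination this
    obtain ⟨B', hB'⟩ := hB
    have := congrArg (fun w => (↑B'⁻¹ : Matrix (Fin b) (Fin b) F) *ᵥ w) hBv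
    simpa [← hB', Matrix.mulVec_mulVec] using this
  have := LinearMap.finrank_le_finrank_of_injective (f := LinearMap.codRestrict
    (LinearMap.range (A ⊗ₖ B - l • 1).mulVecLin) ((A ⊗ₖ B - l • 1).mulVecLin ∘ₗ T) fun v => ⟨T v, rfl⟩)
    (fun v w h => hinj (congrArg Subtype.val h))
  rwa [Module.finrank_pi, Fintype.card_fin] at this

theorem rank_one_kron (M : Matrix (Fin b) (Fin b) F) :
    ((1 : Matrix (Fin a) (Fin a) F) ⊗ₖ M).rank = a * M.rank := by
  have hmul : ∀ z i j, (((1 : Matrix (Fin a) (Fin a) F) ⊗ₖ M) *ᵥ z) (i, j) = (M *ᵥ fun j' => z (i, j')) j := by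
    intro z i j
    simp only [Matrix.mulVec, dotProduct, Matrix.kroneckerMap_apply, Fintype.sum_prod_type]
    rw [Finset.sum_eq_single i]
    · simp
    · intro k _ hk; simp [Ne.symm hk]
    · simp
  let e : LinearMap.ker ((1 : Matrix (Fin a) (Fin a) F) ⊗ₖ M).mulVecLin ≃ₗ[F] (Fin a → LinearMap.ker M.mulVecLin) :=
    { toFun := fun z i => ⟨fun j => (z : Fin a × Fin b → F) (i, j), by
        have hz : ((1 : Matrix (Fin a) (Fin a) F) ⊗ₖ M) *ᵥ (z : Fin a × Fin b → F) = 0 := z.2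
        refine funext fun j => ?_
        have := congrFun hz (i, j)
        rwa [hmul] at this⟩
      map_add' := fun z w => funext fun i => Subtype.ext rfl
      map_smul' := fun c z => funext fun i => Subtype.ext rfl
      invFun := fun w => ⟨fun p => (w p.1 : Fin b → F) p.2, funext fun p => by
        obtain ⟨i, j⟩ := p
        rw [Matrix.mulVecLin_apply, hmul]
        exact congrFun (show M *ᵥ (w i : Fin b → F) = 0 from (w i).2) j⟩
      left_inv := fun z => Subtype.ext (funext fun p => rfl)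
      right_inv := fun w => funext fun i => Subtype.ext rfl }
  have h1 := LinearMap.finrank_range_add_finrank_ker ((1 : Matrix (Fin a) (Fin a) F) ⊗ₖ M).mulVecLin
  have h2 := LinearMap.finrank_range_add_finrank_ker M.mulVecLin
  rw [e.finrank_eq, Module.finrank_pi_fintype, Finset.sum_const, Finset.card_univ, Fintype.card_fin, smul_eq_mul,
    Module.finrank_pi, Fintype.card_prod, Fintype.card_fin, Fintype.card_fin] at h1
  rw [Module.finrank_pi, Fintype.card_fin] at h2
  show Module.finrank F (LinearMap.range _) = a * Module.finrank F (LinearMap.range _)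
  have h3 := congrArg (a * ·) h2
  simp only [mul_add] at h3
  omega

theorem scalar_kron (c l : F) (B : Matrix (Fin b) (Fin b) F) :
    (c • (1 : Matrix (Fin a) (Fin a) F)) ⊗ₖ B - l • 1 = (1 : Matrix (Fin a) (Fin a) F) ⊗ₖ (c • B - l • 1) := by
  ext p q
  simp [Matrix.kroneckerMap_apply, Matrix.one_apply, Prod.ext_iff]
  split_ifs <;> simp_all
  all_goals ring

/-- The ranks attached to an element of a tensor product subgroup. -/
theorem ranks_of_mem [Fintype F] {e : Fin n ≃ Fin a × Fin b} {P g : GL (Fin n) F} (hg : g ∈ Cfsg.Geo.tensorProductSubgroup a b e P) :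
    ∃ (A : GL (Fin a) F) (B : GL (Fin b) F),
      (∀ l : F, ((g : Matrix (Fin n) (Fin n) F) - l • 1).rank =
        ((A : Matrix (Fin a) (Fin a) F) ⊗ₖ (B : Matrix (Fin b) (Fin b) F) - l • 1).rank) ∧
      (∀ r : ℕ, g ^ r = 1 → ((A : Matrix (Fin a) (Fin a) F) ⊗ₖ (B : Matrix (Fin b) (Fin b) F)) ^ r = 1) := by
  obtain ⟨g', hg', rfl⟩ := hg
  obtain ⟨g'', ⟨A, B, hAB⟩, rfl⟩ := hg'
  refine ⟨A, B, fun l => ?_, fun r hr => ?_⟩
  · have hconj : ((P * Cfsg.Geo.glReindex e.symm g'' * P⁻¹ : GL (Fin n) F) : Matrix (Fin n) (Fin n) F) =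
        (P : Matrix (Fin n) (Fin n) F) * (((A : Matrix (Fin a) (Fin a) F) ⊗ₖ (B : Matrix (Fin b) (Fin b) F)).submatrix e e) *
          ((P⁻¹ : GL (Fin n) F) : Matrix (Fin n) (Fin n) F) := by
      rw [Units.val_mul, Units.val_mul, ← hAB]; rfl
    show (((P * Cfsg.Geo.glReindex e.symm g'' * P⁻¹ : GL (Fin n) F) : Matrix (Fin n) (Fin n) F) - l • 1).rank = _
    rw [SympFormDerange.rank_conj (x := ((A : Matrix (Fin a) (Fin a) F) ⊗ₖ (B : Matrix (Fin b) (Fin b) F)).submatrix e e)
      (P := ((P⁻¹ : GL (Fin n) F) : Matrix (Fin n) (Fin n) F)) (Q := (P : Matrix (Fin n) (Fin n) F))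
      (by rw [← Units.val_mul, inv_mul_cancel, Units.val_one]) hconj l]
    rw [show ((A : Matrix (Fin a) (Fin a) F) ⊗ₖ (B : Matrix (Fin b) (Fin b) F)).submatrix e e - l • 1 =
      ((A : Matrix (Fin a) (Fin a) F) ⊗ₖ (B : Matrix (Fin b) (Fin b) F) - l • 1).submatrix e e by
        rw [Matrix.submatrix_sub, Matrix.submatrix_smul]; simp, Matrix.rank_submatrix]
  · have h := hr
    change ((MulAut.conj P) (Cfsg.Geo.glReindex e.symm g'')) ^ r = 1 at h
    rw [← map_pow, ← map_pow, MulEquiv.map_eq_one_iff, MulEquiv.map_eq_one_iff] at h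
    rw [← hAB, ← Units.val_pow_eq_pow_val, h, Units.val_one]

theorem not_mem_of_ranks [Fintype F] {e : Fin n ≃ Fin a × Fin b} {P g : GL (Fin n) F} (l₁ l₂ : F)
    (h1 : ((g : Matrix (Fin n) (Fin n) F) - l₁ • 1).rank < b) (h2 : ¬ a ∣ ((g : Matrix (Fin n) (Fin n) F) - l₂ • 1).rank) :
    g ∉ Cfsg.Geo.tensorProductSubgroup a b e P := by
  intro hg
  obtain ⟨A, B, hr, -⟩ := ranks_of_mem hg
  by_cases hA : ∃ c : F, (A : Matrix (Fin a) (Fin a) F) = c • 1
  · obtain ⟨c, hc⟩ := hA
    rw [hr, hc, scalar_kron, rank_one_kron] at h2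
    exact h2 (dvd_mul_right _ _)
  · push_neg at hA
    rw [hr] at h1
    have := rank_nonscalar hA (Units.isUnit B) l₁
    omega

theorem rank_ge [Fintype F] {q : ℕ} (hq : Fintype.card F = q) {r i : ℕ} [Fact r.Prime] (hrq : ¬ r ∣ q) (hrF : (r : F) ≠ 0)
    (hmin : ∀ k, 1 ≤ k → k < i → ¬ r ∣ q ^ k - 1) {M : Matrix (Fin b) (Fin b) F} (hM : M ^ r = 1) (hne : M ≠ 1) :
    i ≤ (M - 1).rank := by
  by_contra hlt
  push_neg at hlt
  set L := (M - 1).mulVecLin
  set W := LinearMap.range L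
  have hL : ∀ v, L v = M *ᵥ v - v := fun v => by simp [L, Matrix.sub_mulVec]
  have hW : ∀ w ∈ W, M.mulVecLin w ∈ W := by
    rintro _ ⟨u, rfl⟩
    refine ⟨M *ᵥ u, ?_⟩
    show L (M *ᵥ u) = M *ᵥ L u
    rw [hL, hL, Matrix.mulVec_sub]
  have hinj : Function.Injective M.mulVecLin := fun v w h => by
    have := congrArg (fun y => (M ^ (r - 1)) *ᵥ y) h
    simpa [Matrix.mulVec_mulVec, ← pow_succ, Nat.sub_add_cancel (Fact.out : r.Prime).one_lt.le, hM] using this
  let φ : W ≃ₗ[F] W := LinearEquiv.ofInjectiveEndo (M.mulVecLin.restrict hW) (fun c d h =>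
    Subtype.ext (hinj (congrArg Subtype.val h)))
  have hφ : ∀ (k : ℕ) (w : W), ((φ ^ k) w : Fin b → F) = (M ^ k) *ᵥ (w : Fin b → F) := by
    intro k
    induction k with
    | zero => intro w; simp
    | succ k ih =>
      intro w
      rw [pow_succ, pow_succ, LinearEquiv.mul_apply, ih, ← Matrix.mulVec_mulVec]
      rfl
  have hone := PolarPairDerange.eq_id_of_pow hq hrq (fun k hk hk' => hmin k hk (hk'.trans_lt hlt)) φ
    (LinearEquiv.ext fun w => Subtype.ext (by rw [hφ, hM]; simp))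
  refine hne (Matrix.toLin'.injective (LinearMap.ext fun u => ?_))
  have hfix : M *ᵥ L u = L u := congrArg Subtype.val (LinearEquiv.congr_fun hone ⟨L u, u, rfl⟩)
  have hpow : ∀ k : ℕ, (M ^ k) *ᵥ u = u + k • L u := by
    intro k
    induction k with
    | zero => simp
    | succ k ih => rw [pow_succ', ← Matrix.mulVec_mulVec, ih, Matrix.mulVec_add, Matrix.mulVec_smul, hfix, succ_nsmul, hL u]; abel
  have h := hpow r
  rw [hM, Matrix.one_mulVec, left_eq_add, ← Nat.cast_smul_eq_nsmul F] at h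
  have h' := (smul_eq_zero.1 h).resolve_left hrF
  rw [hL, sub_eq_zero] at h'
  simpa using h'

/-- An element of order `r` moving exactly `i` dimensions lies in no tensor product subgroup. -/
theorem not_mem_small [Fintype F] (ha : 2 ≤ a) (hab : a < b) {q : ℕ} (hq : Fintype.card F = q) {r i : ℕ} [Fact r.Prime]
    (hrq : ¬ r ∣ q) (hrF : (r : F) ≠ 0) (hi : 2 ≤ i) (hmin : ∀ k, 1 ≤ k → k < i → ¬ r ∣ q ^ k - 1)
    {e : Fin n ≃ Fin a × Fin b} {P g : GL (Fin n) F} (hgr : g ^ r = 1)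
    (hrk : ((g : Matrix (Fin n) (Fin n) F) - 1).rank = i) : g ∉ Cfsg.Geo.tensorProductSubgroup a b e P := by
  intro hg
  obtain ⟨A, B, hr, hp⟩ := ranks_of_mem hg
  have hpow := hp r hgr
  have hr1 := hr 1
  rw [one_smul, hrk, one_smul] at hr1
  have hrp := (Fact.out : r.Prime)
  have hq1 : 1 < q := hq ▸ Fintype.one_lt_card
  haveI : Nonempty (Fin a) := ⟨⟨0, by omega⟩⟩
  haveI : Nonempty (Fin b) := ⟨⟨0, by omega⟩⟩
  by_cases hA : ∃ c : F, (A : Matrix (Fin a) (Fin a) F) = c • 1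
  · obtain ⟨c, hc⟩ := hA
    set M := c • (B : Matrix (Fin b) (Fin b) F)
    have he : (A : Matrix (Fin a) (Fin a) F) ⊗ₖ (B : Matrix (Fin b) (Fin b) F) = (1 : Matrix (Fin a) (Fin a) F) ⊗ₖ M := by
      rw [hc, Matrix.smul_kronecker, Matrix.kronecker_smul]
    have hMr : M ^ r = 1 := by
      rw [he] at hpow
      have hk : ∀ k : ℕ, ((1 : Matrix (Fin a) (Fin a) F) ⊗ₖ M) ^ k = (1 : Matrix (Fin a) (Fin a) F) ⊗ₖ (M ^ k) := by
        intro k
        induction k with
        | zero => simp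
        | succ k ih => rw [pow_succ, ih, pow_succ, ← Matrix.mul_kronecker_mul, one_mul]
      rw [hk] at hpow
      ext i j
      have := congrFun (congrFun hpow (⟨0, by omega⟩, i)) (⟨0, by omega⟩, j)
      simpa [Matrix.kroneckerMap_apply, Matrix.one_apply, Prod.ext_iff] using this
    rw [he, show (1 : Matrix (Fin a) (Fin a) F) ⊗ₖ M - 1 = (1 : Matrix (Fin a) (Fin a) F) ⊗ₖ (M - 1) by
      simpa using scalar_kron (a := a) (1 : F) 1 M, rank_one_kron] at hr1
    have hM1 : M ≠ 1 := fun e => by rw [e, sub_self, Matrix.rank_zero, mul_zero] at hr1; omega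
    have hge := rank_ge hq hrq hrF hmin hMr hM1
    have h2 : 2 * (M - 1).rank ≤ a * (M - 1).rank := Nat.mul_le_mul_right _ ha
    omega
  · push_neg at hA
    have hge := rank_nonscalar hA (Units.isUnit B) 1
    rw [one_smul, ← hr1] at hge
    -- an element of order `r` modulo scalars in dimension `a`
    have hk : ∀ k : ℕ, ((A : Matrix (Fin a) (Fin a) F) ⊗ₖ (B : Matrix (Fin b) (Fin b) F)) ^ k =
        ((A : Matrix (Fin a) (Fin a) F) ^ k) ⊗ₖ ((B : Matrix (Fin b) (Fin b) F) ^ k) := by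
      intro k
      induction k with
      | zero => simp
      | succ k ih => rw [pow_succ, ih, pow_succ, pow_succ, ← Matrix.mul_kronecker_mul]
    rw [hk] at hpow
    obtain ⟨c, hc⟩ : ∃ c : F, (A : Matrix (Fin a) (Fin a) F) ^ r = c • 1 := by
      by_contra hns
      push_neg at hns
      have hBu : IsUnit ((B : Matrix (Fin b) (Fin b) F) ^ r) := (Units.isUnit B).pow r
      have := rank_nonscalar hns hBu 1
      rw [hpow, one_smul, sub_self, Matrix.rank_zero] at this
      omega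
    have hc0 : c ≠ 0 := fun e => by
      have := congrArg Matrix.det hc
      rw [e, zero_smul, Matrix.det_zero, Matrix.det_pow] at this
      exact A.det_ne_zero (eq_zero_of_pow_eq_zero this)
    have hrq1 : ¬ r ∣ q - 1 := by simpa using hmin 1 le_rfl (by omega)
    have hcop : (Nat.card Fˣ).Coprime r := by
      rw [Nat.card_units, Nat.card_eq_fintype_card, hq]
      exact ((hrp.coprime_iff_not_dvd).2 hrq1).symm
    obtain ⟨d, hd⟩ := (powCoprime hcop).surjective (Units.mk0 c hc0)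
    have hd' : (d : F) ^ r = c := by rw [← Units.val_pow_eq_pow_val]; exact congrArg Units.val hd
    set A' : GL (Fin a) F := Units.map (Matrix.scalar (Fin a) : F →+* Matrix (Fin a) (Fin a) F).toMonoidHom d⁻¹ * A
    have hA' : (A' : Matrix (Fin a) (Fin a) F) = ((d⁻¹ : Fˣ) : F) • (A : Matrix (Fin a) (Fin a) F) := by
      rw [Units.val_mul, show ((Units.map (Matrix.scalar (Fin a) : F →+* Matrix (Fin a) (Fin a) F).toMonoidHom d⁻¹ : GL (Fin a) F) :
        Matrix (Fin a) (Fin a) F) = ((d⁻¹ : Fˣ) : F) • 1 by rw [Matrix.smul_one_eq_diagonal]; rfl, Matrix.smul_mul, one_mul]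
    have hord : orderOf A' = r := by
      refine orderOf_eq_prime (Units.ext ?_) fun e => hA (d : F) ?_
      · rw [Units.val_pow_eq_pow_val, hA', smul_pow, hc, smul_smul, ← hd', ← mul_pow, ← Units.val_mul, inv_mul_cancel,
          Units.val_one, one_pow, one_smul, Units.val_one]
      · rw [← Units.val_one, ← e, hA', smul_smul, ← Units.val_mul, mul_inv_cancel, Units.val_one, one_smul]
    have hdvd := hord ▸ orderOf_dvd_natCard A'
    rw [Matrix.card_GL_field, hq] at hdvd
    obtain ⟨k, -, hk'⟩ := hrp.prime.exists_mem_finset_dvd hdvd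
    have hka : (k : ℕ) < a := k.2
    rw [show q ^ a - q ^ (k : ℕ) = q ^ (k : ℕ) * (q ^ (a - k) - 1) by
      rw [Nat.mul_sub, mul_one, ← pow_add, Nat.add_sub_cancel' hka.le]] at hk'
    rcases hrp.dvd_mul.1 hk' with h' | h'
    · exact hrq (hrp.dvd_of_dvd_pow h')
    · exact hmin (a - k) (by omega) (by omega) h'

/-- Conjugation into a tensor product subgroup. -/
theorem conj_into {e : Fin n ≃ Fin a × Fin b} {P : GL (Fin n) F} {x : GL (Fin n) F}
    (bb : Module.Basis (Fin a × Fin b) F (Fin n → F)) (A : GL (Fin a) F) (B : GL (Fin b) F)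
    (hx : ∀ p, (x : Matrix (Fin n) (Fin n) F) *ᵥ bb p =
      ∑ r, ((A : Matrix (Fin a) (Fin a) F) r.1 p.1 * (B : Matrix (Fin b) (Fin b) F) r.2 p.2) • bb r)
    (hC : ∀ s : F, s ≠ 0 → ∃ C : Matrix (Fin n) (Fin n) F, C.det = s ∧ C * (x : Matrix (Fin n) (Fin n) F) = x * C) :
    ∃ g ∈ Cfsg.Geo.specialLinear (Fin n) F, g⁻¹ * x * g ∈ Cfsg.Geo.tensorProductSubgroup a b e P := by
  classical
  let Q0 : Matrix (Fin n) (Fin n) F := Matrix.of fun i j => bb (e j) i
  have hQ0 : Q0.det ≠ 0 := by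
    have h' : Q0 = (Pi.basisFun F (Fin n)).toMatrix (bb.reindex e.symm) := by
      ext i j; simp [Q0, Module.Basis.toMatrix_apply]
    rw [h']
    haveI := (Pi.basisFun F (Fin n)).invertibleToMatrix (bb.reindex e.symm)
    exact (Matrix.isUnit_det_of_invertible _).ne_zero
  let K : GL (Fin a × Fin b) F := ⟨(A : Matrix (Fin a) (Fin a) F) ⊗ₖ (B : Matrix (Fin b) (Fin b) F),
    ((A⁻¹ : GL (Fin a) F) : Matrix (Fin a) (Fin a) F) ⊗ₖ ((B⁻¹ : GL (Fin b) F) : Matrix (Fin b) (Fin b) F),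
    by rw [← Matrix.mul_kronecker_mul, ← Units.val_mul, ← Units.val_mul, mul_inv_cancel, mul_inv_cancel]; simp,
    by rw [← Matrix.mul_kronecker_mul, ← Units.val_mul, ← Units.val_mul, inv_mul_cancel, inv_mul_cancel]; simp⟩
  set K' := Cfsg.Geo.glReindex e.symm K with hK'
  have hK'v : (K' : Matrix (Fin n) (Fin n) F) =
      ((A : Matrix (Fin a) (Fin a) F) ⊗ₖ (B : Matrix (Fin b) (Fin b) F)).submatrix e e := rfl
  let Q : GL (Fin n) F := Matrix.GeneralLinearGroup.mkOfDetNeZero Q0 hQ0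
  have hxQ : x * Q = Q * K' := by
    apply Units.ext
    rw [Units.val_mul, Units.val_mul, hK'v]
    show (x : Matrix (Fin n) (Fin n) F) * Q0 = Q0 * _
    ext i j
    have := congrFun (hx (e j)) i
    rw [Matrix.mul_apply, Matrix.mul_apply]
    simp only [Matrix.mulVec, dotProduct, Finset.sum_apply, Pi.smul_apply, smul_eq_mul] at this
    simp only [Q0, Matrix.of_apply, Matrix.submatrix_apply, Matrix.kroneckerMap_apply]
    rw [this, ← Equiv.sum_comp e]
    exact Finset.sum_congr rfl fun k _ => by ring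
  obtain ⟨C, hCd, hCx⟩ := hC (((Q * P⁻¹ : GL (Fin n) F) : Matrix (Fin n) (Fin n) F).det)⁻¹
    (inv_ne_zero (Matrix.GeneralLinearGroup.det_ne_zero _))
  let Cu : GL (Fin n) F := Matrix.GeneralLinearGroup.mkOfDetNeZero C
    (hCd ▸ inv_ne_zero (Matrix.GeneralLinearGroup.det_ne_zero _))
  have hCu : Cu * x = x * Cu := Units.ext hCx
  refine ⟨Cu * (Q * P⁻¹), ?_, ?_⟩
  · show Matrix.GeneralLinearGroup.det (Cu * (Q * P⁻¹)) = 1
    apply Units.ext
    rw [Matrix.GeneralLinearGroup.val_det_apply, Units.val_mul, Matrix.det_mul]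
    show C.det * _ = 1
    rw [hCd, inv_mul_cancel₀ (Matrix.GeneralLinearGroup.det_ne_zero _)]
  · refine ⟨K', ⟨K, ⟨A, B, rfl⟩, rfl⟩, ?_⟩
    show P * K' * P⁻¹ = _
    have h1 : Cu⁻¹ * x * Cu = x := by rw [mul_assoc, ← hCu, inv_mul_cancel_left]
    calc P * K' * P⁻¹ = P * Q⁻¹ * (x * Q) * P⁻¹ := by rw [hxQ]; group
      _ = P * Q⁻¹ * (Cu⁻¹ * x * Cu) * (Q * P⁻¹) := by rw [h1]; group
      _ = _ := by group

end Cfsg.Agent.GeomClasses.TensorDerange
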