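import Cfsg.Agent.GeomClasses.DecompTools

/-!
Tensor products in which one factor has a frame preserved by all its similitudes: the stabiliser
of the tensor decomposition lies in the stabiliser of a direct-sum decomposition.
-/

set_option autoImplicit false

namespace Cfsg.Agent.GeomClasses.TensorFrame

open Matrix
open scoped Kronecker

variable {ι : Type} [Fintype ι] [DecidableEq ι] {F : Type*} [Field F]

/-- A pure tensor in coordinates. -/
def tens {a b : ℕ} (x : Fin a → F) (u : Fin b → F) : Fin a × Fin b → F := fun p => x p.1 * u p.2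

theorem kron_mulVec_tens {a b : ℕ} (A : Matrix (Fin a) (Fin a) F) (B : Matrix (Fin b) (Fin b) F)
    (x : Fin a → F) (u : Fin b → F) : (A ⊗ₖ B) *ᵥ tens x u = tens (A *ᵥ x) (B *ᵥ u) := by
  ext ⟨i, j⟩
  simp only [Matrix.mulVec, dotProduct, Matrix.kroneckerMap_apply, tens, Fintype.sum_prod_type,
    Finset.sum_mul_sum]
  exact Finset.sum_congr rfl fun k _ => Finset.sum_congr rfl fun l _ => by ring

theorem formOfGram_tens {σ : F → F} (hσ : ∀ x y, σ (x * y) = σ x * σ y) {a b : ℕ}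
    (G : Matrix (Fin a) (Fin a) F) (H : Matrix (Fin b) (Fin b) F) (x y : Fin a → F) (u v : Fin b → F) :
    Cfsg.Geo.formOfGram σ (G ⊗ₖ H) (tens x u) (tens y v) =
      Cfsg.Geo.formOfGram σ G x y * Cfsg.Geo.formOfGram σ H u v := by
  simp only [Cfsg.Geo.formOfGram, tens, Fintype.sum_prod_type, Matrix.kroneckerMap_apply, hσ,
    Finset.sum_mul, Finset.mul_sum]
  conv_lhs => rw [Finset.sum_comm]
  refine Finset.sum_congr rfl fun k _ => ?_
  conv_rhs => rw [Finset.sum_comm]
  refine Finset.sum_congr rfl fun i _ => ?_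
  conv_rhs => rw [Finset.sum_comm]
  exact Finset.sum_congr rfl fun j _ => Finset.sum_congr rfl fun l _ => by ring

/-- A left-linear, right-semilinear form is given by its Gram matrix. -/
theorem eq_formOfGram {σ : F → F} {a : ℕ} (f : (Fin a → F) → (Fin a → F) → F)
    (hal : ∀ x y v, f (x + y) v = f x v + f y v) (hsl : ∀ (c : F) x v, f (c • x) v = c * f x v)
    (har : ∀ v x y, f v (x + y) = f v x + f v y) (hsr : ∀ (c : F) v x, f v (c • x) = σ c * f v x)
    (x y : Fin a → F) : f x y = Cfsg.Geo.formOfGram σ (Cfsg.Geo.gramMatrix f) x y := by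
  have h1 : ∀ v, f x v = ∑ i, x i * f (Pi.single i 1) v := by
    intro v
    let L : (Fin a → F) →ₗ[F] F :=
      { toFun := fun x => f x v, map_add' := fun p r => hal p r v, map_smul' := fun c p => hsl c p v }
    show L x = _
    conv_lhs => rw [show x = ∑ i, x i • (Pi.single i (1 : F) : Fin a → F) by
      ext j; simp [Pi.single_apply]]
    rw [map_sum]
    exact Finset.sum_congr rfl fun i _ => by rw [map_smul]; rfl
  have h2 : ∀ z, f z y = ∑ j, σ (y j) * f z (Pi.single j 1) := by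
    intro z
    have h0 : f z 0 = 0 := by simpa using har z 0 0
    have hs : ∀ s : Finset (Fin a), f z (∑ j ∈ s, y j • (Pi.single j (1 : F) : Fin a → F)) =
        ∑ j ∈ s, σ (y j) * f z (Pi.single j 1) := by
      intro s
      induction s using Finset.induction_on with
      | empty => simpa using h0
      | insert j s hj ih => rw [Finset.sum_insert hj, Finset.sum_insert hj, har, hsr, ih]
    conv_lhs => rw [show y = ∑ j, y j • (Pi.single j (1 : F) : Fin a → F) by
      ext j; simp [Pi.single_apply]]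
    exact hs _
  rw [h1]
  refine Finset.sum_congr rfl fun i _ => ?_
  rw [h2, Finset.mul_sum]
  exact Finset.sum_congr rfl fun j _ => by simp only [Cfsg.Geo.gramMatrix]; ring

/-- The change of coordinates of a tensor structure. -/
noncomputable def coord {a b : ℕ} (e : ι ≃ Fin a × Fin b) (P : GL ι F) :
    (Fin a × Fin b → F) →ₗ[F] (ι → F) :=
  (Matrix.mulVecLin (P : Matrix ι ι F)).comp (LinearMap.funLeft F F e)

theorem coord_apply {a b : ℕ} (e : ι ≃ Fin a × Fin b) (P : GL ι F) (z : Fin a × Fin b → F) :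
    coord e P z = (P : Matrix ι ι F) *ᵥ (z ∘ e) := rfl

theorem coord_surjective {a b : ℕ} (e : ι ≃ Fin a × Fin b) (P : GL ι F) :
    Function.Surjective (coord e P) := fun v => ⟨(((P⁻¹ : GL ι F) : Matrix ι ι F) *ᵥ v) ∘ e.symm, by
  rw [coord_apply, Function.comp_assoc, Equiv.symm_comp_self, Function.comp_id, Matrix.mulVec_mulVec,
    ← Units.val_mul, mul_inv_cancel, Units.val_one, Matrix.one_mulVec]⟩

theorem tens_span {a b : ℕ} (z : Fin a × Fin b → F) :
    z = ∑ i, ∑ j, z (i, j) • tens (Pi.single i 1) (Pi.single j 1) := by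
  ext ⟨p, r⟩
  simp [tens, Finset.sum_apply, Pi.single_apply]

theorem mem_tensor_iff_action {a b : ℕ} {e : ι ≃ Fin a × Fin b} {P g : GL ι F}
    (hg : g ∈ Cfsg.Geo.tensorProductSubgroup a b e P) :
    ∃ (A : GL (Fin a) F) (B : GL (Fin b) F), ∀ x u, (g : Matrix ι ι F) *ᵥ coord e P (tens x u) =
      coord e P (tens ((A : Matrix (Fin a) (Fin a) F) *ᵥ x) ((B : Matrix (Fin b) (Fin b) F) *ᵥ u)) := by
  obtain ⟨g', hg', rfl⟩ := hg
  obtain ⟨g'', ⟨A, B, hAB⟩, rfl⟩ := hg'
  refine ⟨A, B, fun x u => ?_⟩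
  show ((P * Cfsg.Geo.glReindex e.symm g'' * P⁻¹ : GL ι F) : Matrix ι ι F) *ᵥ
    ((P : Matrix ι ι F) *ᵥ (tens x u ∘ e)) = _
  rw [Units.val_mul, Units.val_mul, Matrix.mulVec_mulVec, mul_assoc, ← Units.val_mul P⁻¹ P, inv_mul_cancel,
    Units.val_one, mul_one, ← Matrix.mulVec_mulVec, coord_apply]
  congr 1
  show ((g'' : Matrix _ _ F).submatrix e e) *ᵥ (tens x u ∘ e) = _
  rw [Matrix.submatrix_mulVec_equiv]
  simp [Function.comp_assoc, hAB, kron_mulVec_tens]

variable {p k : ℕ}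

/-- The abstract data of a tensor decomposition whose left factor carries a frame. -/
structure Data (B : (ι → F) → (ι → F) → F) (H : Subgroup (GL ι F))
    (τ : (Fin p → F) →ₗ[F] (Fin k → F) →ₗ[F] (ι → F))
    (g : (Fin p → F) → (Fin p → F) → F) (h : (Fin k → F) → (Fin k → F) → F)
    (w : Fin p → Fin p → F) : Prop where
  add_left : ∀ x y v, B (x + y) v = B x v + B y v
  smul_left : ∀ (c : F) x v, B (c • x) v = c * B x v
  g_add : ∀ x y v, g (x + y) v = g x v + g y v
  g_smul : ∀ (c : F) x v, g (c • x) v = c * g x v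
  h_add : ∀ x y v, h (x + y) v = h x v + h y v
  h_smul : ∀ (c : F) x v, h (c • x) v = c * h x v
  h_nondeg : ∀ u, u ≠ 0 → ∃ v, h u v ≠ 0
  form : ∃ c : F, c ≠ 0 ∧ ∀ x y u v, B (τ x u) (τ y v) = c * (g x y * h u v)
  frame_orth : ∀ l l', l ≠ l' → g (w l) (w l') = 0
  frame_ne : ∀ l, g (w l) (w l) ≠ 0
  top : ∀ v, v ∈ Submodule.span F {z | ∃ x u, z = τ x u}
  act : ∀ G ∈ H, ∃ (A : GL (Fin p) F) (C : GL (Fin k) F), ∀ x u, (G : Matrix ι ι F) *ᵥ τ x u =
      τ ((A : Matrix (Fin p) (Fin p) F) *ᵥ x) ((C : Matrix (Fin k) (Fin k) F) *ᵥ u)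
  classify : ∀ A : GL (Fin p) F, (∃ t : F, t ≠ 0 ∧ ∀ x y, g ((A : Matrix (Fin p) (Fin p) F) *ᵥ x)
      ((A : Matrix (Fin p) (Fin p) F) *ᵥ y) = t * g x y) →
    ∀ l, ∃ j, ∃ μ : F, (A : Matrix (Fin p) (Fin p) F) *ᵥ w l = μ • w j

variable {B : (ι → F) → (ι → F) → F} {H : Subgroup (GL ι F)}
  {τ : (Fin p → F) →ₗ[F] (Fin k → F) →ₗ[F] (ι → F)}
  {g : (Fin p → F) → (Fin p → F) → F} {h : (Fin k → F) → (Fin k → F) → F}
  {w : Fin p → Fin p → F}

/-- The blocks of the frame. -/
def blocks (τ : (Fin p → F) →ₗ[F] (Fin k → F) →ₗ[F] (ι → F)) (w : Fin p → Fin p → F) :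
    Fin p → Submodule F (ι → F) := fun l => LinearMap.range (τ (w l))

namespace Data

theorem g_zero_left (d : Data B H τ g h w) (v : Fin p → F) : g 0 v = 0 := by
  simpa using d.g_smul 0 0 v

theorem isMDecomposition (d : Data B H τ g h w) (hp : 2 ≤ p) (hk : 0 < k) :
    Cfsg.Geo.IsMDecomposition k (blocks τ w) := by
  classical
  obtain ⟨c, hc, hform⟩ := d.form
  have hB0 : ∀ v, B 0 v = 0 := fun v => by simpa using d.smul_left 0 0 v
  have hinj : ∀ l, Function.Injective (τ (w l)) := by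
    intro l
    rw [← LinearMap.ker_eq_bot, LinearMap.ker_eq_bot']
    intro u hu
    by_contra hu0
    obtain ⟨v, hv⟩ := d.h_nondeg u hu0
    have := hform (w l) (w l) u v
    rw [hu, hB0] at this
    exact mul_ne_zero hc (mul_ne_zero (d.frame_ne l) hv) this.symm
  have hli : LinearIndependent F w := by
    rw [Fintype.linearIndependent_iff]
    intro a ha l
    let L : (Fin p → F) →ₗ[F] F :=
      { toFun := fun x => g x (w l), map_add' := fun x y => d.g_add x y _, map_smul' := fun s x => d.g_smul s x _ }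
    have h0 := congrArg L ha
    rw [map_sum, map_zero, Finset.sum_eq_single l (fun j _ hj => by
      rw [map_smul]; show a j * g (w j) (w l) = 0; rw [d.frame_orth j l hj, mul_zero])
      (fun hn => absurd (Finset.mem_univ l) hn), map_smul] at h0
    exact (mul_eq_zero.1 h0).resolve_right (d.frame_ne l)
  haveI : Nonempty (Fin p) := ⟨⟨0, by omega⟩⟩
  have hsp : Submodule.span F (Set.range w) = ⊤ :=
    hli.span_eq_top_of_card_eq_finrank (by simp)
  refine ⟨hp, hk, fun l => ?_, fun l => ?_, ?_⟩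
  · rw [blocks, LinearMap.finrank_range_of_inj (hinj l), Module.finrank_fin_fun]
  · rw [Submodule.disjoint_def]
    rintro _ ⟨u, rfl⟩ hsup
    by_contra hne
    obtain ⟨v, hv⟩ := d.h_nondeg u (fun e => hne (by rw [e, map_zero]))
    let L : (ι → F) →ₗ[F] F :=
      { toFun := fun x => B x (τ (w l) v), map_add' := fun x y => d.add_left x y _,
        map_smul' := fun s x => d.smul_left s x _ }
    have hker : (⨆ j, ⨆ _ : j ≠ l, blocks τ w j) ≤ LinearMap.ker L := by
      refine iSup₂_le fun j hj => ?_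
      rintro _ ⟨u', rfl⟩
      show B (τ (w j) u') (τ (w l) v) = 0
      rw [hform, d.frame_orth j l hj, zero_mul, mul_zero]
    have h0 : B (τ (w l) u) (τ (w l) v) = 0 := hker hsup
    rw [hform] at h0
    exact mul_ne_zero hc (mul_ne_zero (d.frame_ne l) hv) h0
  · refine eq_top_iff.2 fun v _ => ?_
    refine (Submodule.span_le.2 ?_) (d.top v)
    rintro _ ⟨x, u, rfl⟩
    obtain ⟨a, ha⟩ := (Submodule.mem_span_range_iff_exists_fun F).1 (hsp ▸ Submodule.mem_top : x ∈ Submodule.span F (Set.range w))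
    rw [← ha, map_sum, LinearMap.sum_apply]
    refine Submodule.sum_mem _ fun l _ => ?_
    rw [map_smul, LinearMap.smul_apply]
    exact Submodule.smul_mem _ _ (le_iSup (blocks τ w) l ⟨u, rfl⟩)

/-- The stabiliser of the tensor decomposition permutes the blocks. -/
theorem le_decompositionStabilizer (d : Data B H τ g h w) (hp : 2 ≤ p) (hk : 0 < k)
    {T : Subgroup (GL ι F)} (hT : ∀ G ∈ T, ∀ x y, B ((G : Matrix ι ι F) *ᵥ x) ((G : Matrix ι ι F) *ᵥ y) = B x y) :
    H ⊓ T ≤ Cfsg.Geo.decompositionStabilizer (blocks τ w) ⊓ T := by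
  rintro G ⟨hGH, hGT⟩
  refine ⟨mem_decomp_of_forall (d.isMDecomposition hp hk) fun l => ?_, hGT⟩
  obtain ⟨A, C, hact⟩ := d.act G hGH
  obtain ⟨c, hc, hform⟩ := d.form
  haveI : Nonempty (Fin k) := ⟨⟨0, hk⟩⟩
  obtain ⟨u, hu⟩ := exists_ne (0 : Fin k → F)
  obtain ⟨v, hv⟩ := d.h_nondeg u hu
  have hrel : ∀ x y, g ((A : Matrix (Fin p) (Fin p) F) *ᵥ x) ((A : Matrix (Fin p) (Fin p) F) *ᵥ y) *
      h ((C : Matrix (Fin k) (Fin k) F) *ᵥ u) ((C : Matrix (Fin k) (Fin k) F) *ᵥ v) = g x y * h u v := by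
    intro x y
    have := hT G hGT (τ x u) (τ y v)
    rw [hact, hact, hform, hform] at this
    exact mul_left_cancel₀ hc this
  set t₀ := h ((C : Matrix (Fin k) (Fin k) F) *ᵥ u) ((C : Matrix (Fin k) (Fin k) F) *ᵥ v)
  have ht : t₀ ≠ 0 := fun e => by
    have h0 := hrel (w l) (w l)
    rw [e, mul_zero] at h0
    exact mul_ne_zero (d.frame_ne l) hv h0.symm
  obtain ⟨j, μ, hj⟩ := d.classify A ⟨h u v / t₀, div_ne_zero hv ht, fun x y => by
    rw [div_mul_eq_mul_div, eq_div_iff ht, hrel, mul_comm]⟩ l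
  refine ⟨j, ?_⟩
  rintro _ ⟨z, rfl⟩
  rw [hact, hj, map_smul, LinearMap.smul_apply]
  exact Submodule.smul_mem _ _ ⟨_, rfl⟩

/-- An element that fixes one block pointwise and is not scalar on another is no tensor product. -/
theorem notMem (d : Data B H τ g h w) {G : GL ι F} {l₀ l₁ : Fin p}
    (hfix : ∀ u, (G : Matrix ι ι F) *ᵥ τ (w l₁) u = τ (w l₁) u)
    {u v : Fin k → F} (h0 : h u v = 0)
    (hne : B ((G : Matrix ι ι F) *ᵥ τ (w l₀) u) (τ (w l₀) v) ≠ 0) : G ∉ H := by
  intro hG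
  obtain ⟨A, C, hact⟩ := d.act G hG
  obtain ⟨c, hc, hform⟩ := d.form
  set a := g ((A : Matrix (Fin p) (Fin p) F) *ᵥ w l₁) (w l₁)
  have hrel : ∀ u v, a * h ((C : Matrix (Fin k) (Fin k) F) *ᵥ u) v = g (w l₁) (w l₁) * h u v := by
    intro u v
    have := congrArg (fun z => B z (τ (w l₁) v)) (hfix u)
    simp only [hact, hform] at this
    exact mul_left_cancel₀ hc this
  have ha : a ≠ 0 := fun e => by
    by_cases hu : u = 0
    · apply hne
      rw [hu, map_zero, Matrix.mulVec_zero]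
      simpa using d.smul_left 0 0 (τ (w l₀) v)
    · obtain ⟨v', hv'⟩ := d.h_nondeg u hu
      have h1 := hrel u v'
      rw [e, zero_mul] at h1
      exact mul_ne_zero (d.frame_ne l₁) hv' h1.symm
  apply hne
  rw [hact, hform]
  have h1 := hrel u v
  rw [h0, mul_zero] at h1
  rw [(mul_eq_zero.1 h1).resolve_left ha, mul_zero, mul_zero]

/-- Two witnesses give a group strictly between. -/
theorem exists_between (d : Data B H τ g h w) (hp : 2 ≤ p) (hk : 0 < k) {T : Subgroup (GL ι F)}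
    (hT : ∀ G ∈ T, ∀ x y, B ((G : Matrix ι ι F) *ᵥ x) ((G : Matrix ι ι F) *ᵥ y) = B x y)
    (hin : ∃ G ∈ T, G ∈ Cfsg.Geo.decompositionStabilizer (blocks τ w) ∧ G ∉ H)
    (hout : ∃ G ∈ T, G ∉ Cfsg.Geo.decompositionStabilizer (blocks τ w)) :
    ∃ K : Subgroup (GL ι F), H ⊓ T < K ∧ K < T := by
  refine ⟨Cfsg.Geo.decompositionStabilizer (blocks τ w) ⊓ T,
    lt_of_le_of_ne (d.le_decompositionStabilizer hp hk hT) fun heq => ?_,
    lt_of_le_of_ne inf_le_right fun heq => ?_⟩
  · obtain ⟨G, hGT, hGD, hGH⟩ := hin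
    exact hGH (show G ∈ H ⊓ T from heq ▸ ⟨hGD, hGT⟩).1
  · obtain ⟨G, hGT, hGD⟩ := hout
    exact hGD (show G ∈ _ ⊓ T from heq.symm ▸ hGT).1

end Data

end Cfsg.Agent.GeomClasses.TensorFrame
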