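import Cfsg.Agent.GeomClasses.TensorFrame
import Cfsg.Agent.GeomClasses.UnitaryBasic

/-!
Tensor products with a two-dimensional unitary factor for `q = 2`.
-/

set_option autoImplicit false

namespace Cfsg.Agent.GeomClasses.TensorFrameUnitary

open Matrix Cfsg.Agent.GeomClasses.TensorFrame Cfsg.Agent.GeomClasses.Unitary

variable {F : Type*} [Field F] [Fintype F] (hF : Fintype.card F = 4)
include hF

theorem two_eq_zero : (2 : F) = 0 := by
  have h4 : ((4 : ℕ) : F) = 0 := by rw [← hF]; exact FiniteField.cast_card_eq_zero F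
  have : (2 : F) * 2 = 0 := by push_cast at h4; linear_combination h4
  exact mul_self_eq_zero.1 this

theorem fixed_eq (a : F) (ha : a ^ 2 = a) : a = 0 ∨ a = 1 := by
  have : a * (a - 1) = 0 := by linear_combination ha
  rcases mul_eq_zero.1 this with h | h
  · exact Or.inl h
  · exact Or.inr (sub_eq_zero.1 h)

theorem hF2 : Fintype.card F = 2 ^ 2 := by rw [hF]; norm_num

variable {k : ℕ} {f : (Fin k → F) → (Fin k → F) → F} (hf : Cfsg.Geo.IsUnitaryFormPow 2 f)
include hf

theorem form_self (v : Fin k → F) : f v v = 0 ∨ f v v = 1 := fixed_eq hF _ (hf.herm v v).symm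

theorem add_right (v x y : Fin k → F) : f v (x + y) = f v x + f v y := by
  rw [hf.herm v, hf.add_left, hf.herm v x, hf.herm v y, pow_add_q (hF2 hF)]

theorem smul_right (c : F) (v x : Fin k → F) : f v (c • x) = c ^ 2 * f v x := by
  rw [hf.herm v, hf.smul_left, mul_pow, ← hf.herm v x]

theorem exists_unit {u v : Fin k → F} (h : f u v ≠ 0) :
    ∃ w ∈ Submodule.span F {u, v}, f w w = 1 := by
  by_contra hc
  push_neg at hc
  have h0 : ∀ w ∈ Submodule.span F {u, v}, f w w = 0 := fun w hw =>
    (form_self hF hf w).resolve_right (hc w hw)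
  obtain ⟨s, hs⟩ := exists_trace_one (hF2 hF)
  set r := s / f u v
  have hu : u ∈ Submodule.span F {u, v} := Submodule.subset_span (by simp)
  have hv : v ∈ Submodule.span F {u, v} := Submodule.subset_span (by simp)
  have h1 := h0 _ (add_mem (Submodule.smul_mem _ r hu) hv)
  simp only [hf.add_left, add_right hF hf, hf.smul_left, smul_right hF hf, h0 u hu, h0 v hv, mul_zero,
    zero_add, add_zero] at h1
  rw [hf.herm v u, ← mul_pow, div_mul_cancel₀ s h, hs] at h1
  exact one_ne_zero h1

theorem exists_pair (hk : 2 ≤ k) :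
    ∃ a b, f a a = 1 ∧ f b b = 1 ∧ f a b = 0 ∧ f b a = 0 := by
  haveI : Nonempty (Fin k) := ⟨⟨0, by omega⟩⟩
  obtain ⟨u, hu⟩ := exists_ne (0 : Fin k → F)
  obtain ⟨-, v, hv⟩ := hf.nondegenerate u hu
  obtain ⟨a, -, ha⟩ := exists_unit hF hf hv
  let L : (Fin k → F) →ₗ[F] F :=
    { toFun := fun x => f x a, map_add' := fun x y => hf.add_left x y a,
      map_smul' := fun c x => hf.smul_left c x a }
  obtain ⟨x, hx, hx0⟩ := (Submodule.ne_bot_iff (LinearMap.ker L)).1 fun h => by
    have h1 := L.finrank_range_add_finrank_ker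
    have h2 := Submodule.finrank_le (LinearMap.range L)
    rw [h, finrank_bot, Module.finrank_fin_fun] at h1
    rw [Module.finrank_self] at h2
    omega
  have hxa : f x a = 0 := hx
  have hax : f a x = 0 := by rw [hf.herm, hxa]; simp
  obtain ⟨-, y, hy⟩ := hf.nondegenerate x hx0
  set y' := y - f y a • a with hy'
  have hy'a : f y' a = 0 := by
    have := L.map_sub y (f y a • a)
    show L y' = 0
    rw [hy', this, L.map_smul]
    show f y a - f y a * f a a = 0
    rw [ha, mul_one, sub_self]
  have hxy : f x y' ≠ 0 := by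
    have e : y = y' + f y a • a := by rw [hy']; abel
    rw [e, add_right hF hf, smul_right hF hf, hxa, mul_zero, add_zero] at hy
    exact hy
  obtain ⟨b, hb, hb1⟩ := exists_unit hF hf hxy
  have hba : f b a = 0 := by
    have : Submodule.span F {x, y'} ≤ LinearMap.ker L := Submodule.span_le.2 (by
      rintro z (rfl | rfl) <;> [exact hxa; exact hy'a])
    exact this hb
  exact ⟨a, b, ha, hb1, by rw [hf.herm, hba]; simp, hba⟩

omit k f hf

theorem exists_between {n n₂ : ℕ} (hn : 3 ≤ n₂) (e : Fin n ≃ Fin 2 × Fin n₂) (P : GL (Fin n) F)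
    (f₁ : (Fin 2 → F) → (Fin 2 → F) → F) (f₂ : (Fin n₂ → F) → (Fin n₂ → F) → F)
    (hf₁ : Cfsg.Geo.IsUnitaryFormPow 2 f₁) (hf₂ : Cfsg.Geo.IsUnitaryFormPow 2 f₂)
    (hT : Cfsg.Geo.IsTensorFormStructure (fun x : F => x ^ 2) (Cfsg.hermForm n F 2) f₁ f₂ e P) :
    ∃ K : Subgroup (GL (Fin n) F), Cfsg.Geo.tensorProductSubgroup 2 n₂ e P ⊓ SUgl n F 2 < K ∧
      K < SUgl n F 2 := by
  classical
  have h2 := two_eq_zero hF
  have hq := hF2 hF
  obtain ⟨a, b, haa, hbb, hab, hba⟩ := exists_pair hF hf₁ le_rfl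
  obtain ⟨p, r, hpp, hrr, hpr, hrp⟩ := exists_pair hF hf₂ (by omega)
  let w : Fin 2 → Fin 2 → F := ![a, b]
  have hw0 : ∀ l l', l ≠ l' → f₁ (w l) (w l') = 0 := by
    intro l l' h; fin_cases l <;> fin_cases l' <;> simp_all [w]
  have hw1 : ∀ l, f₁ (w l) (w l) = 1 := by intro l; fin_cases l <;> simp [w, haa, hbb]
  obtain ⟨c, hc, hform⟩ := hT
  let τ : (Fin 2 → F) →ₗ[F] (Fin n₂ → F) →ₗ[F] (Fin n → F) :=
    LinearMap.mk₂ F (fun x u => coord e P (tens x u))
      (fun x y u => by rw [← map_add]; congr 1; ext q; simp [tens, add_mul])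
      (fun s x u => by rw [← map_smul]; congr 1; ext q; simp [tens, mul_assoc])
      (fun x u v => by rw [← map_add]; congr 1; ext q; simp [tens, mul_add])
      (fun s x u => by rw [← map_smul]; congr 1; ext q; simp [tens, mul_left_comm])
  have hB : ∀ x y u v, Cfsg.hermForm n F 2 (τ x u) (τ y v) = c * (f₁ x y * f₂ u v) := by
    intro x y u v
    show Cfsg.hermForm n F 2 ((P : Matrix _ _ F) *ᵥ (tens x u ∘ e)) ((P : Matrix _ _ F) *ᵥ (tens y v ∘ e)) = _
    rw [hform, formOfGram_tens (fun s t => mul_pow s t 2),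
      ← eq_formOfGram (σ := fun s : F => s ^ 2) f₁ hf₁.add_left hf₁.smul_left (add_right hF hf₁)
        (smul_right hF hf₁),
      ← eq_formOfGram (σ := fun s : F => s ^ 2) f₂ hf₂.add_left hf₂.smul_left (add_right hF hf₂)
        (smul_right hF hf₂)]
  have hc1 : c = 1 := by
    have h := hB (w 0) (w 0) p p
    rw [hw1, hpp, mul_one, mul_one] at h
    exact ((fixed_eq hF c (by rw [← h]; exact hh_self_fixed hq _))).resolve_left hc
  subst hc1
  simp only [one_mul] at hB
  have D : Data (Cfsg.hermForm n F 2) (Cfsg.Geo.tensorProductSubgroup 2 n₂ e P) τ f₁ f₂ w :=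
    { add_left := hh_add_left hq
      smul_left := hh_smul_left hq
      g_add := hf₁.add_left
      g_smul := hf₁.smul_left
      h_add := hf₂.add_left
      h_smul := hf₂.smul_left
      h_nondeg := fun u hu => (hf₂.nondegenerate u hu).2
      form := ⟨1, one_ne_zero, fun x y u v => by rw [one_mul]; exact hB x y u v⟩
      frame_orth := hw0
      frame_ne := fun l => by rw [hw1]; exact one_ne_zero
      top := fun v => by
        obtain ⟨z, rfl⟩ := coord_surjective e P v
        rw [tens_span z, map_sum]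
        refine Submodule.sum_mem _ fun i _ => ?_
        rw [map_sum]
        refine Submodule.sum_mem _ fun j _ => ?_
        rw [map_smul]
        exact Submodule.smul_mem _ _ (Submodule.subset_span ⟨Pi.single i 1, Pi.single j 1, rfl⟩)
      act := fun G hG => mem_tensor_iff_action hG
      classify := fun A ⟨t, ht, hA⟩ l => by
        have ht1 : t = 1 := by
          have h := hA (w l) (w l)
          rw [hw1, mul_one] at h
          exact (fixed_eq hF t (by rw [← h]; exact (hf₁.herm _ _).symm)).resolve_left ht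
        set v := (A : Matrix (Fin 2) (Fin 2) F) *ᵥ w l with hv
        have hvv : f₁ v v = 1 := by rw [hv, hA, hw1, ht1, mul_one]
        have hli : LinearIndependent F w := by
          rw [Fintype.linearIndependent_iff]
          intro s hs i
          have h := congrArg (fun x => f₁ x (w i)) hs
          simp only [Fin.sum_univ_two, hf₁.add_left, hf₁.smul_left] at h
          have h0 : f₁ 0 (w i) = 0 := by simpa using hf₁.smul_left 0 0 (w i)
          rw [h0] at h
          fin_cases i
          · simpa [hw1, hw0 1 0 (by decide)] using h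
          · simpa [hw1, hw0 0 1 (by decide)] using h
        obtain ⟨s, hs⟩ := (Submodule.mem_span_range_iff_exists_fun F).1
          ((hli.span_eq_top_of_card_eq_finrank (by simp)) ▸ Submodule.mem_top :
            v ∈ Submodule.span F (Set.range w))
        rw [Fin.sum_univ_two] at hs
        have hn : s 0 * s 0 ^ 2 + s 1 * s 1 ^ 2 = 1 := by
          rw [← hs] at hvv
          simp only [hf₁.add_left, add_right hF hf₁, hf₁.smul_left, smul_right hF hf₁, hw1,
            hw0 0 1 (by decide), hw0 1 0 (by decide)] at hvv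
          linear_combination hvv
        by_cases h0 : s 0 = 0
        · exact ⟨1, s 1, by rw [← hs, h0, zero_smul, zero_add]⟩
        · refine ⟨0, s 0, ?_⟩
          by_cases h1 : s 1 = 0
          · rw [← hs, h1, zero_smul, add_zero]
          · have e : ∀ x : F, x ≠ 0 → x * x ^ 2 = 1 := fun x hx =>
              (fixed_eq hF _ (norm_fixed hq x)).resolve_left (mul_ne_zero hx (pow_ne_zero _ hx))
            rw [e _ h0, e _ h1, ← two_mul, h2, zero_mul] at hn
            exact absurd hn zero_ne_one }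
  have hdec := D.isMDecomposition le_rfl (by omega)
  have hmem : ∀ l z, τ (w l) z ∈ blocks τ w l := fun l z => ⟨z, rfl⟩
  have hc0 : (1 : F) + 1 ^ 2 = 0 := by rw [one_pow, ← two_mul, h2, zero_mul]
  refine D.exists_between le_rfl (by omega) (fun G hG x y => mem_GU_iff.1 hG.1 x y) ?_ ?_
  · have hzz : Cfsg.hermForm n F 2 (τ (w 0) (p + r)) (τ (w 0) (p + r)) = 0 := by
      rw [hB, hw1, one_mul, hf₂.add_left, add_right hF hf₂, add_right hF hf₂, hpp, hrr, hpr, hrp,
        add_zero, zero_add, ← two_mul, h2, zero_mul]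
    refine ⟨uT _ 1 hzz, uT_mem hq _ 1 hzz hc0, mem_decomp_of_forall hdec fun l => ⟨l, ?_⟩,
      D.notMem (l₀ := 0) (l₁ := 1) (fun z => ?_) (u := p) (v := r) hpr ?_⟩
    · rintro _ ⟨z, rfl⟩
      rw [uT_mulVec]
      by_cases hl : l = 0
      · subst hl; exact add_mem (hmem 0 z) (Submodule.smul_mem _ _ (hmem 0 _))
      · rw [hB, hw0 l 0 hl, zero_mul, mul_zero, zero_smul, add_zero]; exact hmem l z
    · rw [uT_mulVec, hB, hw0 1 0 (by decide), zero_mul, mul_zero, zero_smul, add_zero]
    · rw [uT_mulVec, D.add_left, D.smul_left, hB, hB, hB, hw1, add_right hF hf₂, hpp, hpr, hf₂.add_left,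
        hpr, hrr]
      simp
  · set z := τ (w 0) p + τ (w 1) p with hz
    have hzz : Cfsg.hermForm n F 2 z z = 0 := by
      simp only [hz, hh_add_left hq, hh_add_right hq, hB, hw1, hw0 0 1 (by decide), hw0 1 0 (by decide),
        hpp, mul_one, mul_zero, add_zero, zero_add]
      linear_combination h2
    refine ⟨uT z 1 hzz, uT_mem hq z 1 hzz hc0, fun hst => ?_⟩
    obtain ⟨σ, hσ⟩ := hst
    have himg : ∀ s, τ (w 0) s + (Cfsg.hermForm n F 2 (τ (w 0) s) z) • z ∈ blocks τ w (σ 0) := fun s => by
      rw [← hσ 0]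
      exact ⟨_, hmem 0 s, by rw [Matrix.toLin'_apply, uT_mulVec, one_mul]⟩
    have hval : ∀ s, Cfsg.hermForm n F 2 (τ (w 0) s) z = f₂ s p := fun s => by
      rw [hz, hh_add_right hq, hB, hB, hw1, hw0 0 1 (by decide), one_mul, zero_mul, add_zero]
    have m0 : τ (w 1) p ∈ blocks τ w (σ 0) := by
      have h := himg p
      rw [hval, hpp, one_smul, hz, ← add_assoc, ← two_smul F, h2, zero_smul, zero_add] at h
      exact h
    have m1 : τ (w 0) r ∈ blocks τ w (σ 0) := by
      have h := himg r
      rwa [hval, hrp, zero_smul, add_zero] at h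
    have hne : ∀ l x, f₂ x x = 1 → τ (w l) x ≠ 0 := fun l x hx e0 => by
      have := hB (w l) (w l) x x
      rw [e0, hh_zero_left hq, hw1, hx, mul_one] at this
      exact zero_ne_one this
    have hnot : ∀ {i j : Fin 2}, i ≠ j → ∀ x, x ∈ blocks τ w i → x ≠ 0 → x ∉ blocks τ w j :=
      fun hij x hx hx0 h => hx0 (Submodule.disjoint_def.1 (hdec.indep.pairwiseDisjoint hij) x hx h)
    have e0 : (1 : Fin 2) = σ 0 := by
      by_contra h; exact hnot h _ (hmem 1 p) (hne 1 p hpp) m0
    have e1 : (0 : Fin 2) = σ 0 := by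
      by_contra h; exact hnot h _ (hmem 0 r) (hne 0 r hrr) m1
    exact absurd (e0.trans e1.symm) (by decide)

end Cfsg.Agent.GeomClasses.TensorFrameUnitary
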