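import Cfsg.Agent.GeomClasses.UnitaryBasic
import Cfsg.Agent.GeomClasses.BlockCoords

/-!
For `q = 2` a non-degenerate hermitian plane has a unique orthonormal frame, so the stabiliser
of an orthogonal decomposition into planes is not maximal.
-/

set_option autoImplicit false

namespace Cfsg.Agent.GeomClasses.UnitaryFrameRefine

open Matrix Cfsg.Agent.GeomClasses.Unitary

variable {F : Type*} [Field F] {n : ℕ}

local notation "hh" => Cfsg.hermForm n F 2

/-- The stabiliser of a set of vectors. -/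
def setGroup [Finite F] (good : (Fin n → F) → Prop) : Subgroup (GL (Fin n) F) where
  carrier := {g | ∀ v, good v → good ((g : Matrix (Fin n) (Fin n) F) *ᵥ v)}
  one_mem' := fun v hv => by simpa using hv
  mul_mem' := fun {a b} ha hb v hv => by
    rw [Units.val_mul, ← Matrix.mulVec_mulVec]; exact ha _ (hb v hv)
  inv_mem' := fun {g} hg v hv => by
    let S := {w : Fin n → F // good w}
    let f : S → S := fun w => ⟨_, hg w.1 w.2⟩
    have hf : Function.Injective f := fun a b h => Subtype.ext (by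
      have h' := congrArg (((g⁻¹ : GL (Fin n) F) : Matrix (Fin n) (Fin n) F) *ᵥ ·) (congrArg Subtype.val h)
      simpa [f, Matrix.mulVec_mulVec, ← Units.val_mul] using h')
    obtain ⟨⟨w, hw⟩, hwv⟩ := (Finite.injective_iff_surjective.1 hf) ⟨v, hv⟩
    have e' : (g : Matrix (Fin n) (Fin n) F) *ᵥ w = v := congrArg Subtype.val hwv
    have : ((g⁻¹ : GL (Fin n) F) : Matrix (Fin n) (Fin n) F) *ᵥ v = w := by
      rw [← e', Matrix.mulVec_mulVec, ← Units.val_mul, inv_mul_cancel, Units.val_one, Matrix.one_mulVec]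
    rw [this]; exact hw

theorem exists_between [Fintype F] (hF : Fintype.card F = 4) {t : ℕ}
    (D : Fin t → Submodule F (Fin n → F))
    (hD : Cfsg.Geo.IsNondegenerateMDecomposition (Cfsg.hermForm n F 2) 2 D) (ht : 5 ≤ t) :
    ∃ K : Subgroup (GL (Fin n) F),
      Cfsg.Geo.decompositionStabilizer D ⊓ SUgl n F 2 < K ∧ K < SUgl n F 2 := by
  classical
  have hF2 : Fintype.card F = 2 ^ 2 := by rw [hF]; norm_num
  have h2 : (2 : F) = 0 := by
    have h4 : ((4 : ℕ) : F) = 0 := by rw [← hF]; exact FiniteField.cast_card_eq_zero F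
    have : (2 : F) * 2 = 0 := by push_cast at h4; linear_combination h4
    exact (mul_self_eq_zero.1 this)
  have hfix : ∀ a : F, a ^ 2 = a → a = 0 ∨ a = 1 := by
    intro a ha
    have : a * (a - 1) = 0 := by linear_combination ha
    rcases mul_eq_zero.1 this with h | h
    · exact Or.inl h
    · exact Or.inr (sub_eq_zero.1 h)
  have hort : ∀ i j, i ≠ j → ∀ u ∈ D i, ∀ v ∈ D j, hh u v = 0 :=
    fun i j hij => hD.orthogonal i j hij
  have hdim := hD.decomp.finrank_eq
  have hframe : ∀ i, ∃ a b, a ∈ D i ∧ b ∈ D i ∧ hh a a = 1 ∧ hh b b = 1 ∧ hh a b = 0 ∧ hh b a = 0 ∧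
      ∀ v ∈ D i, v = hh v a • a + hh v b • b := by
    intro i
    obtain ⟨a, ha, haa⟩ : ∃ a ∈ D i, hh a a = 1 := by
      by_contra hc
      push_neg at hc
      have h0 : ∀ v ∈ D i, hh v v = 0 := fun v hv =>
        (hfix _ (hh_self_fixed hF2 v)).resolve_right (hc v hv)
      obtain ⟨u, hu, hu0⟩ := (Submodule.ne_bot_iff (D i)).1 fun h => by
        have := hdim i; rw [h, finrank_bot] at this; omega
      obtain ⟨-, v, hv, huv⟩ := hD.nondegenerate i u hu hu0
      obtain ⟨s, hs⟩ := exists_trace_one hF2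
      set r := s / hh u v
      have h1 := h0 _ (add_mem ((D i).smul_mem r hu) hv)
      simp only [hh_add_left hF2, hh_add_right hF2, hh_smul_left hF2, hh_smul_right hF2,
        h0 u hu, h0 v hv, mul_zero, zero_add, add_zero] at h1
      rw [← hh_conj hF2 u v, ← mul_pow, div_mul_cancel₀ s huv, hs] at h1
      exact one_ne_zero h1
    obtain ⟨w, hw, hwa⟩ := SetLike.not_le_iff_exists.1 (show ¬ D i ≤ Submodule.span F {a} from fun h => by
      have h1 := (Submodule.finrank_mono h).trans (finrank_span_le_card {a})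
      simp only [Set.toFinset_singleton, Finset.card_singleton] at h1
      rw [hdim i] at h1; omega)
    set b := w - hh w a • a with hb
    have hbD : b ∈ D i := sub_mem hw ((D i).smul_mem _ ha)
    have hb0 : b ≠ 0 := fun h => hwa (by
      rw [sub_eq_zero.1 h]; exact Submodule.smul_mem _ _ (Submodule.mem_span_singleton_self a))
    have hba : hh b a = 0 := by rw [hb, hh_sub_left hF2, hh_smul_left hF2, haa, mul_one, sub_self]
    have hab : hh a b = 0 := hh_comm_zero hF2 hba
    have hspan : Submodule.span F {a} ⊔ Submodule.span F {b} = D i := by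
      refine Submodule.eq_of_le_of_finrank_le
        (sup_le ((Submodule.span_singleton_le_iff_mem _ _).2 ha)
          ((Submodule.span_singleton_le_iff_mem _ _).2 hbD)) ?_
      have ha0 : a ≠ 0 := fun h => by rw [h, hh_zero_left hF2] at haa; exact zero_ne_one haa
      have h1 := Submodule.finrank_sup_add_finrank_inf_eq (Submodule.span F {a}) (Submodule.span F {b})
      have h2' : Submodule.span F {a} ⊓ Submodule.span F {b} = ⊥ := by
        rw [← disjoint_iff, Submodule.disjoint_def]
        intro x hx hx'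
        obtain ⟨c, rfl⟩ := Submodule.mem_span_singleton.1 hx
        obtain ⟨d, hd⟩ := Submodule.mem_span_singleton.1 hx'
        have := congrArg (fun x => hh x a) hd
        simp only [hh_smul_left hF2, hba, haa, mul_zero, mul_one] at this
        rw [← this, zero_smul]
      rw [h2', finrank_bot, finrank_span_singleton ha0, finrank_span_singleton hb0] at h1
      rw [hdim i]; omega
    have hbb : hh b b = 1 := by
      refine (hfix _ (hh_self_fixed hF2 b)).resolve_left fun h0 => ?_
      obtain ⟨-, x, hx, hbx⟩ := hD.nondegenerate i b hbD hb0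
      rw [← hspan] at hx
      obtain ⟨_, h1, _, h2', rfl⟩ := Submodule.mem_sup.1 hx
      obtain ⟨c, rfl⟩ := Submodule.mem_span_singleton.1 h1
      obtain ⟨d, rfl⟩ := Submodule.mem_span_singleton.1 h2'
      apply hbx
      rw [hh_add_right hF2, hh_smul_right hF2, hh_smul_right hF2, hba, h0, mul_zero, mul_zero, add_zero]
    refine ⟨a, b, ha, hbD, haa, hbb, hab, hba, fun v hv => ?_⟩
    rw [← hspan] at hv
    obtain ⟨_, h1, _, h2', rfl⟩ := Submodule.mem_sup.1 hv
    obtain ⟨c, rfl⟩ := Submodule.mem_span_singleton.1 h1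
    obtain ⟨d, rfl⟩ := Submodule.mem_span_singleton.1 h2'
    rw [hh_add_left hF2, hh_add_left hF2, hh_smul_left hF2, hh_smul_left hF2, hh_smul_left hF2,
      hh_smul_left hF2, haa, hbb, hab, hba]
    simp
  choose a b ha hb haa hbb hab hba hexp using hframe
  let good : (Fin n → F) → Prop := fun v => ∃ i, v ∈ D i ∧ hh v v = 1
  have hle : Cfsg.Geo.decompositionStabilizer D ⊓ SUgl n F 2 ≤ setGroup good ⊓ SUgl n F 2 := by
    rintro g ⟨⟨σ, hσ⟩, hg⟩
    refine ⟨fun v hv => ?_, hg⟩
    obtain ⟨i, hv, hv1⟩ := hv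
    exact ⟨σ i, by rw [← hσ i]; exact ⟨v, hv, Matrix.toLin'_apply _ _⟩,
      (mem_GU_iff.1 hg.1 v v).trans hv1⟩
  have hone : ∀ x : F, x ≠ 0 → x * x ^ 2 = 1 := fun x hx =>
    (hfix _ (norm_fixed hF2 x)).resolve_left (mul_ne_zero hx (pow_ne_zero _ hx))
  have hclass : ∀ i v, v ∈ D i → hh v v = 1 → ∃ c : F, c ≠ 0 ∧ (v = c • a i ∨ v = c • b i) := by
    intro i v hv h1
    have e := hexp i v hv
    set x := hh v (a i); set y := hh v (b i)
    have hn : x * x ^ 2 + y * y ^ 2 = 1 := by
      rw [e] at h1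
      simp only [hh_add_left hF2, hh_add_right hF2, hh_smul_left hF2, hh_smul_right hF2,
        haa, hbb, hab, hba] at h1
      linear_combination h1
    by_cases hx : x = 0
    · refine ⟨y, fun hy => ?_, Or.inr ?_⟩
      · rw [hx, hy] at hn; simp at hn
      · rw [e, hx, zero_smul, zero_add]
    · refine ⟨x, hx, Or.inl ?_⟩
      by_cases hy : y = 0
      · rw [e, hy, zero_smul, add_zero]
      · rw [hone x hx, hone y hy, ← two_mul, h2, zero_mul] at hn
        exact absurd hn zero_ne_one
  have hgood : ∀ (c : F), c ≠ 0 → ∀ i v, v ∈ D i → hh v v = 1 → good (c • v) := fun c hc i v hv h1 =>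
    ⟨i, (D i).smul_mem c hv, by
      rw [hh_smul_left hF2, hh_smul_right hF2, h1, mul_one, hone c hc]⟩
  have hc1 : (1 : F) + 1 ^ 2 = 0 := by rw [one_pow, ← two_mul, h2, zero_mul]
  let P : Fin 5 → Fin t := fun k => ⟨k, by omega⟩
  have hP : ∀ k l, P k = P l ↔ k = l := fun k l => by simp [P, Fin.ext_iff]
  have hpa : ∀ i j, hh (a i) (a j) = if i = j then 1 else 0 := by
    intro i j
    by_cases h : i = j
    · subst h; rw [if_pos rfl, haa]
    · rw [if_neg h, hort i j h _ (ha i) _ (ha j)]
  have hpb : ∀ i j, hh (b i) (a j) = 0 := by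
    intro i j
    by_cases h : i = j
    · subst h; exact hba i
    · exact hort i j h _ (hb i) _ (ha j)
  have hnotD : ∀ {i j : Fin t}, i ≠ j → ∀ v ∈ D i, hh v v = 1 → v ∉ D j := fun hij v hv h1 h =>
    one_ne_zero (h1.symm.trans (hort _ _ hij v hv v h))
  refine ⟨setGroup good ⊓ SUgl n F 2, lt_of_le_of_ne hle fun heq => ?_,
    lt_of_le_of_ne inf_le_right fun heq => ?_⟩
  · set v := a (P 0) + a (P 1) with hv
    have hvv : hh v v = 0 := by
      simp only [hv, hh_add_left hF2, hh_add_right hF2, hpa, hP]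
      simp [← two_mul, h2]
    have hT : ∀ x, (uT v 1 hvv : Matrix (Fin n) (Fin n) F) *ᵥ x = x + hh x v • v := fun x => by
      rw [uT_mulVec, one_mul]
    have hTa : ∀ i, ∃ j, (uT v 1 hvv : Matrix (Fin n) (Fin n) F) *ᵥ a i = a j := by
      intro i
      rw [hT]
      by_cases h0 : i = P 0
      · refine ⟨P 1, ?_⟩
        rw [h0, hv, hh_add_right hF2, hpa, hpa, if_pos rfl, if_neg (by simp [hP]), add_zero, one_smul,
          ← add_assoc, ← two_smul F, h2, zero_smul, zero_add]
      by_cases h1 : i = P 1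
      · refine ⟨P 0, ?_⟩
        rw [h1, hv, hh_add_right hF2, hpa, hpa, if_pos rfl, if_neg (by simp [hP]), zero_add, one_smul,
          add_left_comm, ← two_smul F, h2, zero_smul, add_zero]
      · exact ⟨i, by rw [hv, hh_add_right hF2, hpa, hpa, if_neg h0, if_neg h1, add_zero, zero_smul, add_zero]⟩
    have hTb : ∀ i, (uT v 1 hvv : Matrix (Fin n) (Fin n) F) *ᵥ b i = b i := fun i => by
      rw [hT, hv, hh_add_right hF2, hpb, hpb, add_zero, zero_smul, add_zero]
    have hmem : uT v 1 hvv ∈ setGroup good ⊓ SUgl n F 2 := by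
      refine ⟨fun x hx => ?_, uT_mem hF2 v 1 hvv hc1⟩
      obtain ⟨i, hx, hx1⟩ := hx
      obtain ⟨c, hc, rfl | rfl⟩ := hclass i x hx hx1
      · obtain ⟨j, hj⟩ := hTa i
        rw [Matrix.mulVec_smul, hj]
        exact hgood c hc j _ (ha j) (haa j)
      · rw [Matrix.mulVec_smul, hTb]
        exact hgood c hc i _ (hb i) (hbb i)
    rw [← heq] at hmem
    obtain ⟨σ, hσ⟩ := hmem.1
    have m0 : a (P 1) ∈ D (σ (P 0)) := by
      rw [← hσ (P 0)]
      refine ⟨a (P 0), ha _, ?_⟩
      rw [Matrix.toLin'_apply, hT, hv, hh_add_right hF2, hpa, hpa, if_pos rfl, if_neg (by simp [hP]),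
        add_zero, one_smul, ← add_assoc, ← two_smul F, h2, zero_smul, zero_add]
    have m1 : b (P 0) ∈ D (σ (P 0)) := by
      rw [← hσ (P 0)]
      exact ⟨b (P 0), hb _, by rw [Matrix.toLin'_apply, hTb]⟩
    have e0 : P 1 = σ (P 0) := by by_contra h; exact hnotD h _ (ha _) (haa _) m0
    have e1 : P 0 = σ (P 0) := by by_contra h; exact hnotD h _ (hb _) (hbb _) m1
    exact absurd ((hP 1 0).1 (e0.trans e1.symm)) (by decide)
  · set v := a (P 0) + a (P 1) + a (P 2) + a (P 3) with hv
    have hvv : hh v v = 0 := by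
      simp only [hv, hh_add_left hF2, hh_add_right hF2, hpa, hP]
      simp only [Fin.reduceEq, if_false, if_true, add_zero, zero_add]
      linear_combination (2 : F) * h2
    have hmem := uT_mem hF2 v 1 hvv hc1
    rw [← heq] at hmem
    obtain ⟨j, hj, -⟩ := hmem.1 (a (P 0)) ⟨P 0, ha _, haa _⟩
    rw [uT_mulVec, one_mul] at hj
    have hval : ∀ k : Fin 5, k = 1 ∨ k = 2 →
        hh (a (P 0) + hh (a (P 0)) v • v) (a (P k)) ≠ 0 := by
      intro k hk
      rcases hk with rfl | rfl <;>
        simp only [hv, hh_add_left hF2, hh_add_right hF2, hh_smul_left hF2, hpa, hP] <;> simp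
    by_cases h1 : j = P 1
    · exact hval 2 (Or.inr rfl) (hort j _ (by rw [h1]; simp [hP]) _ hj _ (ha _))
    · exact hval 1 (Or.inl rfl) (hort j _ h1 _ hj _ (ha _))

end Cfsg.Agent.GeomClasses.UnitaryFrameRefine
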