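import Cfsg.Agent.GeomClasses.OrthStab

/-! # Unitary subgroups are maximal in orthogonal groups -/

set_option autoImplicit false
set_option linter.unusedSectionVars false

namespace Cfsg.Agent.GeomClasses.UInO

open Module Cfsg.Agent.Forms Cfsg.Agent.GeomClasses

variable {F V : Type*} [Field F] [AddCommGroup V] [Module F V] [FiniteDimensional F V]
  {Q : QuadraticForm F V}

set_option quotPrecheck false in
local notation "BQ" => QuadraticMap.polar ⇑Q

/-- A quadratic field structure scaling the quadratic form by the norm. -/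
structure Cy (Q : QuadraticForm F V) where
  J : V →ₗ[F] V
  α : F
  β : F
  irr : ∀ a : F, a * a - α * a - β ≠ 0
  sq : ∀ x, J (J x) = α • J x + β • x
  Qj : ∀ x, Q (J x) = -β * Q x
  adj : ∀ x y, QuadraticMap.polar Q (J x) y = α * QuadraticMap.polar Q x y - QuadraticMap.polar Q x (J y)
  self : ∀ x, QuadraticMap.polar Q (J x) x = α * Q x
  nd : (QuadraticMap.polarBilin Q).Nondegenerate
  hn : 14 ≤ finrank F V

variable (C : Cy Q)

local notation "sp" => Submodule.span F

theorem Cy.right (x y : V) : BQ x (C.J y) = C.α * BQ x y - BQ (C.J x) y := by rw [C.adj]; ring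

theorem Cy.JJ (x y : V) : BQ (C.J x) (C.J y) = -C.β * BQ x y := by
  rw [C.adj, C.sq, QuadraticMap.polar_add_right, QuadraticMap.polar_smul_right, QuadraticMap.polar_smul_right,
    smul_eq_mul, smul_eq_mul]
  ring

theorem Cy.eq_zero_of_comb {x : V} (hx : x ≠ 0) {a b : F} (h : a • x + b • C.J x = 0) : a = 0 ∧ b = 0 := by
  by_cases hb : b = 0
  · refine ⟨?_, hb⟩
    rw [hb, zero_smul, add_zero] at h
    exact (smul_eq_zero.mp h).resolve_right hx
  · exfalso
    have e : C.J x = (-(b⁻¹ * a)) • x := by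
      rw [neg_smul, mul_smul, ← smul_neg, neg_eq_of_add_eq_zero_right h, inv_smul_smul₀ hb]
    have h2 := C.sq x
    rw [e, map_smul, e, smul_smul, smul_smul, ← add_smul] at h2
    refine C.irr (-(b⁻¹ * a)) ?_
    have h3 := sub_eq_zero.mpr h2
    rw [← sub_smul] at h3
    have h4 := (smul_eq_zero.mp h3).resolve_right hx
    linear_combination h4

theorem Cy.J_ne {x : V} (hx : x ≠ 0) (a : F) : C.J x ≠ a • x := fun h =>
  one_ne_zero (C.eq_zero_of_comb hx (a := -a) (b := 1) (by rw [h]; module)).2

theorem mem_span2 {a b w : V} : w ∈ sp {a, b} ↔ ∃ k l : F, k • a + l • b = w := Submodule.mem_span_pair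

theorem Cy.not_mem_symm {x w : V} (hx : x ≠ 0) (hw : w ∉ sp {x, C.J x}) : x ∉ sp {w, C.J w} := by
  intro h
  obtain ⟨a, b, e⟩ := mem_span2.mp h
  have hne : a * a + a * b * C.α - b * b * C.β ≠ 0 := by
    intro h0
    by_cases hb : b = 0
    · have ha : a = 0 := by simpa [hb] using h0
      exact hx (by rw [← e, ha, hb]; simp)
    · refine C.irr (-(a / b)) ?_
      field_simp
      linear_combination h0
  refine hw (mem_span2.mpr ⟨(a + b * C.α) / (a * a + a * b * C.α - b * b * C.β),
    -b / (a * a + a * b * C.α - b * b * C.β), ?_⟩)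
  set N := a * a + a * b * C.α - b * b * C.β
  refine smul_right_injective V hne ?_
  show N • _ = N • w
  rw [smul_add, smul_smul, smul_smul, mul_div_cancel₀ _ hne, mul_div_cancel₀ _ hne, ← e]
  simp only [map_add, map_smul, C.sq]
  module

/-- Adjoining the image of a vector outside a line of the extension enlarges the span. -/
theorem Cy.J_not_mem {x w : V} (hw : w ∉ sp {x, C.J x}) : C.J w ∉ sp {x, C.J x, w} := by
  intro h
  obtain ⟨a, r, hr, e⟩ := Submodule.mem_span_insert.mp h
  obtain ⟨b, c, rfl⟩ := mem_span2.mp hr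
  have e' := congrArg C.J e
  simp only [map_add, map_smul, C.sq] at e'
  refine hw (mem_span2.mpr ?_)
  refine ⟨(c * a - C.α * a + b * C.β) / (-(c * c - C.α * c - C.β)),
    (c * b + a) / (-(c * c - C.α * c - C.β)), ?_⟩
  have hne : -(c * c - C.α * c - C.β) ≠ 0 := neg_ne_zero.mpr (C.irr c)
  set N := -(c * c - C.α * c - C.β)
  refine smul_right_injective V hne ?_
  show N • _ = N • w
  rw [smul_add, smul_smul, smul_smul, mul_div_cancel₀ _ hne, mul_div_cancel₀ _ hne]
  linear_combination (norm := module) (C.α - c) • e - e'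

theorem Cy.indep {x y : V} (hx : x ≠ 0) (hy : y ∉ sp {x, C.J x}) {a b c e : F}
    (h : a • x + b • C.J x + c • y + e • C.J y = 0) : a = 0 ∧ b = 0 ∧ c = 0 ∧ e = 0 := by
  by_cases he : e = 0
  · rw [he, zero_smul, add_zero] at h
    by_cases hc : c = 0
    · rw [hc, zero_smul, add_zero] at h
      exact ⟨(C.eq_zero_of_comb hx h).1, (C.eq_zero_of_comb hx h).2, hc, he⟩
    · refine absurd (mem_span2.mpr ⟨-(c⁻¹ * a), -(c⁻¹ * b), smul_right_injective V hc ?_⟩) hy
      show c • _ = c • y
      simp only [smul_add, smul_smul, mul_neg, mul_inv_cancel_left₀ hc]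
      linear_combination (norm := module) -(1 : F) • h
  · refine absurd ?_ (C.J_not_mem hy)
    refine Submodule.mem_span_insert.mpr ⟨-(e⁻¹ * a), -(e⁻¹ * b) • C.J x + -(e⁻¹ * c) • y,
      mem_span2.mpr ⟨_, _, rfl⟩, smul_right_injective V he ?_⟩
    show e • C.J y = e • _
    simp only [smul_add, smul_smul, mul_neg, mul_inv_cancel_left₀ he]
    linear_combination (norm := module) h

theorem finrank_span_pair_le (a b : V) : finrank F (sp ({a, b} : Set V)) ≤ 2 := by
  have := finrank_range_le_card (R := F) ![a, b]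
  have h : Set.range ![a, b] = {a, b} := by
    ext y
    simp [Fin.exists_fin_two, eq_comm, or_comm]
  rw [h] at this
  simpa [Set.finrank] using this

theorem finrank_span_insert_le (a : V) (S : Set V) : finrank F (sp (insert a S)) ≤ 1 + finrank F (sp S) := by
  rw [Submodule.span_insert]
  exact (Submodule.finrank_add_le_finrank_add_finrank _ _).trans (Nat.add_le_add_right (finrank_span_le_card _) _)

variable [Finite F]

include C in
theorem Cy.sing {S : Submodule F V} (hS : finrank F S ≤ 5) {v : V} (hv : v ∉ S) :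
    ∃ a, Q a = 0 ∧ (∀ s ∈ S, BQ s a = 0) ∧ BQ a v ≠ 0 := by
  obtain ⟨a, -, h⟩ := exists_sing_pair C.nd (U := ⊤) (S := S) (fun d => ⟨d, trivial, fun _ _ => rfl⟩) le_top
    (by rw [finrank_top]; have := C.hn; omega) (v := v) trivial hv
  exact ⟨a, h⟩

include C in
theorem Cy.exists_out {S : Submodule F V} (hS : finrank F S ≤ 6) {R : Submodule F V} (hR : finrank F R ≤ 6) :
    ∃ y ∈ perp (QuadraticMap.polarBilin Q) S, y ∉ R := by
  refine SetLike.not_le_iff_exists.mp fun hle => ?_
  have h1 := Submodule.finrank_mono hle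
  have h2 := (isForm_quadratic Q C.nd).finrank_perp S
  have := C.hn
  omega

include C in
/-- A singular vector perpendicular to a small space and outside it. -/
theorem Cy.sing_out {S : Submodule F V} (hS : finrank F S ≤ 5) :
    ∃ a, Q a = 0 ∧ (∀ s ∈ S, BQ s a = 0) ∧ a ∉ S := by
  obtain ⟨y, hy, hyS⟩ := C.exists_out (S := S) (R := S) (by omega) (by omega)
  obtain ⟨a, ha, haS, hay⟩ := C.sing hS hyS
  exact ⟨a, ha, haS, fun h => hay (mem_perp.mp hy a h)⟩

include C in
/-- A singular vector perpendicular to a small space pairing with two vectors outside it. -/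
theorem Cy.sing2 {S : Submodule F V} (hS : finrank F S ≤ 3) {v₁ v₂ : V} (h₁ : v₁ ∉ S) (h₂ : v₂ ∉ S) :
    ∃ a, Q a = 0 ∧ (∀ s ∈ S, BQ s a = 0) ∧ BQ a v₁ ≠ 0 ∧ BQ a v₂ ≠ 0 := by
  obtain ⟨d₁, q1, p1, n1⟩ := C.sing (by omega) h₁
  obtain ⟨d₂, q2, p2, n2⟩ := C.sing (by omega) h₂
  by_cases e1 : BQ d₁ v₂ = 0
  swap
  · exact ⟨d₁, q1, p1, n1, e1⟩
  by_cases e2 : BQ d₂ v₁ = 0
  swap
  · exact ⟨d₂, q2, p2, e2, n2⟩
  by_cases hd : BQ d₁ d₂ = 0
  · refine ⟨d₁ + d₂, ?_, fun s hs => by rw [QuadraticMap.polar_add_right, p1 s hs, p2 s hs, add_zero],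
      by rw [QuadraticMap.polar_add_left, e2, add_zero]; exact n1,
      by rw [QuadraticMap.polar_add_left, e1, zero_add]; exact n2⟩
    rw [QuadraticMap.map_add Q, q1, q2, hd, add_zero, add_zero]
  -- a nonsingular vector perpendicular to both
  set T := S ⊔ sp {d₁, d₂} with hT
  have hT5 : finrank F T ≤ 5 :=
    (Submodule.finrank_add_le_finrank_add_finrank _ _).trans (by have := finrank_span_pair_le (F := F) d₁ d₂; omega)
  obtain ⟨a, qa, pa, haT⟩ := C.sing_out hT5
  obtain ⟨b, qb, pb, hba⟩ := C.sing hT5 haT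
  have hd₁ : d₁ ∈ T := Submodule.mem_sup_right (Submodule.subset_span (by simp))
  have hd₂ : d₂ ∈ T := Submodule.mem_sup_right (Submodule.subset_span (by simp))
  have hQy : Q (a + b) ≠ 0 := by
    rw [QuadraticMap.map_add Q, qa, qb, add_zero, zero_add, QuadraticMap.polar_comm]; exact hba
  have py : ∀ s ∈ T, BQ s (a + b) = 0 := fun s hs => by
    rw [QuadraticMap.polar_add_right, pa s hs, pb s hs, add_zero]
  have hμ : -Q (a + b) / BQ d₁ d₂ ≠ 0 := div_ne_zero (neg_ne_zero.mpr hQy) hd
  set μ := -Q (a + b) / BQ d₁ d₂ with hμdef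
  have hQd : ∀ ε : F, ε * ε = 1 → Q (d₁ + μ • d₂ + ε • (a + b)) = 0 := by
    intro ε hε
    rw [QuadraticMap.map_add Q, QuadraticMap.map_add Q, QuadraticMap.map_smul, QuadraticMap.map_smul, q1, q2,
      QuadraticMap.polar_smul_right, QuadraticMap.polar_smul_right, QuadraticMap.polar_add_left,
      QuadraticMap.polar_smul_left, py _ hd₁, py _ hd₂]
    simp only [smul_eq_mul, hε, hμdef]
    rw [div_mul_cancel₀ _ hd]
    ring
  have hperp : ∀ ε : F, ∀ s ∈ S, BQ s (d₁ + μ • d₂ + ε • (a + b)) = 0 := fun ε s hs => by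
    rw [QuadraticMap.polar_add_right, QuadraticMap.polar_add_right, QuadraticMap.polar_smul_right,
      QuadraticMap.polar_smul_right, p1 s hs, p2 s hs, py s (Submodule.mem_sup_left hs)]
    simp
  have hv1 : ∀ ε : F, BQ (d₁ + μ • d₂ + ε • (a + b)) v₁ = BQ d₁ v₁ + ε * BQ (a + b) v₁ := fun ε => by
    rw [QuadraticMap.polar_add_left, QuadraticMap.polar_add_left, QuadraticMap.polar_smul_left,
      QuadraticMap.polar_smul_left, e2, smul_eq_mul, smul_eq_mul, mul_zero, add_zero]
  have hv2 : ∀ ε : F, BQ (d₁ + μ • d₂ + ε • (a + b)) v₂ = μ * BQ d₂ v₂ + ε * BQ (a + b) v₂ := fun ε => by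
    rw [QuadraticMap.polar_add_left, QuadraticMap.polar_add_left, QuadraticMap.polar_smul_left,
      QuadraticMap.polar_smul_left, e1, smul_eq_mul, smul_eq_mul, zero_add]
  by_cases m1 : v₁ ∈ S ⊔ sp {d₂}
  · have hy1 : BQ (a + b) v₁ = 0 := by
      rw [QuadraticMap.polar_comm]
      refine py _ ((sup_le_sup_left (Submodule.span_mono ?_) S) m1)
      simp
    by_cases m2 : v₂ ∈ S ⊔ sp {d₁}
    · have hy2 : BQ (a + b) v₂ = 0 := by
        rw [QuadraticMap.polar_comm]
        refine py _ ((sup_le_sup_left (Submodule.span_mono ?_) S) m2)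
        simp
      refine ⟨_, hQd 1 (one_mul 1), hperp 1, ?_, ?_⟩
      · rw [hv1, hy1, mul_zero, add_zero]; exact n1
      · rw [hv2, hy2, mul_zero, add_zero]; exact mul_ne_zero hμ n2
    · obtain ⟨d, qd, pd, nd⟩ := C.sing (by
        have := Submodule.finrank_add_le_finrank_add_finrank S (sp {d₁})
        have := finrank_span_le_card (R := F) ({d₁} : Set V)
        simp at this
        omega) m2
      have pdd : BQ d₁ d = 0 := pd d₁ (Submodule.mem_sup_right (Submodule.subset_span (by simp)))
      by_cases e3 : BQ d v₁ = 0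
      · refine ⟨d₁ + d, ?_, fun s hs => by
          rw [QuadraticMap.polar_add_right, p1 s hs, pd s (Submodule.mem_sup_left hs), add_zero],
          by rw [QuadraticMap.polar_add_left, e3, add_zero]; exact n1,
          by rw [QuadraticMap.polar_add_left, e1, zero_add]; exact nd⟩
        rw [QuadraticMap.map_add Q, q1, qd, pdd, add_zero, add_zero]
      · exact ⟨d, qd, fun s hs => pd s (Submodule.mem_sup_left hs), e3, nd⟩
  · obtain ⟨d, qd, pd, nd⟩ := C.sing (by
      have := Submodule.finrank_add_le_finrank_add_finrank S (sp {d₂})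
      have := finrank_span_le_card (R := F) ({d₂} : Set V)
      simp at this
      omega) m1
    have pdd : BQ d₂ d = 0 := pd d₂ (Submodule.mem_sup_right (Submodule.subset_span (by simp)))
    by_cases e3 : BQ d v₂ = 0
    · refine ⟨d₂ + d, ?_, fun s hs => by
        rw [QuadraticMap.polar_add_right, p2 s hs, pd s (Submodule.mem_sup_left hs), add_zero],
        by rw [QuadraticMap.polar_add_left, e2, zero_add]; exact nd,
        by rw [QuadraticMap.polar_add_left, e3, add_zero]; exact n2⟩
      rw [QuadraticMap.map_add Q, q2, qd, pdd, add_zero, add_zero]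
    · exact ⟨d, qd, fun s hs => pd s (Submodule.mem_sup_left hs), nd, e3⟩

/-- The elements normalising the quadratic field. -/
def Cy.Semi (g : orthGroup Q) : Prop :=
  (∀ x, (g : V ≃ₗ[F] V) (C.J x) = C.J ((g : V ≃ₗ[F] V) x)) ∨
    (∀ x, (g : V ≃ₗ[F] V) (C.J x) = C.α • (g : V ≃ₗ[F] V) x - C.J ((g : V ≃ₗ[F] V) x))

theorem Cy.self_zero {v : V} (hv : Q v = 0) : BQ v (C.J v) = 0 := by
  rw [QuadraticMap.polar_comm, C.self, hv, mul_zero]

theorem Cy.perp_smul {v : V} (hv : Q v = 0) (c : F) : BQ v (c • C.J v) = 0 := by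
  rw [QuadraticMap.polar_smul_right, C.self_zero hv, smul_zero]

theorem Cy.T_semi {v : V} (hv : Q v = 0) (c : F) : C.Semi (eichler Q v (c • C.J v) hv (C.perp_smul hv c)) := by
  refine Or.inl fun x => ?_
  simp only [eichler_apply, eichlerMap_apply, QuadraticMap.map_smul, C.Qj, hv, mul_zero, smul_eq_mul, zero_mul,
    add_zero, QuadraticMap.polar_smul_left, map_add, map_sub, map_smul, C.sq, C.JJ, C.right v x]
  rw [QuadraticMap.polar_comm _ (C.J v) x]
  simp only [← QuadraticMap.polar_comm _ x]
  module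

theorem Cy.semi_of_lines {g : orthGroup Q}
    (h : ∀ v, Q v = 0 → ∃ a b : F,
      (g : V ≃ₗ[F] V) (C.J v) = a • (g : V ≃ₗ[F] V) v + b • C.J ((g : V ≃ₗ[F] V) v)) : C.Semi g := by
  set G := (g : V ≃ₗ[F] V) with hG
  have hpair : ∀ v w : V, Q v = 0 → Q w = 0 → BQ v w = 0 → v ≠ 0 → w ∉ sp {v, C.J v} → ∀ a b a' b' : F,
      G (C.J v) = a • G v + b • C.J (G v) → G (C.J w) = a' • G w + b' • C.J (G w) → a = a' ∧ b = b' := by
    intro v w hv hw hvw hv0 hwn a b a' b' e1 e2
    obtain ⟨a₃, b₃, e3⟩ := h (v + w) (by rw [QuadraticMap.map_add Q, hv, hw, hvw, add_zero, add_zero])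
    simp only [map_add] at e3
    rw [e1, e2] at e3
    have hb : b ≠ 0 := fun hb => by
      rw [hb, zero_smul, add_zero, ← map_smul] at e1
      exact C.J_ne hv0 a (G.injective e1)
    have hgw : G w ∉ sp {G v, C.J (G v)} := by
      intro hm
      obtain ⟨k, l, e⟩ := mem_span2.mp hm
      have e4 : C.J (G v) = G (b⁻¹ • C.J v - (b⁻¹ * a) • v) := by
        rw [map_sub, map_smul, map_smul, e1, smul_add, smul_smul, inv_smul_smul₀ hb, add_sub_cancel_left]
      rw [e4, ← map_smul, ← map_smul, ← map_add] at e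
      refine hwn ?_
      rw [← G.injective e]
      have hv1 : v ∈ sp {v, C.J v} := Submodule.subset_span (Set.mem_insert _ _)
      have hv2 : C.J v ∈ sp {v, C.J v} := Submodule.subset_span (by simp)
      exact add_mem (Submodule.smul_mem _ k hv1) (Submodule.smul_mem _ l
        (sub_mem (Submodule.smul_mem _ _ hv2) (Submodule.smul_mem _ _ hv1)))
    obtain ⟨p1, p2, p3, p4⟩ := C.indep (x := G v) (y := G w) (a := a - a₃) (b := b - b₃) (c := a' - a₃)
      (e := b' - b₃) (by simpa using hv0) hgw (by linear_combination (norm := module) e3)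
    exact ⟨by linear_combination p1 - p3, by linear_combination p2 - p4⟩
  obtain ⟨v₀, q₀, -, n₀⟩ := C.sing_out (S := ⊥) (by simp)
  have hv₀ : v₀ ≠ 0 := by simpa using n₀
  obtain ⟨a, b, e₀⟩ := h v₀ q₀
  have hiso : ∀ v, Q v = 0 → G (C.J v) = a • G v + b • C.J (G v) := by
    intro v hv
    rcases eq_or_ne v 0 with rfl | hv0
    · simp
    obtain ⟨z, qz, pz, nz⟩ := C.sing_out (S := sp {v₀, C.J v₀} ⊔ sp {v, C.J v})
      ((Submodule.finrank_add_le_finrank_add_finrank _ _).trans
        (by have := finrank_span_pair_le (F := F) v₀ (C.J v₀); have := finrank_span_pair_le (F := F) v (C.J v); omega))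
    obtain ⟨a₁, b₁, e₁⟩ := h v hv
    obtain ⟨a₂, b₂, e₂⟩ := h z qz
    obtain ⟨rfl, rfl⟩ := hpair v₀ z q₀ qz (pz v₀ (Submodule.mem_sup_left (Submodule.subset_span (by simp)))) hv₀
      (fun hm => nz (Submodule.mem_sup_left hm)) a b a₂ b₂ e₀ e₂
    obtain ⟨rfl, rfl⟩ := hpair v z hv qz (pz v (Submodule.mem_sup_right (Submodule.subset_span (by simp)))) hv0
      (fun hm => nz (Submodule.mem_sup_right hm)) a₁ b₁ a b e₁ e₂
    exact e₁
  have hspan : sp {v : V | Q v = 0} = ⊤ := by
    have hI := isForm_quadratic Q C.nd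
    rw [← hI.perp_perp (sp {v : V | Q v = 0})]
    refine eq_top_iff.mpr fun y _ => mem_perp.mpr fun u hu => ?_
    rcases eq_or_ne u 0 with rfl | hu0
    · simp
    obtain ⟨s, qs, -, hsu⟩ := C.sing (S := ⊥) (by simp) (v := u) (by simpa using hu0)
    exact absurd (mem_perp.mp hu s (Submodule.subset_span qs)) hsu
  have hall : ∀ x, G (C.J x) = a • G x + b • C.J (G x) := fun x => by
    have hx : x ∈ sp {v : V | Q v = 0} := hspan ▸ Submodule.mem_top
    induction hx using Submodule.span_induction with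
    | mem z hz => exact hiso z hz
    | zero => simp
    | add p r _ _ hp hr => simp only [map_add, hp, hr]; module
    | smul c p _ hp => simp only [map_smul, hp]; module
  have h2 := congrArg G (C.sq v₀)
  rw [hall, map_add, map_smul, map_smul, hall v₀, map_add, map_smul, map_smul, C.sq] at h2
  obtain ⟨s1, s2⟩ := C.eq_zero_of_comb (x := G v₀) (by simpa using hv₀)
    (a := a * a + b * b * C.β - C.α * a - C.β) (b := 2 * a * b + C.α * b * b - C.α * b)
    (by linear_combination (norm := module) h2)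
  have hb : b ≠ 0 := fun hb => C.irr a (by rw [hb] at s1; linear_combination s1)
  have h2a : 2 * a + C.α * b - C.α = 0 :=
    (mul_eq_zero.mp (show (2 * a + C.α * b - C.α) * b = 0 by linear_combination s2)).resolve_right hb
  have hdisc : C.α * C.α + 4 * C.β ≠ 0 := by
    intro h0
    by_cases h2 : (2 : F) = 0
    · obtain ⟨s, hs⟩ := exists_sq_of_two_eq_zero h2 C.β
      refine C.irr s ?_
      have hα : C.α = 0 := mul_self_eq_zero.mp (by linear_combination h0 - 2 * C.β * h2)
      rw [hα, ← hs]; ring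
    · refine C.irr (C.α / 2) ?_
      field_simp
      linear_combination -h0
  have hb2 : b * b = 1 := by
    have : (C.α * C.α + 4 * C.β) * (b * b - 1) = 0 := by
      linear_combination 4 * s1 - (2 * a + C.α * (1 - b) - 2 * C.α) * h2a
    exact sub_eq_zero.mp ((mul_eq_zero.mp this).resolve_left hdisc)
  have haa : a * (a - C.α) = 0 := by linear_combination s1 - C.β * hb2
  rcases mul_self_eq_one_iff.mp hb2 with rfl | rfl
  · rcases mul_eq_zero.mp haa with rfl | ha
    · exact Or.inl fun x => by rw [hall, hG]; simp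
    · rw [sub_eq_zero.mp ha] at h2a
      rcases eq_or_ne C.α 0 with hα | hα
      · exact Or.inl fun x => by rw [hall, sub_eq_zero.mp ha, hα, hG]; simp
      · refine Or.inr fun x => ?_
        have h20 : (2 : F) = 0 := (mul_eq_zero.mp (show (2 : F) * C.α = 0 by linear_combination h2a)).resolve_right hα
        have hm : (-1 : F) = 1 := by linear_combination -h20
        rw [hall, sub_eq_zero.mp ha, hG, sub_eq_add_neg, ← neg_one_smul F (C.J _), hm]
  · rcases mul_eq_zero.mp haa with rfl | ha
    · rcases eq_or_ne C.α 0 with hα | hα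
      · exact Or.inr fun x => by rw [hall, hα, hG]; module
      · have h20 : (2 : F) = 0 :=
          (mul_eq_zero.mp (show (2 : F) * C.α = 0 by linear_combination -h2a)).resolve_right hα
        have hm : (-1 : F) = 1 := by linear_combination -h20
        exact Or.inl fun x => by rw [hall, hm, hG]; simp
    · exact Or.inr fun x => by rw [hall, sub_eq_zero.mp ha, hG]; module

variable {M : Subgroup (orthGroup Q)}

/-- All multiples of the vector give Eichler transformations in the subgroup. -/
def lineSub (M : Subgroup (orthGroup Q)) (x : V) (hx : Q x = 0) : Submodule F V where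
  carrier := {w | ∀ c : F, EIn Q M x (c • w)}
  add_mem' {a b} ha hb c := by rw [smul_add]; exact eIn_add (ha c) (hb c)
  zero_mem' c := by rw [smul_zero]; exact eIn_zero hx
  smul_mem' k a ha c := by rw [smul_smul]; exact ha _

theorem mem_lineSub {x w : V} {hx : Q x = 0} : w ∈ lineSub M x hx ↔ ∀ c : F, EIn Q M x (c • w) := Iff.rfl

variable (hH : ∀ g ∈ commutator (orthGroup Q), C.Semi g → g ∈ M)
include hH

theorem Cy.T_mem {v : V} (hv : Q v = 0) (c : F) : eichler Q v (c • C.J v) hv (C.perp_smul hv c) ∈ M :=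
  hH _ (eichler_mem_comm C.nd (by have := C.hn; omega) hv _) (C.T_semi hv c)

/-- One vector outside the line of the centre gives everything orthogonal to the line. -/
theorem Cy.grow {x w₀ : V} (hx : Q x = 0) (hx0 : x ≠ 0) (hwn : w₀ ∉ sp {x, C.J x}) (hl : w₀ ∈ lineSub M x hx)
    {w : V} (hw : BQ x w = 0) (hw' : BQ (C.J x) w = 0) : w ∈ lineSub M x hx := by
  have step : ∀ z u : V, Q z = 0 → BQ x z = 0 → BQ (C.J x) z = 0 → BQ z u = 0 → BQ (C.J z) u ≠ 0 →
      u ∈ lineSub M x hx → z ∈ lineSub M x hx := by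
    intro z u hz h1 h2 h3 h4 hu
    have hfix : (eichler Q z ((1 : F) • C.J z) hz (C.perp_smul hz 1) : V ≃ₗ[F] V) x = x := by
      rw [eichler_apply, eichlerMap_apply, QuadraticMap.polar_comm _ z x, h1, QuadraticMap.polar_smul_left, C.adj,
        QuadraticMap.polar_comm _ z x, h1, QuadraticMap.polar_comm _ z (C.J x), h2]
      simp
    have hmem : (-(BQ (C.J z) u)) • z ∈ lineSub M x hx := fun c => by
      have e := eIn_conj (C.T_mem hH hz 1) (hu c)
      rw [hfix] at e
      have e' := eIn_add e (eIn_neg (hu c))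
      convert e' using 1
      simp only [eichler_apply, eichlerMap_apply, one_smul, C.Qj, hz, mul_zero, zero_mul, add_zero,
        QuadraticMap.polar_smul_right, h3, smul_zero, smul_eq_mul]
      module
    have := Submodule.smul_mem _ (-(BQ (C.J z) u))⁻¹ hmem
    rwa [inv_smul_smul₀ (neg_ne_zero.mpr h4)] at this
  set S := sp {x, C.J x} with hSdef
  set W := lineSub M x hx ⊓ perp (QuadraticMap.polarBilin Q) S with hWdef
  have hS2 : finrank F S ≤ 2 := finrank_span_pair_le _ _
  have hS3 : ∀ u : V, finrank F (sp ({x, C.J x, u} : Set V)) ≤ 3 := fun u => by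
    have h1 : ({x, C.J x, u} : Set V) = insert u {x, C.J x} := by ext; simp; tauto
    rw [h1]
    have := finrank_span_insert_le (F := F) u {x, C.J x}
    have := finrank_span_pair_le (F := F) x (C.J x)
    omega
  have hJw₀ := C.J_not_mem hwn
  have inW : ∀ d, Q d = 0 → (∀ s ∈ sp {x, C.J x, w₀}, BQ s d = 0) → BQ d (C.J w₀) ≠ 0 → d ∈ W := by
    intro d qd pd nd
    refine ⟨step d w₀ qd (pd x (Submodule.subset_span (by simp))) (pd _ (Submodule.subset_span (by simp)))
      (by rw [QuadraticMap.polar_comm]; exact pd w₀ (Submodule.subset_span (by simp))) ?_ hl, mem_perp.mpr fun s hs => ?_⟩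
    · rw [C.adj, QuadraticMap.polar_comm _ d w₀, pd w₀ (Submodule.subset_span (by simp)), mul_zero, zero_sub]
      exact neg_ne_zero.mpr nd
    · exact pd s (Submodule.span_mono (fun t ht => by simp at ht ⊢; tauto) hs)
  have hperp : perp (QuadraticMap.polarBilin Q) W ≤ S := by
    intro u hu
    by_contra huS
    by_cases hu3 : u ∈ sp {x, C.J x, w₀}
    · obtain ⟨a, r, hr, e⟩ := Submodule.mem_span_insert.mp hu3
      obtain ⟨b, c, rfl⟩ := mem_span2.mp hr
      have hc : c ≠ 0 := fun hc => huS (by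
        rw [e, hc, zero_smul, add_zero]; exact mem_span2.mpr ⟨a, b, rfl⟩)
      have hw₀W : ∀ t ∈ W, BQ t w₀ = 0 := by
        intro t ht
        have h1 := mem_perp.mp hu t ht
        have h2 := mem_perp.mp ht.2 x (Submodule.subset_span (by simp))
        have h3 := mem_perp.mp ht.2 (C.J x) (Submodule.subset_span (by simp))
        simp only [QuadraticMap.polarBilin_apply_apply] at h1 h2 h3
        rw [e, QuadraticMap.polar_add_right, QuadraticMap.polar_add_right, QuadraticMap.polar_smul_right,
          QuadraticMap.polar_smul_right, QuadraticMap.polar_smul_right, QuadraticMap.polar_comm _ t x, h2,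
          QuadraticMap.polar_comm _ t (C.J x), h3, smul_zero, smul_zero, zero_add, zero_add, smul_eq_mul] at h1
        exact (mul_eq_zero.mp h1).resolve_left hc
      obtain ⟨y, hy, hyn⟩ := C.exists_out (S := S) (R := sp {x, C.J x, w₀}) (by omega) (by have := hS3 w₀; omega)
      obtain ⟨d, qd, pd, n1, n2⟩ := C.sing2 (hS3 w₀) hJw₀ hyn
      have hdS : d ∉ S := fun h => n2 (mem_perp.mp hy d h)
      have hdW := inW d qd pd n1
      have hwd : w₀ ∉ sp {x, C.J x, d} := by
        intro hm
        obtain ⟨a', r', hr', e'⟩ := Submodule.mem_span_insert.mp hm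
        obtain ⟨b', c', rfl⟩ := mem_span2.mp hr'
        refine n1 ?_
        rw [e']
        simp only [map_add, map_smul, C.sq, QuadraticMap.polar_add_right, QuadraticMap.polar_smul_right,
          C.self_zero qd, QuadraticMap.polar_comm _ d x, pd x (Submodule.subset_span (by simp)),
          QuadraticMap.polar_comm _ d (C.J x), pd (C.J x) (Submodule.subset_span (by simp)), smul_zero, add_zero]
      obtain ⟨z, qz, pz, m1, m2⟩ := C.sing2 (hS3 d) (C.J_not_mem hdS) hwd
      refine m2 (hw₀W z ⟨step z d qz (pz x (Submodule.subset_span (by simp))) (pz _ (Submodule.subset_span (by simp)))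
        (by rw [QuadraticMap.polar_comm]; exact pz d (Submodule.subset_span (by simp))) ?_ hdW.1,
        mem_perp.mpr fun s hs => pz s (Submodule.span_mono (fun t ht => by simp at ht ⊢; tauto) hs)⟩)
      rw [C.adj, QuadraticMap.polar_comm _ z d, pz d (Submodule.subset_span (by simp)), mul_zero, zero_sub]
      exact neg_ne_zero.mpr m1
    · obtain ⟨d, qd, pd, n1, n2⟩ := C.sing2 (hS3 w₀) hJw₀ hu3
      exact n2 (mem_perp.mp hu d (inW d qd pd n1))
  have hwW : w ∈ W := by
    rw [← (isForm_quadratic Q C.nd).perp_perp W]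
    refine mem_perp.mpr fun u hu => ?_
    obtain ⟨a, b, rfl⟩ := mem_span2.mp (hperp hu)
    simp [hw, hw']
  exact hwW.1

/-- An element outside gives the whole derived group. -/
theorem Cy.top_of_not_semi {g : orthGroup Q} (hg : g ∈ M) (hns : ¬ C.Semi g) :
    commutator (orthGroup Q) ≤ M := by
  obtain ⟨v, hv, hne⟩ : ∃ v, Q v = 0 ∧ ∀ a b : F,
      (g : V ≃ₗ[F] V) (C.J v) ≠ a • (g : V ≃ₗ[F] V) v + b • C.J ((g : V ≃ₗ[F] V) v) := by
    by_contra hcon
    push Not at hcon
    exact hns (C.semi_of_lines hcon)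
  set G := (g : V ≃ₗ[F] V) with hG
  have hv0 : v ≠ 0 := fun e => hne 0 0 (by rw [e]; simp)
  set u₁ := G v with hu₁
  set u₂ := G (C.J v) with hu₂
  have q1 : Q u₁ = 0 := by rw [hu₁, g.2.2]; exact hv
  have hu₁0 : u₁ ≠ 0 := by simpa [hu₁] using hv0
  have hl : u₂ ∈ lineSub M u₁ q1 := fun c => by
    have h := eIn_conj hg (show EIn Q M v (c • C.J v) from ⟨hv, C.perp_smul hv c, C.T_mem hH hv c⟩)
    simpa [hu₁, hu₂] using h
  have hu₂n : u₂ ∉ sp {u₁, C.J u₁} := fun h => by
    obtain ⟨a, b, e⟩ := mem_span2.mp h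
    exact hne a b e.symm
  -- every singular line has everything orthogonal to it
  have hall : ∀ y (hy : Q y = 0), y ≠ 0 → ∀ w, BQ y w = 0 → BQ (C.J y) w = 0 → w ∈ lineSub M y hy := by
    intro y hy hy0 w hw hw'
    obtain ⟨z, qz, pz, nz⟩ := C.sing_out (S := sp {u₁, C.J u₁} ⊔ sp {y, C.J y})
      ((Submodule.finrank_add_le_finrank_add_finrank _ _).trans
        (by have := finrank_span_pair_le (F := F) u₁ (C.J u₁); have := finrank_span_pair_le (F := F) y (C.J y); omega))
    have z1 : BQ u₁ z = 0 := pz _ (Submodule.mem_sup_left (Submodule.subset_span (by simp)))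
    have z2 : BQ (C.J u₁) z = 0 := pz _ (Submodule.mem_sup_left (Submodule.subset_span (by simp)))
    have z3 : BQ y z = 0 := pz _ (Submodule.mem_sup_right (Submodule.subset_span (by simp)))
    have z4 : BQ (C.J y) z = 0 := pz _ (Submodule.mem_sup_right (Submodule.subset_span (by simp)))
    have swap : ∀ a b : V, ∀ (ha : Q a = 0) (hb : Q b = 0), BQ a b = 0 → b ∈ lineSub M a ha → a ∈ lineSub M b hb := by
      intro a b ha hb hab h c
      have h1 := (eIn_smul (-c) ha hab).mpr (h (-c))
      have h2 := eIn_swap h1 hb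
      simpa using h2
    have hz0 : z ≠ 0 := fun e => nz (by rw [e]; exact zero_mem _)
    have h1 := C.grow hH q1 hu₁0 hu₂n hl z1 z2
    have h2 := swap u₁ z q1 qz z1 h1
    have hzy : y ∈ lineSub M z qz := C.grow hH qz hz0 (C.not_mem_symm hu₁0 fun h => nz (Submodule.mem_sup_left h)) h2
      (by rw [QuadraticMap.polar_comm]; exact z3)
      (by rw [C.adj, QuadraticMap.polar_comm _ z y, z3, QuadraticMap.polar_comm _ z (C.J y), z4]; ring)
    exact C.grow hH hy hy0 (fun h => nz (Submodule.mem_sup_right h))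
      (swap z y qz hy (by rw [QuadraticMap.polar_comm]; exact z3) hzy) hw hw'
  have hJ : C.J u₁ ∉ sp {u₁, u₂} := by
    intro h
    obtain ⟨a, b, e⟩ := mem_span2.mp h
    rcases eq_or_ne b 0 with hb | hb
    · rw [hb, zero_smul, add_zero] at e
      exact C.J_ne hu₁0 a e.symm
    · refine hu₂n (mem_span2.mpr ⟨-(b⁻¹ * a), b⁻¹, ?_⟩)
      rw [← e, smul_add, smul_smul, inv_smul_smul₀ hb]
      module
  have hf : Full Q M u₁ := ⟨q1, fun w hw => by
    obtain ⟨p, hp, hpJ⟩ := (isForm_quadratic Q C.nd).exists_perp_pairing hJ (BQ (C.J u₁) w)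
    simp only [QuadraticMap.polarBilin_apply_apply] at hp hpJ
    have p1 := hp u₁ (Submodule.subset_span (by simp))
    have p2 := hp u₂ (Submodule.subset_span (by simp))
    have h1 : EIn Q M u₁ (w - p) := by
      simpa using hall u₁ q1 hu₁0 (w - p) (by rw [QuadraticMap.polar_sub_right, hw, p1, sub_zero])
        (by rw [QuadraticMap.polar_sub_right, hpJ, sub_self]) 1
    rw [← G.apply_symm_apply p] at p1 p2
    rw [hu₁, hG, orth_polar] at p1
    rw [hu₂, hG, orth_polar] at p2
    have h2 := eIn_conj hg (by simpa using hall v hv hv0 _ p1 p2 1 : EIn Q M v (G.symm p))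
    rw [← hG, G.apply_symm_apply, ← hu₁] at h2
    simpa using eIn_add h1 h2⟩
  -- a second centre not orthogonal to it
  obtain ⟨b, qb, -, hbu⟩ := C.sing (S := ⊥) (by simp) (v := u₁) (by simpa using hu₁0)
  have hb0 : b ≠ 0 := fun e => hbu (by rw [e]; simp [QuadraticMap.polar])
  have hS5 : finrank F (sp {b, C.J b}) ≤ 5 := (finrank_span_pair_le _ _).trans (by omega)
  obtain ⟨a, qa, pa, haS⟩ := C.sing_out hS5
  obtain ⟨a', qa', pa', ha'⟩ := C.sing hS5 haS
  have hw1 : BQ b (a + a') = 0 := by
    rw [QuadraticMap.polar_add_right, pa b (Submodule.subset_span (by simp)), pa' b (Submodule.subset_span (by simp)),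
      add_zero]
  have hw2 : BQ (C.J b) (a + a') = 0 := by
    rw [QuadraticMap.polar_add_right, pa _ (Submodule.subset_span (by simp)), pa' _ (Submodule.subset_span (by simp)),
      add_zero]
  have hQw : Q (a + a') ≠ 0 := by
    rw [QuadraticMap.map_add Q, qa, qa', add_zero, zero_add, QuadraticMap.polar_comm]; exact ha'
  obtain ⟨_, _, hk⟩ := (by simpa using hall b qb hb0 _ hw1 hw2 1 : EIn Q M b (a + a'))
  refine exists_full_pair_top C.nd (by have := C.hn; omega) hf (full_conj hk hf) ?_
  rw [eichler_apply, eichlerMap_apply, QuadraticMap.polar_sub_right, QuadraticMap.polar_add_right,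
    QuadraticMap.polar_smul_right, QuadraticMap.polar_smul_right, polar_self_two_mul, q1,
    QuadraticMap.polar_comm _ u₁ b, QuadraticMap.polar_comm _ u₁ (a + a'), smul_eq_mul, smul_eq_mul]
  intro h0
  exact mul_ne_zero hQw (mul_ne_zero hbu hbu) (by linear_combination -h0)

omit hH in
theorem Cy.exists_not_semi : ∃ g ∈ commutator (orthGroup Q), ¬ C.Semi g := by
  obtain ⟨x, qx, -, nx⟩ := C.sing_out (S := ⊥) (by simp)
  have hx0 : x ≠ 0 := by simpa using nx
  obtain ⟨w, hw, hwJ⟩ := (isForm_quadratic Q C.nd).exists_perp_pairing (H := sp {x}) (y := C.J x)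
    (fun h => by
      obtain ⟨c, hc⟩ := Submodule.mem_span_singleton.mp h
      exact C.J_ne hx0 c hc.symm) (1 : F)
  simp only [QuadraticMap.polarBilin_apply_apply] at hw hwJ
  have hxw := hw x (Submodule.mem_span_singleton_self x)
  refine ⟨eichler Q x w qx hxw, eichler_mem_comm C.nd (by have := C.hn; omega) qx hxw, ?_⟩
  have e1 : (eichler Q x w qx hxw : V ≃ₗ[F] V) x = x := by
    rw [eichler_apply, eichlerMap_apply, polar_self_two_mul, qx, QuadraticMap.polar_comm _ w x, hxw]; simp
  have e2 : (eichler Q x w qx hxw : V ≃ₗ[F] V) (C.J x) = C.J x - (1 : F) • x := by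
    rw [eichler_apply, eichlerMap_apply, C.self_zero qx, QuadraticMap.polar_comm _ w (C.J x), hwJ]; simp
  rintro (h | h)
  · have h1 := h x
    rw [e1, e2, one_smul, sub_eq_self] at h1
    exact hx0 h1
  · have h1 := h x
    rw [e1, e2] at h1
    obtain ⟨c1, c2⟩ := C.eq_zero_of_comb hx0 (a := -1 - C.α) (b := 2)
      (by linear_combination (norm := module) h1)
    obtain ⟨y, hy, hy0⟩ := C.exists_out (S := sp {x, C.J x} ⊔ sp {w, C.J w}) (R := ⊥)
      ((Submodule.finrank_add_le_finrank_add_finrank _ _).trans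
        (by have := finrank_span_pair_le (F := F) x (C.J x); have := finrank_span_pair_le (F := F) w (C.J w); omega))
      (by simp)
    have m1 : BQ x y = 0 := mem_perp.mp hy x (Submodule.mem_sup_left (Submodule.subset_span (by simp)))
    have m2 : BQ (C.J x) y = 0 := mem_perp.mp hy _ (Submodule.mem_sup_left (Submodule.subset_span (by simp)))
    have m3 : BQ w y = 0 := mem_perp.mp hy w (Submodule.mem_sup_right (Submodule.subset_span (by simp)))
    have m4 : BQ (C.J w) y = 0 := mem_perp.mp hy _ (Submodule.mem_sup_right (Submodule.subset_span (by simp)))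
    have h3 := h y
    simp only [eichler_apply, eichlerMap_apply, C.right x y, C.right w y, m1, m2, m3, m4, mul_zero, sub_zero,
      zero_smul, add_zero, smul_zero] at h3
    obtain ⟨d1, -⟩ := C.eq_zero_of_comb (x := y) (by simpa using hy0) (a := -C.α) (b := 2)
      (by linear_combination (norm := module) h3)
    exact neg_ne_zero.mpr one_ne_zero (by linear_combination c1 - d1 : (-1 : F) = 0)

end Cfsg.Agent.GeomClasses.UInO
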