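import Cfsg.Agent.GeomClasses.UnitaryInOrth
import Cfsg.Agent.GeomClasses.OmegaBridge

/-! # The quadratic field structure of a subalgebra scaling a quadratic form -/

set_option autoImplicit false
set_option linter.unusedSectionVars false

namespace Cfsg.Agent.GeomClasses.UInO

open Matrix Cfsg.Agent.Forms Cfsg.Agent.GeomClasses

variable {F : Type*} [Field F] {n : ℕ}

local notation "Vec" => (Fin n → F)
local notation "Mx" => Matrix (Fin n) (Fin n) F

/-- The structure attached to the subalgebra. -/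
theorem exists_cy [Finite F] (hn : 14 ≤ n) {Q : QuadraticForm F Vec} (hQ : (QuadraticMap.polarBilin Q).Nondegenerate)
    (K : Subalgebra F Mx) (hK : Cfsg.Geo.IsFieldSubalgebra 2 K)
    (hac : Cfsg.Geo.IsAdjointClosedFor (QuadraticMap.polar ⇑Q) K)
    (hnsa : ¬ Cfsg.Geo.IsSelfAdjointFor (QuadraticMap.polar ⇑Q) K)
    (hsc : ∀ k ∈ K, ∃ c : F, ∀ v : Vec, Q (k *ᵥ v) = c * Q v) :
    ∃ (C : Cy Q) (k : Mx), k ∈ K ∧ (∀ x, C.J x = k *ᵥ x) ∧ ∀ z ∈ K, ∃ s t : F, z = s • (1 : Mx) + t • k := by
  classical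
  haveI : Nonempty (Fin n) := Fin.pos_iff_nonempty.mp (by omega)
  obtain ⟨k, hk, hkn⟩ : ∃ k ∈ K, k ∉ (⊥ : Subalgebra F Mx) := by
    refine SetLike.not_le_iff_exists.mp fun hle => ?_
    have := hK.finrank_eq
    rw [le_bot_iff.mp hle, Subalgebra.finrank_bot] at this
    omega
  have hli : LinearIndependent F ![(1 : Mx), k] := by
    refine LinearIndependent.pair_iff.mpr fun s t h => ?_
    by_cases ht : t = 0
    · refine ⟨?_, ht⟩
      rw [ht, zero_smul, add_zero] at h
      exact (smul_eq_zero.mp h).resolve_right one_ne_zero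
    · refine absurd ?_ hkn
      rw [Algebra.mem_bot]
      refine ⟨-(t⁻¹ * s), ?_⟩
      rw [Algebra.algebraMap_eq_smul_one, neg_smul, mul_smul, ← smul_neg, neg_eq_of_add_eq_zero_right h,
        inv_smul_smul₀ ht]
  have hspan : ∀ x ∈ K, ∃ a b : F, x = a • (1 : Mx) + b • k := by
    intro x hx
    have hle : Submodule.span F (Set.range ![(1 : Mx), k]) ≤ Subalgebra.toSubmodule K := by
      rw [Submodule.span_le]
      rintro _ ⟨i, rfl⟩
      fin_cases i
      · exact K.one_mem
      · exact hk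
    have heq := Submodule.eq_of_le_of_finrank_eq hle (by
      rw [finrank_span_eq_card hli, Fintype.card_fin]
      exact hK.finrank_eq.symm)
    have hx' : x ∈ Submodule.span F (Set.range ![(1 : Mx), k]) := heq ▸ hx
    obtain ⟨c, hc⟩ := (Submodule.mem_span_range_iff_exists_fun F).mp hx'
    exact ⟨c 0, c 1, by rw [← hc, Fin.sum_univ_two]; rfl⟩
  obtain ⟨β, α, hab⟩ := hspan (k * k) (K.mul_mem hk hk)
  have irr : ∀ x : F, x * x - α * x - β ≠ 0 := by
    intro x hx
    have hne : k - x • (1 : Mx) ≠ 0 := fun h0 => one_ne_zero (LinearIndependent.pair_iff.mp hli (-x) 1 (by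
      rw [neg_smul, one_smul, ← h0]; abel)).2
    obtain ⟨y, hy, hy1⟩ := hK.inv _ (K.sub_mem hk (K.smul_mem K.one_mem x)) hne
    have h0 : (k - (α - x) • (1 : Mx)) * (k - x • (1 : Mx)) = 0 := by
      simp only [sub_mul, mul_sub, smul_mul_assoc, mul_smul_comm, one_mul, mul_one, hab]
      linear_combination (norm := module) -(hx • (1 : Mx))
    have h1 := congrArg (· * y) h0
    simp only [mul_assoc, hy1, mul_one, zero_mul] at h1
    exact one_ne_zero (LinearIndependent.pair_iff.mp hli (-(α - x)) 1 (by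
      rw [neg_smul, one_smul, ← h1]; abel)).2
  obtain ⟨k', hk', hadj⟩ := hac k hk
  obtain ⟨s, t, hst⟩ := hspan k' hk'
  have hsq' : k' * k' = β • (1 : Mx) + α • k' := by
    refine matrix_ext_mulVec fun v => sub_eq_zero.mp (hQ.2 _ fun u => ?_)
    rw [map_sub, QuadraticMap.polarBilin_apply_apply, QuadraticMap.polarBilin_apply_apply, ← Matrix.mulVec_mulVec,
      ← hadj, ← hadj, Matrix.mulVec_mulVec, hab, Matrix.add_mulVec, Matrix.add_mulVec, Matrix.smul_mulVec,
      Matrix.smul_mulVec, Matrix.smul_mulVec, Matrix.smul_mulVec, Matrix.one_mulVec, Matrix.one_mulVec,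
      QuadraticMap.polar_add_left, QuadraticMap.polar_add_right, QuadraticMap.polar_smul_left,
      QuadraticMap.polar_smul_left, QuadraticMap.polar_smul_right, QuadraticMap.polar_smul_right, hadj, sub_self]
  obtain ⟨s1, s2⟩ := LinearIndependent.pair_iff.mp hli (s * s + t * t * β - α * s - β)
    (2 * s * t + α * t * t - α * t) (by
      rw [hst] at hsq'
      simp only [add_mul, mul_add, smul_mul_assoc, mul_smul_comm, one_mul, mul_one, hab] at hsq'
      linear_combination (norm := module) hsq')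
  have ht : t ≠ 0 := fun h => irr s (by rw [h] at s1; linear_combination s1)
  have h2a : 2 * s + α * t - α = 0 :=
    (mul_eq_zero.mp (show (2 * s + α * t - α) * t = 0 by linear_combination s2)).resolve_right ht
  have hdisc : α * α + 4 * β ≠ 0 := by
    intro h0
    by_cases h2 : (2 : F) = 0
    · obtain ⟨r, hr⟩ := exists_sq_of_two_eq_zero h2 β
      refine irr r ?_
      have hα : α = 0 := mul_self_eq_zero.mp (by linear_combination h0 - 2 * β * h2)
      rw [hα, ← hr]; ring
    · refine irr (α / 2) ?_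
      field_simp
      linear_combination -h0
  have hb2 : t * t = 1 := by
    have : (α * α + 4 * β) * (t * t - 1) = 0 := by
      linear_combination 4 * s1 - (2 * s + α * (1 - t) - 2 * α) * h2a
    exact sub_eq_zero.mp ((mul_eq_zero.mp this).resolve_left hdisc)
  have haa : s * (s - α) = 0 := by linear_combination s1 - β * hb2
  have hk'e : k' = α • (1 : Mx) - k := by
    by_contra hne
    have hst' : s = 0 ∧ t = 1 := by
      rcases mul_self_eq_one_iff.mp hb2 with rfl | rfl
      · rcases mul_eq_zero.mp haa with rfl | ha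
        · exact ⟨rfl, rfl⟩
        · rcases eq_or_ne α 0 with hα | hα
          · exact ⟨by rw [sub_eq_zero.mp ha, hα], rfl⟩
          · exfalso
            rw [sub_eq_zero.mp ha] at h2a hst
            have h20 : (2 : F) = 0 := (mul_eq_zero.mp (show (2 : F) * α = 0 by linear_combination h2a)).resolve_right hα
            have hm : (-1 : F) = 1 := by linear_combination -h20
            exact hne (by rw [hst, sub_eq_add_neg, ← neg_one_smul F k, hm])
      · rcases mul_eq_zero.mp haa with rfl | ha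
        · rcases eq_or_ne α 0 with hα | hα
          · exact absurd (by rw [hst, hα]; module) hne
          · have h20 : (2 : F) = 0 :=
              (mul_eq_zero.mp (show (2 : F) * α = 0 by linear_combination -h2a)).resolve_right hα
            exact ⟨rfl, by linear_combination -h20⟩
        · exact absurd (by rw [hst, sub_eq_zero.mp ha]; module) hne
    obtain ⟨rfl, rfl⟩ := hst'
    refine hnsa fun z hz u v => ?_
    obtain ⟨p, r, rfl⟩ := hspan z hz
    have h := hadj u v
    rw [hst, zero_smul, one_smul, zero_add] at h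
    simp only [Matrix.add_mulVec, Matrix.smul_mulVec, Matrix.one_mulVec, QuadraticMap.polar_add_left,
      QuadraticMap.polar_add_right, QuadraticMap.polar_smul_left, QuadraticMap.polar_smul_right, h]
  have adj : ∀ u v : Vec, QuadraticMap.polar (⇑Q) (k *ᵥ u) v =
      α * QuadraticMap.polar (⇑Q) u v - QuadraticMap.polar (⇑Q) u (k *ᵥ v) := fun u v => by
    rw [hadj, hk'e, Matrix.sub_mulVec, Matrix.smul_mulVec, Matrix.one_mulVec, QuadraticMap.polar_sub_right,
      QuadraticMap.polar_smul_right, smul_eq_mul]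
  have hkk : ∀ v : Vec, k *ᵥ (k *ᵥ v) = α • (k *ᵥ v) + β • v := fun v => by
    rw [Matrix.mulVec_mulVec, hab, Matrix.add_mulVec, Matrix.smul_mulVec, Matrix.smul_mulVec, Matrix.one_mulVec,
      add_comm]
  obtain ⟨u₀, v₀, huv⟩ : ∃ u v : Vec, QuadraticMap.polar (⇑Q) u v ≠ 0 := by
    by_contra hall
    push Not at hall
    have := hQ.1 (Pi.single (Classical.arbitrary (Fin n)) 1) (fun v => hall _ v)
    exact one_ne_zero (α := F) (by simpa using congrFun this (Classical.arbitrary (Fin n)))
  have hscale : ∀ a b : F, ∀ v : Vec, Q (a • v + b • (k *ᵥ v)) = (a * a + a * b * α - b * b * β) * Q v := by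
    intro a b
    obtain ⟨c, hc⟩ := hsc _ (K.add_mem (K.smul_mem K.one_mem a) (K.smul_mem hk b))
    have hc' : ∀ v : Vec, Q (a • v + b • (k *ᵥ v)) = c * Q v := fun v => by
      rw [← hc, Matrix.add_mulVec, Matrix.smul_mulVec, Matrix.smul_mulVec, Matrix.one_mulVec]
    have hpol : QuadraticMap.polar (⇑Q) (a • u₀ + b • (k *ᵥ u₀)) (a • v₀ + b • (k *ᵥ v₀)) =
        c * QuadraticMap.polar (⇑Q) u₀ v₀ := by
      have e : a • u₀ + b • (k *ᵥ u₀) + (a • v₀ + b • (k *ᵥ v₀)) =
          a • (u₀ + v₀) + b • (k *ᵥ (u₀ + v₀)) := by rw [Matrix.mulVec_add]; module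
      simp only [QuadraticMap.polar]
      rw [e, hc', hc', hc']
      ring
    simp only [QuadraticMap.polar_add_left, QuadraticMap.polar_add_right, QuadraticMap.polar_smul_left,
      QuadraticMap.polar_smul_right, smul_eq_mul, adj, hkk] at hpol
    have hce : c = a * a + a * b * α - b * b * β := mul_right_cancel₀ huv (by linear_combination -hpol)
    intro v
    rw [hc', hce]
  refine ⟨⟨k.mulVecLin, α, β, irr, fun x => hkk x, fun x => ?_, fun x y => adj x y, fun x => ?_, hQ,
    by rw [Module.finrank_pi, Fintype.card_fin]; exact hn⟩, k, hk, fun x => rfl, hspan⟩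
  · have := hscale 0 1 x
    rw [zero_smul, one_smul, zero_add] at this
    rw [Matrix.mulVecLin_apply, this]; ring
  · have h1 := hscale 1 1 x
    have h2 := hscale 0 1 x
    rw [zero_smul, one_smul, zero_add] at h2
    rw [one_smul, one_smul, QuadraticMap.map_add Q, h2, QuadraticMap.polar_comm] at h1
    rw [Matrix.mulVecLin_apply]
    linear_combination h1

/-- Normalising the subalgebra is semilinearity. -/
theorem semi_iff [Finite F] {Q : QuadraticForm F Vec} (C : Cy Q) (K : Subalgebra F Mx) {k : Mx} (hk : k ∈ K)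
    (hJ : ∀ x, C.J x = k *ᵥ x) (hspan : ∀ z ∈ K, ∃ s t : F, z = s • (1 : Mx) + t • k) (g : orthGroup Q) :
    orthToGL Q g ∈ Cfsg.Geo.subalgebraNormalizer K ↔ C.Semi g := by
  set G : GL (Fin n) F := orthToGL Q g with hG
  constructor
  · intro hg
    obtain ⟨a, b, hab⟩ := hspan _ ((hg k).mp hk)
    refine C.semi_of_lines fun v _ => ⟨a, b, ?_⟩
    rw [hJ, hJ, ← orthToGL_mulVec, ← orthToGL_mulVec, ← hG, Matrix.mulVec_mulVec]
    have h : (G : Mx) * k = (a • (1 : Mx) + b • k) * (G : Mx) := by
      rw [← hab, mul_assoc, ← Units.val_mul, inv_mul_cancel, Units.val_one, mul_one]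
    rw [h, add_mul, Matrix.add_mulVec, smul_mul_assoc, smul_mul_assoc, one_mul, Matrix.smul_mulVec,
      Matrix.smul_mulVec, ← Matrix.mulVec_mulVec]
  · intro hs
    obtain ⟨u, w, hw, hgk⟩ : ∃ u w : F, w * w = 1 ∧ (G : Mx) * k = (u • (1 : Mx) + w • k) * (G : Mx) := by
      rcases hs with h | h
      · refine ⟨0, 1, one_mul 1, matrix_ext_mulVec fun x => ?_⟩
        rw [zero_smul, zero_add, one_smul, ← Matrix.mulVec_mulVec, ← Matrix.mulVec_mulVec, hG, orthToGL_mulVec,
          orthToGL_mulVec, ← hJ, ← hJ, h]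
      · refine ⟨C.α, -1, by ring, matrix_ext_mulVec fun x => ?_⟩
        rw [add_mul, smul_mul_assoc, smul_mul_assoc, one_mul, Matrix.add_mulVec, Matrix.smul_mulVec,
          Matrix.smul_mulVec, ← Matrix.mulVec_mulVec, ← Matrix.mulVec_mulVec, hG, orthToGL_mulVec, orthToGL_mulVec,
          ← hJ, ← hJ, h, neg_one_smul, sub_eq_add_neg]
    have hconj : ∀ s t : F, (G : Mx) * (s • (1 : Mx) + t • k) * ((G⁻¹ : GL (Fin n) F) : Mx) =
        (s + t * u) • (1 : Mx) + (t * w) • k := fun s t => by
      simp only [mul_add, add_mul, mul_smul_comm, smul_mul_assoc, mul_one, one_mul, hgk, mul_assoc, ← Units.val_mul,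
        mul_inv_cancel, Units.val_one, smul_add, smul_smul]
      module
    intro z
    constructor
    · intro hz
      obtain ⟨s, t, rfl⟩ := hspan z hz
      rw [hconj]
      exact K.add_mem (K.smul_mem K.one_mem _) (K.smul_mem hk _)
    · intro hz
      obtain ⟨s, t, hst⟩ := hspan _ hz
      have h1 := hconj (s - t * w * u) (t * w)
      rw [sub_add_cancel, mul_assoc t w w, hw, mul_one, ← hst] at h1
      have h2 := congrArg (fun A : Mx => ((G⁻¹ : GL (Fin n) F) : Mx) * A * (G : Mx)) h1
      simp only [← mul_assoc, ← Units.val_mul, inv_mul_cancel, Units.val_one, one_mul] at h2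
      simp only [mul_assoc, ← Units.val_mul, inv_mul_cancel, Units.val_one, mul_one] at h2
      rw [← h2]
      exact K.add_mem (K.smul_mem K.one_mem _) (K.smul_mem hk _)

/-- The normaliser of the subfield is maximal. -/
theorem maximal [Finite F] (hn : 14 ≤ n) {Q : QuadraticForm F Vec} (hQ : (QuadraticMap.polarBilin Q).Nondegenerate)
    (K : Subalgebra F Mx) (hK : Cfsg.Geo.IsFieldSubalgebra 2 K)
    (hac : Cfsg.Geo.IsAdjointClosedFor (QuadraticMap.polar ⇑Q) K)
    (hnsa : ¬ Cfsg.Geo.IsSelfAdjointFor (QuadraticMap.polar ⇑Q) K)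
    (hsc : ∀ k ∈ K, ∃ c : F, ∀ v : Vec, Q (k *ᵥ v) = c * Q v) :
    Cfsg.Geo.IsMaximalIn (Cfsg.Geo.omegaGL ⇑Q) (Cfsg.Geo.subalgebraNormalizer K ⊓ Cfsg.Geo.omegaGL ⇑Q) := by
  obtain ⟨C, k, hk, hJ, hspan⟩ := exists_cy hn hQ K hK hac hnsa hsc
  exact isMaximalIn_omega Q (P := C.Semi) (semi_iff C K hk hJ hspan) C.exists_not_semi
    fun M hM g hg _ hns => C.top_of_not_semi hM hg hns

end Cfsg.Agent.GeomClasses.UInO
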