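import Cfsg.Agent.GeomClasses.SympMax
import Cfsg.Agent.GeomClasses.OrthStab

/-! # Unitary subgroups are maximal in symplectic groups -/

set_option autoImplicit false
set_option linter.unusedSectionVars false

namespace Cfsg.Agent.GeomClasses.UInSp

open Matrix Cfsg.Agent.Forms Cfsg.Agent.GeomClasses

variable {F : Type*} [Field F] {m : ℕ}

local notation "Vec" => (Fin m ⊕ Fin m → F)
local notation "BB" => sympB m F
local notation "Idx" => Fin m ⊕ Fin m
local notation "Mx" => Matrix (Fin m ⊕ Fin m) (Fin m ⊕ Fin m) F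

attribute [-simp] sympB_apply

/-- A quadratic field structure on which the adjoint map is the conjugation. -/
structure Cx (m : ℕ) (F : Type*) [Field F] where
  J : Matrix (Fin m ⊕ Fin m) (Fin m ⊕ Fin m) F
  δ : F
  hm : 7 ≤ m
  two : (2 : F) ≠ 0
  nsq : ∀ a : F, a * a ≠ δ
  sq : ∀ x : Fin m ⊕ Fin m → F, J *ᵥ (J *ᵥ x) = δ • x
  skew : ∀ u v : Fin m ⊕ Fin m → F, sympB m F (J *ᵥ u) v = - sympB m F u (J *ᵥ v)

variable (C : Cx m F)

theorem Cx.δ0 : C.δ ≠ 0 := fun h => C.nsq 0 (by rw [h, mul_zero])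

/-- The symmetric companion form. -/
noncomputable def Cx.Q : QuadraticForm F Vec :=
  LinearMap.BilinMap.toQuadraticMap (LinearMap.comp (sympB m F) (Matrix.mulVecLin C.J))

theorem Cx.Q_apply (v : Vec) : C.Q v = BB (C.J *ᵥ v) v := rfl

theorem Cx.symm (u v : Vec) : BB (C.J *ᵥ v) u = BB (C.J *ᵥ u) v := by rw [C.skew, sympB_skew v, neg_neg]

theorem Cx.Jl (u v : Vec) : BB (C.J *ᵥ (C.J *ᵥ u)) v = C.δ * BB u v := by
  rw [C.sq, map_smul, LinearMap.smul_apply, smul_eq_mul]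

theorem Cx.f_left (u v : Vec) : BB u (C.J *ᵥ v) = - BB (C.J *ᵥ u) v := by rw [C.skew, neg_neg]

theorem Cx.f_JJ (u v : Vec) : BB (C.J *ᵥ u) (C.J *ᵥ v) = -(C.δ * BB u v) := by
  rw [C.skew, C.sq, map_smul, smul_eq_mul]

theorem Cx.polar_eq (u v : Vec) : QuadraticMap.polar (⇑C.Q) u v = 2 * BB (C.J *ᵥ u) v := by
  rw [Cx.Q, LinearMap.BilinMap.polar_toQuadraticMap, two_mul]
  show BB (C.J *ᵥ u) v + BB (C.J *ᵥ v) u = _
  rw [C.symm u v]

theorem Cx.nondeg : (QuadraticMap.polarBilin C.Q).Nondegenerate := by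
  have hl : ∀ u, (∀ v, QuadraticMap.polarBilin C.Q u v = 0) → u = 0 := by
    intro u hu
    have h1 : C.J *ᵥ u = 0 := isForm_symp.nondeg _ fun v => by
      have h2 := hu v
      rw [QuadraticMap.polarBilin_apply_apply, C.polar_eq] at h2
      exact (mul_eq_zero.mp h2).resolve_left C.two
    have h3 := C.sq u
    rw [h1, Matrix.mulVec_zero] at h3
    exact (smul_eq_zero.mp h3.symm).resolve_left C.δ0
  exact ⟨hl, fun v hv => hl v fun u => by
    rw [QuadraticMap.polarBilin_apply_apply, QuadraticMap.polar_comm, ← QuadraticMap.polarBilin_apply_apply]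
    exact hv u⟩

theorem Cx.eq_zero_of_comb {x : Vec} (hx : x ≠ 0) {a b : F} (h : a • x + b • (C.J *ᵥ x) = 0) : a = 0 ∧ b = 0 := by
  have h' := congrArg (C.J *ᵥ ·) h
  simp only [Matrix.mulVec_add, Matrix.mulVec_smul, C.sq, Matrix.mulVec_zero] at h'
  have h2 : (a * a - C.δ * (b * b)) • x = 0 := by
    linear_combination (norm := module) a • h - b • h'
  have h3 := (smul_eq_zero.mp h2).resolve_right hx
  by_cases hb : b = 0
  · refine ⟨?_, hb⟩
    simpa [hb] using h3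
  · exfalso
    refine C.nsq (a / b) ?_
    field_simp
    linear_combination h3

variable [Finite F]

/-- A singular vector orthogonal to a small subspace and pairing with a vector outside it. -/
theorem Cx.exists_sing {S : Submodule F Vec} (hS : Module.finrank F S ≤ 4) {v : Vec} (hv : v ∉ S) :
    ∃ a, BB (C.J *ᵥ a) a = 0 ∧ (∀ x ∈ S, BB (C.J *ᵥ x) a = 0) ∧ BB (C.J *ᵥ a) v ≠ 0 := by
  haveI : Fintype F := Fintype.ofFinite F
  have hdim : 2 * Module.finrank F S + 3 ≤ Module.finrank F (⊤ : Submodule F Vec) := by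
    rw [finrank_top, Module.finrank_pi, Fintype.card_sum, Fintype.card_fin]; have := C.hm; omega
  obtain ⟨a, -, ha, haS, hav⟩ := exists_sing_pair C.nondeg (U := ⊤) (S := S) (fun d => ⟨d, trivial, fun _ _ => rfl⟩)
    le_top hdim (v := v) trivial hv
  refine ⟨a, ha, fun x hx => ?_, ?_⟩
  · have := haS x hx
    rw [C.polar_eq] at this
    exact (mul_eq_zero.mp this).resolve_left C.two
  · rw [C.polar_eq] at hav
    exact right_ne_zero_of_mul hav

omit [Finite F] in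
theorem finrank_span4_le (a b c d : Vec) : Module.finrank F (Submodule.span F (Set.range ![a, b, c, d])) ≤ 4 := by
  simpa [Set.finrank] using finrank_range_le_card (R := F) ![a, b, c, d]

theorem Cx.exists_sing4 (a b c d : Vec) {v : Vec} (hv : ∀ k l p r : F, v ≠ k • a + l • b + p • c + r • d) :
    ∃ w, BB (C.J *ᵥ w) w = 0 ∧ BB (C.J *ᵥ a) w = 0 ∧ BB (C.J *ᵥ b) w = 0 ∧ BB (C.J *ᵥ c) w = 0 ∧
      BB (C.J *ᵥ d) w = 0 ∧ BB (C.J *ᵥ w) v ≠ 0 := by
  obtain ⟨w, h1, h2, h3⟩ := C.exists_sing (finrank_span4_le a b c d) (v := v) (fun h => by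
    obtain ⟨k, hk⟩ := (Submodule.mem_span_range_iff_exists_fun F).mp h
    exact hv (k 0) (k 1) (k 2) (k 3) (by rw [← hk, Fin.sum_univ_four]; rfl))
  exact ⟨w, h1, h2 a (Submodule.subset_span ⟨0, rfl⟩), h2 b (Submodule.subset_span ⟨1, rfl⟩),
    h2 c (Submodule.subset_span ⟨2, rfl⟩), h2 d (Submodule.subset_span ⟨3, rfl⟩), h3⟩

/-- A singular vector orthogonal over the extension to two given ones and independent of them. -/
theorem Cx.exists_new (a b : Vec) : ∃ z, BB (C.J *ᵥ z) z = 0 ∧ BB a z = 0 ∧ BB b z = 0 ∧ BB (C.J *ᵥ a) z = 0 ∧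
    BB (C.J *ᵥ b) z = 0 ∧ ∀ k l p r : F, z ≠ k • a + l • (C.J *ᵥ a) + p • b + r • (C.J *ᵥ b) := by
  haveI : Fintype F := Fintype.ofFinite F
  set S := Submodule.span F (Set.range ![a, C.J *ᵥ a, b, C.J *ᵥ b]) with hS
  have hS4 : Module.finrank F S ≤ 4 := finrank_span4_le _ _ _ _
  obtain ⟨x, hx, hxS⟩ : ∃ x ∈ perp (QuadraticMap.polarBilin C.Q) S, x ∉ S := by
    refine SetLike.not_le_iff_exists.mp fun hle => ?_
    have h1 := Submodule.finrank_mono hle
    have h2 := (isForm_quadratic C.Q C.nondeg).finrank_perp S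
    rw [Module.finrank_pi, Fintype.card_sum, Fintype.card_fin] at h2
    have := C.hm
    omega
  obtain ⟨z, hz, hzS, hzx⟩ := C.exists_sing hS4 hxS
  have ha := hzS a (Submodule.subset_span ⟨0, rfl⟩)
  have hb := hzS b (Submodule.subset_span ⟨2, rfl⟩)
  have ha' := hzS (C.J *ᵥ a) (Submodule.subset_span ⟨1, rfl⟩)
  have hb' := hzS (C.J *ᵥ b) (Submodule.subset_span ⟨3, rfl⟩)
  rw [C.Jl, mul_eq_zero, or_iff_right C.δ0] at ha' hb'
  refine ⟨z, hz, ha', hb', ha, hb, fun k l p r he => hzx ?_⟩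
  have hzmem : z ∈ S := by
    rw [he]
    refine S.add_mem (S.add_mem (S.add_mem ?_ ?_) ?_) ?_ <;> refine S.smul_mem _ (Submodule.subset_span ?_)
    exacts [⟨0, rfl⟩, ⟨1, rfl⟩, ⟨2, rfl⟩, ⟨3, rfl⟩]
  have h1 := mem_perp.mp hx z hzmem
  rw [QuadraticMap.polarBilin_apply_apply, C.polar_eq] at h1
  exact (mul_eq_zero.mp h1).resolve_left C.two

/-- The unitary transvections. -/
noncomputable def Cx.T (v : Fin m ⊕ Fin m → F) (c : F) : GL (Fin m ⊕ Fin m) F :=
  spT v (c * C.δ) * spT (C.J *ᵥ v) (-c)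

theorem Cx.T_mulVec {v : Vec} (hv : BB (C.J *ᵥ v) v = 0) (c : F) (x : Vec) :
    (C.T v c : Mx) *ᵥ x = x + (c * C.δ * BB x v) • v - (c * BB x (C.J *ᵥ v)) • (C.J *ᵥ v) := by
  rw [Cx.T, Units.val_mul, ← Matrix.mulVec_mulVec, spT_mulVec, spT_mulVec]
  simp only [map_add, map_smul, LinearMap.add_apply, LinearMap.smul_apply, smul_eq_mul, hv]
  module

/-- The elements normalising the quadratic field. -/
def Cx.Semi (g : GL (Fin m ⊕ Fin m) F) : Prop :=
  ∃ β : F, (β = 1 ∨ β = -1) ∧ ∀ x, (g : Matrix (Fin m ⊕ Fin m) (Fin m ⊕ Fin m) F) *ᵥ (C.J *ᵥ x) =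
    β • (C.J *ᵥ ((g : Matrix (Fin m ⊕ Fin m) (Fin m ⊕ Fin m) F) *ᵥ x))

theorem Cx.semi_T {v : Vec} (hv : BB (C.J *ᵥ v) v = 0) (c : F) : C.Semi (C.T v c) := by
  refine ⟨1, Or.inl rfl, fun x => ?_⟩
  rw [C.T_mulVec hv, C.T_mulVec hv, one_smul, Matrix.mulVec_sub, Matrix.mulVec_add, Matrix.mulVec_smul,
    Matrix.mulVec_smul, C.sq v, C.f_JJ, C.f_left x v]
  module

theorem Cx.semi_of_lines {g : GL (Fin m ⊕ Fin m) F}
    (h : ∀ v : Vec, BB (C.J *ᵥ v) v = 0 → ∃ a b : F,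
      C.J *ᵥ ((g : Mx) *ᵥ v) = a • ((g : Mx) *ᵥ v) + b • ((g : Mx) *ᵥ (C.J *ᵥ v))) : C.Semi g := by
  have hdet : ∀ x : Vec, (g : Mx) *ᵥ x = 0 → x = 0 := fun x hx => by
    have := congrArg ((((g⁻¹ : GL Idx F) : Mx)) *ᵥ ·) hx
    simpa [Matrix.mulVec_mulVec, ← Units.val_mul] using this
  have hpair : ∀ v w : Vec, BB (C.J *ᵥ v) v = 0 → BB (C.J *ᵥ w) w = 0 → BB v w = 0 → BB (C.J *ᵥ v) w = 0 →
      (∀ k l : F, w ≠ k • v + l • (C.J *ᵥ v)) → v ≠ 0 → ∃ b : F, (b = 1 ∨ b = -1) ∧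
      C.J *ᵥ ((g : Mx) *ᵥ v) = b • ((g : Mx) *ᵥ (C.J *ᵥ v)) ∧ C.J *ᵥ ((g : Mx) *ᵥ w) = b • ((g : Mx) *ᵥ (C.J *ᵥ w)) ∧
      C.J *ᵥ ((g : Mx) *ᵥ (C.J *ᵥ w)) = b • ((g : Mx) *ᵥ (C.J *ᵥ (C.J *ᵥ w))) := by
    intro v w hv hw hvw hJvw hind hv0
    have hind' : ∀ a b c d : F, a • v + b • (C.J *ᵥ v) + c • w + d • (C.J *ᵥ w) = 0 → a = 0 ∧ b = 0 ∧ c = 0 ∧ d = 0 := by
      intro a b c d he
      have he' := congrArg (C.J *ᵥ ·) he
      simp only [Matrix.mulVec_add, Matrix.mulVec_smul, C.sq, Matrix.mulVec_zero] at he'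
      have h2 : (c * a - C.δ * (d * b)) • v + (c * b - d * a) • (C.J *ᵥ v) + (c * c - C.δ * (d * d)) • w = 0 := by
        linear_combination (norm := module) c • he - d • he'
      by_cases h0 : c * c - C.δ * (d * d) = 0
      · have hd : d = 0 := by
          by_contra hd
          refine C.nsq (c / d) ?_
          field_simp
          linear_combination h0
        have hc : c = 0 := by simpa [hd] using h0
        rw [hc, hd, zero_smul, zero_smul, add_zero, add_zero] at he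
        exact ⟨(C.eq_zero_of_comb hv0 he).1, (C.eq_zero_of_comb hv0 he).2, hc, hd⟩
      · exfalso
        set e := c * c - C.δ * (d * d)
        refine hind (-(c * a - C.δ * (d * b)) / e) (-(c * b - d * a) / e) (smul_right_injective Vec h0 ?_)
        show e • w = e • _
        rw [smul_add, smul_smul, smul_smul, mul_div_cancel₀ _ h0, mul_div_cancel₀ _ h0]
        linear_combination (norm := module) h2
    obtain ⟨a₁, b₁, e₁⟩ := h v hv
    obtain ⟨a₂, b₂, e₂⟩ := h w hw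
    obtain ⟨a₄, b₄, e₄⟩ := h (C.J *ᵥ w) (by rw [C.Jl, C.f_left, hw, neg_zero, mul_zero])
    obtain ⟨a₃, b₃, e₃⟩ := h (v + w) (by
      simp only [Matrix.mulVec_add, map_add, LinearMap.add_apply, hv, hw, hJvw, C.symm v w]; ring)
    obtain ⟨a₅, b₅, e₅⟩ := h (v + C.J *ᵥ w) (by
      have hJw : BB (C.J *ᵥ (C.J *ᵥ w)) (C.J *ᵥ w) = 0 := by rw [C.Jl, C.f_left, hw, neg_zero, mul_zero]
      simp only [Matrix.mulVec_add, map_add, LinearMap.add_apply, hv, hJw, C.symm v (C.J *ᵥ w), C.f_JJ, hvw]; ring)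
    have key : ∀ a b c d : F, a • ((g : Mx) *ᵥ v) + b • ((g : Mx) *ᵥ (C.J *ᵥ v)) + c • ((g : Mx) *ᵥ w) +
        d • ((g : Mx) *ᵥ (C.J *ᵥ w)) = 0 → a = 0 ∧ b = 0 ∧ c = 0 ∧ d = 0 := fun a b c d he =>
      hind' a b c d (hdet _ (by simp only [Matrix.mulVec_add, Matrix.mulVec_smul]; exact he))
    simp only [Matrix.mulVec_add, Matrix.mulVec_smul, C.sq] at e₃ e₄ e₅
    rw [e₁, e₂] at e₃
    rw [e₁, e₄] at e₅
    obtain ⟨p1, p2, p3, p4⟩ := key (a₁ - a₃) (b₁ - b₃) (a₂ - a₃) (b₂ - b₃) (by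
      linear_combination (norm := module) e₃)
    obtain ⟨r1, r2, r3, r4⟩ := key (a₁ - a₅) (b₁ - b₅) ((b₄ - b₅) * C.δ) (a₄ - a₅) (by
      linear_combination (norm := module) e₅)
    have q1 : a₂ = a₁ := by linear_combination p3 - p1
    have q2 : b₂ = b₁ := by linear_combination p4 - p2
    have q4 : a₄ = a₁ := by linear_combination r4 - r1
    have q5 : b₄ = b₁ := by
      have := (mul_eq_zero.mp r3).resolve_right C.δ0
      linear_combination this - r2
    rw [q4, q5] at e₄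
    rw [q1, q2] at e₂
    have h1 := C.sq ((g : Mx) *ᵥ w)
    rw [e₂, Matrix.mulVec_add, Matrix.mulVec_smul, Matrix.mulVec_smul, e₂, e₄] at h1
    obtain ⟨-, -, s3, s4⟩ := key 0 0 (a₁ * a₁ + b₁ * b₁ * C.δ - C.δ) (2 * (a₁ * b₁)) (by
      linear_combination (norm := module) h1)
    have hb0 : b₁ ≠ 0 := fun hb => C.nsq a₁ (by rw [hb] at s3; linear_combination s3)
    have ha0 : a₁ = 0 := ((mul_eq_zero.mp ((mul_eq_zero.mp s4).resolve_left C.two))).resolve_right hb0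
    have hb : b₁ = 1 ∨ b₁ = -1 := mul_self_eq_one_iff.mp (mul_right_cancel₀ C.δ0 (by rw [ha0] at s3; linear_combination s3))
    rw [ha0, zero_smul, zero_add] at e₁ e₂ e₄
    exact ⟨b₁, hb, e₁, e₂, by rw [e₄, C.sq, Matrix.mulVec_smul]⟩
  -- one common sign
  obtain ⟨d, -, -, -, -, -, hd⟩ := C.exists_new 0 0
  have hd0 : d ≠ 0 := fun e => hd 0 0 0 0 (by rw [e]; simp)
  obtain ⟨d', hd', -, -, -, -, -⟩ := C.exists_new 0 0
  obtain ⟨z₀, hz₀, -, -, -, -, hz₀n⟩ := C.exists_new 0 0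
  have hz₀0 : z₀ ≠ 0 := fun e => hz₀n 0 0 0 0 (by rw [e]; simp)
  obtain ⟨w₀, hw₀, p1, -, p2, -, hw₀n⟩ := C.exists_new z₀ 0
  obtain ⟨β, hβ, hβz, -, -⟩ := hpair z₀ w₀ hz₀ hw₀ p1 p2 (fun k l e => hw₀n k l 0 0 (by rw [e]; simp)) hz₀0
  have hiso : ∀ v : Vec, BB (C.J *ᵥ v) v = 0 →
      C.J *ᵥ ((g : Mx) *ᵥ v) = β • ((g : Mx) *ᵥ (C.J *ᵥ v)) := by
    intro v hv
    rcases eq_or_ne v 0 with rfl | hv0
    · simp
    obtain ⟨z, hz, q1, q2, q3, q4, hzn⟩ := C.exists_new z₀ v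
    obtain ⟨b, -, hb1, hb2, -⟩ := hpair z₀ z hz₀ hz q1 q3 (fun k l e => hzn k l 0 0 (by rw [e]; simp)) hz₀0
    obtain ⟨b', -, hb1', hb2', -⟩ := hpair v z hv hz q2 q4 (fun k l e => hzn 0 0 k l (by rw [e]; simp)) hv0
    have hz0 : (g : Mx) *ᵥ (C.J *ᵥ z) ≠ 0 := fun e => hzn 0 0 0 0 (by
      have h1 := congrArg (C.J *ᵥ ·) (hdet _ e)
      simp only [C.sq, Matrix.mulVec_zero] at h1
      rw [(smul_eq_zero.mp h1).resolve_left C.δ0]; simp)
    have hz0' : (g : Mx) *ᵥ (C.J *ᵥ z₀) ≠ 0 := fun e => hz₀0 (by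
      have h1 := congrArg (C.J *ᵥ ·) (hdet _ e)
      simp only [C.sq, Matrix.mulVec_zero] at h1
      exact (smul_eq_zero.mp h1).resolve_left C.δ0)
    have e1 : β = b := by
      have := hb1.symm.trans hβz
      exact (smul_left_injective F hz0' this).symm
    have e2 : b = b' := smul_left_injective F hz0 (hb2.symm.trans hb2')
    rw [hb1', e1, e2]
  refine ⟨β, hβ, fun x => ?_⟩
  have hall : C.J * (g : Mx) = β • ((g : Mx) * C.J) := by
    refine matrix_ext_mulVec fun x => ?_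
    refine sub_eq_zero.mp (funext fun i => ?_)
    set φ : Vec →ₗ[F] F := (LinearMap.proj i).comp (Matrix.mulVecLin (C.J * (g : Mx) - β • ((g : Mx) * C.J))) with hφ
    suffices hφ0 : φ = 0 by
      have := LinearMap.congr_fun hφ0 x
      simpa [hφ, Matrix.sub_mulVec, Matrix.smul_mulVec] using this
    by_contra hne
    haveI : Fintype F := Fintype.ofFinite F
    obtain ⟨u, hu⟩ := (isForm_symp (F := F) (m := m)).exists_right φ
    have hu0 : C.J *ᵥ u ≠ 0 := fun e => hne (LinearMap.ext fun y => by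
      have h1 := congrArg (C.J *ᵥ ·) e
      simp only [C.sq, Matrix.mulVec_zero] at h1
      have h2 := hu y
      rw [(smul_eq_zero.mp h1).resolve_left C.δ0] at h2
      simpa using h2.symm)
    obtain ⟨a, ha, -, hau⟩ := C.exists_sing (S := ⊥) (by simp) (v := C.J *ᵥ u) (by simpa using hu0)
    have h0 : φ a = 0 := by
      simp [hφ, Matrix.sub_mulVec, ← Matrix.mulVec_mulVec, Matrix.smul_mulVec, hiso a ha]
    have h2 := hu a
    rw [h0] at h2
    refine hau ?_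
    rw [C.f_JJ]
    have h3 : BB a u = 0 := by
      simpa [sympB_skew a u] using h2
    rw [h3]; ring
  have h1 := congrArg (fun A : Mx => A *ᵥ x) hall
  simp only [Matrix.smul_mulVec, ← Matrix.mulVec_mulVec] at h1
  rw [h1, smul_smul]
  rcases hβ with rfl | rfl <;> simp

variable {L : Subgroup (GL (Fin m ⊕ Fin m) F)}

/-- A centre of a transvection at a singular vector gives all centres. -/
theorem Cx.top_of_centre (hH : ∀ g ∈ Cfsg.spGL m F, C.Semi g → g ∈ L) {D : Vec} (hD : BB (C.J *ᵥ D) D = 0)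
    (hD0 : D ≠ 0) (hDC : D ∈ spCentre L) : Cfsg.spGL m F ≤ L := by
  have hT : ∀ v : Vec, BB (C.J *ᵥ v) v = 0 → ∀ c, C.T v c ∈ L := fun v hv c =>
    hH _ (mul_mem (spT_mem _ _) (spT_mem _ _)) (C.semi_T hv c)
  have hR : ∀ a z : Vec, a ∈ spCentre L → BB (C.J *ᵥ a) a = 0 → BB (C.J *ᵥ z) z = 0 → BB (C.J *ᵥ a) z = 0 →
      BB a z ≠ 0 → z ∈ spCentre L := by
    intro a z ha haa hzz hJ haz
    have h1 := spCentre_mulVec (hT z hzz 1) (mul_mem (spT_mem _ _) (spT_mem _ _)) ha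
    rw [C.T_mulVec hzz, C.f_left a z, hJ, neg_zero, mul_zero, zero_smul, sub_zero, one_mul] at h1
    have h2 := spCentre_add (spCentre_smul ha (-1)) h1 (by
      simp only [neg_smul, one_smul, map_neg, map_add, map_smul, LinearMap.add_apply, LinearMap.smul_apply, smul_eq_mul,
        sympB_self, sympB_skew z a, mul_neg, zero_add, neg_neg]
      exact mul_ne_zero (mul_ne_zero C.δ0 haz) haz)
    rw [neg_smul, one_smul, add_neg_cancel_comm] at h2
    have h3 := spCentre_smul h2 (C.δ * BB a z)⁻¹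
    rwa [inv_smul_smul₀ (mul_ne_zero C.δ0 haz)] at h3
  have hlink : ∀ a c : Vec, BB (C.J *ᵥ a) a = 0 → BB (C.J *ᵥ c) c = 0 → BB a c = 0 → BB (C.J *ᵥ a) c = 0 →
      (∀ k l p : F, C.J *ᵥ a ≠ k • a + l • c + p • (C.J *ᵥ c)) →
      (∀ k l p : F, C.J *ᵥ c ≠ k • a + l • c + p • (C.J *ᵥ a)) →
      ∃ w, BB (C.J *ᵥ w) w = 0 ∧ BB (C.J *ᵥ a) w = 0 ∧ BB (C.J *ᵥ c) w = 0 ∧ BB a w ≠ 0 ∧ BB c w ≠ 0 := by
    intro a c ha hc hac hJac i1 i2
    obtain ⟨w₁, q0, q1, q2, q3, -, q4⟩ := C.exists_sing4 a c (C.J *ᵥ c) 0 (v := C.J *ᵥ a)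
      (fun k l p r e => i1 k l p (by rw [e, smul_zero, add_zero]))
    rw [C.Jl, mul_eq_zero, or_iff_right C.δ0] at q3
    rw [C.f_JJ] at q4
    have q4' : BB a w₁ ≠ 0 := fun e => q4 (by rw [sympB_skew, e]; ring)
    obtain ⟨w₂, r0, r1, r2, r3, r4, r5⟩ := C.exists_sing4 a c (C.J *ᵥ a) w₁ (v := C.J *ᵥ c) (fun k l p r e => by
      have hr : r = 0 := by
        have h1 := congrArg (fun y => BB (C.J *ᵥ (C.J *ᵥ a)) y) e
        simp only [map_add, map_smul, smul_eq_mul, C.Jl, C.f_left a, sympB_self, hac, hJac, ha, neg_zero, mul_zero,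
          add_zero, zero_add] at h1
        exact (mul_eq_zero.mp (show (C.δ * BB a w₁) * r = 0 by linear_combination -h1)).resolve_left
          (mul_ne_zero C.δ0 q4')
      exact i2 k l p (by rw [e, hr, zero_smul, add_zero]))
    rw [C.Jl, mul_eq_zero, or_iff_right C.δ0] at r3
    rw [C.f_JJ] at r5
    have r5' : BB c w₂ ≠ 0 := fun e => r5 (by rw [sympB_skew, e]; ring)
    refine ⟨w₁ + w₂, ?_, by rw [map_add, q1, r1, add_zero], by rw [map_add, q2, r2, add_zero],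
      by rw [map_add, r3, add_zero]; exact q4', by rw [map_add, q3, zero_add]; exact r5'⟩
    simp only [Matrix.mulVec_add, map_add, LinearMap.add_apply, q0, r0, r4, C.symm w₁ w₂]; ring
  have hiso : ∀ b : Vec, BB (C.J *ᵥ b) b = 0 → b ∈ spCentre L := by
    intro b hb
    rcases eq_or_ne b 0 with rfl | hb0
    · have := spCentre_smul hDC (0 : F)
      rwa [zero_smul] at this
    obtain ⟨c, hc, hDc, hbc, hJDc, hJbc, hcn⟩ := C.exists_new D b
    have hind : ∀ a : Vec, a ≠ 0 → (∀ k l : F, c ≠ k • a + l • (C.J *ᵥ a)) →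
        (∀ k l p : F, C.J *ᵥ a ≠ k • a + l • c + p • (C.J *ᵥ c)) ∧
        (∀ k l p : F, C.J *ᵥ c ≠ k • a + l • c + p • (C.J *ᵥ a)) := by
      intro a ha0 hn
      have key : ∀ s t u v : F, s • a + t • (C.J *ᵥ a) + u • c + v • (C.J *ᵥ c) = 0 → u = 0 ∧ v = 0 := by
        intro s t u v he
        have he' := congrArg (C.J *ᵥ ·) he
        simp only [Matrix.mulVec_add, Matrix.mulVec_smul, C.sq, Matrix.mulVec_zero] at he'
        by_cases h0 : u * u - C.δ * (v * v) = 0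
        · have hv : v = 0 := by
            by_contra hv
            refine C.nsq (u / v) ?_
            field_simp
            linear_combination h0
          exact ⟨by simpa [hv] using h0, hv⟩
        · exfalso
          set e := u * u - C.δ * (v * v)
          refine hn (-(u * s - C.δ * (v * t)) / e) (-(u * t - v * s) / e) (smul_right_injective Vec h0 ?_)
          show e • c = e • _
          rw [smul_add, smul_smul, smul_smul, mul_div_cancel₀ _ h0, mul_div_cancel₀ _ h0]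
          linear_combination (norm := module) u • he - v • he'
      refine ⟨fun k l p e => ?_, fun k l p e => ?_⟩
      · obtain ⟨hl, hp⟩ := key k (-1) l p (by linear_combination (norm := module) -(1 : F) • e)
        rw [hl, hp, zero_smul, zero_smul, add_zero, add_zero] at e
        exact neg_ne_zero.mpr one_ne_zero (C.eq_zero_of_comb ha0 (a := k) (b := -1) (by rw [e]; module)).2
      · obtain ⟨-, h1⟩ := key k p l (-1) (by linear_combination (norm := module) -(1 : F) • e)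
        exact neg_ne_zero.mpr one_ne_zero h1
    obtain ⟨i1, i2⟩ := hind D hD0 fun k l e => hcn k l 0 0 (by rw [e]; simp)
    obtain ⟨j1, j2⟩ := hind b hb0 fun k l e => hcn 0 0 k l (by rw [e]; simp)
    obtain ⟨w, hw, s1, s2, s3, s4⟩ := hlink D c hD hc hDc hJDc i1 i2
    have hcC := hR w c (hR D w hDC hD hw s1 s3) hw hc (by rw [C.symm]; exact s2)
      (by rw [sympB_skew, neg_ne_zero]; exact s4)
    obtain ⟨w', hw', t1, t2, t3, t4⟩ := hlink b c hb hc hbc hJbc j1 j2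
    exact hR w' b (hR c w' hcC hc hw' t2 t4) hw' hb (by rw [C.symm]; exact t1)
      (by rw [sympB_skew, neg_ne_zero]; exact t3)
  refine spGL_le_of_spT fun v => (?_ : v ∈ spCentre L)
  by_cases hv : BB (C.J *ᵥ v) v = 0
  · exact hiso v hv
  have hv0 : v ≠ 0 := fun e => hv (by rw [e, map_zero])
  obtain ⟨a₁, q0, q1, -, -, -, q4⟩ := C.exists_sing4 (C.J *ᵥ v) 0 0 0 (v := v) (fun k l p r e => by
    have h : (1 : F) = 0 := (C.eq_zero_of_comb hv0 (a := 1) (b := -k)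
      (by linear_combination (norm := module) e)).1
    exact one_ne_zero h)
  rw [C.Jl, mul_eq_zero, or_iff_right C.δ0] at q1
  obtain ⟨a₂, r0, r1, r2, -, -, r5⟩ := C.exists_sing4 v a₁ 0 0 (v := C.J *ᵥ v) (fun k l p r e => by
    rw [smul_zero, smul_zero, add_zero, add_zero] at e
    have h1 := congrArg (fun y => BB (C.J *ᵥ (C.J *ᵥ v)) y) e
    simp only [map_add, map_smul, smul_eq_mul, C.Jl, C.f_left v v, sympB_self, q1, mul_zero, add_zero] at h1
    exact hv (neg_eq_zero.mp ((mul_eq_zero.mp h1).resolve_left C.δ0)))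
  rw [C.f_JJ] at r5
  have r5' : BB a₂ v ≠ 0 := fun e => r5 (by rw [e]; ring)
  set a := a₁ + a₂ with ha
  have haa : BB (C.J *ᵥ a) a = 0 := by
    simp only [ha, Matrix.mulVec_add, map_add, LinearMap.add_apply, q0, r0, r2, C.symm a₁ a₂]; ring
  have hs : BB (C.J *ᵥ a) v = BB (C.J *ᵥ a₁) v := by
    rw [ha, Matrix.mulVec_add, map_add, LinearMap.add_apply, C.symm v a₂, r1, add_zero]
  have hf : BB a v = BB a₂ v := by
    rw [ha, map_add, LinearMap.add_apply, sympB_skew a₁ v, q1, neg_zero, zero_add]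
  set k := BB (C.J *ᵥ v) v / (2 * BB (C.J *ᵥ a) v) with hk
  have hsne : BB (C.J *ᵥ a) v ≠ 0 := by rw [hs]; exact q4
  have hk0 : k ≠ 0 := div_ne_zero hv (mul_ne_zero C.two hsne)
  have h1 : BB (C.J *ᵥ (k • a)) (k • a) = 0 := by
    simp only [Matrix.mulVec_smul, map_smul, LinearMap.smul_apply, smul_eq_mul, haa, mul_zero]
  have h2 : BB (C.J *ᵥ (v - k • a)) (v - k • a) = 0 := by
    simp only [Matrix.mulVec_sub, Matrix.mulVec_smul, map_sub, map_smul, LinearMap.sub_apply, LinearMap.smul_apply,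
      smul_eq_mul, haa, C.symm a v]
    have := C.two
    rw [hk]; field_simp; ring
  have h3 := spCentre_add (hiso _ h1) (hiso _ h2) (by
    simp only [map_sub, map_smul, LinearMap.sub_apply, LinearMap.smul_apply, smul_eq_mul, sympB_self, sympB_skew v a,
      mul_zero, sub_zero, mul_neg, neg_ne_zero]
    exact mul_ne_zero hk0 (hf ▸ r5'))
  rwa [sub_add_cancel] at h3

/-- An element outside gives everything. -/
theorem Cx.top_of_not_semi (hH : ∀ g ∈ Cfsg.spGL m F, C.Semi g → g ∈ L) (hL : L ≤ Cfsg.spGL m F)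
    {g : GL (Fin m ⊕ Fin m) F} (hg : g ∈ L) (hns : ¬ C.Semi g) : Cfsg.spGL m F ≤ L := by
  obtain ⟨v, hv, hne⟩ : ∃ v : Vec, BB (C.J *ᵥ v) v = 0 ∧ ∀ a b : F,
      C.J *ᵥ ((g : Mx) *ᵥ v) ≠ a • ((g : Mx) *ᵥ v) + b • ((g : Mx) *ᵥ (C.J *ᵥ v)) := by
    by_contra hcon
    push Not at hcon
    exact hns (C.semi_of_lines hcon)
  have hgS := mem_spGL_iff.mp (hL hg)
  set u₁ := (g : Mx) *ᵥ v
  set u₂ := (g : Mx) *ᵥ (C.J *ᵥ v)
  have h12 : BB u₁ u₂ = 0 := by rw [hgS, C.f_left, hv, neg_zero]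
  have hT : ∀ v : Vec, BB (C.J *ᵥ v) v = 0 → ∀ c, C.T v c ∈ L := fun v hv c =>
    hH _ (mul_mem (spT_mem _ _) (spT_mem _ _)) (C.semi_T hv c)
  have hX : ∀ c, spT u₁ (c * C.δ) * spT u₂ (-c) ∈ L := fun c => by
    convert L.mul_mem (L.mul_mem hg (hT v hv c)) (L.inv_mem hg) using 1
    rw [eq_mul_inv_iff_mul_eq]
    refine Units.ext (matrix_ext_mulVec fun x => ?_)
    simp only [Units.val_mul, ← Matrix.mulVec_mulVec, spT_mulVec, C.T_mulVec hv, Matrix.mulVec_add, Matrix.mulVec_sub,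
      Matrix.mulVec_smul, map_add, map_smul, LinearMap.add_apply, LinearMap.smul_apply, smul_eq_mul,
      sympB_skew u₂ u₁, h12, u₁, u₂, hgS]
    simp only [sympB_skew (C.J *ᵥ v) v, C.f_left v v, hv, neg_zero, mul_zero, add_zero, neg_neg]
    module
  have hu₁0 : u₁ ≠ 0 := fun e => hne 0 0 (by rw [e]; simp)
  obtain ⟨d, hd, e1, e2, e3, e4, hdn⟩ := C.exists_new u₁ u₂
  have hd0 : d ≠ 0 := fun e => hdn 0 0 0 0 (by rw [e]; simp)
  obtain ⟨w, hw, p1, p2, p3, p4, p5⟩ := C.exists_sing4 u₁ (C.J *ᵥ u₁) d (C.J *ᵥ d) (v := u₂) (fun k l p r e => by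
    have he' := congrArg (C.J *ᵥ ·) e
    simp only [Matrix.mulVec_add, Matrix.mulVec_smul, C.sq] at he'
    by_cases h0 : p * p - C.δ * (r * r) = 0
    · have hr : r = 0 := by
        by_contra hr
        refine C.nsq (p / r) ?_
        field_simp
        linear_combination h0
      have hp : p = 0 := by simpa [hr] using h0
      rw [hp, hr, zero_smul, zero_smul, add_zero, add_zero] at e
      by_cases hl : l = 0
      · rw [hl, zero_smul, add_zero] at e
        have h6 := congrArg ((((g⁻¹ : GL Idx F) : Mx)) *ᵥ ·) e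
        simp [u₁, u₂, Matrix.mulVec_mulVec, Matrix.mulVec_smul, ← Units.val_mul] at h6
        exact neg_ne_zero.mpr one_ne_zero (C.eq_zero_of_comb (x := v) (fun e => hu₁0 (by simp [u₁, e])) (a := k) (b := -1)
          (by rw [← h6]; module)).2
      · refine hne (-k / l) (l⁻¹) (smul_right_injective Vec hl ?_)
        show l • (C.J *ᵥ u₁) = l • ((-k / l) • u₁ + l⁻¹ • u₂)
        rw [smul_add, smul_smul, smul_smul, mul_div_cancel₀ _ hl, mul_inv_cancel₀ hl, one_smul, e]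
        module
    · set E := p * p - C.δ * (r * r)
      refine hdn (-(p * k - C.δ * (r * l)) / E) (-(p * l - r * k) / E) (p / E) (-r / E)
        (smul_right_injective Vec h0 ?_)
      show E • d = E • _
      simp only [smul_add, smul_smul, mul_div_cancel₀ _ h0]
      linear_combination (norm := module) -(p • e - r • he'))
  rw [C.Jl, mul_eq_zero, or_iff_right C.δ0] at p2 p4
  have hwd : BB (C.J *ᵥ (w + d)) (w + d) = 0 := by
    simp only [Matrix.mulVec_add, map_add, LinearMap.add_apply, hw, hd, C.symm d w, p3]; ring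
  set h := C.T (w + d) 1 * C.T w (-1) * C.T d (-1) with hh
  have hhL : h ∈ L := L.mul_mem (L.mul_mem (hT _ hwd 1) (hT _ hw (-1))) (hT _ hd (-1))
  have gdw : BB d w = 0 := p4
  have gwd : BB w d = 0 := by rw [sympB_skew, p4, neg_zero]
  have gJdw : BB (C.J *ᵥ d) w = 0 := p3
  have gJwd : BB (C.J *ᵥ w) d = 0 := by rw [C.symm, p3]
  have hact : ∀ x : Vec, BB x d = 0 → BB (C.J *ᵥ x) d = 0 →
      (h : Mx) *ᵥ x = x + ((C.δ * BB x w) • d + BB (C.J *ᵥ x) w • (C.J *ᵥ d)) := by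
    intro x x1 x2
    simp only [hh, Units.val_mul, ← Matrix.mulVec_mulVec, C.T_mulVec hwd, C.T_mulVec hw, C.T_mulVec hd,
      Matrix.mulVec_add, C.f_left, map_add, map_sub, map_smul, LinearMap.add_apply, LinearMap.sub_apply,
      LinearMap.smul_apply, smul_eq_mul, Matrix.mulVec_sub, Matrix.mulVec_smul, C.sq, x1, x2, gdw, gwd, gJdw, gJwd, hw,
      hd, sympB_self, neg_zero, mul_zero, add_zero, zero_add, sub_zero]
    module
  set D := (C.δ * BB u₂ w) • d + BB (C.J *ᵥ u₂) w • (C.J *ᵥ d) with hD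
  have hh2 : (h : Mx) *ᵥ u₂ = u₂ + D := hact _ e2 e4
  have hh1 : (h : Mx) *ᵥ u₁ = u₁ := by
    rw [hact _ e1 e3, p2, p1]; simp
  have hD0 : D ≠ 0 := fun e => p5 (by
    rw [C.symm u₂ w]; exact (C.eq_zero_of_comb hd0 e).2)
  have hDD : BB (C.J *ᵥ D) D = 0 := by
    simp only [hD, Matrix.mulVec_add, Matrix.mulVec_smul, C.sq, map_add, map_smul, LinearMap.add_apply,
      LinearMap.smul_apply, smul_eq_mul, hd, sympB_self, C.f_JJ, C.f_left, neg_zero, mul_zero, add_zero, neg_mul]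
  have hUD : BB u₂ D = 0 := by
    simp [hD, map_add, map_smul, e2, C.f_left, e4]
  refine C.top_of_centre hH hDD hD0 fun c => ?_
  have hsp := hL hhL
  have hhS := mem_spGL_iff.mp hsp
  have h1 := L.mul_mem (L.mul_mem hhL (hX (c / -2))) (L.inv_mem hhL)
  have h1' := L.mul_mem (L.mul_mem (L.inv_mem hhL) (hX (c / -2))) hhL
  have h2 := hX (-(c / -2) * 2)
  convert L.mul_mem (L.mul_mem h1 h1') h2 using 1
  have hinv : ((h⁻¹ : GL Idx F) : Mx) *ᵥ u₂ = u₂ - D := by
    have hhD : (h : Mx) *ᵥ D = D := by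
      have a1 : BB D d = 0 := by simp [hD, map_add, map_smul, sympB_self, hd]
      have a2 : BB (C.J *ᵥ D) d = 0 := by simp [hD, Matrix.mulVec_add, Matrix.mulVec_smul, C.sq, map_add, map_smul, sympB_self, hd]
      have a3 : BB D w = 0 := by simp [hD, map_add, map_smul, gdw, gJdw]
      have a4 : BB (C.J *ᵥ D) w = 0 := by simp [hD, Matrix.mulVec_add, Matrix.mulVec_smul, C.sq, map_add, map_smul, gdw, gJdw]
      rw [hact _ a1 a2, a3, a4]; simp
    have h5 : (h : Mx) *ᵥ (u₂ - D) = u₂ := by rw [Matrix.mulVec_sub, hh2, hhD, add_sub_cancel_right]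
    conv_lhs => rw [← h5]
    rw [Matrix.mulVec_mulVec, ← Units.val_mul, inv_mul_cancel, Units.val_one, Matrix.one_mulVec]
  have hinv1 : ((h⁻¹ : GL Idx F) : Mx) *ᵥ u₁ = u₁ := by
    conv_lhs => rw [← hh1]
    rw [Matrix.mulVec_mulVec, ← Units.val_mul, inv_mul_cancel, Units.val_one, Matrix.one_mulVec]
  have hconj : ∀ k : GL Idx F, k ∈ Cfsg.spGL m F → ∀ (z : Vec) (a : F),
      k * spT z a * k⁻¹ = spT ((k : Mx) *ᵥ z) a := fun k hk z a => by
    rw [mul_inv_eq_iff_eq_mul]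
    refine Units.ext (matrix_ext_mulVec fun x => ?_)
    rw [Units.val_mul, Units.val_mul, ← Matrix.mulVec_mulVec, ← Matrix.mulVec_mulVec, spT_mulVec, spT_mulVec,
      mem_spGL_iff.mp hk, Matrix.mulVec_add, Matrix.mulVec_smul]
  have hc1 : ∀ a b : F, h * (spT u₁ a * spT u₂ b) * h⁻¹ = spT u₁ a * spT (u₂ + D) b := fun a b => by
    rw [show h * (spT u₁ a * spT u₂ b) * h⁻¹ = (h * spT u₁ a * h⁻¹) * (h * spT u₂ b * h⁻¹) by group,
      hconj _ hsp, hconj _ hsp, hh1, hh2]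
  have hc2 : ∀ a b : F, h⁻¹ * (spT u₁ a * spT u₂ b) * h = spT u₁ a * spT (u₂ - D) b := fun a b => by
    have e := hconj h⁻¹ (inv_mem hsp)
    rw [show h⁻¹ * (spT u₁ a * spT u₂ b) * h = (h⁻¹ * spT u₁ a * h⁻¹⁻¹) * (h⁻¹ * spT u₂ b * h⁻¹⁻¹) by group,
      e, e, hinv1, hinv]
  rw [hc1, hc2]
  refine Units.ext (matrix_ext_mulVec fun x => ?_)
  have hu1D : BB u₁ D = 0 := by simp [hD, map_add, map_smul, e1, C.f_left, e3]
  simp only [Units.val_mul, ← Matrix.mulVec_mulVec, spT_mulVec, map_add, map_sub, map_smul, LinearMap.add_apply,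
    LinearMap.sub_apply, LinearMap.smul_apply, smul_eq_mul, sympB_self, sympB_skew D u₂, sympB_skew u₂ u₁,
    sympB_skew D u₁, hUD, h12, hu1D, neg_zero, mul_zero, add_zero, sub_zero]
  have := C.two
  match_scalars <;> field_simp <;> ring

theorem Cx.exists_not_semi : ∃ g ∈ Cfsg.spGL m F, ¬ C.Semi g := by
  obtain ⟨z, hz, -, -, -, -, hzn⟩ := C.exists_new 0 0
  have hz0 : z ≠ 0 := fun e => hzn 0 0 0 0 (by rw [e]; simp)
  obtain ⟨x, -, x1, -, -, -, x4⟩ := C.exists_sing4 z 0 0 0 (v := C.J *ᵥ z) (fun k l p r e => by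
    exact neg_ne_zero.mpr one_ne_zero (C.eq_zero_of_comb hz0 (a := k) (b := -1) (by rw [e]; module)).2)
  rw [C.f_JJ] at x4
  have hxz : BB x z ≠ 0 := fun e => x4 (by rw [e]; ring)
  have hJxz : BB (C.J *ᵥ x) z = 0 := by rw [C.symm, x1]
  refine ⟨spT z 1, spT_mem _ _, ?_⟩
  rintro ⟨β, hβ, h⟩
  have h1 := h x
  rw [spT_mulVec, spT_mulVec, hJxz, mul_zero, zero_smul, add_zero, one_mul, Matrix.mulVec_add, Matrix.mulVec_smul] at h1
  rcases hβ with rfl | rfl
  · refine hxz ?_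
    have h2 : BB x z • (C.J *ᵥ z) = 0 := by linear_combination (norm := module) -(1 : F) • h1
    exact (smul_eq_zero.mp h2).resolve_right fun e => hz0 (by
      have := C.sq z
      rw [e, Matrix.mulVec_zero] at this
      exact (smul_eq_zero.mp this.symm).resolve_left C.δ0)
  · refine hxz ?_
    have h2 := congrArg (fun y => BB (C.J *ᵥ y) z) h1
    simp only [Matrix.mulVec_add, Matrix.mulVec_smul, Matrix.mulVec_neg, neg_smul, one_smul, C.sq, map_add, map_smul,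
      map_neg, LinearMap.add_apply, LinearMap.smul_apply, LinearMap.neg_apply, smul_eq_mul, sympB_self] at h2
    exact (mul_eq_zero.mp ((mul_eq_zero.mp (show (2 : F) * (C.δ * BB x z) = 0 by linear_combination h2)).resolve_left
      C.two)).resolve_left C.δ0

end Cfsg.Agent.GeomClasses.UInSp
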