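import Cfsg.Agent.GeomClasses.UnitaryInSymp

/-! # The quadratic field structure of a subalgebra closed under adjoints -/

set_option autoImplicit false
set_option linter.unusedSectionVars false

namespace Cfsg.Agent.GeomClasses.UInSp

open Matrix Cfsg.Agent.Forms Cfsg.Agent.GeomClasses

variable {F : Type*} [Field F] {m : ℕ}

local notation "Idx" => Fin m ⊕ Fin m
local notation "Vec" => (Fin m ⊕ Fin m → F)
local notation "Mx" => Matrix (Fin m ⊕ Fin m) (Fin m ⊕ Fin m) F
local notation "BB" => sympB m F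

/-- The structure attached to an adjoint-closed subfield of degree two not made of self-adjoint maps. -/
theorem exists_cx (hm : 7 ≤ m) (htwo : (2 : F) ≠ 0) (K : Subalgebra F Mx) (hK : Cfsg.Geo.IsFieldSubalgebra 2 K)
    (hac : Cfsg.Geo.IsAdjointClosedFor (Cfsg.sympForm m F) K)
    (hnsa : ¬ Cfsg.Geo.IsSelfAdjointFor (Cfsg.sympForm m F) K) :
    ∃ C : Cx m F, C.J ∈ K ∧ ∀ k ∈ K, ∃ a b : F, k = a • (1 : Mx) + b • C.J := by
  classical
  haveI : Nonempty (Fin m) := Fin.pos_iff_nonempty.mp (by omega)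
  obtain ⟨k, hk, hkn⟩ : ∃ k ∈ K, k ∉ (⊥ : Subalgebra F Mx) := by
    refine SetLike.not_le_iff_exists.mp fun hle => ?_
    have := hK.finrank_eq
    rw [le_bot_iff.mp hle, Subalgebra.finrank_bot] at this
    omega
  have hli : LinearIndependent F ![(1 : Mx), k] := by
    refine LinearIndependent.pair_iff.mpr fun s t h => ?_
    by_cases ht : t = 0
    · refine ⟨?_, ht⟩
      rw [ht, zero_smul, add_zero] at h
      exact (smul_eq_zero.mp h).resolve_right one_ne_zero
    · refine absurd ?_ hkn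
      rw [Algebra.mem_bot]
      refine ⟨-(t⁻¹ * s), ?_⟩
      rw [Algebra.algebraMap_eq_smul_one, neg_smul, mul_smul, ← smul_neg, neg_eq_of_add_eq_zero_right h,
        inv_smul_smul₀ ht]
  have hspan : ∀ x ∈ K, ∃ a b : F, x = a • (1 : Mx) + b • k := by
    intro x hx
    have hle : Submodule.span F (Set.range ![(1 : Mx), k]) ≤ Subalgebra.toSubmodule K := by
      rw [Submodule.span_le]
      rintro _ ⟨i, rfl⟩
      fin_cases i
      · exact K.one_mem
      · exact hk
    have heq := Submodule.eq_of_le_of_finrank_eq hle (by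
      rw [finrank_span_eq_card hli, Fintype.card_fin]
      exact hK.finrank_eq.symm)
    have hx' : x ∈ Submodule.span F (Set.range ![(1 : Mx), k]) := heq ▸ hx
    obtain ⟨c, hc⟩ := (Submodule.mem_span_range_iff_exists_fun F).mp hx'
    exact ⟨c 0, c 1, by rw [← hc, Fin.sum_univ_two]; rfl⟩
  obtain ⟨a, b, hab⟩ := hspan (k * k) (K.mul_mem hk hk)
  set j : Mx := (2 : F) • k - b • (1 : Mx) with hj
  set δ : F := 4 * a + b * b with hδ
  have hjK : j ∈ K := K.sub_mem (K.smul_mem hk 2) (K.smul_mem K.one_mem b)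
  have hjj : j * j = δ • (1 : Mx) := by
    simp only [hj, hδ, mul_sub, sub_mul, smul_mul_assoc, mul_smul_comm, one_mul, mul_one, hab]
    module
  have hjn : ∀ c : F, j ≠ c • (1 : Mx) := by
    intro c hc
    have := LinearIndependent.pair_iff.mp hli (-(b + c)) 2 (by
      rw [hj] at hc
      linear_combination (norm := module) hc)
    exact htwo this.2
  have nsq : ∀ c : F, c * c ≠ δ := by
    intro c hc
    obtain ⟨y, hy, hy1⟩ := hK.inv (j - c • (1 : Mx)) (K.sub_mem hjK (K.smul_mem K.one_mem c))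
      (sub_ne_zero.mpr (hjn c))
    have h0 : (j + c • (1 : Mx)) * (j - c • (1 : Mx)) = 0 := by
      simp only [add_mul, mul_sub, smul_mul_assoc, mul_smul_comm, one_mul, mul_one, hjj, ← hc]
      module
    have h1 := congrArg (· * y) h0
    simp only [mul_assoc, hy1, mul_one, zero_mul] at h1
    exact hjn (-c) (by rw [neg_smul]; exact eq_neg_of_add_eq_zero_left h1)
  obtain ⟨j', hj', hadj⟩ := hac j hjK
  obtain ⟨a', b', hj'e⟩ := hspan j' hj'
  have hadjB : ∀ u v : Vec, BB (j *ᵥ u) v = BB u (j' *ᵥ v) := fun u v => by simpa using hadj u v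
  have hadjB' : ∀ u v : Vec, BB (j' *ᵥ u) v = BB u (j *ᵥ v) := fun u v => by
    rw [sympB_skew, ← hadjB, ← sympB_skew]
  have hkj : k = (2 : F)⁻¹ • j + ((2 : F)⁻¹ * b) • (1 : Mx) := by
    rw [hj, smul_sub, inv_smul_smul₀ htwo, smul_smul]; module
  obtain ⟨x, y, hxy⟩ : ∃ x y : F, j' = x • (1 : Mx) + y • j :=
    ⟨a' + b' * ((2 : F)⁻¹ * b), b' * (2 : F)⁻¹, by rw [hj'e, hkj]; module⟩
  have hj'' : ∀ v : Vec, x • v + y • (j' *ᵥ v) = j *ᵥ v := by
    intro v
    refine sub_eq_zero.mp (isForm_symp.nondeg _ fun u => ?_)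
    have e : BB (j *ᵥ v) u = BB v (x • u + y • (j *ᵥ u)) := by
      rw [hadjB, hxy, Matrix.add_mulVec, Matrix.smul_mulVec, Matrix.smul_mulVec, Matrix.one_mulVec]
    rw [map_sub, LinearMap.sub_apply, e, map_add, map_add, LinearMap.add_apply, map_smul, map_smul, map_smul, map_smul,
      LinearMap.smul_apply, LinearMap.smul_apply, hadjB']
    simp only [smul_eq_mul]
    ring
  obtain ⟨v₀, hv₀⟩ : ∃ v₀ : Vec, ∀ s t : F, s • v₀ + t • (j *ᵥ v₀) = 0 → s = 0 ∧ t = 0 := by
    refine ⟨Pi.single (Sum.inl ⟨0, by omega⟩) 1, fun s t h => ?_⟩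
    by_cases ht : t = 0
    · refine ⟨?_, ht⟩
      have h' := congrFun h (Sum.inl ⟨0, by omega⟩)
      simpa [ht] using h'
    · exfalso
      set v : Vec := Pi.single (Sum.inl ⟨0, by omega⟩) 1
      have e : j *ᵥ v = (-(t⁻¹ * s)) • v := by
        rw [neg_smul, mul_smul, ← smul_neg, neg_eq_of_add_eq_zero_right h, inv_smul_smul₀ ht]
      have h2 := congrArg (· *ᵥ v) hjj
      simp only [← Matrix.mulVec_mulVec, e, Matrix.mulVec_smul, Matrix.smul_mulVec, Matrix.one_mulVec, smul_smul] at h2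
      have h3 := congrFun h2 (Sum.inl ⟨0, by omega⟩)
      simp [v] at h3
      exact nsq (t⁻¹ * s) (by linear_combination h3)
  have h1 := hj'' v₀
  rw [hxy, Matrix.add_mulVec, Matrix.smul_mulVec, Matrix.smul_mulVec, Matrix.one_mulVec] at h1
  obtain ⟨e1, e2⟩ := hv₀ (x + y * x) (y * y - 1) (by linear_combination (norm := module) h1)
  have hy : y = -1 := by
    rcases mul_self_eq_one_iff.mp (sub_eq_zero.mp e2) with h | h
    · exfalso
      refine hnsa fun z hz u v => ?_
      obtain ⟨s, t, rfl⟩ := hspan z hz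
      have hx0 : x = 0 := by
        rw [h] at e1
        exact (mul_eq_zero.mp (show (2 : F) * x = 0 by linear_combination e1)).resolve_left htwo
      have hJ : BB (k *ᵥ u) v = BB u (k *ᵥ v) := by
        have := hadjB u v
        rw [hxy, hx0, h, zero_smul, zero_add, one_smul] at this
        rw [hkj]
        simp only [Matrix.add_mulVec, Matrix.smul_mulVec, Matrix.one_mulVec, map_add, map_smul, LinearMap.add_apply,
          LinearMap.smul_apply, smul_eq_mul, this]
      rw [← sympB_apply, ← sympB_apply]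
      simp only [Matrix.add_mulVec, Matrix.smul_mulVec, Matrix.one_mulVec, map_add, map_smul, LinearMap.add_apply,
        LinearMap.smul_apply, smul_eq_mul, hJ]
    · exact h
  have hx : x = 0 := by
    -- the adjoint squares to the same scalar
    have h2 : ∀ u v : Vec, BB u (j' *ᵥ (j' *ᵥ v)) = δ * BB u v := fun u v => by
      rw [← hadjB, ← hadjB, Matrix.mulVec_mulVec, hjj, Matrix.smul_mulVec, Matrix.one_mulVec, map_smul,
        LinearMap.smul_apply, smul_eq_mul]
    have h3 : j' *ᵥ (j' *ᵥ v₀) = δ • v₀ := sub_eq_zero.mp (isForm_symp.nondeg _ fun u => by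
      rw [sympB_skew, map_sub, h2, map_smul, smul_eq_mul, sub_self, neg_zero])
    have hjv : j *ᵥ (j *ᵥ v₀) = δ • v₀ := by
      rw [Matrix.mulVec_mulVec, hjj, Matrix.smul_mulVec, Matrix.one_mulVec]
    rw [hxy, hy] at h3
    simp only [Matrix.add_mulVec, Matrix.smul_mulVec, Matrix.one_mulVec, Matrix.mulVec_add, Matrix.mulVec_smul,
      hjv] at h3
    obtain ⟨-, e4⟩ := hv₀ (x * x) (-(2 * x)) (by linear_combination (norm := module) h3)
    exact (mul_eq_zero.mp (neg_eq_zero.mp e4)).resolve_left htwo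
  have skew : ∀ u v : Vec, BB (j *ᵥ u) v = - BB u (j *ᵥ v) := fun u v => by
    rw [hadjB, hxy, hx, hy, zero_smul, zero_add, neg_smul, one_smul, Matrix.neg_mulVec, map_neg]
  refine ⟨⟨j, δ, hm, htwo, nsq, fun v => by
    rw [Matrix.mulVec_mulVec, hjj, Matrix.smul_mulVec, Matrix.one_mulVec], skew⟩, hjK, fun z hz => ?_⟩
  obtain ⟨s, t, rfl⟩ := hspan z hz
  exact ⟨s + t * ((2 : F)⁻¹ * b), t * (2 : F)⁻¹, by
    show _ = _ + _ • j
    rw [hkj]
    module⟩

/-- Semilinearity is the same as normalising the subfield. -/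
theorem semi_iff (C : Cx m F) (K : Subalgebra F Mx) (hJ : C.J ∈ K)
    (hspan : ∀ k ∈ K, ∃ a b : F, k = a • (1 : Mx) + b • C.J) (g : GL Idx F) :
    g ∈ Cfsg.Geo.subalgebraNormalizer K ↔ C.Semi g := by
  haveI : Nonempty Idx := ⟨Sum.inl ⟨0, by have := C.hm; omega⟩⟩
  have hsq : C.J * C.J = C.δ • (1 : Mx) := matrix_ext_mulVec fun x => by
    rw [← Matrix.mulVec_mulVec, C.sq, Matrix.smul_mulVec, Matrix.one_mulVec]
  constructor
  · intro hg
    obtain ⟨a, b, hab⟩ := hspan _ ((hg C.J).mp hJ)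
    have hgJ : (g : Mx) * C.J = (a • (1 : Mx) + b • C.J) * (g : Mx) := by
      rw [← hab, mul_assoc, ← Units.val_mul, inv_mul_cancel, Units.val_one, mul_one]
    have hsq' : (a * a + b * b * C.δ - C.δ) • (g : Mx) + (2 * a * b) • (C.J * (g : Mx)) = 0 := by
      have hJJg : C.J * (C.J * (g : Mx)) = C.δ • (g : Mx) := by rw [← mul_assoc, hsq, smul_mul_assoc, one_mul]
      have h : (g : Mx) * (C.J * C.J) = (a • (1 : Mx) + b • C.J) * ((a • (1 : Mx) + b • C.J) * (g : Mx)) := by
        rw [← mul_assoc, hgJ, mul_assoc, hgJ]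
      simp only [hsq, hJJg, add_mul, smul_mul_assoc, one_mul, mul_smul_comm, mul_one, mul_add, smul_add, smul_smul] at h
      linear_combination (norm := module) -(1 : F) • h
    have hone : ∀ s t : F, s • (g : Mx) + t • (C.J * (g : Mx)) = 0 → s = 0 ∧ t = 0 := by
      intro s t h
      have h' := congrArg (fun A : Mx => (A * ((g⁻¹ : GL Idx F) : Mx)) *ᵥ (Pi.single (Classical.arbitrary Idx) 1 : Vec)) h
      simp only [add_mul, smul_mul_assoc, mul_assoc, ← Units.val_mul, mul_inv_cancel, Units.val_one, mul_one,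
        Matrix.add_mulVec, Matrix.smul_mulVec, Matrix.one_mulVec, Matrix.zero_mul, Matrix.zero_mulVec] at h'
      exact C.eq_zero_of_comb (by simp) h'
    obtain ⟨e1, e2⟩ := hone _ _ hsq'
    have hb : b ≠ 0 := fun hb => C.nsq a (by rw [hb] at e1; linear_combination e1)
    have ha : a = 0 := by
      rcases mul_eq_zero.mp e2 with h | h
      · exact (mul_eq_zero.mp h).resolve_left C.two
      · exact absurd h hb
    refine ⟨b, mul_self_eq_one_iff.mp (mul_right_cancel₀ C.δ0 (by rw [ha] at e1; linear_combination e1)), fun x => ?_⟩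
    rw [Matrix.mulVec_mulVec, hgJ, ha, zero_smul, zero_add, smul_mul_assoc, Matrix.smul_mulVec, ← Matrix.mulVec_mulVec]
  · rintro ⟨β, hβ, h⟩
    have hgJ : (g : Mx) * C.J = β • (C.J * (g : Mx)) := matrix_ext_mulVec fun x => by
      rw [← Matrix.mulVec_mulVec, h, Matrix.smul_mulVec, Matrix.mulVec_mulVec]
    have hb2 : β * β = 1 := by rcases hβ with rfl | rfl <;> norm_num
    have hconj : ∀ a b : F, (g : Mx) * (a • (1 : Mx) + b • C.J) * ((g⁻¹ : GL Idx F) : Mx) =
        a • (1 : Mx) + (b * β) • C.J := fun a b => by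
      simp only [mul_add, add_mul, mul_smul_comm, smul_mul_assoc, mul_one, hgJ, mul_assoc, ← Units.val_mul,
        mul_inv_cancel, Units.val_one, smul_smul]
    intro k
    constructor
    · intro hk
      obtain ⟨a, b, rfl⟩ := hspan k hk
      rw [hconj]
      exact K.add_mem (K.smul_mem K.one_mem a) (K.smul_mem hJ _)
    · intro hk
      obtain ⟨a, b, hab⟩ := hspan _ hk
      have : k = a • (1 : Mx) + (b * β) • C.J := by
        have h1 := hconj a (b * β)
        rw [mul_assoc b, hb2, mul_one, ← hab] at h1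
        have h2 := congrArg (fun A : Mx => ((g⁻¹ : GL Idx F) : Mx) * A * (g : Mx)) h1
        simp only [← mul_assoc, ← Units.val_mul, inv_mul_cancel, Units.val_one, one_mul] at h2
        simp only [mul_assoc, ← Units.val_mul, inv_mul_cancel, Units.val_one, mul_one] at h2
        exact h2.symm
      rw [this]
      exact K.add_mem (K.smul_mem K.one_mem a) (K.smul_mem hJ _)

/-- The normaliser of the subfield is maximal. -/
theorem maximal [Finite F] (hm : 7 ≤ m) (htwo : (2 : F) ≠ 0) (K : Subalgebra F Mx)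
    (hK : Cfsg.Geo.IsFieldSubalgebra 2 K) (hac : Cfsg.Geo.IsAdjointClosedFor (Cfsg.sympForm m F) K)
    (hnsa : ¬ Cfsg.Geo.IsSelfAdjointFor (Cfsg.sympForm m F) K) :
    Cfsg.Geo.IsMaximalIn (Cfsg.spGL m F) (Cfsg.Geo.subalgebraNormalizer K ⊓ Cfsg.spGL m F) := by
  obtain ⟨C, hJ, hspan⟩ := exists_cx hm htwo K hK hac hnsa
  refine ⟨lt_of_le_of_ne inf_le_right fun he => ?_, fun M hM hMS => ?_⟩
  · obtain ⟨g, hg, hns⟩ := C.exists_not_semi
    rw [← he] at hg
    exact hns ((semi_iff C K hJ hspan g).mp hg.1)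
  · by_cases hall : ∀ g ∈ M, C.Semi g
    · exact Or.inl (le_antisymm (fun g hg => ⟨(semi_iff C K hJ hspan g).mpr (hall g hg), hMS hg⟩) hM)
    · push Not at hall
      obtain ⟨g, hg, hns⟩ := hall
      exact Or.inr (le_antisymm hMS (C.top_of_not_semi
        (fun k hk hks => hM ⟨(semi_iff C K hJ hspan k).mpr hks, hk⟩) hMS hg hns))

end Cfsg.Agent.GeomClasses.UInSp
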