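import Cfsg.Agent.GeomClasses.UnitaryInSLGeneral
import Cfsg.Agent.GeomClasses.HalvesDerange
import Cfsg.Agent.GeomClasses.InvolutionBlocks
import Cfsg.Agent.GeomClasses.EigenBasisTwo
import Cfsg.Agent.Forms.QuadBasic

/-!
Elements of `SL_n` conjugate into the similitude group of a hermitian form, through invariant forms.
-/

set_option autoImplicit false

namespace Cfsg.Agent.GeomClasses.UnitaryPreserve

open Matrix Module Cfsg.Agent.Forms

variable {F : Type*} [Field F] [Fintype F] {n q : ℕ}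

local notation "Mx" => Matrix (Fin n) (Fin n) F
local notation "hh" => Cfsg.hermForm n F q

/-- Every invertible hermitian matrix is a Gram matrix of the standard form. -/
theorem exists_congr (hF : Fintype.card F = q ^ 2) {κ : Type*} [Fintype κ] [DecidableEq κ]
    (b : Basis κ F (Fin n → F)) {M : Matrix κ κ F} (hMs : ∀ i j, M i j = M j i ^ q) (hM : M.det ≠ 0) :
    ∃ E : GL (Fin n) F, ∀ i j, hh ((E : Mx) *ᵥ b i) ((E : Mx) *ᵥ b j) = M i j := by
  classical
  have hbij : Function.Bijective (frobQ hF) :=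
    Function.Involutive.bijective (fun a => frobQ_frobQ hF a)
  let σ : F ≃+* F := RingEquiv.ofBijective (frobQ hF) hbij
  have hσ : ∀ a, σ a = a ^ q := fun a => rfl
  let f : (Fin n → F) → (Fin n → F) → F := fun u v => ∑ i, ∑ j, b.repr u i * M i j * σ (b.repr v j)
  have hf : Cfsg.Geo.IsUnitaryForm σ f := by
    have hσ2 : ∀ a, σ (σ a) = a := fun a => frobQ_frobQ hF a
    have hherm : ∀ v w, f v w = σ (f w v) := fun v w => by
      simp only [f, map_sum, map_mul, hσ2]
      rw [Finset.sum_comm]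
      refine Finset.sum_congr rfl fun i _ => Finset.sum_congr rfl fun j _ => ?_
      rw [hσ (M i j), ← hMs]
      ring
    have hleft : ∀ u, u ≠ 0 → ∃ v, f u v ≠ 0 := fun u hu => by
      by_contra h
      push_neg at h
      refine hu (b.repr.injective ?_)
      have hz : Matrix.vecMul (fun i => b.repr u i) M = 0 := funext fun j => by
        have h1 := h (b j)
        simp only [f, b.repr_self, Finsupp.single_apply] at h1
        rw [Finset.sum_comm, Finset.sum_eq_single j (fun l _ hl => by simp [Ne.symm hl]) (by simp)] at h1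
        simpa [Matrix.vecMul, dotProduct] using h1
      have h0 := Matrix.eq_zero_of_vecMul_eq_zero hM hz
      ext i
      simpa using congrFun h0 i
    refine ⟨fun e => frobQ_ne_id hF (RingHom.ext fun a => by
      have h1 := DFunLike.congr_fun e a
      exact h1), hσ2, fun x y v => ?_, fun c x v => ?_, hherm, fun v hv => ?_⟩
    · simp only [f, map_add, Finsupp.add_apply, add_mul, Finset.sum_add_distrib]
    · simp only [f, map_smul, Finsupp.smul_apply, smul_eq_mul, Finset.mul_sum, mul_assoc]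
    · obtain ⟨w, hw⟩ := hleft v hv
      first
        | exact ⟨⟨w, fun h => hw (by rw [hherm, h, map_zero])⟩, w, hw⟩
        | exact ⟨⟨w, hw⟩, w, fun h => hw (by rw [hherm, h, map_zero])⟩
  obtain ⟨q', P, hF', hP⟩ := Unitary.exists_congr_std hf
  obtain rfl : q = q' := Nat.pow_left_injective two_ne_zero (hF.symm.trans hF')
  refine ⟨P, fun i j => ?_⟩
  rw [← hP]
  simp only [f, b.repr_self]
  rw [Finset.sum_eq_single i, Finset.sum_eq_single j] <;> simp +contextual [Finsupp.single_apply, eq_comm]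

/-- Monomial similitudes of a hermitian Gram matrix are conjugate into the similitude group. -/
theorem core (hF : Fintype.card F = q ^ 2) {κ : Type*} [Fintype κ] [DecidableEq κ]
    (b : Basis κ F (Fin n → F)) {M : Matrix κ κ F} (hMs : ∀ i j, M i j = M j i ^ q) (hM : M.det ≠ 0) {x : GL (Fin n) F}
    {π : κ → κ} {lam : κ → F} (hb : ∀ i, (x : Mx) *ᵥ b i = lam i • b (π i)) {m : F} (hm : m ≠ 0)
    (hx : ∀ i j, lam i * lam j ^ q * M (π i) (π j) = m * M i j)
    (hcent : ∀ s : F, s ≠ 0 → ∃ C : Mx, C.det = s ∧ C * (x : Mx) = (x : Mx) * C) {d : F} (hd : d ≠ 0) :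
    ∃ g : GL (Fin n) F, (g : Mx).det = d ∧ g⁻¹ * x * g ∈ Cfsg.Geo.similarityGroup hh := by
  obtain ⟨E, hE⟩ := exists_congr hF b hMs hM
  have hEd : (E : Mx).det ≠ 0 := (GeneralLinearGroup.det E).ne_zero
  obtain ⟨C, hCd, hCx⟩ := hcent (d * (E : Mx).det) (mul_ne_zero hd hEd)
  let Cu : GL (Fin n) F := GeneralLinearGroup.mkOfDetNeZero C (hCd ▸ mul_ne_zero hd hEd)
  have hcomm : Cu⁻¹ * x * Cu = x := by
    rw [mul_assoc, inv_mul_eq_iff_eq_mul]
    exact Units.ext hCx.symm
  refine ⟨Cu * E⁻¹, ?_, ?_⟩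
  · have h1 : (E : Mx).det * ((E⁻¹ : GL (Fin n) F) : Mx).det = 1 := by
      rw [← Matrix.det_mul, ← Units.val_mul, mul_inv_cancel, Units.val_one, Matrix.det_one]
    rw [Units.val_mul, Matrix.det_mul, show ((Cu : GL (Fin n) F) : Mx) = C from rfl, hCd, mul_assoc, h1, mul_one]
  · rw [show (Cu * E⁻¹)⁻¹ * x * (Cu * E⁻¹) = E * x * E⁻¹ by rw [_root_.mul_inv_rev, inv_inv, show E * Cu⁻¹ * x * (Cu * E⁻¹) =
      E * (Cu⁻¹ * x * Cu) * E⁻¹ by group, hcomm]]
    let w : Basis κ F (Fin n → F) := b.map (glEquiv (Fin n) F E)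
    have hw : ∀ i, w i = (E : Mx) *ᵥ b i := fun i => rfl
    have hT : ∀ i, ((E * x * E⁻¹ : GL (Fin n) F) : Mx) *ᵥ ((E : Mx) *ᵥ b i) = lam i • ((E : Mx) *ᵥ b (π i)) := fun i => by
      rw [Matrix.mulVec_mulVec, ← Units.val_mul, inv_mul_cancel_right, Units.val_mul, ← Matrix.mulVec_mulVec, hb,
        Matrix.mulVec_smul]
    refine ⟨Units.mk0 m hm, fun u v => ?_⟩
    rw [Units.val_mk0]
    conv_lhs => rw [← w.sum_repr u, ← w.sum_repr v]
    conv_rhs => rw [← w.sum_repr u, ← w.sum_repr v]
    simp only [Matrix.mulVec_sum, Matrix.mulVec_smul, hw, hT, HalvesDerange.hh_sum_left hF, HalvesDerange.hh_sum_right hF,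
      Unitary.hh_smul_left hF, Unitary.hh_smul_right hF, Finset.mul_sum]
    refine Finset.sum_congr rfl fun i _ => Finset.sum_congr rfl fun j _ => ?_
    rw [hE, hE]
    linear_combination (w.repr u i * w.repr v j ^ q) * hx i j

/-- Maps constant on the orbits of a monomial map commute with it. -/
theorem mono_cent {κ : Type*} [Fintype κ] [DecidableEq κ] (b : Basis κ F (Fin n → F)) {x : Mx} {π : κ → κ} {lam : κ → F}
    (hb : ∀ i, x *ᵥ b i = lam i • b (π i)) (w : κ → F) (hw : ∀ i, w (π i) = w i) :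
    ∃ C : Mx, C.det = ∏ i, w i ∧ C * x = x * C := by
  let C' : (Fin n → F) →ₗ[F] (Fin n → F) := b.constr F fun i => w i • b i
  have hC' : ∀ i, C' (b i) = w i • b i := fun i => b.constr_basis F _ _
  refine ⟨LinearMap.toMatrix' C', ?_, ?_⟩
  · rw [LinearMap.det_toMatrix', ← LinearMap.det_toMatrix b, show LinearMap.toMatrix b b C' = Matrix.diagonal w from ?_,
      Matrix.det_diagonal]
    ext i j
    rw [LinearMap.toMatrix_apply, hC', map_smul, Finsupp.smul_apply, b.repr_self, Finsupp.single_apply, Matrix.diagonal_apply]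
    by_cases h : i = j
    · subst h; simp
    · simp [h, Ne.symm h]
  · apply Matrix.toLin'.injective
    refine b.ext fun i => ?_
    simp only [Matrix.toLin'_apply, ← Matrix.mulVec_mulVec, LinearMap.toMatrix'_mulVec, hb, hC', map_smul,
      Matrix.mulVec_smul, hw, smul_smul, mul_comm]

/-- Diagonalisable elements with eigenvalues matched by an involution. -/
theorem conj_of_pairing (hF : Fintype.card F = q ^ 2) {κ : Type*} [Fintype κ] [DecidableEq κ] [Nonempty κ]
    (b : Basis κ F (Fin n → F)) {x : GL (Fin n) F} {lam : κ → F}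
    (hb : ∀ i, (x : Mx) *ᵥ b i = lam i • b i) (σ : κ → κ) (hσ : ∀ i, σ (σ i) = i) {m : F} (hm : m ≠ 0)
    (hpair : ∀ i, lam i * lam (σ i) ^ q = m) {d : F} (hd : d ≠ 0) :
    ∃ g : GL (Fin n) F, (g : Mx).det = d ∧ g⁻¹ * x * g ∈ Cfsg.Geo.similarityGroup hh := by
  have hq0 : q ≠ 0 := by have := two_le_q hF; omega
  let M : Matrix κ κ F := Matrix.of fun i j => if σ i = j then 1 else 0
  have hsym : ∀ i j, σ i = j ↔ σ j = i := fun i j => ⟨fun h => by rw [← h, hσ], fun h => by rw [← h, hσ]⟩
  have hMM : M * M = 1 := by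
    ext i j
    rw [Matrix.mul_apply, Matrix.one_apply, Finset.sum_eq_single (σ i)]
    · simp [M, hσ]
    · intro l _ hl; simp [M, Ne.symm hl]
    · simp
  refine core hF b (M := M) (π := id) (fun i j => ?_) ?_ hb hm (fun i j => ?_) (fun s _ => ?_) hd
  · by_cases h : σ i = j
    · simp [M, h, (hsym i j).1 h]
    · simp [M, h, mt (hsym i j).2 h, zero_pow hq0]
  · intro h
    have := congrArg Matrix.det hMM
    rw [Matrix.det_mul, h, mul_zero, Matrix.det_one] at this
    exact zero_ne_one this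
  · by_cases h : σ i = j
    · subst h; simp [M, hpair]
    · simp [M, h]
  · obtain ⟨C, hC, hCx⟩ := mono_cent b (π := id) hb (Function.update 1 (Classical.arbitrary κ) s) fun i => rfl
    exact ⟨C, by rw [hC, Finset.prod_update_of_mem (Finset.mem_univ _)]; simp, hCx⟩

/-- Elements whose square is a square scalar. -/
theorem conj_two (hF : Fintype.card F = q ^ 2) (hn : 1 ≤ n) (x : GL (Fin n) F) {w : F}
    (hz : (x : Mx) * (x : Mx) = (w * w) • (1 : Mx)) {d : F} (hd : d ≠ 0) :
    ∃ g : GL (Fin n) F, (g : Mx).det = d ∧ g⁻¹ * x * g ∈ Cfsg.Geo.similarityGroup hh := by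
  classical
  have hzv : ∀ v, (x : Mx) *ᵥ ((x : Mx) *ᵥ v) = (w * w) • v := fun v => by
    rw [Matrix.mulVec_mulVec, hz, Matrix.smul_mulVec, Matrix.one_mulVec]
  have hw : w ≠ 0 := fun h => by
    haveI : Nonempty (Fin n) := ⟨⟨0, hn⟩⟩
    have h1 := congrArg Matrix.det hz
    rw [h, mul_zero, zero_smul, Matrix.det_zero, Matrix.det_mul] at h1
    · exact (Matrix.GeneralLinearGroup.det x).ne_zero (mul_self_eq_zero.1 h1)
    all_goals infer_instance
  have hm : w * w ^ q ≠ 0 := mul_ne_zero hw (pow_ne_zero _ hw)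
  have hq0 : q ≠ 0 := by have := two_le_q hF; omega
  by_cases h2 : (2 : F) = 0
  · obtain ⟨k, l, b, hb1, hb2⟩ := InvolutionBlocks.exists_pairBasis (x : Mx).mulVecLin (w * w) (mul_ne_zero hw hw) hzv
    have hμ : ∀ e : Fin l, (x : Mx) *ᵥ b (Sum.inr e) = w • b (Sum.inr e) := fun e => by
      obtain ⟨μ, hμ⟩ := hb2 e
      simp only [Matrix.mulVecLin_apply] at hμ
      have h1 := hzv (b (Sum.inr e))
      rw [hμ, Matrix.mulVec_smul, hμ, smul_smul] at h1
      have h3 := smul_left_injective F (b.ne_zero _) h1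
      have h4 : (μ - w) * (μ - w) = 0 := by linear_combination h3 - μ * w * h2 + w * w * h2
      rw [hμ, sub_eq_zero.1 (mul_self_eq_zero.1 h4)]
    let π : (Fin k × Fin 2) ⊕ Fin l → (Fin k × Fin 2) ⊕ Fin l := Sum.map (fun p => (p.1, 1 - p.2)) id
    let lam : (Fin k × Fin 2) ⊕ Fin l → F := Sum.elim (fun p => if p.2 = 0 then 1 else w * w) fun _ => w
    let D : (Fin k × Fin 2) ⊕ Fin l → F := Sum.elim (fun p => if p.2 = 0 then 1 else w * w ^ q) fun _ => 1
    have hb : ∀ i, (x : Mx) *ᵥ b i = lam i • b (π i) := by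
      rintro (⟨p, t⟩ | e)
      · fin_cases t
        · simpa [lam, π] using (hb1 p).1
        · simpa [lam, π] using (hb1 p).2
      · simpa [lam, π] using hμ e
    refine core hF b (M := Matrix.diagonal D) (fun i j => ?_) ?_ hb hm (fun i j => ?_) (fun s hs => ?_) hd
    · rcases eq_or_ne i j with rfl | h
      · rw [Matrix.diagonal_apply_eq]
        rcases i with ⟨p, t⟩ | e
        · fin_cases t <;> simp [D, Unitary.norm_fixed hF]
        · simp [D]
      · rw [Matrix.diagonal_apply_ne _ h, Matrix.diagonal_apply_ne _ (Ne.symm h), zero_pow hq0]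
    · rw [Matrix.det_diagonal, Finset.prod_ne_zero_iff]
      rintro (⟨p, t⟩ | e) -
      · fin_cases t <;> simp [D, hw, hq0]
      · simp [D]
    · have hπ : Function.Involutive π := by
        rintro (⟨p, t⟩ | e)
        · fin_cases t <;> simp [π]
        · simp [π]
      rcases eq_or_ne i j with rfl | h
      · rw [Matrix.diagonal_apply_eq, Matrix.diagonal_apply_eq]
        rcases i with ⟨p, t⟩ | e
        · fin_cases t <;> simp [D, lam, π, mul_pow] <;> ring
        · simp [D, lam, π]
      · rw [Matrix.diagonal_apply_ne _ (fun e => h (hπ.injective e)), Matrix.diagonal_apply_ne _ h]; ring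
    · obtain ⟨t, ht⟩ := Cfsg.Agent.Forms.exists_sq_of_two_eq_zero h2 s
      rcases Nat.eq_zero_or_pos k with rfl | hk
      · haveI : Nonempty (Fin l) := Fintype.card_pos_iff.1 (by
          have h := Module.finrank_eq_card_basis b
          simp at h ⊢; omega)
        obtain ⟨C, hC, hCx⟩ := mono_cent b hb (Function.update 1 (Sum.inr (Classical.arbitrary _)) s)
          (by rintro (⟨p, -⟩ | e); · exact p.elim0
              · rfl)
        exact ⟨C, by rw [hC, Finset.prod_update_of_mem (Finset.mem_univ _)]; simp, hCx⟩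
      · obtain ⟨C, hC, hCx⟩ := mono_cent b hb (Sum.elim (fun p => if p.1 = ⟨0, hk⟩ then t else 1) fun _ => 1)
          (by rintro (p | e) <;> rfl)
        refine ⟨C, ?_, hCx⟩
        rw [hC, Fintype.prod_sum_type, Fintype.prod_prod_type]
        simp [Fin.prod_univ_two, ite_mul, ← pow_two, ht]
  · obtain ⟨a, b, bb, hb1, hb2, -, hab⟩ := EigenBasisTwo.exists_eigen_basis h2 (x : Mx) hw hzv
    haveI : Nonempty (Fin a ⊕ Fin b) := Fintype.card_pos_iff.1 (by simp; omega)
    refine conj_of_pairing hF bb (lam := Sum.elim (fun _ => w) fun _ => -w) (by rintro (i | i) <;> simp [hb1, hb2]) id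
      (fun i => rfl) hm ?_ hd
    rintro (i | i) <;> simp [Unitary.pow_neg_q hF]

end Cfsg.Agent.GeomClasses.UnitaryPreserve
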