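import Cfsg.Agent.GeomClasses.UnitaryPreserve
import Cfsg.Agent.GeomClasses.OrthPreserveDerange
import Cfsg.Agent.GeomClasses.SubfieldInvolution

/-!
Elements of prime order of `SL_n` conjugate into no similitude group of a hermitian form.
-/

set_option autoImplicit false

namespace Cfsg.Agent.GeomClasses.UnitaryPreserveDerange

open Matrix Module Cfsg.Agent.Forms

variable {F : Type*} [Field F] [Fintype F] {n q : ℕ}

local notation "Mx" => Matrix (Fin n) (Fin n) F
local notation "hh" => Cfsg.hermForm n F q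

theorem exists_self_one (hF : Fintype.card F = q ^ 2) (hn : 1 ≤ n) : ∃ v : Fin n → F, hh v v = 1 := by
  refine ⟨Pi.single ⟨0, hn⟩ 1, ?_⟩
  simp [Cfsg.hermForm, Pi.single_apply, ite_pow, zero_pow (show q ≠ 0 by have := two_le_q hF; omega)]

/-- The multiplier of a similitude with scalar `r`-th power. -/
theorem multiplier (hF : Fintype.card F = q ^ 2) (hn : 1 ≤ n) {h : Mx} {c z : F}
    (hc : ∀ u v, hh (h *ᵥ u) (h *ᵥ v) = c * hh u v) {r : ℕ} (hr : h ^ r = z • (1 : Mx)) :
    c ^ q = c ∧ c ^ r = z * z ^ q := by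
  obtain ⟨v, hv⟩ := exists_self_one (q := q) hF hn
  constructor
  · have h1 := hc v v
    rw [hv, mul_one] at h1
    rw [← h1]
    exact Unitary.hh_self_fixed hF _
  · have hk : ∀ (k : ℕ) u w, hh ((h ^ k) *ᵥ u) ((h ^ k) *ᵥ w) = c ^ k * hh u w := by
      intro k
      induction k with
      | zero => simp
      | succ k ih => intro u w; rw [pow_succ', pow_succ', ← Matrix.mulVec_mulVec, ← Matrix.mulVec_mulVec, hc, ih]; ring
    have h1 := hk r v v
    rw [hr, Matrix.smul_mulVec, Matrix.one_mulVec, Unitary.hh_smul_left hF, Unitary.hh_smul_right hF, hv, mul_one,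
      mul_one] at h1
    exact h1.symm

/-- A diagonal matrix conjugate into the similitude group has its eigenvalues permuted by `a ↦ c/ā`. -/
theorem exists_perm (hF : Fintype.card F = q ^ 2) {g x : GL (Fin n) F} {lam : Fin n → F} (hx : (x : Mx) = Matrix.diagonal lam)
    (hmem : g⁻¹ * x * g ∈ Cfsg.Geo.similarityGroup hh) :
    ∃ (c : F) (σ : Equiv.Perm (Fin n)), ∀ j, lam (σ j) * lam j ^ q = c := by
  classical
  obtain ⟨c, hc⟩ := hmem
  have hq0 : q ≠ 0 := by have := two_le_q hF; omega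
  set G := ((g⁻¹ : GL (Fin n) F) : Mx)
  let M : Mx := fun i j => hh (G *ᵥ Pi.single i 1) (G *ᵥ Pi.single j 1)
  have hM : M.det ≠ 0 := by
    have hG : G.det ≠ 0 := (Matrix.GeneralLinearGroup.det g⁻¹).ne_zero
    have e : M = Gᵀ * G.map (frobQ hF) := by
      ext i j
      show hh (G *ᵥ Pi.single i 1) (G *ᵥ Pi.single j 1) = _
      simp [Cfsg.hermForm, Matrix.mul_apply, frobQ_apply]
    rw [e, Matrix.det_mul, Matrix.det_transpose, ← RingHom.mapMatrix_apply, ← RingHom.map_det]
    exact mul_ne_zero hG ((map_ne_zero_iff _ (frobQ hF).injective).2 hG)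
  have hrel : ∀ i j, M i j ≠ 0 → lam i * lam j ^ q = c := by
    intro i j hij
    have hxs : ∀ k, ((g⁻¹ * x * g : GL (Fin n) F) : Mx) *ᵥ (G *ᵥ Pi.single k 1) = lam k • (G *ᵥ Pi.single k 1) := fun k => by
      rw [Units.val_mul, Units.val_mul, ← Matrix.mulVec_mulVec, ← Matrix.mulVec_mulVec,
        Matrix.mulVec_mulVec (Pi.single k 1) (g : Mx) G, show (g : Mx) * G = 1 by
          rw [← Units.val_mul, mul_inv_cancel, Units.val_one],
        Matrix.one_mulVec, hx, show Matrix.diagonal lam *ᵥ Pi.single k 1 = lam k • Pi.single k (1 : F) from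
          funext fun l => by rcases eq_or_ne l k with rfl | h <;> simp_all [Matrix.mulVec_diagonal], Matrix.mulVec_smul]
    have h := hc (G *ᵥ Pi.single i 1) (G *ᵥ Pi.single j 1)
    rw [hxs, hxs, Unitary.hh_smul_left hF, Unitary.hh_smul_right hF, ← mul_assoc] at h
    exact mul_right_cancel₀ hij h
  obtain ⟨σ, hσ⟩ : ∃ σ : Equiv.Perm (Fin n), ∀ j, M (σ j) j ≠ 0 := by
    by_contra hh'
    push_neg at hh'
    refine hM (by
      rw [Matrix.det_apply]
      exact Finset.sum_eq_zero fun σ _ => by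
        obtain ⟨j, hj⟩ := hh' σ
        have h0 : ∏ i, M (σ i) i = 0 := Finset.prod_eq_zero (Finset.mem_univ j) hj
        exact (congrArg _ h0).trans (smul_zero _))
  exact ⟨c, σ, fun j => hrel _ _ (hσ j)⟩

/-- An isometry of order `r` moving `i = ord(q²)` dimensions needs `(-q)^i = 1`. -/
theorem no_small (hF : Fintype.card F = q ^ 2) {r i : ℕ} [Fact r.Prime] (hrF : (r : F) ≠ 0)
    (hrq : ¬ r ∣ q) (hi : i = orderOf ((q ^ 2 : ℕ) : ZMod r)) (hi0 : 0 < i) (hE : (-(q : ZMod r)) ^ i ≠ 1) {h : Mx}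
    (hr : h ^ r = 1) (hiso : ∀ u v, hh (h *ᵥ u) (h *ᵥ v) = hh u v) : (h - 1).rank ≠ i := by
  intro hrk
  have hrp := (Fact.out : r.Prime)
  set W := LinearMap.range (h - 1).mulVecLin with hW
  have hWd : finrank F W = i := hrk
  have hmem : ∀ v, (h - 1) *ᵥ v ∈ W := fun v => ⟨v, rfl⟩
  have hstab : ∀ v ∈ W, h *ᵥ v ∈ W := by
    rintro _ ⟨v, rfl⟩
    refine ⟨h *ᵥ v, ?_⟩
    simp only [Matrix.mulVecLin_apply, Matrix.mulVec_mulVec]
    congr 1; noncomm_ring
  have hpowfix : ∀ (k : ℕ) v, h *ᵥ ((h - 1) *ᵥ v) = (h - 1) *ᵥ v →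
      (h ^ k) *ᵥ v = v + k • ((h - 1) *ᵥ v) := by
    intro k v hfix
    induction k with
    | zero => simp
    | succ k ih =>
      rw [pow_succ', ← Matrix.mulVec_mulVec, ih, Matrix.mulVec_add, Matrix.mulVec_smul, hfix, succ_nsmul,
        show h *ᵥ v = v + (h - 1) *ᵥ v by rw [Matrix.sub_mulVec, Matrix.one_mulVec]; abel]
      abel
  have hfree : ∀ w ∈ W, h *ᵥ w = w → w = 0 := by
    rintro _ ⟨v, rfl⟩ hfix
    simp only [Matrix.mulVecLin_apply] at hfix ⊢
    have h1 := hpowfix r v hfix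
    rw [hr, Matrix.one_mulVec, left_eq_add, ← Nat.cast_smul_eq_nsmul F, smul_eq_zero] at h1
    exact h1.resolve_left hrF
  have hperp : ∀ w, h *ᵥ w = w → ∀ u ∈ W, hh u w = 0 := by
    rintro w hw _ ⟨v, rfl⟩
    have h1 := hiso v w
    rw [hw] at h1
    rw [Matrix.mulVecLin_apply, Matrix.sub_mulVec, Matrix.one_mulVec, Unitary.hh_sub_left hF, h1, sub_self]
  have hnd : ∀ u ∈ W, (∀ v ∈ W, hermB n hF u v = 0) → u = 0 := by
    intro u hu hv
    have hsup : W ⊔ LinearMap.ker (h - 1).mulVecLin = ⊤ := by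
      refine Submodule.eq_top_of_finrank_eq ?_
      have hinf : W ⊓ LinearMap.ker (h - 1).mulVecLin = ⊥ := (Submodule.eq_bot_iff _).2 fun w hw => by
        obtain ⟨h1, h2⟩ := Submodule.mem_inf.1 hw
        refine hfree w h1 ?_
        rw [LinearMap.mem_ker, Matrix.mulVecLin_apply, Matrix.sub_mulVec, Matrix.one_mulVec, sub_eq_zero] at h2
        exact h2
      have h1 := Submodule.finrank_sup_add_finrank_inf_eq W (LinearMap.ker (h - 1).mulVecLin)
      rw [hinf, finrank_bot, add_zero, hW, LinearMap.finrank_range_add_finrank_ker, ← hW] at h1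
      exact h1
    refine (isHerm_std (n := n) hF).form.nondeg u fun v => ?_
    obtain ⟨a, ha, k, hk, rfl⟩ := Submodule.mem_sup.1 (show v ∈ W ⊔ LinearMap.ker (h - 1).mulVecLin by rw [hsup]; trivial)
    rw [map_add, hv a ha, zero_add]
    show hh k u = 0
    refine Unitary.hh_comm_zero hF (hperp k ?_ u hu)
    rw [LinearMap.mem_ker, Matrix.mulVecLin_apply, Matrix.sub_mulVec, Matrix.one_mulVec, sub_eq_zero] at hk
    exact hk
  have hdvd : r ∣ Nat.card (isomGroup (resForm (hermB n hF) W) (fun v => resForm (hermB n hF) W v v)) := by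
    let T : W →ₗ[F] W := h.mulVecLin.restrict hstab
    have hTk : ∀ (k : ℕ) (w : W), ((T ^ k) w : Fin n → F) = (h ^ k) *ᵥ (w : Fin n → F) := by
      intro k
      induction k with
      | zero => simp
      | succ k ih =>
        intro w
        rw [pow_succ', pow_succ', ← Matrix.mulVec_mulVec, Module.End.mul_apply, ← ih]
        rfl
    have hTr : T ^ r = 1 := LinearMap.ext fun w => Subtype.ext (by rw [hTk, hr, Matrix.one_mulVec]; rfl)
    let e : W ≃ₗ[F] W := LinearEquiv.ofInjectiveEndo T fun a b hab => by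
      have := congrArg (T ^ (r - 1)) hab
      rwa [← Module.End.mul_apply, ← Module.End.mul_apply, ← pow_succ, Nat.sub_add_cancel hrp.one_lt.le, hTr] at this
    have he : e ∈ isomGroup (resForm (hermB n hF) W) (fun v => resForm (hermB n hF) W v v) :=
      ⟨fun u v => hiso (v : Fin n → F) (u : Fin n → F), fun v => hiso (v : Fin n → F) (v : Fin n → F)⟩
    have hek : ∀ (k : ℕ) (w : W), (e ^ k) w = (T ^ k) w := by
      intro k
      induction k with
      | zero => intro w; rfl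
      | succ k ih => intro w; rw [pow_succ', pow_succ', LinearEquiv.mul_apply, Module.End.mul_apply, ih]; rfl
    have hord : orderOf (⟨e, he⟩ : isomGroup (resForm (hermB n hF) W) (fun v => resForm (hermB n hF) W v v)) = r := by
      refine orderOf_eq_prime (Subtype.ext (LinearEquiv.ext fun w => by
        show (e ^ r) w = w
        rw [hek, hTr]; rfl)) fun h1 => ?_
      have h2 : W = ⊥ := (Submodule.eq_bot_iff _).2 fun w hw => hfree w hw (by
        have h3 := congrArg (fun t : isomGroup (resForm (hermB n hF) W) (fun v => resForm (hermB n hF) W v v) =>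
          ((((t : W ≃ₗ[F] W) ⟨w, hw⟩ : W)) : Fin n → F)) h1
        exact h3)
      rw [h2, finrank_bot] at hWd
      omega
    rw [← hord]
    exact orderOf_dvd_natCard _
  rw [((isHerm_std (n := n) hF).restrict hnd).card_isom hF, hWd] at hdvd
  have hq2 := two_le_q hF
  obtain ⟨j, hj, hj'⟩ := (hrp.prime.dvd_finsetProd_iff _).1
    ((hrp.dvd_mul.1 hdvd).resolve_left fun h => hrq (hrp.dvd_of_dvd_pow h))
  rw [Finset.mem_range] at hj
  have h1 : (-(q : ZMod r)) ^ (j + 1) = 1 := by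
    rw [← ZMod.natCast_eq_zero_iff] at hj'
    split_ifs at hj' with he
    · rw [neg_pow, (Even.add_one he).neg_one_pow]
      push_cast at hj'
      linear_combination -hj'
    · rw [neg_pow, (Nat.even_add_one.2 he).neg_one_pow, one_mul]
      rw [Nat.cast_sub (Nat.one_le_pow _ _ (by omega)), Nat.cast_pow, Nat.cast_one, sub_eq_zero] at hj'
      exact hj'
  have h2 : ((q ^ 2 : ℕ) : ZMod r) ^ (j + 1) = 1 := by
    rw [Nat.cast_pow, ← neg_sq, ← pow_mul, mul_comm 2, pow_mul, h1, one_pow]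
  have h3 := Nat.le_of_dvd (by omega) (hi ▸ orderOf_dvd_of_pow_eq_one h2)
  exact hE (by rwa [show j + 1 = i by omega] at h1)

/-- If `(-q)^i = 1` for `i = ord(q²)` modulo `r`, the index of the similitude group is prime to `r`. -/
theorem not_dvd_relIndex (hF : Fintype.card F = q ^ 2) (hn : 1 ≤ n) {r i : ℕ} [Fact r.Prime] (hr2 : r ≠ 2)
    (hrq : ¬ r ∣ q) (hi : i = orderOf ((q ^ 2 : ℕ) : ZMod r)) (hE : (-(q : ZMod r)) ^ i = 1) :
    ¬ r ∣ (Cfsg.Geo.similarityGroup hh).relIndex (Cfsg.Geo.specialLinear (Fin n) F) := by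
  classical
  intro hdvd
  have hr := (Fact.out : r.Prime)
  haveI : Fact (2 < r) := ⟨by have := hr.two_le; omega⟩
  have hq2 := two_le_q hF
  have hcop : ∀ N, ¬ r ∣ N → Nat.Coprime r N := fun N h => hr.coprime_iff_not_dvd.2 h
  have hneg : ∀ j, ((q : ZMod r) ^ 2) ^ j = 1 → (-(q : ZMod r)) ^ j = 1 := fun j hj => by
    obtain ⟨a, rfl⟩ : i ∣ j := hi ▸ orderOf_dvd_of_pow_eq_one (by rw [Nat.cast_pow]; exact hj)
    rw [pow_mul, hE, one_pow]
  set A : ℕ → ℕ := fun j => if Even j then q ^ (j + 1) + 1 else q ^ (j + 1) - 1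
  set B : ℕ → ℕ := fun j => if Even j then q ^ (j + 1) - 1 else q ^ (j + 1) + 1
  have hAB : ∀ j, A j * B j = (q ^ 2) ^ (j + 1) - 1 := fun j => by
    obtain ⟨t, ht⟩ : ∃ t, q ^ (j + 1) = t + 1 := ⟨q ^ (j + 1) - 1, by have := Nat.one_le_pow (j + 1) q (by omega); omega⟩
    rw [← pow_mul, mul_comm 2, pow_mul, ht]
    simp only [A, B, ht]
    have : (t + 1) ^ 2 - 1 = t * (t + 2) := by rw [Nat.sub_eq_iff_eq_add (Nat.one_le_pow _ _ (by omega))]; ring
    split_ifs <;> rw [this, Nat.add_sub_cancel] <;> ring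
  have hB : ∀ j, Nat.Coprime r (B j) := fun j => hcop _ fun hd => by
    rw [← ZMod.natCast_eq_zero_iff] at hd
    have hsq : ((q : ZMod r) ^ 2) ^ (j + 1) = 1 := by
      have h0 := congrArg (Nat.cast : ℕ → ZMod r) (hAB j)
      rw [Nat.cast_mul, hd, mul_zero, Nat.cast_sub (Nat.one_le_pow _ _ (by positivity)), Nat.cast_pow, Nat.cast_pow,
        Nat.cast_one, eq_comm, sub_eq_zero] at h0
      exact h0
    have h1 := hneg _ hsq
    simp only [B] at hd
    split_ifs at hd with he
    · rw [neg_pow, (Even.add_one he).neg_one_pow] at h1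
      rw [Nat.cast_sub (Nat.one_le_pow _ _ (by omega)), Nat.cast_pow, Nat.cast_one, sub_eq_zero] at hd
      rw [hd, mul_one] at h1
      exact ZMod.neg_one_ne_one h1
    · rw [neg_pow, (Nat.even_add_one.2 he).neg_one_pow, one_mul] at h1
      push_cast at hd
      rw [h1, ← neg_eq_iff_add_eq_zero] at hd
      exact ZMod.neg_one_ne_one hd
  set S := Cfsg.Geo.specialLinear (Fin n) F
  set I := Cfsg.GU n F q
  set K := Nat.card ((Cfsg.Geo.similarityGroup hh).subgroupOf S)
  have hIle : I ≤ Cfsg.Geo.similarityGroup hh := fun g hg => ⟨1, fun u v => by rw [Units.val_one, one_mul]; exact hg u v⟩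
  have hSmul : K * (Cfsg.Geo.similarityGroup hh).relIndex S = Nat.card S := Subgroup.card_mul_index _
  have hOK : Nat.card I ∣ K * (q + 1) := by
    let D : I →* Fˣ := (Matrix.GeneralLinearGroup.det : GL (Fin n) F →* Fˣ).comp I.subtype
    have h1 := D.ker.card_mul_index
    rw [Subgroup.index_ker] at h1
    have h2 : Nat.card D.range ∣ q + 1 := by
      haveI : IsCyclic D.range := inferInstance
      obtain ⟨g, hg⟩ := IsCyclic.exists_generator (α := D.range)
      rw [← orderOf_eq_card_of_forall_mem_zpowers hg]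
      refine orderOf_dvd_of_pow_eq_one (Subtype.ext (Units.ext ?_))
      obtain ⟨y, hy⟩ := g.2
      rw [SubmonoidClass.coe_pow, ← hy, Units.val_pow_eq_pow_val]
      exact HalvesDerange.det_norm hF y.2
    let f : D.ker →* (Cfsg.Geo.similarityGroup hh).subgroupOf S :=
      { toFun := fun g => ⟨⟨((g : I) : GL (Fin n) F), g.2⟩, hIle (g : I).2⟩
        map_one' := rfl
        map_mul' := fun _ _ => rfl }
    have h3 : Nat.card D.ker ∣ K := Subgroup.card_dvd_of_injective f fun a b h =>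
      Subtype.ext (Subtype.ext (congrArg (fun t : (Cfsg.Geo.similarityGroup hh).subgroupOf S => ((t : S) : GL (Fin n) F)) h))
    rw [← h1]
    exact mul_dvd_mul h3 h2
  obtain ⟨N, hN⟩ := OrthPreserveDerange.prod_gl (q ^ 2) n
  have hprod : ∏ j ∈ Finset.range n, ((q ^ 2) ^ (j + 1) - 1) = (∏ j ∈ Finset.range n, A j) * ∏ j ∈ Finset.range n, B j := by
    rw [← Finset.prod_mul_distrib]
    exact Finset.prod_congr rfl fun j _ => (hAB j).symm
  have hcard : Nat.card S * (q ^ 2 - 1) = ∏ i ∈ Finset.range n, ((q ^ 2) ^ n - (q ^ 2) ^ i) := by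
    rw [← SubfieldInvolution.card_SL (F := F) hn hF]
    congr 1
    exact Nat.card_congr
      { toFun := fun g => (⟨((g : GL (Fin n) F) : Mx), OrthPreserve.mem_sl.1 g.2⟩ : Matrix.SpecialLinearGroup (Fin n) F)
        invFun := fun s => ⟨Matrix.SpecialLinearGroup.toGL s, OrthPreserve.mem_sl.2 s.2⟩
        left_inv := fun g => Subtype.ext (Units.ext rfl)
        right_inv := fun s => rfl }
  have hK : 0 < K := Nat.card_pos
  have hA : ∏ j ∈ Finset.range n, A j ∣ Nat.card I := by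
    rw [card_GU hF]; exact dvd_mul_left _ _
  have hq1 : ¬ r ∣ q - 1 := fun hd => by
    rw [← ZMod.natCast_eq_zero_iff, Nat.cast_sub (by omega), Nat.cast_one, sub_eq_zero] at hd
    have hi1 : i = 1 := by rw [hi, Nat.cast_pow, hd, one_pow, orderOf_one]
    rw [hi1, pow_one, hd] at hE
    exact ZMod.neg_one_ne_one hE
  obtain ⟨t, ht⟩ := hdvd
  rw [ht] at hSmul
  have hsq : q ^ 2 - 1 = (q + 1) * (q - 1) := by simpa using Nat.sq_sub_sq q 1
  have h4 : (K * (q + 1)) * ((q - 1) * r) ∣ ((q ^ 2) ^ N * ∏ j ∈ Finset.range n, B j) * ∏ j ∈ Finset.range n, A j :=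
    ⟨t, by rw [mul_assoc, mul_comm (∏ j ∈ Finset.range n, B j), ← hprod, ← hN, ← hcard, ← hSmul, hsq]; ring⟩
  have h6 : (K * (q + 1)) * ((q - 1) * r) ∣ (K * (q + 1)) * ((q ^ 2) ^ N * ∏ j ∈ Finset.range n, B j) :=
    h4.trans ((mul_dvd_mul_left _ (hA.trans hOK)).trans ⟨1, by ring⟩)
  have h7 : r ∣ (q ^ 2) ^ N * ∏ j ∈ Finset.range n, B j :=
    (dvd_mul_left r (q - 1)).trans (Nat.dvd_of_mul_dvd_mul_left (Nat.mul_pos hK (by omega)) h6)
  exact hr.coprime_iff_not_dvd.1 ((((hcop q hrq).pow_right 2).pow_right N).mul_right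
    (Nat.Coprime.prod_right fun j _ => hB j)) h7

end Cfsg.Agent.GeomClasses.UnitaryPreserveDerange
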